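import Mathlib
import Cfsg.Prelude.Def_JComponents

set_option autoImplicit false

/-!
Abstract lemmas for the interface pieces of JZ-KILL (S2951 / S2952):

* `mem_sup_of_comm`: elements of the join of two elementwise commuting subgroups are products;
* `trans_four`: a subgroup generated by elements of odd order, normalizing a subgroup `W` of
  order 4 and with `W ∩ C(K) = 1`, is transitive on `W ∖ 1`;
* `conj_into`: simultaneous conjugation, block by block, of an element of `⨆ W i` into a
  subgroup `Z`;
* `centralizer_twoLocal`: the centralizer of an involution is a 2-local subgroup.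
-/

open Cfsg

namespace Cfsg.Agent.H48.Jk

universe u v

variable {G : Type u} [Group G]

/-- elements of the join of two elementwise commuting subgroups are products -/
theorem mem_sup_of_comm {A B : Subgroup G} (hc : ∀ x ∈ A, ∀ y ∈ B, x * y = y * x)
    {g : G} (hg : g ∈ A ⊔ B) : ∃ x ∈ A, ∃ y ∈ B, g = x * y := by
  let P : Subgroup G :=
    { carrier := {g | ∃ x ∈ A, ∃ y ∈ B, g = x * y}
      mul_mem' := by
        rintro a b ⟨x, hx, y, hy, rfl⟩ ⟨x', hx', y', hy', rfl⟩
        refine ⟨x * x', A.mul_mem hx hx', y * y', B.mul_mem hy hy', ?_⟩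
        calc x * y * (x' * y') = x * (y * x') * y' := by group
          _ = x * (x' * y) * y' := by rw [hc x' hx' y hy]
          _ = x * x' * (y * y') := by group
      one_mem' := ⟨1, A.one_mem, 1, B.one_mem, by simp⟩
      inv_mem' := by
        rintro a ⟨x, hx, y, hy, rfl⟩
        refine ⟨x⁻¹, A.inv_mem hx, y⁻¹, B.inv_mem hy, ?_⟩
        have h := hc x⁻¹ (A.inv_mem hx) y⁻¹ (B.inv_mem hy)
        rw [mul_inv_rev, h] }
  have hA : A ≤ P := fun x hx => ⟨x, hx, 1, B.one_mem, by simp⟩
  have hB : B ≤ P := fun y hy => ⟨1, A.one_mem, y, hy, by simp⟩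
  exact (sup_le hA hB) hg

/-- an element of odd order whose square commutes with `x` commutes with `x` -/
theorem comm_of_sq_comm {k x : G} (hk : Odd (orderOf k)) (h : k * k * x = x * (k * k)) :
    k * x = x * k := by
  obtain ⟨m, hm⟩ := hk
  have hk1 : k ^ (2 * m + 1) = 1 := by rw [← hm]; exact pow_orderOf_eq_one k
  have hkk : k = (k * k) ^ (m + 1) := by
    have : (k * k) ^ (m + 1) = k ^ (2 * m + 1) * k := by
      rw [← pow_two, ← pow_mul, ← pow_succ]; congr 1
    rw [this, hk1, one_mul]
  have hc : Commute (k * k) x := h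
  have := (hc.pow_left (m + 1)).eq
  rw [← hkk] at this
  exact this

/-- A subgroup `K` generated by elements of odd order, normalizing a subgroup `W` of order 4
on which it has no nontrivial fixed point, is transitive on `W ∖ 1`. -/
theorem trans_four [Finite G] {K W : Subgroup G}
    (hgen : Subgroup.closure {g : G | g ∈ K ∧ Odd (orderOf g)} = K)
    (hKW : K ≤ Subgroup.normalizer (W : Set G)) (hcard : Nat.card ↥W = 4)
    (hfix : W ⊓ Subgroup.centralizer (K : Set G) = ⊥)
    {x y : G} (hx : x ∈ W) (hx1 : x ≠ 1) (hy : y ∈ W) (hy1 : y ≠ 1) :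
    ∃ k ∈ K, k * x * k⁻¹ = y := by
  classical
  -- some odd-order element of `K` moves some element of `W`
  have hex : ∃ k ∈ K, Odd (orderOf k) ∧ ∃ a ∈ W, k * a ≠ a * k := by
    by_contra hcon
    push_neg at hcon
    have hKc : K ≤ Subgroup.centralizer (W : Set G) := by
      rw [← hgen, Subgroup.closure_le]
      intro g hg
      rw [SetLike.mem_coe, Subgroup.mem_centralizer_iff]
      intro a ha
      exact (hcon g hg.1 hg.2 a ha).symm
    have hWc : W ≤ Subgroup.centralizer (K : Set G) := by
      intro a ha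
      rw [Subgroup.mem_centralizer_iff]
      intro g hg
      exact ((Subgroup.mem_centralizer_iff.mp (hKc hg)) a ha).symm
    have hW : W = ⊥ := by
      rw [← hfix]; exact (inf_eq_left.mpr hWc).symm
    rw [hW] at hcard
    simp at hcard
  obtain ⟨k, hkK, hkodd, a, haW, hka⟩ := hex
  have hnorm : ∀ g ∈ K, ∀ w ∈ W, g * w * g⁻¹ ∈ W := by
    intro g hg w hw
    have := hKW hg
    rw [Subgroup.mem_normalizer_iff] at this
    exact (this w).mp hw
  set a' := k * a * k⁻¹ with ha'
  set a'' := k * a' * k⁻¹ with ha''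
  have ha'W : a' ∈ W := hnorm k hkK a haW
  have ha''W : a'' ∈ W := hnorm k hkK a' ha'W
  have h01 : a ≠ 1 := by
    intro h; apply hka; rw [h]; simp
  have h11 : a' ≠ 1 := by
    intro h; apply h01
    have : a = k⁻¹ * a' * k := by rw [ha']; group
    rw [this, h]; group
  have h21 : a'' ≠ 1 := by
    intro h; apply h11
    have : a' = k⁻¹ * a'' * k := by rw [ha'']; group
    rw [this, h]; group
  have h0a : a' ≠ a := by
    intro h; apply hka
    have : k * a = a' * k := by rw [ha']; group
    rw [this, h]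
  have h1a : a'' ≠ a' := by
    intro h; apply h0a
    have e1 : a' = k⁻¹ * a'' * k := by rw [ha'']; group
    have e2 : a = k⁻¹ * a' * k := by rw [ha']; group
    rw [e1, h, ← e2]
  have h2a : a'' ≠ a := by
    intro h; apply hka
    apply comm_of_sq_comm hkodd
    have : k * k * a = a'' * (k * k) := by rw [ha'', ha']; group
    rw [this, h]
  -- counting: `W = {1, a, a', a''}`
  have hall : ∀ w ∈ W, w = 1 ∨ w = a ∨ w = a' ∨ w = a'' := by
    intro w hw
    by_contra hcon
    push_neg at hcon
    obtain ⟨c1, c2, c3, c4⟩ := hcon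
    let s : Finset G := {1, a, a', a'', w}
    have hs5 : s.card = 5 := by
      simp only [s]
      rw [Finset.card_insert_of_notMem, Finset.card_insert_of_notMem,
        Finset.card_insert_of_notMem, Finset.card_insert_of_notMem, Finset.card_singleton]
      · simp only [Finset.mem_singleton]; exact fun h => c4 h.symm
      · simp only [Finset.mem_insert, Finset.mem_singleton]
        rintro (h | h)
        · exact h1a h.symm
        · exact c3 h.symm
      · simp only [Finset.mem_insert, Finset.mem_singleton]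
        rintro (h | h | h)
        · exact h0a h.symm
        · exact h2a h.symm
        · exact c2 h.symm
      · simp only [Finset.mem_insert, Finset.mem_singleton]
        rintro (h | h | h | h)
        · exact h01 h.symm
        · exact h11 h.symm
        · exact h21 h.symm
        · exact c1 h.symm
    have hsub : (↑s : Set G) ⊆ (W : Set G) := by
      intro t ht
      simp only [s, Finset.coe_insert, Finset.coe_singleton, Set.mem_insert_iff,
        Set.mem_singleton_iff] at ht
      rcases ht with rfl | rfl | rfl | rfl | rfl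
      · exact W.one_mem
      · exact haW
      · exact ha'W
      · exact ha''W
      · exact hw
    have h1 : (↑s : Set G).ncard ≤ (W : Set G).ncard := Set.ncard_le_ncard hsub (Set.toFinite _)
    rw [Set.ncard_coe_finset, hs5] at h1
    have h2 : (W : Set G).ncard = Nat.card ↥W := (Nat.card_coe_set_eq (W : Set G)).symm
    rw [h2, hcard] at h1
    omega
  -- the relation "conjugate under `K`"
  have hR0 : ∀ w ∈ W, w ≠ 1 → ∃ g ∈ K, g * a * g⁻¹ = w := by
    intro w hw hw1
    rcases hall w hw with h | h | h | h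
    · exact absurd h hw1
    · exact ⟨1, K.one_mem, by rw [h]; group⟩
    · exact ⟨k, hkK, by rw [h]⟩
    · exact ⟨k * k, K.mul_mem hkK hkK, by rw [h, ha'', ha']; group⟩
  obtain ⟨g1, hg1, hg1x⟩ := hR0 x hx hx1
  obtain ⟨g2, hg2, hg2y⟩ := hR0 y hy hy1
  refine ⟨g2 * g1⁻¹, K.mul_mem hg2 (K.inv_mem hg1), ?_⟩
  rw [← hg1x, ← hg2y]; group

/-- Simultaneous conjugation block by block.  `K i` normalizes `W i` and centralizes the other
blocks; if every element of `W i` is `K i`-conjugate into `Z ⊓ W i`, every element of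
`⨆ i ∈ s, W i` is conjugate, under `⨆ i ∈ s, K i`, into `Z ⊓ ⨆ i ∈ s, W i`. -/
theorem conj_into {ι : Type v} (K W : ι → Subgroup G) (Z : Subgroup G)
    (hcent : ∀ i j, i ≠ j → W i ≤ Subgroup.centralizer (K j : Set G))
    (hcomm : ∀ i j, ∀ x ∈ W i, ∀ y ∈ W j, x * y = y * x)
    (htrans : ∀ i, ∀ x ∈ W i, ∃ k ∈ K i, k * x * k⁻¹ ∈ Z ⊓ W i)
    (s : Finset ι) :
    ∀ g ∈ ⨆ i ∈ s, W i, ∃ l ∈ ⨆ i ∈ s, K i, l * g * l⁻¹ ∈ Z ⊓ ⨆ i ∈ s, W i := by
  classical
  induction s using Finset.induction_on with
  | empty =>
    intro g hg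
    simp only [Finset.notMem_empty, iSup_false, iSup_bot, Subgroup.mem_bot] at hg
    refine ⟨1, Subgroup.one_mem _, ?_⟩
    rw [hg]; simp
  | insert a s has ih =>
    intro g hg
    rw [Finset.iSup_insert] at hg ⊢
    rw [Finset.iSup_insert]
    -- `W a` commutes elementwise with `⨆ i ∈ s, W i`
    have hcWs : ∀ x ∈ W a, ∀ y ∈ ⨆ i ∈ s, W i, x * y = y * x := by
      intro x hx y hy
      have hle : (⨆ i ∈ s, W i) ≤ Subgroup.centralizer ({x} : Set G) := by
        refine iSup₂_le fun i _ => ?_
        intro w hw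
        rw [Subgroup.mem_centralizer_iff]
        intro t ht
        rw [Set.mem_singleton_iff] at ht
        subst ht
        exact hcomm a i t hx w hw
      have := Subgroup.mem_centralizer_iff.mp (hle hy) x (Set.mem_singleton x)
      exact this
    obtain ⟨x, hx, y, hy, rfl⟩ := mem_sup_of_comm hcWs hg
    obtain ⟨l, hl, hly⟩ := ih y hy
    obtain ⟨k, hk, hkx⟩ := htrans a x hx
    -- `K a` centralizes `⨆ i ∈ s, W i`
    have hKa : (⨆ i ∈ s, W i) ≤ Subgroup.centralizer (K a : Set G) := by
      refine iSup₂_le fun i hi => ?_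
      exact hcent i a (fun h => has (h ▸ hi))
    -- `⨆ i ∈ s, K i` centralizes `W a`
    have hKs : (⨆ i ∈ s, K i) ≤ Subgroup.centralizer (W a : Set G) := by
      refine iSup₂_le fun i hi => ?_
      intro t ht
      rw [Subgroup.mem_centralizer_iff]
      intro w hw
      have := Subgroup.mem_centralizer_iff.mp (hcent a i (fun h => has (h ▸ hi)) hw) t ht
      exact this.symm
    have h1 : l * x = x * l := ((Subgroup.mem_centralizer_iff.mp (hKs hl)) x hx).symm
    have h2 : k * (l * y * l⁻¹) = (l * y * l⁻¹) * k :=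
      (Subgroup.mem_centralizer_iff.mp (hKa hly.2)) k hk
    refine ⟨k * l, Subgroup.mul_mem _ (Subgroup.mem_sup_left hk) (Subgroup.mem_sup_right hl), ?_⟩
    have e : k * l * (x * y) * (k * l)⁻¹ = (k * x * k⁻¹) * (l * y * l⁻¹) := by
      calc k * l * (x * y) * (k * l)⁻¹ = k * (l * x) * y * l⁻¹ * k⁻¹ := by group
        _ = k * (x * l) * y * l⁻¹ * k⁻¹ := by rw [h1]
        _ = k * x * (l * y * l⁻¹) * k⁻¹ := by group
        _ = k * x * (k⁻¹ * (k * (l * y * l⁻¹))) * k⁻¹ := by group
        _ = k * x * (k⁻¹ * ((l * y * l⁻¹) * k)) * k⁻¹ := by rw [h2]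
        _ = (k * x * k⁻¹) * (l * y * l⁻¹) := by group
    rw [e]
    exact ⟨Z.mul_mem hkx.1 hly.1,
      Subgroup.mul_mem _ (Subgroup.mem_sup_left hkx.2) (Subgroup.mem_sup_right hly.2)⟩

/-- `conj_into` over a finite index type. -/
theorem conj_into_univ {ι : Type v} [Finite ι] (K W : ι → Subgroup G) (Z : Subgroup G)
    (hcent : ∀ i j, i ≠ j → W i ≤ Subgroup.centralizer (K j : Set G))
    (hcomm : ∀ i j, ∀ x ∈ W i, ∀ y ∈ W j, x * y = y * x)
    (htrans : ∀ i, ∀ x ∈ W i, ∃ k ∈ K i, k * x * k⁻¹ ∈ Z ⊓ W i) :
    ∀ g ∈ ⨆ i, W i, ∃ l ∈ ⨆ i, K i, l * g * l⁻¹ ∈ Z ⊓ ⨆ i, W i := by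
  classical
  have := Fintype.ofFinite ι
  intro g hg
  have h := conj_into K W Z hcent hcomm htrans Finset.univ g (by simpa using hg)
  simpa using h

/-- The centralizer of an involution is a 2-local subgroup. -/
theorem centralizer_twoLocal {x : G} (hx : x * x = 1) (hx1 : x ≠ 1) :
    IsTwoLocal (Subgroup.centralizer ({x} : Set G)) := by
  have hmem : ∀ g : G, g ∈ Subgroup.zpowers x ↔ g = 1 ∨ g = x := by
    intro g
    constructor
    · rintro ⟨n, rfl⟩
      rcases Int.even_or_odd n with ⟨m, hm⟩ | ⟨m, hm⟩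
      · left
        have : x ^ n = (x * x) ^ m := by
          rw [hm, ← two_mul, zpow_mul, zpow_ofNat, pow_two]
        rw [show (fun x1 : ℤ => x ^ x1) n = x ^ n from rfl, this, hx, one_zpow]
      · right
        have : x ^ n = (x * x) ^ m * x := by
          rw [hm, zpow_add, zpow_mul, zpow_ofNat, pow_two, zpow_one]
        rw [show (fun x1 : ℤ => x ^ x1) n = x ^ n from rfl, this, hx, one_zpow, one_mul]
    · rintro (h | h)
      · rw [h]; exact Subgroup.one_mem _
      · rw [h]; exact Subgroup.mem_zpowers x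
  refine ⟨Subgroup.zpowers x, ?_, ?_, ?_⟩
  · -- a 2-group
    intro ⟨g, hg⟩
    refine ⟨1, ?_⟩
    apply Subtype.ext
    rcases (hmem g).mp hg with h | h
    · simp [h]
    · simp [h, pow_two, hx]
  · intro h
    have : x ∈ (⊥ : Subgroup G) := h ▸ Subgroup.mem_zpowers x
    exact hx1 (Subgroup.mem_bot.mp this)
  · ext g
    rw [Subgroup.mem_centralizer_iff, Subgroup.mem_normalizer_iff]
    constructor
    · intro hg t
      rw [hmem, hmem]
      have hgx : x * g = g * x := hg x (Set.mem_singleton x)
      constructor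
      · rintro (h | h)
        · left; rw [h]; group
        · right; rw [h, ← hgx]; group
      · rintro (h | h)
        · left
          have : t = g⁻¹ * (g * t * g⁻¹) * g := by group
          rw [this, h]; group
        · right
          have : t = g⁻¹ * (g * t * g⁻¹) * g := by group
          rw [this, h, mul_assoc, hgx]; group
    · intro hg t ht
      rw [Set.mem_singleton_iff] at ht
      subst ht
      have h1 := (hg t).mp (Subgroup.mem_zpowers t)
      rcases (hmem _).mp h1 with h | h
      · exfalso; apply hx1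
        have : t = g⁻¹ * (g * t * g⁻¹) * g := by group
        rw [this, h]; group
      · have : g * t = (g * t * g⁻¹) * g := by group
        rw [this, h]

end Cfsg.Agent.H48.Jk
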