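import Mathlib
import Cfsg.Prelude.Def_JordanBlocks
import Cfsg.Agent.H61.UnipCent

/-!
Shared definitions and EXACT piece statements for S2676
(number of conjugacy classes of elements of order `p` in `Sp_2m(q)`, `q` a power of the odd
prime `p`).

Notation (from `Cfsg.Agent.H61`): `JI d = (k : Fin t) × Fin (d k)`, `jordanNil d F` (the
nilpotent Jordan matrix `N`, `N x y = 1` iff `x.1 = y.1 ∧ x.2 = y.2 + 1`), `diagBlock hd g i`,
`jtop hd l`.
-/

set_option autoImplicit false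

namespace Cfsg.Agent.H48.SPC

open Finset Cfsg.Agent.H61

universe u

/-- Nondegenerate alternating forms for which the nilpotent Jordan matrix is skew-adjoint. -/
abbrev OmegaSk (F : Type u) [Field F] {t : ℕ} (d : Fin t → ℕ) : Type u :=
  {A : Matrix (JI d) (JI d) F // A.transpose = -A ∧ A.det ≠ 0 ∧
    (jordanNil d F).transpose * A = -(A * jordanNil d F)}

/-- Two forms are in the same orbit of the units of the commutant of `N`. -/
def OrbRel {F : Type u} [Field F] {t : ℕ} (d : Fin t → ℕ) (A A' : Matrix (JI d) (JI d) F) :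
    Prop :=
  ∃ g : Matrix (JI d) (JI d) F, g.det ≠ 0 ∧ g * jordanNil d F = jordanNil d F * g ∧
    g.transpose * A * g = A'

/-- The leading block of size class `i` of a form: entries `A (k, i - 1) (l, 0)` for
`d k = d l = i`. -/
def leadBlock {F : Type u} [Field F] {t : ℕ} {d : Fin t → ℕ} (hd : ∀ k, 1 ≤ d k)
    (A : Matrix (JI d) (JI d) F) (i : ℕ) :
    Matrix {k : Fin t // d k = i} {k : Fin t // d k = i} F :=
  Matrix.of fun k l => A (⟨k.1, ⟨d k.1 - 1, by have := hd k.1; omega⟩⟩ : JI d) (jtop hd l.1)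

theorem leadBlock_apply {F : Type u} [Field F] {t : ℕ} {d : Fin t → ℕ} (hd : ∀ k, 1 ≤ d k)
    (A : Matrix (JI d) (JI d) F) (i : ℕ) (k l : {k : Fin t // d k = i}) :
    leadBlock hd A i k l =
      A (⟨k.1, ⟨d k.1 - 1, by have := hd k.1; omega⟩⟩ : JI d) (jtop hd l.1) := rfl

/-- The Cayley transform `(1 + N) (1 - N)⁻¹` of the nilpotent Jordan matrix. -/
noncomputable def cayleyJ (F : Type u) [Field F] {t : ℕ} (d : Fin t → ℕ) :
    Matrix (JI d) (JI d) F :=
  (1 + jordanNil d F) * (1 - jordanNil d F)⁻¹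

/-! ### Exact piece statements -/

/-- SPC-LBMUL: leading blocks of `A * g` and `gᵀ * A`. -/
def LBMulStmt : Prop :=
  ∀ {F : Type u} [Field F] {t : ℕ} (d : Fin t → ℕ) (hd : ∀ k, 1 ≤ d k)
    (A g : Matrix (JI d) (JI d) F),
    (jordanNil d F).transpose * A = -(A * jordanNil d F) →
    g * jordanNil d F = jordanNil d F * g →
    ∀ i : ℕ, leadBlock hd (A * g) i = leadBlock hd A i * diagBlock hd g i ∧
      leadBlock hd (g.transpose * A) i = (diagBlock hd g i).transpose * leadBlock hd A i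

/-- SPC-DBMUL: the diagonal blocks are multiplicative on the commutant of `N`. -/
def DBMulStmt : Prop :=
  ∀ {F : Type u} [Field F] {t : ℕ} (d : Fin t → ℕ) (hd : ∀ k, 1 ≤ d k)
    (g g' : Matrix (JI d) (JI d) F),
    g * jordanNil d F = jordanNil d F * g → g' * jordanNil d F = jordanNil d F * g' →
    ∀ i : ℕ, diagBlock hd (g * g') i = diagBlock hd g i * diagBlock hd g' i

/-- SPC-LBSYM: the leading block of size class `i` of an alternating form is
`(-1)^i`-symmetric. -/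
def LBSymStmt : Prop :=
  ∀ {F : Type u} [Field F] {t : ℕ} (d : Fin t → ℕ) (hd : ∀ k, 1 ≤ d k)
    (A : Matrix (JI d) (JI d) F), A.transpose = -A →
    (jordanNil d F).transpose * A = -(A * jordanNil d F) →
    ∀ i : ℕ, (leadBlock hd A i).transpose = (-1 : F) ^ i • leadBlock hd A i

/-- SPC-LBINV: a skew-invariant form is nondegenerate iff all its leading blocks are. -/
def LBInvStmt : Prop :=
  ∀ {F : Type u} [Field F] {t : ℕ} (d : Fin t → ℕ) (hd : ∀ k, 1 ≤ d k)
    (A : Matrix (JI d) (JI d) F),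
    (jordanNil d F).transpose * A = -(A * jordanNil d F) →
    (A.det ≠ 0 ↔ ∀ i : Fin (univ.sup d + 1), (leadBlock hd A i.val).det ≠ 0)

/-- SPC-LBSURJ: every family of invertible `(-1)^i`-symmetric blocks is the family of leading
blocks of a form in `OmegaSk`. -/
def LBSurjStmt : Prop :=
  ∀ {F : Type u} [Field F] {t : ℕ} (d : Fin t → ℕ) (hd : ∀ k, 1 ≤ d k)
    (C : ∀ i : Fin (univ.sup d + 1),
      Matrix {k : Fin t // d k = i.val} {k : Fin t // d k = i.val} F),
    (∀ i, (C i).transpose = (-1 : F) ^ i.val • C i) → (∀ i, (C i).det ≠ 0) →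
    ∃ A : OmegaSk F d, ∀ i : Fin (univ.sup d + 1), leadBlock hd A.1 i.val = C i

/-- SPC-RAD: an element of the commutant of `N` with identity diagonal blocks is a square of a
power of itself (characteristic `p` odd). -/
def RadStmt : Prop :=
  ∀ {F : Type u} [Field F] [Fintype F] (p : ℕ) [Fact p.Prime] [CharP F p] (_ : p ≠ 2) {t : ℕ}
    (d : Fin t → ℕ) (hd : ∀ k, 1 ≤ d k) (h : Matrix (JI d) (JI d) F),
    h * jordanNil d F = jordanNil d F * h →
    (∀ i : Fin (univ.sup d + 1), diagBlock hd h i.val = 1) →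
    ∃ j : ℕ, h ^ (2 * j) = h

/-- SPC-DBSURJ: every family of invertible diagonal blocks is realised in the commutant. -/
def DBSurjStmt : Prop :=
  ∀ {F : Type u} [Field F] {t : ℕ} (d : Fin t → ℕ) (hd : ∀ k, 1 ≤ d k)
    (γ : ∀ i : Fin (univ.sup d + 1),
      Matrix {k : Fin t // d k = i.val} {k : Fin t // d k = i.val} F),
    (∀ i, (γ i).det ≠ 0) →
    ∃ g : Matrix (JI d) (JI d) F, g.det ≠ 0 ∧ g * jordanNil d F = jordanNil d F * g ∧
      ∀ i : Fin (univ.sup d + 1), diagBlock hd g i.val = γ i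

/-- SPC-ORBIT: two forms are in the same orbit iff their leading blocks are congruent. -/
def OrbitThmStmt : Prop :=
  ∀ {F : Type u} [Field F] [Fintype F] (p : ℕ) [Fact p.Prime] [CharP F p] (_ : p ≠ 2) {t : ℕ}
    (d : Fin t → ℕ) (hd : ∀ k, 1 ≤ d k) (A A' : OmegaSk F d),
    OrbRel d A.1 A'.1 ↔
      ∀ i : Fin (univ.sup d + 1),
        ∃ γ : Matrix {k : Fin t // d k = i.val} {k : Fin t // d k = i.val} F,
          γ.det ≠ 0 ∧ γ.transpose * leadBlock hd A.1 i.val * γ = leadBlock hd A'.1 i.val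

/-- SPC-ALT: nondegenerate alternating matrices are congruent; one exists on an index type of
even cardinality. -/
def AltStmt : Prop :=
  ∀ {F : Type u} [Field F] (_ : (2 : F) ≠ 0) (κ : Type) [Fintype κ] [DecidableEq κ],
    (∀ C C' : Matrix κ κ F, C.transpose = -C → C'.transpose = -C' → C.det ≠ 0 → C'.det ≠ 0 →
      ∃ γ : Matrix κ κ F, γ.det ≠ 0 ∧ γ.transpose * C * γ = C') ∧
    (Even (Fintype.card κ) → ∃ C : Matrix κ κ F, C.transpose = -C ∧ C.det ≠ 0)

/-- SPC-SYM: nondegenerate symmetric matrices over a finite field of odd characteristic are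
congruent iff their determinants agree up to squares; both square classes occur. -/
def SymStmt : Prop :=
  ∀ {F : Type u} [Field F] [Fintype F] (_ : (2 : F) ≠ 0) (κ : Type) [Fintype κ]
    [DecidableEq κ],
    (∀ C C' : Matrix κ κ F, C.transpose = C → C'.transpose = C' → C.det ≠ 0 → C'.det ≠ 0 →
      ((∃ γ : Matrix κ κ F, γ.det ≠ 0 ∧ γ.transpose * C * γ = C') ↔
        IsSquare (C.det * C'.det))) ∧
    (Nonempty κ → ∀ b : Bool, ∃ C : Matrix κ κ F, C.transpose = C ∧ C.det ≠ 0 ∧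
      (IsSquare C.det ↔ b = true))

/-- SPC-COUNT: a complete surjective invariant of the orbits: the square classes of the
determinants of the leading blocks of even size class. -/
def CountStmt : Prop :=
  ∀ {F : Type u} [Field F] [Fintype F] (p : ℕ) [Fact p.Prime] [CharP F p] (_ : p ≠ 2) {t : ℕ}
    (d : Fin t → ℕ) (_ : ∀ k, 1 ≤ d k)
    (_ : ∀ j : ℕ, Odd j → Even (univ.filter (fun k : Fin t => d k = j)).card),
    ∃ Φ : OmegaSk F d → ({j : ℕ // j ∈ (univ.image d).filter (fun j => Even j)} → Bool),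
      (∀ A A' : OmegaSk F d, Φ A = Φ A' ↔ OrbRel d A.1 A'.1) ∧ Function.Surjective Φ

/-- SPC-CLASSORB: the general class–orbit correspondence for the symplectic group: the
`Sp`-classes of the elements similar to `M` correspond to the orbits of the centraliser of `M`
on the nondegenerate alternating `M`-invariant forms. -/
def ClassOrbStmt : Prop :=
  ∀ {F : Type u} [Field F] (_ : (2 : F) ≠ 0) {m : ℕ}
    (M : Matrix (Fin m ⊕ Fin m) (Fin m ⊕ Fin m) F),
    ∃ Ψ : {A : Matrix (Fin m ⊕ Fin m) (Fin m ⊕ Fin m) F //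
        A.transpose = -A ∧ A.det ≠ 0 ∧ M.transpose * A * M = A} →
      ConjClasses ↥(Matrix.symplecticGroup (Fin m) F),
      (∀ A A', Ψ A = Ψ A' ↔ ∃ c : Matrix (Fin m ⊕ Fin m) (Fin m ⊕ Fin m) F,
        c.det ≠ 0 ∧ c * M = M * c ∧ c.transpose * A.1 * c = A'.1) ∧
      (∀ C, C ∈ Set.range Ψ ↔ ∃ g : ↥(Matrix.symplecticGroup (Fin m) F),
        ConjClasses.mk g = C ∧ ∃ P : Matrix (Fin m ⊕ Fin m) (Fin m ⊕ Fin m) F,
          P.det ≠ 0 ∧ P * M = (g : Matrix (Fin m ⊕ Fin m) (Fin m ⊕ Fin m) F) * P)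

/-- SPC-TYPE: a matrix is similar to the (reindexed) Cayley–Jordan matrix iff it has the ranks
of powers of the Jordan type `d`. -/
def TypeStmt : Prop :=
  ∀ {F : Type u} [Field F] (_ : (2 : F) ≠ 0) {m t : ℕ} (d : Fin t → ℕ)
    (e : JI d ≃ Fin m ⊕ Fin m) (g : Matrix (Fin m ⊕ Fin m) (Fin m ⊕ Fin m) F),
    (∃ P : Matrix (Fin m ⊕ Fin m) (Fin m ⊕ Fin m) F, P.det ≠ 0 ∧
        P * Matrix.reindex e e (cayleyJ F d) = g * P) ↔
      ∀ k : ℕ, ((g - 1) ^ k).rank = ∑ i, (d i - k)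

/-- SPC-CAYEQ: invariance under the Cayley–Jordan matrix is skew-invariance under `N`, and
the two matrices have the same commutant. -/
def CayEqStmt : Prop :=
  ∀ {F : Type u} [Field F] (_ : (2 : F) ≠ 0) {t : ℕ} (d : Fin t → ℕ)
    (X : Matrix (JI d) (JI d) F),
    ((cayleyJ F d).transpose * X * cayleyJ F d = X ↔
      (jordanNil d F).transpose * X = -(X * jordanNil d F)) ∧
    (X * cayleyJ F d = cayleyJ F d * X ↔ X * jordanNil d F = jordanNil d F * X)

/-- SPC-CLS: the `Sp`-classes of Jordan type `d` correspond to the orbits on `OmegaSk`. -/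
def ClsStmt : Prop :=
  ∀ {F : Type u} [Field F] (_ : (2 : F) ≠ 0) {m t : ℕ} (d : Fin t → ℕ)
    (_ : JI d ≃ Fin m ⊕ Fin m),
    ∃ Ψ : OmegaSk F d → ConjClasses ↥(Matrix.symplecticGroup (Fin m) F),
      (∀ A A' : OmegaSk F d, Ψ A = Ψ A' ↔ OrbRel d A.1 A'.1) ∧
      (∀ C, C ∈ Set.range Ψ ↔ ∃ g : ↥(Matrix.symplecticGroup (Fin m) F),
        ConjClasses.mk g = C ∧ ∀ k : ℕ,
          (((g : Matrix (Fin m ⊕ Fin m) (Fin m ⊕ Fin m) F) - 1) ^ k).rank = ∑ i, (d i - k))

/-- SPC-KEY: the number of `Sp`-classes of Jordan type `d`. -/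
def KeyStmt : Prop :=
  ∀ {F : Type u} [Field F] [Fintype F] (p : ℕ) [Fact p.Prime] [CharP F p] (_ : p ≠ 2)
    {m t : ℕ} (d : Fin t → ℕ) (_ : ∀ k, 1 ≤ d k) (_ : JI d ≃ Fin m ⊕ Fin m)
    (_ : ∀ j : ℕ, Odd j → Even (univ.filter (fun k : Fin t => d k = j)).card),
    Nat.card {C : ConjClasses ↥(Matrix.symplecticGroup (Fin m) F) //
      ∃ g : ↥(Matrix.symplecticGroup (Fin m) F), ConjClasses.mk g = C ∧ ∀ k : ℕ,
        (((g : Matrix (Fin m ⊕ Fin m) (Fin m ⊕ Fin m) F) - 1) ^ k).rank = ∑ i, (d i - k)} =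
      2 ^ ((univ.image d).filter (fun j => Even j)).card

/-- SPC-KEYP: the number of `Sp`-classes of a given Jordan partition. -/
def KeyPStmt : Prop :=
  ∀ {F : Type u} [Field F] [Fintype F] (p : ℕ) [Fact p.Prime] [CharP F p] (_ : p ≠ 2)
    (m : ℕ) (μ : Nat.Partition (2 * m)) (_ : ∀ j : ℕ, Odd j → Even (μ.parts.count j)),
    Nat.card {C : ConjClasses ↥(Matrix.symplecticGroup (Fin m) F) //
      ∃ g : ↥(Matrix.symplecticGroup (Fin m) F), ConjClasses.mk g = C ∧ ∀ k : ℕ,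
        (((g : Matrix (Fin m ⊕ Fin m) (Fin m ⊕ Fin m) F) - 1) ^ k).rank =
          (μ.parts.map (fun b => b - k)).sum} =
      2 ^ ((μ.parts.toFinset.filter (fun j : ℕ => Even j)).card)

open Classical in
/-- SPC-TOP: the statement of S2676. -/
def TopStmt : Prop :=
  ∀ {F : Type u} [Field F] [Fintype F] {p : ℕ} [Fact p.Prime] [CharP F p] (_ : p ≠ 2) (m : ℕ), Nat.card {C : ConjClasses ↥(Matrix.symplecticGroup (Fin m) F) // ∃ g : Matrix.symplecticGroup (Fin m) F, ConjClasses.mk g = C ∧ orderOf g = p} = (∑ μ ∈ Finset.univ.filter (fun μ : Nat.Partition (2 * m) => (∀ a ∈ μ.parts, a ≤ p) ∧ ∀ j : ℕ, Odd j → Even (μ.parts.count j)), 2 ^ ((μ.parts.toFinset.filter (fun j : ℕ => Even j)).card)) - 1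

end Cfsg.Agent.H48.SPC
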