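import Mathlib
import Cfsg.Agent.H95.OhDefs
import Cfsg.Agent.H49.Plus

/-!
# S5974 team project (helper48): definitions and top-level piece statements

`PΩ⁺_{2d}(q)` (ALL `q`), acting on the nondegenerate `m`-spaces of PLUS type (`m` even,
`2 ≤ m < d`) of the plus-type form `Cfsg.quadFormPlus d F` on `F^(Fin d ⊕ Fin d)`.

Abstract statements are phrased for a quadratic form `Q : QuadraticForm F V` over a finite field
of ANY characteristic: `QNd Q W` (`W` is nondegenerate for the polar form: `W ⊓ perp B W = ⊥` with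
`B = QuadraticMap.polarBilin Q`, helper45's `perp`) and `QPlus Q W` (`W` contains a totally
singular subspace of half its dimension).  A type is prescribed by a proposition `pl`
("`QPlus Q W ↔ pl`"), as in helper95's `OhDefs`, so that the twins S5988 / S5990 can reuse the
generic statements.  `kk T W`, `cc F r`, `ii F r` are helper42's.
-/

set_option autoImplicit false

namespace Cfsg.Agent.H48.Ep

open Cfsg.Agent.H45 Cfsg.Agent.H42.Spd Cfsg.Agent.H42.Ti Module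

universe u v

section Basic

variable {F : Type u} [Field F] {V : Type v} [AddCommGroup V] [Module F V]

/-- `W` is nondegenerate for the polar form of `Q`. -/
def QNd (Q : QuadraticForm F V) (W : Submodule F V) : Prop :=
  W ⊓ perp (QuadraticMap.polarBilin Q) W = ⊥

/-- `W` is of plus type: it contains a totally singular subspace of half its dimension. -/
def QPlus (Q : QuadraticForm F V) (W : Submodule F V) : Prop :=
  ∃ U : Submodule F V, U ≤ W ∧ (∀ u ∈ U, Q u = 0) ∧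
    2 * Module.finrank F U = Module.finrank F W

end Basic

/-- The subspaces of the frozen statement S5974: nondegenerate `m`-spaces of plus type of the
standard plus space of dimension `2 d`. -/
def IsPW (F : Type u) [Field F] (d m : ℕ) (W : Submodule F (Fin d ⊕ Fin d → F)) : Prop :=
  Module.finrank F ↥W = m ∧
    (∀ u ∈ W, u ≠ 0 → ∃ v ∈ W, QuadraticMap.polar (Cfsg.quadFormPlus d F) u v ≠ 0) ∧
    ∃ U : Submodule F (Fin d ⊕ Fin d → F), U ≤ W ∧ 2 * Module.finrank F ↥U = m ∧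
      ∀ u ∈ U, Cfsg.quadFormPlus d F u = 0

/-- `x` fixes a nondegenerate plus-type `m`-space. -/
def FixP (F : Type u) [Field F] (d m : ℕ) (x : Matrix.GeneralLinearGroup (Fin d ⊕ Fin d) F) :
    Prop :=
  ∃ W : Submodule F (Fin d ⊕ Fin d → F), IsPW F d m W ∧
    W.map (Matrix.toLin' (x : Matrix (Fin d ⊕ Fin d) (Fin d ⊕ Fin d) F)) ≤ W

/-! ## The generic structure theorem (odd prime `r ≠ p`, any characteristic) -/

/-- EP-STRUCT: `T` an isometry with `T ^ r = 1` of a nondegenerate quadratic space of even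
dimension and type `plV`; `K = ker (T - 1)`, `c = cc F r`, `i = ii F r`.  Then `K` is
nondegenerate, `dim V = dim K + c A`, and the invariant nondegenerate subspaces `W` of even
dimension are exactly: `dim W = c j + e` with `j ≤ A`, `e = dim (W ∩ K) ≤ dim K`, of any type if
`0 < e < dim K`, of type "plus iff (`i` odd or `j` even)" if `e = 0`, and of type
"plus iff (`plV` iff (`i` odd or `A - j` even))" if `e = dim K ≠ 0`. -/
def StStruct : Prop :=
  ∀ (F : Type u) [Field F] [Fintype F] (V : Type v) [AddCommGroup V] [Module F V]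
    [FiniteDimensional F V] (Q : QuadraticForm F V) (T : Module.End F V) (r : ℕ) (plV : Prop),
    r.Prime → r ≠ 2 → (r : F) ≠ 0 → QNd Q ⊤ → (∀ v, Q (T v) = Q v) → T ^ r = 1 →
    Even (Module.finrank F V) → (QPlus Q ⊤ ↔ plV) →
    QNd Q (LinearMap.ker (T - 1)) ∧
    ∃ A : ℕ, Module.finrank F V = kk T ⊤ + cc F r * A ∧
      (kk T ⊤ = 0 → (plV ↔ (Odd (ii F r) ∨ Even A))) ∧
      (∀ (j e : ℕ) (pl : Prop), j ≤ A → e ≤ kk T ⊤ → Even e →
        (e = 0 → (pl ↔ (Odd (ii F r) ∨ Even j))) →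
        (e = kk T ⊤ → e ≠ 0 → (pl ↔ (plV ↔ (Odd (ii F r) ∨ Even (A - j))))) →
        ∃ W : Submodule F V, W ∈ T.invtSubmodule ∧ QNd Q W ∧
          Module.finrank F W = cc F r * j + e ∧ (QPlus Q W ↔ pl)) ∧
      (∀ (W : Submodule F V) (pl : Prop), W ∈ T.invtSubmodule → QNd Q W →
        Even (Module.finrank F W) → (QPlus Q W ↔ pl) →
        ∃ j : ℕ, j ≤ A ∧ Module.finrank F W = cc F r * j + kk T W ∧ kk T W ≤ kk T ⊤ ∧
          (kk T W = 0 → (pl ↔ (Odd (ii F r) ∨ Even j))) ∧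
          (kk T W = kk T ⊤ → kk T W ≠ 0 → (pl ↔ (plV ↔ (Odd (ii F r) ∨ Even (A - j))))))

/-! ## The standard plus space -/

/-- EP-BRIDGE: the standard plus space `(F^(Fin d ⊕ Fin d), H49.QP d F)` and the translation of
the notions of the frozen statement. -/
def StBridge : Prop :=
  ∀ (F : Type u) [Field F] [Fintype F] (d m : ℕ),
    QNd (Cfsg.Agent.H49.QP d F) ⊤ ∧ QPlus (Cfsg.Agent.H49.QP d F) ⊤ ∧
    Module.finrank F (Fin d ⊕ Fin d → F) = 2 * d ∧
    (∀ W : Submodule F (Fin d ⊕ Fin d → F), IsPW F d m W ↔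
      (Module.finrank F W = m ∧ QNd (Cfsg.Agent.H49.QP d F) W ∧
        QPlus (Cfsg.Agent.H49.QP d F) W)) ∧
    (∀ g : Matrix.GeneralLinearGroup (Fin d ⊕ Fin d) F,
      g ∈ Cfsg.isometryGroup F (Cfsg.quadFormPlus d F) ↔
        ∀ v, Cfsg.Agent.H49.QP d F
          (Matrix.toLin' (g : Matrix (Fin d ⊕ Fin d) (Fin d ⊕ Fin d) F) v) =
            Cfsg.Agent.H49.QP d F v)

/-- EP-SIGN: an isometry `x` with `x ^ r` scalar, `r` odd, has the same invariant subspaces as an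
isometry `y` (`= ± x`) with `y ^ r = 1`; `y ≠ 1` if `x` is not scalar. -/
def StSign : Prop :=
  ∀ (F : Type u) [Field F] [Fintype F] (d : ℕ) (x : Matrix.GeneralLinearGroup (Fin d ⊕ Fin d) F)
    (r : ℕ) (z : F), 1 ≤ d → Odd r →
    x ∈ Cfsg.isometryGroup F (Cfsg.quadFormPlus d F) →
    ((x ^ r : Matrix.GeneralLinearGroup (Fin d ⊕ Fin d) F) :
      Matrix (Fin d ⊕ Fin d) (Fin d ⊕ Fin d) F) =
        z • (1 : Matrix (Fin d ⊕ Fin d) (Fin d ⊕ Fin d) F) →
    ∃ y : Matrix.GeneralLinearGroup (Fin d ⊕ Fin d) F,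
      y ∈ Cfsg.isometryGroup F (Cfsg.quadFormPlus d F) ∧ y ^ r = 1 ∧
      (∀ W : Submodule F (Fin d ⊕ Fin d → F),
        W.map (Matrix.toLin' (y : Matrix (Fin d ⊕ Fin d) (Fin d ⊕ Fin d) F)) ≤ W →
        W.map (Matrix.toLin' (x : Matrix (Fin d ⊕ Fin d) (Fin d ⊕ Fin d) F)) ≤ W) ∧
      ((∀ z : F, (x : Matrix (Fin d ⊕ Fin d) (Fin d ⊕ Fin d) F) ≠
          z • (1 : Matrix (Fin d ⊕ Fin d) (Fin d ⊕ Fin d) F)) → y ≠ 1)

/-- EP-EXIST: elements of `Ω⁺_{2d}(q)` of odd prime order `r ≠ p` with `A ≥ 1` blocks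
(`c A ≤ 2 d`; if `c A = 2 d` then `i` odd or `A` even), not scalar. -/
def StExist : Prop :=
  ∀ (F : Type u) [Field F] [Fintype F] (p : ℕ) [Fact p.Prime] [CharP F p] (r : ℕ), r.Prime →
    r ≠ 2 → r ≠ p → ∀ d A : ℕ, 1 ≤ A → cc F r * A ≤ 2 * d →
    (cc F r * A = 2 * d → (Odd (ii F r) ∨ Even A)) →
    ∃ x : Matrix.GeneralLinearGroup (Fin d ⊕ Fin d) F,
      x ∈ Cfsg.Geo.omegaGL (Cfsg.quadFormPlus d F) ∧ x ^ r = 1 ∧
      Module.finrank F ↥(LinearMap.ker (Matrix.toLin'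
        (x : Matrix (Fin d ⊕ Fin d) (Fin d ⊕ Fin d) F) - 1)) + cc F r * A = 2 * d ∧
      ∀ z : F, (x : Matrix (Fin d ⊕ Fin d) (Fin d ⊕ Fin d) F) ≠
        z • (1 : Matrix (Fin d ⊕ Fin d) (Fin d ⊕ Fin d) F)

/-- EP-CNTA: if the fixed space `K` of an isometry `x` with `x ^ r = 1` has dimension `< c` and
`m < dim K`, `m < c`, the number of nondegenerate plus-type `m`-spaces is prime to `r`. -/
def StCntA : Prop :=
  ∀ (F : Type u) [Field F] [Fintype F] (p : ℕ) [Fact p.Prime] [CharP F p] (r : ℕ), r.Prime →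
    r ≠ 2 → r ≠ p → ∀ (d m : ℕ), 4 ≤ d → Even m → 2 ≤ m → m < cc F r →
    ∀ x : Matrix.GeneralLinearGroup (Fin d ⊕ Fin d) F,
    x ∈ Cfsg.isometryGroup F (Cfsg.quadFormPlus d F) → x ^ r = 1 →
    m < Module.finrank F ↥(LinearMap.ker (Matrix.toLin'
      (x : Matrix (Fin d ⊕ Fin d) (Fin d ⊕ Fin d) F) - 1)) →
    Module.finrank F ↥(LinearMap.ker (Matrix.toLin'
      (x : Matrix (Fin d ⊕ Fin d) (Fin d ⊕ Fin d) F) - 1)) < cc F r →
    ¬ r ∣ Nat.card {W : Submodule F (Fin d ⊕ Fin d → F) // IsPW F d m W}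

/-- EP-CNTB: if the fixed space `K` of an isometry `x` with `x ^ r = 1` is of plus type of
dimension `m < c`, the number of nondegenerate plus-type `m`-spaces is `≡ 1 (mod r)`. -/
def StCntB : Prop :=
  ∀ (F : Type u) [Field F] [Fintype F] (p : ℕ) [Fact p.Prime] [CharP F p] (r : ℕ), r.Prime →
    r ≠ 2 → r ≠ p → ∀ (d m : ℕ), Even m → 2 ≤ m → m < cc F r →
    ∀ x : Matrix.GeneralLinearGroup (Fin d ⊕ Fin d) F,
    x ∈ Cfsg.isometryGroup F (Cfsg.quadFormPlus d F) → x ^ r = 1 →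
    Module.finrank F ↥(LinearMap.ker (Matrix.toLin'
      (x : Matrix (Fin d ⊕ Fin d) (Fin d ⊕ Fin d) F) - 1)) = m →
    QPlus (Cfsg.Agent.H49.QP d F) (LinearMap.ker (Matrix.toLin'
      (x : Matrix (Fin d ⊕ Fin d) (Fin d ⊕ Fin d) F) - 1)) →
    ¬ r ∣ Nat.card {W : Submodule F (Fin d ⊕ Fin d → F) // IsPW F d m W}

/-- EP-TWO: the case `r = 2` (all characteristics). -/
def StTwo : Prop :=
  ∀ (F : Type u) [Field F] [Fintype F] (d m : ℕ), 4 ≤ d → 2 ≤ m → Even m → m < d →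
    ((∀ x : Matrix.GeneralLinearGroup (Fin d ⊕ Fin d) F,
        x ∈ Cfsg.Geo.omegaGL (Cfsg.quadFormPlus d F) →
        (∃ z : F, ((x ^ 2 : Matrix.GeneralLinearGroup (Fin d ⊕ Fin d) F) :
          Matrix (Fin d ⊕ Fin d) (Fin d ⊕ Fin d) F) =
            z • (1 : Matrix (Fin d ⊕ Fin d) (Fin d ⊕ Fin d) F)) →
        (∀ z : F, (x : Matrix (Fin d ⊕ Fin d) (Fin d ⊕ Fin d) F) ≠
          z • (1 : Matrix (Fin d ⊕ Fin d) (Fin d ⊕ Fin d) F)) →
        FixP F d m x) ↔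
      ((2 * d) % 4 = 2 ∨ m % 4 = 0 ∨ Fintype.card F % 4 = 1))

/-! ## Arithmetic (pure `ℕ`) -/

/-- The right-hand side of the frozen statement for odd `r ≠ p`. -/
def RhsOdd (d m i c : ℕ) : Prop :=
  (Odd i ∧ c ≤ m ∧ m % c ≤ (2 * d) % c) ∨
  (Even i ∧
    (((2 * d) % c = 0 ∧ (Odd ((2 * d) / i) ∨ (m % c = 0 ∧ Even (m / i)))) ∨
     (i ≤ m ∧ ((m % c < (2 * d) % c ∧ 0 < m % c) ∨
               ((2 * d) % c = m % c ∧ 0 < m % c ∧
                 Even ((2 * d + m - 2 * ((2 * d) % c)) / i)) ∨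
               (0 < (2 * d) % c ∧ m % c = 0 ∧ Even (m / i))))))

/-- EP-ARBACK: the right-hand side gives, for every admissible number `A` of blocks, a shape
`(j, e)` of a fixed space. -/
def StArBack : Prop :=
  ∀ d m i c A : ℕ, 0 < i → c = (if Even i then i else 2 * i) → Even m → 2 ≤ m → m < d →
    RhsOdd d m i c → 1 ≤ A → c * A ≤ 2 * d → (c * A = 2 * d → (Odd i ∨ Even A)) →
    ∃ j e : ℕ, j ≤ A ∧ e ≤ 2 * d - c * A ∧ Even e ∧ c * j + e = m ∧
      (e = 0 → (Odd i ∨ Even j)) ∧ (e = 2 * d - c * A → e ≠ 0 → (Odd i ∨ Even (A - j)))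

/-- EP-ARFWD: if the right-hand side fails, either some admissible `A` admits no shape, or
`m < c` and some admissible fixed-space dimension `k₀ < c` has `m < k₀`, or `m = k₀` with the
fixed space of plus type (or `2 d < c`). -/
def StArFwd : Prop :=
  ∀ d m i c : ℕ, 0 < i → c = (if Even i then i else 2 * i) → Even m → 2 ≤ m → m < d → 4 ≤ d →
    ¬ RhsOdd d m i c →
    (∃ A : ℕ, 1 ≤ A ∧ c * A ≤ 2 * d ∧ (c * A = 2 * d → (Odd i ∨ Even A)) ∧
      ∀ j e : ℕ, j ≤ A → e ≤ 2 * d - c * A → c * j + e = m → (e = 0 → (Odd i ∨ Even j)) →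
        (e = 2 * d - c * A → e ≠ 0 → (Odd i ∨ Even (A - j))) → False) ∨
    (m < c ∧ (2 * d < c ∨
      ∃ A : ℕ, 1 ≤ A ∧ c * A ≤ 2 * d ∧ (c * A = 2 * d → (Odd i ∨ Even A)) ∧ 2 * d - c * A < c ∧
        (m < 2 * d - c * A ∨ (m = 2 * d - c * A ∧ (Odd i ∨ Even A)))))

end Cfsg.Agent.H48.Ep
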