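import Cfsg.Agent.H59.JzKillDefs
import Cfsg.Agent.H52.SrMain
import Cfsg.Agent.H48.JkConj
import Cfsg.Agent.H58.Q46.Final
import Cfsg.Agent.H29.JkTI
import Cfsg.Agent.H12.JkNV
import Cfsg.Agent.S2950
import Cfsg.Agent.Helper55.UqBase
import Cfsg.Agent.H51.JcNORM

set_option autoImplicit false

/-!
JZ-KILL piece K-CENT (S2951 / S2952): in the residual situation `RCtx`, `C_G(u) ≤ N_G(V)` for
every `1 ≠ u ∈ V = Ω₁Z(O₂(L))`.

Route: `|Ω₁Z(S)| = 2` (`StZ2` for the base `L`) gives the fixed-point hypothesis of helper52's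
structure theorem, so `V = ⨆ W_{K_i}` over the `S`-conjugates `K_i` of `K`; each `K_i` is
transitive on `W_{K_i} ∖ 1` and `Ω₁Z(J(S)) ∩ W_{K_i} ≠ 1` (S2946), so `u` is conjugate under
`⟨K_i⟩ ≤ L` to an element `u'` of `Ω₁Z(J(S))`; `C_G(u')` is a 2-local over `J(S)`, hence inside
`L`; and `L ≤ N_G(V)`.
-/

open Cfsg

namespace Cfsg.Agent.H48.Jk

open Cfsg.Agent.H64.Jz Cfsg.Agent.H59.JzK

universe u

/-- In a subgroup of order 2 every element is `1` or a given nontrivial element. -/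
theorem eq_one_or_of_card_two {G : Type u} [Group G] {Z : Subgroup G} (hc : Nat.card ↥Z = 2)
    {v : G} (hv : v ∈ Z) (hv1 : v ≠ 1) {z : G} (hz : z ∈ Z) : z = 1 ∨ z = v := by
  by_cases hz1 : z = 1
  · exact Or.inl hz1
  · right
    obtain ⟨y, -, hy⟩ := (Nat.card_eq_two_iff' (1 : ↥Z)).mp hc
    have h1 : (⟨z, hz⟩ : ↥Z) = y := hy _ (fun h => hz1 (congrArg Subtype.val h))
    have h2 : (⟨v, hv⟩ : ↥Z) = y := hy _ (fun h => hv1 (congrArg Subtype.val h))
    exact congrArg Subtype.val (h1.trans h2.symm)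

/-- A `J(T)`-component does not normalize a 2-group containing `J(T)`. -/
theorem not_le_normalizer_of_comp {G : Type u} [Group G] [Finite G] {T K S : Subgroup G}
    (hK : IsJComponent T K) (hJS : thompsonSubgroupOf 2 T ≤ S) (hS : IsPGroup 2 ↥S) :
    ¬ K ≤ Subgroup.normalizer (S : Set G) := by
  intro hKN
  have hKS : K ≤ S := by
    rw [← hK.2.1, Subgroup.commutator_le]
    intro k hk j hj
    have h1 := hKN hk
    rw [Subgroup.mem_normalizer_iff] at h1
    have h2 : k * j * k⁻¹ ∈ S := (h1 j).mp (hJS hj)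
    rw [commutatorElement_def]
    exact S.mul_mem h2 (S.inv_mem (hJS hj))
  have hK2 : IsPGroup 2 ↥K := hS.to_le hKS
  obtain ⟨n, hn⟩ := IsPGroup.iff_card.mp hK2
  have h3 : 3 ∣ Nat.card ↥K := by
    have := Subgroup.relIndex_dvd_card (pCoreOf 2 K) K
    rwa [hK.2.2.1] at this
  rw [hn] at h3
  have := Nat.Prime.dvd_of_dvd_pow Nat.prime_three h3
  omega

/-- The conjugation step: in `RCtx`, every element of `V = Ω₁Z(O₂(L))` is conjugate, under an
element of `L`, to an element of `V ⊓ Ω₁Z(J(S))`. -/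
theorem conjZ0 (hZ2 : StZ2.{u}) {G : Type u} [Group G] [Finite G] (S : Sylow 2 G)
    (M K L T' K' L' : Subgroup G) (hR : RCtx S M K L T' K' L') :
    ∀ u ∈ Vof L, ∃ l ∈ L, l * u * l⁻¹ ∈ Vof L ∧
      l * u * l⁻¹ ∈ omegaCenterOf (thompsonSubgroupOf 2 (S : Subgroup G)) := by
  intro u huV
  obtain ⟨hB, hX, hB', hne⟩ := hR
  have hcardZ : Nat.card ↥(omegaCenterOf (S : Subgroup G)) = 2 := hZ2 S L T' K' L' hB' hne
  obtain ⟨⟨hchar, hsol, hZN⟩, hO, hM, hMJ, hSmax, -, hK, hLmax, hKJL⟩ := hB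
  -- `L` is in the family of `S`
  obtain ⟨L0, -, -, huniq, -, -⟩ :=
    Cfsg.Agent.S2950.result hchar hsol hZN hO S M hM hMJ (S : Subgroup G) hSmax K hK
  have hLL0 : L = L0 := huniq L hLmax hKJL
  obtain ⟨L1, hL1max, hKS1, -, hov1, -⟩ :=
    Cfsg.Agent.Helper55.Uq.exists_max hchar hsol hZN S M hMJ (S : Subgroup G) hSmax K hK
  have hL1 : L1 = L0 := huniq L1 hL1max
    (sup_le (le_sup_left.trans hKS1)
      ((Cfsg.Agent.Helper55.ThJ.J_le (S : Subgroup G)).trans (le_sup_right.trans hKS1)))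
  have hov : L ∈ jOvergroups (S : Subgroup G) := by rw [hLL0, ← hL1]; exact hov1
  have hSyl : IsSylowTwoIn (S : Subgroup G) L := hov.1
  have hKL : K ≤ L := le_sup_left.trans hKJL
  have hKc : IsJComponent (S : Subgroup G) K := hK.1.1
  have hS2 : IsPGroup 2 ↥(S : Subgroup G) := S.isPGroup'
  have hS1 : (S : Subgroup G) ≠ ⊥ := hSmax.1.2.1
  obtain ⟨hLV, hexp, hVQ, hQL, -⟩ := Cfsg.Agent.H32.Sr.vng L
  have hQS : pCoreOf 2 L ≤ (S : Subgroup G) := Cfsg.Agent.Helper55.J48.pCoreOf_le_of_sylowIn hSyl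
  -- the fixed-point hypothesis of the structure theorem
  have hfix : ∀ v ∈ omegaCenterOf (pCoreOf 2 L),
      v ∈ Subgroup.centralizer ((S : Subgroup G) : Set G) →
      v ∈ Subgroup.centralizer (K : Set G) → v = 1 := by
    intro v hv hvS hvK
    by_contra hv1
    have hvZ : v ∈ omegaCenterOf (S : Subgroup G) := by
      unfold omegaCenterOf omegaOne
      apply Subgroup.subset_closure
      exact ⟨⟨hQS (hVQ hv), hvS⟩, by rw [pow_two]; exact hexp v hv⟩
    have hKcent : K ≤ Subgroup.centralizer (omegaCenterOf (S : Subgroup G) : Set G) := by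
      intro k hk
      rw [Subgroup.mem_centralizer_iff]
      intro z hz
      rcases eq_one_or_of_card_two hcardZ hvZ hv1 hz with h | h
      · rw [h]; simp
      · rw [h]
        exact ((Subgroup.mem_centralizer_iff.mp hvK) k hk).symm
    exact not_le_normalizer_of_comp hKc (Cfsg.Agent.Helper55.ThJ.J_le (S : Subgroup G)) hS2
      (hKcent.trans (hZN S))
  obtain ⟨hsup, -, h3, -, h5, h6⟩ :=
    Cfsg.Agent.H52.Sr.struct hchar hsol hZN (S : Subgroup G) hS2 hS1 L hov K hKc hKL hfix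
  -- `V` is abelian
  have hab : ∀ x ∈ omegaCenterOf (pCoreOf 2 L), ∀ y ∈ omegaCenterOf (pCoreOf 2 L),
      x * y = y * x := by
    intro x hx y hy
    have h1 := hexp (x * y) (Subgroup.mul_mem _ hx hy)
    have h2 := hexp x hx
    have h3' := hexp y hy
    calc x * y = x * (x * y * (x * y)) * y := by rw [h1, mul_one]
      _ = (x * x) * y * x * (y * y) := by group
      _ = y * x := by rw [h2, h3', one_mul, mul_one]
  have hWV : ∀ i : Cfsg.Agent.H52.Sr.Orb (S : Subgroup G) K,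
      wOf i.1 ≤ omegaCenterOf (pCoreOf 2 L) := fun i => hsup ▸ le_iSup (fun i :
        Cfsg.Agent.H52.Sr.Orb (S : Subgroup G) K => wOf i.1) i
  -- transitivity on each block
  have htrans : ∀ i : Cfsg.Agent.H52.Sr.Orb (S : Subgroup G) K, ∀ x ∈ wOf i.1,
      ∃ k ∈ i.1, k * x * k⁻¹ ∈
        omegaCenterOf (thompsonSubgroupOf 2 (S : Subgroup G)) ⊓ wOf i.1 := by
    intro i x hx
    by_cases hx1 : x = 1
    · refine ⟨1, Subgroup.one_mem _, ?_⟩
      rw [hx1]; simp
    · obtain ⟨hic, -, hi4⟩ := h3 i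
      have h46 := (Cfsg.Agent.H58.Q46.s2946 hchar hsol hZN (S : Subgroup G) hS2 hS1 i.1 hic
        (omegaCenterOf (thompsonSubgroupOf 2 (S : Subgroup G))) rfl).1
      have hnt : (omegaCenterOf (thompsonSubgroupOf 2 (S : Subgroup G)) ⊓ wOf i.1) ≠ ⊥ := by
        intro hb
        rw [hb] at h46
        simp at h46
      obtain ⟨w, hw1⟩ := (Subgroup.ne_bot_iff_exists_ne_one).mp hnt
      have hw1' : (w : G) ≠ 1 := fun h => hw1 (Subtype.ext h)
      have hKW : i.1 ≤ Subgroup.normalizer (wOf i.1 : Set G) := by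
        intro g hg
        rw [Subgroup.mem_normalizer_iff]
        have hn := Cfsg.Agent.H51.Jc.wOf_norm (K := i.1) (J := i.1) Subgroup.le_normalizer
        intro t
        constructor
        · intro ht
          exact hn g (Subgroup.mem_sup_left hg) t ht
        · intro ht
          have := hn g⁻¹ (Subgroup.mem_sup_left (Subgroup.inv_mem _ hg)) _ ht
          have e : g⁻¹ * (g * t * g⁻¹) * g⁻¹⁻¹ = t := by group
          rwa [e] at this
      obtain ⟨k, hk, hkx⟩ := trans_four hic.1 hKW hi4 (h6 i) hx hx1 w.2.2 hw1'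
      exact ⟨k, hk, by rw [hkx]; exact w.2⟩
  have hconj := conj_into_univ (fun i : Cfsg.Agent.H52.Sr.Orb (S : Subgroup G) K => i.1)
    (fun i : Cfsg.Agent.H52.Sr.Orb (S : Subgroup G) K => wOf i.1)
    (omegaCenterOf (thompsonSubgroupOf 2 (S : Subgroup G))) h5
    (fun i j x hx y hy => hab x (hWV i hx) y (hWV j hy)) htrans u (by rw [hsup]; exact huV)
  obtain ⟨l, hl, hlu⟩ := hconj
  have hlL : l ∈ L := (iSup_le fun i => (h3 i).2.1) hl
  rw [hsup] at hlu
  exact ⟨l, hlL, hlu.2, hlu.1⟩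

/-- `Ω₁Z(X) ≤ X ⊓ C(X)`. -/
theorem omegaCenterOf_le_inf' {G : Type u} [Group G] (X : Subgroup G) :
    omegaCenterOf X ≤ X ⊓ Subgroup.centralizer (X : Set G) := by
  unfold omegaCenterOf omegaOne
  rw [Subgroup.closure_le]
  intro x hx
  exact hx.1

/-- The conjugation step in the shape `Cfsg.Agent.H29.Jk.StConjCJ`. -/
theorem conjCJ (hZ2 : StZ2.{u}) : Cfsg.Agent.H29.Jk.StConjCJ.{u} := by
  intro G _ _ S M K L T' K' L' hR u hu
  obtain ⟨l, hl, -, hlZ⟩ := conjZ0 hZ2 S M K L T' K' L' hR u hu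
  exact ⟨l, hl, (omegaCenterOf_le_inf' _ hlZ).2⟩

/-- **K-CENT** (only `StZ2` is used; the hypothesis `a(T') ≠ a(S)` is not). -/
theorem kCent (hZ2 : StZ2.{u}) : StKCent.{u} := by
  intro G _ _ S M K L T' K' L' hR _ u huV hu1
  obtain ⟨l, hlL, hluV, hluZ⟩ := conjZ0 hZ2 S M K L T' K' L' hR u huV
  obtain ⟨hB, hX, hB', hne⟩ := hR
  obtain ⟨hLV, hexp, -, -, -⟩ := Cfsg.Agent.H32.Sr.vng L
  -- `u' = l u l⁻¹` is an involution of `Ω₁Z(J(S))`
  have hu'1 : l * u * l⁻¹ ≠ 1 := by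
    intro h
    apply hu1
    have : u = l⁻¹ * (l * u * l⁻¹) * l := by group
    rw [this, h]; group
  have hu'2 : l * u * l⁻¹ * (l * u * l⁻¹) = 1 := hexp _ hluV
  have h2loc := centralizer_twoLocal hu'2 hu'1
  have hJc : thompsonSubgroupOf 2 (S : Subgroup G) ≤
      Subgroup.centralizer ({l * u * l⁻¹} : Set G) := by
    have hc := (omegaCenterOf_le_inf' _ hluZ).2
    intro j hj
    rw [Subgroup.mem_centralizer_iff]
    intro t ht
    rw [Set.mem_singleton_iff] at ht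
    subst ht
    exact ((Subgroup.mem_centralizer_iff.mp hc) j hj).symm
  have hCL : Subgroup.centralizer ({l * u * l⁻¹} : Set G) ≤ L := hX _ h2loc hJc
  intro c hc
  apply hLV
  have hc' : l * c * l⁻¹ ∈ Subgroup.centralizer ({l * u * l⁻¹} : Set G) := by
    rw [Subgroup.mem_centralizer_iff]
    intro t ht
    rw [Set.mem_singleton_iff] at ht
    subst ht
    have hcu : u * c = c * u := (Subgroup.mem_centralizer_iff.mp hc) u (Set.mem_singleton u)
    calc l * u * l⁻¹ * (l * c * l⁻¹) = l * (u * c) * l⁻¹ := by group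
      _ = l * (c * u) * l⁻¹ := by rw [hcu]
      _ = l * c * l⁻¹ * (l * u * l⁻¹) := by group
  have h1 : l * c * l⁻¹ ∈ L := hCL hc'
  have : c = l⁻¹ * (l * c * l⁻¹) * l := by group
  rw [this]
  exact L.mul_mem (L.mul_mem (L.inv_mem hlL) h1) hlL

/-- **K-TI** (only `StZ2` is used), via helper29's reduction and helper12's K-NV. -/
theorem kTI (hZ2 : StZ2.{u}) : StKTI.{u} :=
  Cfsg.Agent.H29.Jk.kTI_of (conjCJ hZ2) (kCent hZ2) Cfsg.Agent.H12.Jk.kNV

example (hZ2 : StZ2.{u}) : StKCent.{u} := kCent.{u} hZ2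
example (hZ2 : StZ2.{u}) : StKTI.{u} := kTI.{u} hZ2
example (hZ2 : StZ2.{u}) : Cfsg.Agent.H29.Jk.StConjCJ.{u} := conjCJ.{u} hZ2


end Cfsg.Agent.H48.Jk
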