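import Cfsg.Agent.H59.JzKillDefs
import Cfsg.Agent.H52.SrMain
import Cfsg.Agent.H48.JkConj
import Cfsg.Agent.H48.JkCent
import Cfsg.Agent.H58.Q46.Final
import Cfsg.Agent.H12.JkNV
import Cfsg.Agent.S2950
import Cfsg.Agent.Helper55.UqBase
import Cfsg.Agent.H51.JcNORM
import Cfsg.Agent.H52.JzKill
import Cfsg.Agent.H64.JzFinal
import Cfsg.Agent.H61.JkBasic

set_option autoImplicit false

/-!
S2953 (team project JY), interface piece "V-FACTS" of the kill of the last configuration: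
`T = S`, `N_G(S) ≤ L`, and `(T', K', L')` a configuration for the base `L` with `T' < S`.
Then `V = Ω₁Z(O₂(L))` is a four-group with `N_G(V) = L`, `Ω₁Z(S) = {1, z}` with `z ∈ V`,
`K` is transitive on `V ∖ 1`, `C_G(u) ≤ L` for `1 ≠ u ∈ V`, and `V` is a TI-subgroup.
-/

open Cfsg

namespace Cfsg.Agent.H48.Jy

open Cfsg.Agent.H64.Jz Cfsg.Agent.H59.JzK

universe u

theorem vfacts {G : Type u} [Group G] [Finite G] (S : Sylow 2 G) (M K L T' K' L' : Subgroup G)
    (hB : Base S M (S : Subgroup G) K L)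
    (hNS : Subgroup.normalizer ((S : Subgroup G) : Set G) ≤ L)
    (hB' : Base S L T' K' L') (hne : T' ≠ (S : Subgroup G)) :
    Nat.card ↥(omegaCenterOf (pCoreOf 2 L)) = 4 ∧
    (∀ v ∈ omegaCenterOf (pCoreOf 2 L), v * v = 1) ∧
    Subgroup.normalizer (omegaCenterOf (pCoreOf 2 L) : Set G) = L ∧
    (∃ z ∈ omegaCenterOf (pCoreOf 2 L), z ≠ 1 ∧ z ∈ omegaCenterOf (S : Subgroup G) ∧
      z ∈ pCoreOf 2 L' ∧
      (∀ y ∈ omegaCenterOf (S : Subgroup G), y = 1 ∨ y = z) ∧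
      ∀ u ∈ omegaCenterOf (pCoreOf 2 L), u ≠ 1 → ∃ k ∈ K, k * u * k⁻¹ = z) ∧
    (∀ u ∈ omegaCenterOf (pCoreOf 2 L), u ≠ 1 → Subgroup.centralizer ({u} : Set G) ≤ L) ∧
    (∀ g : G, omegaCenterOf (pCoreOf 2 L) ⊓
        (omegaCenterOf (pCoreOf 2 L)).map (MulAut.conj g).toMonoidHom ≠ ⊥ → g ∈ L) := by
  have hcardZ : Nat.card ↥(omegaCenterOf (S : Subgroup G)) = 2 :=
    Cfsg.Agent.H52.JzKill.z2 S L T' K' L' hB' hne
  have hSK : (S : Subgroup G) ≤ Subgroup.normalizer (K : Set G) :=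
    Cfsg.Agent.H52.JzKill.norm S M (S : Subgroup G) K L hB
      (Cfsg.Agent.H64.Jz.stMain S M (S : Subgroup G) K L hB)
  obtain ⟨-, hSylT'⟩ := Cfsg.Agent.H61.Jk.base_facts S L T' K' L' hB'
  have hL'max : IsMaximalTwoLocal L' := hB'.2.2.2.2.2.2.2.1
  have hT'S : T' ≤ (S : Subgroup G) := hB'.2.2.2.2.2.1
  obtain ⟨⟨hchar, hsol, hZN⟩, hO, hM, hMJ, hSmax, -, hK, hLmax, hKJL⟩ := hB
  -- `L` is in the family of `S`
  obtain ⟨L0, -, -, huniq, -, -⟩ :=
    Cfsg.Agent.S2950.result hchar hsol hZN hO S M hM hMJ (S : Subgroup G) hSmax K hK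
  have hLL0 : L = L0 := huniq L hLmax hKJL
  obtain ⟨L1, hL1max, hKS1, -, hov1, -⟩ :=
    Cfsg.Agent.Helper55.Uq.exists_max hchar hsol hZN S M hMJ (S : Subgroup G) hSmax K hK
  have hL1 : L1 = L0 := huniq L1 hL1max
    (sup_le (le_sup_left.trans hKS1)
      ((Cfsg.Agent.Helper55.ThJ.J_le (S : Subgroup G)).trans (le_sup_right.trans hKS1)))
  have hov : L ∈ jOvergroups (S : Subgroup G) := by rw [hLL0, ← hL1]; exact hov1
  have hSyl : IsSylowTwoIn (S : Subgroup G) L := hov.1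
  have hSL : (S : Subgroup G) ≤ L := hSyl.1
  have hKL : K ≤ L := le_sup_left.trans hKJL
  have hKc : IsJComponent (S : Subgroup G) K := hK.1.1
  have hS2 : IsPGroup 2 ↥(S : Subgroup G) := S.isPGroup'
  have hS1 : (S : Subgroup G) ≠ ⊥ := hSmax.1.2.1
  obtain ⟨hLV, hexp, hVQ, hQL, -⟩ := Cfsg.Agent.H32.Sr.vng L
  have hQS : pCoreOf 2 L ≤ (S : Subgroup G) := Cfsg.Agent.Helper55.J48.pCoreOf_le_of_sylowIn hSyl
  -- the fixed-point hypothesis of the structure theorem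
  have hfix : ∀ v ∈ omegaCenterOf (pCoreOf 2 L),
      v ∈ Subgroup.centralizer ((S : Subgroup G) : Set G) →
      v ∈ Subgroup.centralizer (K : Set G) → v = 1 := by
    intro v hv hvS hvK
    by_contra hv1
    have hvZ : v ∈ omegaCenterOf (S : Subgroup G) := by
      unfold omegaCenterOf omegaOne
      apply Subgroup.subset_closure
      exact ⟨⟨hQS (hVQ hv), hvS⟩, by rw [pow_two]; exact hexp v hv⟩
    have hKcent : K ≤ Subgroup.centralizer (omegaCenterOf (S : Subgroup G) : Set G) := by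
      intro k hk
      rw [Subgroup.mem_centralizer_iff]
      intro z hz
      rcases Cfsg.Agent.H48.Jk.eq_one_or_of_card_two hcardZ hvZ hv1 hz with h | h
      · rw [h]; simp
      · rw [h]
        exact ((Subgroup.mem_centralizer_iff.mp hvK) k hk).symm
    exact Cfsg.Agent.H48.Jk.not_le_normalizer_of_comp hKc
      (Cfsg.Agent.Helper55.ThJ.J_le (S : Subgroup G)) hS2 (hKcent.trans (hZN S))
  obtain ⟨hsup, -, h3, -, h5, h6⟩ :=
    Cfsg.Agent.H52.Sr.struct hchar hsol hZN (S : Subgroup G) hS2 hS1 L hov K hKc hKL hfix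
  -- the orbit of `K` under `S` is `{K}`
  have horb : ∀ i : Cfsg.Agent.H52.Sr.Orb (S : Subgroup G) K, i.1 = K := by
    rintro ⟨K1, t, ht, rfl⟩
    show K.map (MulAut.conj t).toMonoidHom = K
    have htN := hSK ht
    apply le_antisymm
    · rintro x ⟨k, hk, rfl⟩
      exact (Subgroup.mem_normalizer_iff.mp htN k).mp hk
    · intro x hx
      refine ⟨t⁻¹ * x * t, ?_, ?_⟩
      · have := (Subgroup.mem_normalizer_iff.mp (Subgroup.inv_mem _ htN) x).mp hx
        simpa using this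
      · show t * (t⁻¹ * x * t) * t⁻¹ = x
        group
  have hi0 : ∃ t ∈ (S : Subgroup G), K = K.map (MulAut.conj t).toMonoidHom := by
    refine ⟨1, Subgroup.one_mem _, ?_⟩
    ext x
    simp
  let i0 : Cfsg.Agent.H52.Sr.Orb (S : Subgroup G) K := ⟨K, hi0⟩
  have hVW : omegaCenterOf (pCoreOf 2 L) = wOf K := by
    rw [← hsup]
    apply le_antisymm
    · exact iSup_le fun i => by rw [horb i]
    · exact le_iSup (fun i : Cfsg.Agent.H52.Sr.Orb (S : Subgroup G) K => wOf i.1) i0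
  have hcard4 : Nat.card ↥(wOf K) = 4 := (h3 i0).2.2
  have hfixK : wOf K ⊓ Subgroup.centralizer (K : Set G) = ⊥ := h6 i0
  have hKW : K ≤ Subgroup.normalizer (wOf K : Set G) := by
    rw [← hVW]
    exact hKL.trans hLV
  -- the central involution
  obtain ⟨z, hzS, hzC, hz2, hz1⟩ :=
    Cfsg.Agent.H61.Jk.exists_central_involution (S : Subgroup G) S.isPGroup' hS1
  have hQ'S : pCoreOf 2 L' ≤ S :=
    (Cfsg.Agent.Helper55.J48.pCoreOf_le_of_sylowIn hSylT').trans hT'S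
  have hzCQ : z ∈ Subgroup.centralizer (pCoreOf 2 L : Set G) :=
    Subgroup.centralizer_le (by exact_mod_cast hQS) hzC
  have hzCQ' : z ∈ Subgroup.centralizer (pCoreOf 2 L' : Set G) :=
    Subgroup.centralizer_le (by exact_mod_cast hQ'S) hzC
  have hzQ : z ∈ pCoreOf 2 L := Cfsg.Agent.Helper55.J48.centralizer_pCoreOf_le hchar hLmax.1 hzCQ
  have hzQ' : z ∈ pCoreOf 2 L' :=
    Cfsg.Agent.Helper55.J48.centralizer_pCoreOf_le hchar hL'max.1 hzCQ'
  have hzV : z ∈ omegaCenterOf (pCoreOf 2 L) :=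
    Cfsg.Agent.H63.Sn.omegaCenterOf_mem _ hzQ hzCQ (by rw [pow_two]; exact hz2)
  have hzZ : z ∈ omegaCenterOf (S : Subgroup G) :=
    Cfsg.Agent.H63.Sn.omegaCenterOf_mem _ hzS hzC (by rw [pow_two]; exact hz2)
  have hZall : ∀ y ∈ omegaCenterOf (S : Subgroup G), y = 1 ∨ y = z := fun y hy =>
    Cfsg.Agent.H48.Jk.eq_one_or_of_card_two hcardZ hzZ hz1 hy
  -- transitivity
  have htr : ∀ u ∈ omegaCenterOf (pCoreOf 2 L), u ≠ 1 → ∃ k ∈ K, k * u * k⁻¹ = z := by
    intro u hu hu1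
    exact Cfsg.Agent.H48.Jk.trans_four hKc.1 hKW hcard4 hfixK (hVW ▸ hu) hu1 (hVW ▸ hzV) hz1
  -- `C_G(z) ≤ L`
  have hCz : Subgroup.centralizer ({z} : Set G) ≤ L := by
    intro c hc
    apply hNS
    apply hZN S
    rw [Subgroup.mem_centralizer_iff]
    intro y hy
    rcases hZall y hy with h | h
    · rw [h]; simp
    · rw [h]
      exact (Subgroup.mem_centralizer_iff.mp hc) z (Set.mem_singleton z)
  have hCent : ∀ u ∈ omegaCenterOf (pCoreOf 2 L), u ≠ 1 →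
      Subgroup.centralizer ({u} : Set G) ≤ L := by
    intro u hu hu1 c hc
    obtain ⟨k, hk, hku⟩ := htr u hu hu1
    have hcu : u * c = c * u := (Subgroup.mem_centralizer_iff.mp hc) u (Set.mem_singleton u)
    have hc' : k * c * k⁻¹ ∈ Subgroup.centralizer ({z} : Set G) := by
      rw [Subgroup.mem_centralizer_iff]
      intro t ht
      rw [Set.mem_singleton_iff] at ht
      subst ht
      rw [← hku]
      calc k * u * k⁻¹ * (k * c * k⁻¹) = k * (u * c) * k⁻¹ := by group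
        _ = k * (c * u) * k⁻¹ := by rw [hcu]
        _ = k * c * k⁻¹ * (k * u * k⁻¹) := by group
    have h1 : k * c * k⁻¹ ∈ L := hCz hc'
    have : c = k⁻¹ * (k * c * k⁻¹) * k := by group
    rw [this]
    exact L.mul_mem (L.mul_mem (L.inv_mem (hKL hk)) h1) (hKL hk)
  refine ⟨by rw [hVW]; exact hcard4, hexp,
    (Cfsg.Agent.H12.Jk.normalizer_Vof_eq hLmax).2.2,
    ⟨z, hzV, hz1, hzZ, hzQ', hZall, htr⟩, hCent, ?_⟩
  -- TI
  intro g hg
  obtain ⟨a, ha1⟩ := (Subgroup.ne_bot_iff_exists_ne_one).mp hg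
  have ha1' : (a : G) ≠ 1 := fun h => ha1 (Subtype.ext h)
  have haV : (a : G) ∈ omegaCenterOf (pCoreOf 2 L) := a.2.1
  obtain ⟨b, hbV, hba⟩ := a.2.2
  have hba' : g * b * g⁻¹ = (a : G) := hba
  have hb1 : b ≠ 1 := by
    intro h
    apply ha1'
    rw [← hba', h]; group
  obtain ⟨k, hk, hka⟩ := htr a haV ha1'
  obtain ⟨k', hk', hkb⟩ := htr b hbV hb1
  have hc : k * g * k'⁻¹ ∈ Subgroup.centralizer ({z} : Set G) := by
    rw [Subgroup.mem_centralizer_iff]
    intro t ht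
    rw [Set.mem_singleton_iff] at ht
    subst ht
    have e1 : k * g * k'⁻¹ * t = k * (g * b * g⁻¹) * k⁻¹ * (k * g * k'⁻¹) := by
      rw [← hkb]; group
    rw [e1, hba', hka]
  have h1 : k * g * k'⁻¹ ∈ L := hCz hc
  have : g = k⁻¹ * (k * g * k'⁻¹) * k' := by group
  rw [this]
  exact L.mul_mem (L.mul_mem (L.inv_mem (hKL hk)) h1) (hKL hk')

end Cfsg.Agent.H48.Jy
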