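import Cfsg.Agent.H48.PrimeOrdSp
import Cfsg.Agent.H17.GUDet

/-!
# Classes of elements of odd prime order `r ≠ p` in `GU_n(q)`

The twisted-dual bookkeeping for the irreducible factors of the `r`-th cyclotomic polynomial
over the field with `q ^ 2` elements.
-/

set_option autoImplicit false

namespace Cfsg.Agent.H48

open Polynomial UniqueFactorizationMonoid

section Dual

variable {F : Type*} [Field F]

/-- `g` is the `σ`-dual polynomial of `f` up to a non-zero constant. -/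
def DualRel (σ : F →+* F) (f g : F[X]) : Prop :=
  ∃ u : F, u ≠ 0 ∧ Cfsg.Agent.H45.dualPoly σ f = C u * g

theorem DualRel.mul {σ : F →+* F} {f₁ f₂ g₁ g₂ : F[X]} (h₁ : DualRel σ f₁ g₁)
    (h₂ : DualRel σ f₂ g₂) : DualRel σ (f₁ * f₂) (g₁ * g₂) := by
  obtain ⟨u, hu, e₁⟩ := h₁
  obtain ⟨v, hv, e₂⟩ := h₂
  refine ⟨u * v, mul_ne_zero hu hv, ?_⟩
  rw [Cfsg.Agent.H45.dualPoly_mul, e₁, e₂, C_mul]
  ring

theorem dualPoly_one (σ : F →+* F) : Cfsg.Agent.H45.dualPoly σ (1 : F[X]) = 1 := by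
  have h := Cfsg.Agent.H45.dualPoly_C σ (1 : F)
  rw [map_one σ, C_1] at h
  exact h

theorem DualRel.one (σ : F →+* F) : DualRel σ (1 : F[X]) 1 :=
  ⟨1, one_ne_zero, by rw [dualPoly_one, C_1, one_mul]⟩

theorem DualRel.pow {σ : F →+* F} {f g : F[X]} (h : DualRel σ f g) (k : ℕ) :
    DualRel σ (f ^ k) (g ^ k) := by
  induction k with
  | zero => simpa using (DualRel.one σ)
  | succ k ih =>
    rw [pow_succ, pow_succ]
    exact ih.mul h

theorem DualRel.prod {σ : F →+* F} {ι : Type*} (s : Finset ι) (f g : ι → F[X])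
    (h : ∀ j ∈ s, DualRel σ (f j) (g j)) : DualRel σ (∏ j ∈ s, f j) (∏ j ∈ s, g j) := by
  classical
  induction s using Finset.induction_on with
  | empty => simpa using (DualRel.one σ)
  | insert a s ha ih =>
    rw [Finset.prod_insert ha, Finset.prod_insert ha]
    exact (h a (Finset.mem_insert_self a s)).mul
      (ih (fun j hj => h j (Finset.mem_insert_of_mem hj)))

theorem dualRel_X_sub_one (σ : F →+* F) : DualRel σ (X - 1 : F[X]) (X - 1) := by
  refine ⟨-1, by simp, ?_⟩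
  have h := reverse_X_pow_sub_one (F := F) 1 one_pos
  rw [pow_one] at h
  rw [Cfsg.Agent.H45.dualPoly_eq_reverse, Polynomial.map_sub, Polynomial.map_X,
    Polynomial.map_one, h, C_neg, C_1]
  ring

theorem dual_facPoly (σ : F →+* F) (Φ : Finset F[X]) (star : Φ → Φ)
    (hstar : ∀ P : Φ, DualRel σ (P : F[X]) (star P : F[X])) (hinv : Function.Involutive star)
    (c : ℕ) (a : Φ → ℕ) :
    DualRel σ (facPoly (X - 1) Φ c a) (facPoly (X - 1) Φ c (fun P => a (star P))) := by
  unfold facPoly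
  apply DualRel.mul ((dualRel_X_sub_one σ).pow c)
  have h1 : ∏ P : Φ, (P : F[X]) ^ a (star P) = ∏ P : Φ, (star P : F[X]) ^ a P := by
    rw [← Equiv.prod_comp (hinv.toPerm star) (fun P : Φ => (P : F[X]) ^ a (star P))]
    apply Finset.prod_congr rfl
    intro P _
    simp [hinv P]
  rw [h1]
  exact DualRel.prod _ _ _ (fun P _ => (hstar P).pow _)

theorem dualPoly_cyclotomic_prime (σ : F →+* F) (r : ℕ) (hr : r.Prime) :
    Cfsg.Agent.H45.dualPoly σ (cyclotomic r F) = cyclotomic r F := by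
  rw [Cfsg.Agent.H45.dualPoly_eq_reverse, map_cyclotomic, cyclotomic_prime_reverse r hr]

end Dual

section NT

theorem mod_four_of_pow (r : ℕ) [Fact r.Prime] (hr2 : r ≠ 2) (x : ZMod r) (hx : x ≠ 0) (j : ℕ)
    (h : x ^ (2 * j) = -x) : orderOf x % 4 = 2 := by
  have hr : r.Prime := Fact.out
  have hne : (-1 : ZMod r) ≠ 1 := by
    intro h1
    have h2 : ((2 : ℕ) : ZMod r) = 0 := by
      push_cast
      linear_combination -h1
    rw [ZMod.natCast_eq_zero_iff] at h2
    exact hr2 ((Nat.prime_dvd_prime_iff_eq hr Nat.prime_two).mp h2)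
  rcases j with _ | k
  · rw [mul_zero, pow_zero] at h
    have hx1 : x = -1 := by rw [h, neg_neg]
    have h2 : orderOf x = 2 := by
      haveI : Fact (Nat.Prime 2) := ⟨Nat.prime_two⟩
      apply orderOf_eq_prime
      · rw [hx1]; ring
      · rw [hx1]; exact hne
    rw [h2]
  · have he : x ^ (2 * k + 1) = -1 := by
      have h1 : x * x ^ (2 * k + 1) = x * (-1) := by
        rw [← pow_succ', mul_neg_one, ← h]
        congr 1
      exact mul_left_cancel₀ hx h1
    have h1 : orderOf x ∣ 2 * (2 * k + 1) := by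
      apply orderOf_dvd_of_pow_eq_one
      rw [mul_comm, pow_mul, he]
      ring
    have h2 : ¬ orderOf x ∣ 2 * k + 1 := by
      intro hd
      have := orderOf_dvd_iff_pow_eq_one.mp hd
      rw [he] at this
      exact hne this
    rcases Nat.even_or_odd (orderOf x) with ⟨i', hi'⟩ | hodd
    · obtain ⟨t, ht⟩ := h1
      have h3 : 2 * k + 1 = i' * t := by
        have h4 : 2 * (2 * k + 1) = 2 * (i' * t) := by
          rw [ht, hi']
          ring
        exact Nat.eq_of_mul_eq_mul_left (by norm_num) h4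
      have h5 : Odd (i' * t) := by
        rw [← h3]
        exact ⟨k, rfl⟩
      obtain ⟨u, hu⟩ := (Nat.odd_mul.mp h5).1
      omega
    · exfalso
      apply h2
      exact (Nat.Coprime.dvd_of_dvd_mul_left (Nat.coprime_two_right.mpr hodd) h1)

theorem pow_half_of_mod_four (r : ℕ) [Fact r.Prime] (x : ZMod r) (h : orderOf x % 4 = 2) :
    x ^ (orderOf x / 2) = -1 ∧ Odd (orderOf x / 2) := by
  constructor
  · have hsq : x ^ (orderOf x / 2) * x ^ (orderOf x / 2) = 1 := by
      rw [← pow_add]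
      have h2 : orderOf x / 2 + orderOf x / 2 = orderOf x := by omega
      rw [h2, pow_orderOf_eq_one]
    rcases mul_self_eq_one_iff.mp hsq with h1 | h1
    · exfalso
      have h2 := orderOf_dvd_of_pow_eq_one h1
      have h3 := Nat.le_of_dvd (by omega) h2
      omega
    · exact h1
  · rw [Nat.odd_iff]
    omega

end NT

section Frob

variable {K : Type*} [Field K] [Fintype K]

theorem aeval_pow_q_map {q : ℕ} (hK : Fintype.card K = q ^ 2) (σ : K →+* K)
    (hσq : ∀ x, σ x = x ^ q) {L : Type*} [Field L] [Algebra K L] (P : K[X]) (y : L) :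
    aeval (y ^ q) (P.map σ) = (aeval y P) ^ q := by
  obtain ⟨p, m, hp, hchar, hqm⟩ := Cfsg.Agent.H17.exists_char_pow hK
  haveI := hchar
  haveI : Fact p.Prime := ⟨hp⟩
  haveI : CharP L p := charP_of_injective_algebraMap (algebraMap K L).injective p
  have h1 := Polynomial.hom_eval₂ P (algebraMap K L) (iterateFrobenius L p m) y
  have h2 : (iterateFrobenius L p m).comp (algebraMap K L) = (algebraMap K L).comp σ := by
    ext a
    rw [RingHom.comp_apply, RingHom.comp_apply, iterateFrobenius_def, hσq, map_pow, hqm]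
  rw [iterateFrobenius_def, iterateFrobenius_def, h2, ← hqm] at h1
  rw [aeval_def, aeval_def, eval₂_map]
  exact h1.symm

/-- If `q ^ e ≡ -1` modulo `r` with `e` odd, every irreducible factor of `X ^ r - 1` over the
field with `q ^ 2` elements divides its own twisted dual. -/
theorem dvd_dualPoly_of_odd {q : ℕ} (hK : Fintype.card K = q ^ 2) (σ : K →+* K)
    (hσq : ∀ x, σ x = x ^ q) (r e : ℕ) (he : Odd e) (hre : r ∣ q ^ e + 1) (P : K[X])
    (hP : Irreducible P) (hPd : P ∣ X ^ r - 1) : P ∣ Cfsg.Agent.H45.dualPoly σ P := by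
  have hq := Cfsg.Agent.H17.two_le_of_card_sq hK
  have hfact : Fact (Irreducible P) := ⟨hP⟩
  have h0 : aeval (AdjoinRoot.root P) P = 0 := by
    rw [AdjoinRoot.aeval_eq, AdjoinRoot.mk_self]
  have hxr : (AdjoinRoot.root P) ^ r = 1 := by
    have h1 : aeval (AdjoinRoot.root P) (X ^ r - 1 : K[X]) = 0 := by
      rw [AdjoinRoot.aeval_eq, AdjoinRoot.mk_eq_zero]
      exact hPd
    simpa [sub_eq_zero] using h1
  have hfrob : ∀ y : AdjoinRoot P, aeval y P = 0 → aeval (y ^ (q ^ 2)) P = 0 := by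
    intro y hy
    rw [← expand_aeval, ← hK, FiniteField.expand_card, map_pow, hy, zero_pow]
    exact Fintype.card_ne_zero
  have hpow : ∀ j : ℕ, aeval ((AdjoinRoot.root P) ^ ((q ^ 2) ^ j)) P = 0 := by
    intro j
    induction j with
    | zero => simpa using h0
    | succ j ih =>
      rw [pow_succ, pow_mul]
      exact hfrob _ ih
  obtain ⟨k, hk⟩ := he
  have h1 : aeval (((AdjoinRoot.root P) ^ ((q ^ 2) ^ k)) ^ q) (P.map σ) = 0 := by
    rw [aeval_pow_q_map hK σ hσq, hpow k, zero_pow (by omega)]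
  have h2 : ((AdjoinRoot.root P) ^ ((q ^ 2) ^ k)) ^ q = (AdjoinRoot.root P) ^ (q ^ e) := by
    rw [← pow_mul, hk]
    congr 1
    ring
  rw [h2] at h1
  obtain ⟨t, ht⟩ := hre
  have hinv : (AdjoinRoot.root P) ^ (q ^ e) * AdjoinRoot.root P = 1 := by
    rw [← pow_succ, ht, pow_mul, hxr, one_pow]
  letI : Invertible ((AdjoinRoot.root P) ^ (q ^ e)) :=
    ⟨AdjoinRoot.root P, by rw [mul_comm]; exact hinv, hinv⟩
  have h3 := (eval₂_reverse_eq_zero_iff (algebraMap K (AdjoinRoot P))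
    ((AdjoinRoot.root P) ^ (q ^ e)) (P.map σ)).mpr (by rw [← aeval_def]; exact h1)
  have h4 : aeval (AdjoinRoot.root P) (Cfsg.Agent.H45.dualPoly σ P) = 0 := by
    rw [Cfsg.Agent.H45.dualPoly_eq_reverse]
    exact h3
  rw [AdjoinRoot.aeval_eq, AdjoinRoot.mk_eq_zero] at h4
  exact h4

/-- If an irreducible factor `P` of the `r`-th cyclotomic polynomial over the field with `q ^ 2`
elements is its own twisted dual, then `(q ^ 2) ^ j ≡ -q` modulo `r` for some `j`. -/
theorem exists_pow_of_dual_self {q : ℕ} (hK : Fintype.card K = q ^ 2) (σ : K →+* K)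
    (hσq : ∀ x, σ x = x ^ q) (r : ℕ) (hr : r.Prime) (P : K[X]) (hP : Irreducible P)
    (hPm : P.Monic) (hPd : P ∣ X ^ r - 1) (h1P : P.eval 1 ≠ 0)
    (hdeg : P.natDegree = orderOf ((q ^ 2 : ℕ) : ZMod r)) (u : K) (hu : u ≠ 0)
    (hdual : Cfsg.Agent.H45.dualPoly σ P = C u * P) : ∃ j : ℕ, r ∣ (q ^ 2) ^ j + q := by
  classical
  have hq := Cfsg.Agent.H17.two_le_of_card_sq hK
  haveI : Fact r.Prime := ⟨hr⟩
  have hfact : Fact (Irreducible P) := ⟨hP⟩
  obtain ⟨θ, hθ⟩ : ∃ θ : AdjoinRoot P, θ = AdjoinRoot.root P := ⟨_, rfl⟩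
  have h0 : aeval θ P = 0 := by
    rw [hθ, AdjoinRoot.aeval_eq, AdjoinRoot.mk_self]
  have hxr : θ ^ r = 1 := by
    have h1 : aeval θ (X ^ r - 1 : K[X]) = 0 := by
      rw [hθ, AdjoinRoot.aeval_eq, AdjoinRoot.mk_eq_zero]
      exact hPd
    simpa [sub_eq_zero] using h1
  have hθ1 : θ ≠ 1 := by
    intro h1
    rw [h1] at h0
    have h2 : aeval (algebraMap K (AdjoinRoot P) 1) P = 0 := by rw [map_one]; exact h0
    rw [aeval_algebraMap_apply_eq_algebraMap_eval, map_eq_zero] at h2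
    exact h1P h2
  have hord : orderOf θ = r := orderOf_eq_prime hxr hθ1
  have hθ0 : θ ≠ 0 := by
    intro h
    rw [h, zero_pow hr.ne_zero] at hxr
    exact zero_ne_one hxr
  have hfrob : ∀ y : AdjoinRoot P, aeval y P = 0 → aeval (y ^ (q ^ 2)) P = 0 := by
    intro y hy
    rw [← expand_aeval, ← hK, FiniteField.expand_card, map_pow, hy, zero_pow]
    exact Fintype.card_ne_zero
  have hpow : ∀ j : ℕ, aeval (θ ^ ((q ^ 2) ^ j)) P = 0 := by
    intro j
    induction j with
    | zero => simpa using h0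
    | succ j ih =>
      rw [pow_succ, pow_mul]
      exact hfrob _ ih
  -- the twisted inverse of the root is a root
  have h1 : aeval (θ ^ q) (P.map σ) = 0 := by
    rw [aeval_pow_q_map hK σ hσq, h0, zero_pow (by omega)]
  have hθq : θ ^ q ≠ 0 := pow_ne_zero _ hθ0
  letI : Invertible (θ ^ q) := invertibleOfNonzero hθq
  have h3 := (eval₂_reverse_eq_zero_iff (algebraMap K (AdjoinRoot P)) (θ ^ q) (P.map σ)).mpr
    (by rw [← aeval_def]; exact h1)
  have h4 : aeval ((θ ^ q)⁻¹) P = 0 := by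
    have h5 : aeval ((θ ^ q)⁻¹) (Cfsg.Agent.H45.dualPoly σ P) = 0 := by
      rw [Cfsg.Agent.H45.dualPoly_eq_reverse, ← invOf_eq_inv]
      exact h3
    rw [hdual, map_mul, aeval_C] at h5
    rcases mul_eq_zero.mp h5 with h6 | h6
    · rw [map_eq_zero] at h6
      exact absurd h6 hu
    · exact h6
  -- the root set
  have hmap0 : P.map (algebraMap K (AdjoinRoot P)) ≠ 0 :=
    (hPm.map (algebraMap K (AdjoinRoot P))).ne_zero
  have hroot : ∀ y : AdjoinRoot P, aeval y P = 0 →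
      y ∈ (P.map (algebraMap K (AdjoinRoot P))).roots.toFinset := by
    intro y hy
    rw [Multiset.mem_toFinset, mem_roots hmap0, IsRoot, eval_map, ← aeval_def]
    exact hy
  obtain ⟨S, hS⟩ : ∃ S : Finset (AdjoinRoot P),
      S = (Finset.range P.natDegree).image (fun j => θ ^ ((q ^ 2) ^ j)) := ⟨_, rfl⟩
  have hSsub : S ⊆ (P.map (algebraMap K (AdjoinRoot P))).roots.toFinset := by
    intro y hy
    rw [hS, Finset.mem_image] at hy
    obtain ⟨j, -, rfl⟩ := hy
    exact hroot _ (hpow j)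
  have hScard : S.card = P.natDegree := by
    rw [hS, Finset.card_image_of_injOn, Finset.card_range]
    intro j hj j' hj' hjj
    simp only [Finset.coe_range, Set.mem_Iio] at hj hj'
    have h5' : θ ^ ((q ^ 2) ^ j) = θ ^ ((q ^ 2) ^ j') := hjj
    have h5'' : (Units.mk0 θ hθ0) ^ ((q ^ 2) ^ j) = (Units.mk0 θ hθ0) ^ ((q ^ 2) ^ j') := by
      apply Units.ext
      rw [Units.val_pow_eq_pow_val, Units.val_pow_eq_pow_val, Units.val_mk0]
      exact h5'
    have hordu : orderOf (Units.mk0 θ hθ0) = r := by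
      rw [← orderOf_units, Units.val_mk0, hord]
    have h5 := pow_eq_pow_iff_modEq.mp h5''
    rw [hordu] at h5
    have h6 : (((q ^ 2 : ℕ) : ZMod r)) ^ j = (((q ^ 2 : ℕ) : ZMod r)) ^ j' := by
      have := (ZMod.natCast_eq_natCast_iff _ _ _).mpr h5
      push_cast at this ⊢
      exact this
    exact pow_injOn_Iio_orderOf (by rw [Set.mem_Iio, ← hdeg]; exact hj)
      (by rw [Set.mem_Iio, ← hdeg]; exact hj') h6
  have hcard2 : (P.map (algebraMap K (AdjoinRoot P))).roots.toFinset.card ≤ S.card := by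
    rw [hScard]
    calc (P.map (algebraMap K (AdjoinRoot P))).roots.toFinset.card
        ≤ Multiset.card (P.map (algebraMap K (AdjoinRoot P))).roots := Multiset.toFinset_card_le _
      _ ≤ (P.map (algebraMap K (AdjoinRoot P))).natDegree := Polynomial.card_roots' _
      _ = P.natDegree := natDegree_map _
  have hSeq := Finset.eq_of_subset_of_card_le hSsub hcard2
  have h7 : (θ ^ q)⁻¹ ∈ S := by
    rw [hSeq]
    exact hroot _ h4
  rw [hS, Finset.mem_image] at h7
  obtain ⟨j, -, hj⟩ := h7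
  refine ⟨j, ?_⟩
  rw [← hord]
  apply orderOf_dvd_of_pow_eq_one
  rw [pow_add, hj, inv_mul_cancel₀ hθq]

/-- The twisted-dual involution on the irreducible factors of the `r`-th cyclotomic polynomial
over the field with `q ^ 2` elements: trivial when the order `i` of `q` modulo `r` is `2` modulo
`4`, fixed-point-free otherwise. -/
theorem exists_star_cyclo_u {q : ℕ} (hK : Fintype.card K = q ^ 2) (σ : K →+* K)
    (hσq : ∀ x, σ x = x ^ q) (p : ℕ) [Fact p.Prime] [CharP K p] (r i b : ℕ)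
    (hr : r.Prime) (hr2 : r ≠ 2) (hrp : r ≠ p) (hi : i = orderOf (q : ZMod r))
    (hb : b = orderOf ((q ^ 2 : ℕ) : ZMod r))
    (Φ : Finset K[X]) (hΦ : ∀ P ∈ Φ, Irreducible P ∧ P.Monic) (hdeg : ∀ P ∈ Φ, P.natDegree = b)
    (hLΦ : (X - 1 : K[X]) ∉ Φ) (hdvd : ∀ P ∈ Φ, P ∣ cyclotomic r K)
    (hmem : ∀ Q : K[X], Q.Monic → Q ∣ cyclotomic r K → Q.natDegree = b → Q ∈ Φ) :
    ∃ star : Φ → Φ, (∀ P : Φ, DualRel σ (P : K[X]) (star P : K[X])) ∧ Function.Involutive star ∧
      (i % 4 = 2 → ∀ P, star P = P) ∧ (i % 4 ≠ 2 → ∀ P, star P ≠ P) := by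
  classical
  have hp : p.Prime := Fact.out
  have hcharp : CharP K p := inferInstance
  haveI : Fact r.Prime := ⟨hr⟩
  have hσ : ∀ a, σ (σ a) = a := by
    intro a
    rw [hσq, hσq, Cfsg.Agent.H17.frob_frob hK]
  have hcx : ∀ P ∈ Φ, P ∣ X ^ r - 1 := fun P hP =>
    (hdvd P hP).trans ⟨X - 1, (cyclotomic_prime_mul_X_sub_one K r).symm⟩
  have h0 : ∀ P ∈ Φ, P.coeff 0 ≠ 0 := by
    intro P hP h0
    have hX : (X : K[X]) ∣ P := X_dvd_iff.mpr h0
    have h1 := hX.trans (hcx P hP)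
    rw [X_dvd_iff] at h1
    have hr0 : ¬ (0 = r) := fun h => hr.ne_zero h.symm
    simp [coeff_X_pow, hr0, coeff_one] at h1
  have h1P : ∀ P ∈ Φ, P.eval 1 ≠ 0 := by
    intro P hP h
    have hd : (X - C (1 : K)) ∣ P := dvd_iff_isRoot.mpr h
    have h2 := eq_of_monic_of_associated (monic_X_sub_C 1) (hΦ P hP).2
      ((irreducible_X_sub_C 1).associated_of_dvd (hΦ P hP).1 hd)
    apply hLΦ
    rw [← h2] at hP
    simpa using hP
  have hσ0 : ∀ P ∈ Φ, σ (P.coeff 0) ≠ 0 := fun P hP => (map_ne_zero σ).mpr (h0 P hP)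
  have hQ : ∀ P : Φ, C (σ ((P : K[X]).coeff 0))⁻¹ * Cfsg.Agent.H45.dualPoly σ (P : K[X]) ∈ Φ := by
    intro P
    have hc := h0 P P.2
    have hsc := hσ0 P P.2
    apply hmem
    · rw [Monic, leadingCoeff_mul, leadingCoeff_C, Cfsg.Agent.H45.dualPoly_leadingCoeff σ _ hc,
        inv_mul_cancel₀ hsc]
    · rw [(isUnit_C.mpr (IsUnit.mk0 _ (inv_ne_zero hsc))).mul_left_dvd]
      obtain ⟨W, hW⟩ := hdvd P P.2
      have h2 := congrArg (Cfsg.Agent.H45.dualPoly σ) hW
      rw [dualPoly_cyclotomic_prime σ r hr, Cfsg.Agent.H45.dualPoly_mul] at h2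
      exact ⟨_, h2⟩
    · rw [natDegree_C_mul (inv_ne_zero hsc), Cfsg.Agent.H45.dualPoly_natDegree σ _ hc,
        hdeg P P.2]
  obtain ⟨star, hstardef⟩ : ∃ star : Φ → Φ, star = fun P => ⟨_, hQ P⟩ := ⟨_, rfl⟩
  have hstar : ∀ P : Φ, DualRel σ (P : K[X]) (star P : K[X]) := by
    intro P
    refine ⟨σ ((P : K[X]).coeff 0), hσ0 P P.2, ?_⟩
    rw [hstardef]
    show _ = C _ * (C _ * _)
    rw [← mul_assoc, ← C_mul, mul_inv_cancel₀ (hσ0 P P.2), C_1, one_mul]
  have hinv : Function.Involutive star := by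
    intro P
    obtain ⟨u, hu, e1⟩ := hstar P
    obtain ⟨v, hv, e2⟩ := hstar (star P)
    have h3 : C (σ u * v) * (star (star P) : K[X]) = (P : K[X]) := by
      rw [← Cfsg.Agent.H45.dualPoly_dualPoly hσ (P : K[X]) (h0 P P.2), e1,
        Cfsg.Agent.H45.dualPoly_mul, Cfsg.Agent.H45.dualPoly_C, e2, C_mul]
      ring
    have h4 : Associated (C (σ u * v) * (star (star P) : K[X])) (star (star P) : K[X]) :=
      associated_unit_mul_left _ _ (isUnit_C.mpr (IsUnit.mk0 _
        (mul_ne_zero ((map_ne_zero σ).mpr hu) hv)))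
    rw [h3] at h4
    apply Subtype.ext
    exact (eq_of_monic_of_associated (hΦ P P.2).2 (hΦ _ (star (star P)).2).2 h4).symm
  refine ⟨star, hstar, hinv, ?_, ?_⟩
  · intro hev P
    obtain ⟨u, hu, e1⟩ := hstar P
    have h4 : orderOf (q : ZMod r) % 4 = 2 := by rw [← hi]; exact hev
    obtain ⟨hqi, hodd⟩ := pow_half_of_mod_four r (q : ZMod r) h4
    rw [← hi] at hqi hodd
    have hre : r ∣ q ^ (i / 2) + 1 := by
      rw [← ZMod.natCast_eq_zero_iff]
      push_cast
      rw [hqi]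
      ring
    have hd := dvd_dualPoly_of_odd hK σ hσq r (i / 2) hodd hre (P : K[X]) (hΦ P P.2).1
      (hcx P P.2)
    rw [e1, (isUnit_C.mpr (IsUnit.mk0 _ hu)).dvd_mul_left] at hd
    apply Subtype.ext
    exact (eq_of_monic_of_associated (hΦ P P.2).2 (hΦ _ (star P).2).2
      ((hΦ P P.2).1.associated_of_dvd (hΦ _ (star P).2).1 hd)).symm
  · intro hne P hPeq
    obtain ⟨u, hu, e1⟩ := hstar P
    rw [hPeq] at e1
    obtain ⟨j, hj⟩ := exists_pow_of_dual_self hK σ hσq r hr (P : K[X]) (hΦ P P.2).1 (hΦ P P.2).2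
      (hcx P P.2) (h1P P P.2) ((hdeg P P.2).trans hb) u hu e1
    have hq0 : (q : ZMod r) ≠ 0 := by
      intro h
      rw [ZMod.natCast_eq_zero_iff] at h
      obtain ⟨p', k, hp', hchar, hqk⟩ := Cfsg.Agent.H17.exists_char_pow hK
      have hpp : p' = p := CharP.eq K hchar hcharp
      rw [hqk, hpp] at h
      have h2 := hr.dvd_of_dvd_pow h
      exact hrp ((Nat.prime_dvd_prime_iff_eq hr hp).mp h2)
    have hpw : (q : ZMod r) ^ (2 * j) = -(q : ZMod r) := by
      have h2 := (ZMod.natCast_eq_zero_iff _ _).mpr hj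
      push_cast at h2
      rw [pow_mul]
      linear_combination h2
    apply hne
    rw [hi]
    exact mod_four_of_pow r hr2 (q : ZMod r) hq0 j hpw

end Frob

end Cfsg.Agent.H48
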