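import Cfsg.Agent.H48.RegSp
import Cfsg.Agent.H48.JordanStd

set_option autoImplicit false

/-!
Helper lemmas (helper48): conjugacy of regular unipotent elements of `Sp_2m(q)`, `q` odd:
similitudes, square classes, and the existence of a regular unipotent element.
-/

namespace Cfsg.Agent.H48

open Matrix Polynomial Module

section Poly

variable {F : Type*} [Field F]

/-- Inverse square roots of one-units modulo `X^m` in odd characteristic. -/
theorem exists_inv_sqrt_one_unit (p : ℕ) [Fact p.Prime] [CharP F p] (hp : p ≠ 2) (w : F[X])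
    (hw : w.coeff 0 = 1) (m : ℕ) :
    ∃ r : F[X], (X : F[X]) ^ m ∣ r ^ 2 * w - 1 := by
  have hodd : Odd p := (Fact.out : p.Prime).odd_of_ne_two hp
  have hodd' : Odd (p ^ m) := hodd.pow
  obtain ⟨j, hj⟩ : ∃ j, p ^ m = 2 * j + 1 := hodd'
  refine ⟨w ^ j, ?_⟩
  have hw' : w = 1 + X * divX w := by
    have := divX_mul_X_add w
    rw [hw, map_one] at this
    rw [mul_comm X, add_comm]
    exact this.symm
  have hpow : w ^ (p ^ m) = 1 + X ^ (p ^ m) * divX w ^ (p ^ m) := by
    conv_lhs => rw [hw']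
    rw [add_pow_char_pow, one_pow, mul_pow]
  have e : (w ^ j) ^ 2 * w - 1 = X ^ (p ^ m) * divX w ^ (p ^ m) := by
    rw [← pow_mul, mul_comm j 2, ← pow_succ, ← hj, hpow]
    ring
  rw [e]
  have hle : m ≤ p ^ m := (Nat.lt_pow_self (Fact.out : p.Prime).one_lt).le
  exact Dvd.dvd.mul_right (pow_dvd_pow X hle) _

theorem negSub_coeff_zero (f : F[X]) : (negSub f).coeff 0 = f.coeff 0 := by
  have e : negSub f = f.comp (-X) := by
    unfold negSub
    rw [Polynomial.comp_eq_aeval]
  rw [e, coeff_zero_eq_eval_zero, eval_comp, eval_neg, eval_X, neg_zero, ← coeff_zero_eq_eval_zero]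

theorem negSub_C (c : F) : negSub (C c : F[X]) = C c := by
  unfold negSub
  rw [aeval_C]
  rfl

/-- Symmetrisation: `p + p(-T) = 2 (even part)`. -/
theorem add_negSub (f : F[X]) : f + negSub f = 2 * expand F 2 (contract 2 f) := by
  conv_lhs => rw [← expand_contract_add f]
  rw [map_add, map_mul, negSub_X, negSub_expand, negSub_expand]
  ring

end Poly

section Sym

variable {F : Type*} [Field F] {l : Type*} [Fintype l] [DecidableEq l]

theorem commute_yMat_of_commute (U : Matrix (l ⊕ l) (l ⊕ l) F) (hU : U ∈ symplecticGroup l F)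
    (g : Matrix (l ⊕ l) (l ⊕ l) F) (hg : g * U = U * g) : g * yMat U = yMat U * g := by
  have h1 : U * sadj U = 1 := (mem_symplectic_iff_sadj U).mp hU
  have h1' : sadj U * U = 1 := mul_eq_one_comm.mp h1
  have hgS : g * sadj U = sadj U * g := by
    calc g * sadj U = sadj U * U * (g * sadj U) := by rw [h1', one_mul]
      _ = sadj U * (g * U) * sadj U := by rw [hg]; simp only [mul_assoc]
      _ = sadj U * g := by rw [mul_assoc, mul_assoc, h1, mul_one]
  unfold yMat
  rw [mul_sub, sub_mul, hg, hgS]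

/-- Intertwiners and adjoints. -/
theorem sadj_intertwine (U₀ U : Matrix (l ⊕ l) (l ⊕ l) F) (hU₀ : U₀ ∈ symplecticGroup l F)
    (hU : U ∈ symplecticGroup l F) (t : Matrix (l ⊕ l) (l ⊕ l) F) (ht : t * U₀ = U * t) :
    sadj t * U = U₀ * sadj t := by
  have h0 : U₀ * sadj U₀ = 1 := (mem_symplectic_iff_sadj U₀).mp hU₀
  have h1 : U * sadj U = 1 := (mem_symplectic_iff_sadj U).mp hU
  have h1' : sadj U * U = 1 := mul_eq_one_comm.mp h1
  have hs : sadj U₀ * sadj t = sadj t * sadj U := by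
    rw [← sadj_mul, ← sadj_mul, ht]
  calc sadj t * U = U₀ * sadj U₀ * sadj t * U := by rw [h0, one_mul]
    _ = U₀ * (sadj U₀ * sadj t) * U := by simp only [mul_assoc]
    _ = U₀ * sadj t * (sadj U * U) := by rw [hs]; simp only [mul_assoc]
    _ = U₀ * sadj t := by rw [h1', mul_one]

theorem mul_sadj_of_sadj_mul (t : Matrix (l ⊕ l) (l ⊕ l) F) (ν : F) (hν : ν ≠ 0)
    (h : sadj t * t = ν • 1) : t * sadj t = ν • 1 := by
  have h1 : (ν⁻¹ • sadj t) * t = 1 := by
    rw [smul_mul_assoc, h, smul_smul, inv_mul_cancel₀ hν, one_smul]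
  have h2 := mul_eq_one_comm.mp h1
  rw [mul_smul_comm] at h2
  have := congrArg (fun M => ν • M) h2
  simp only [smul_smul, mul_inv_cancel₀ hν, one_smul] at this
  exact this

/-- Symmetric units of the commutant are, up to a fixed non-square, inverse squares of
symmetric elements of the commutant. -/
theorem exists_sym_sqrt [Fintype F] (p : ℕ) [Fact p.Prime] [CharP F p] (hp : p ≠ 2)
    (hpos : 0 < Fintype.card l)
    (U : Matrix (l ⊕ l) (l ⊕ l) F) (hU : U ∈ symplecticGroup l F) (hreg : IsRegNil (U - 1))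
    (h : Matrix (l ⊕ l) (l ⊕ l) F) (hhU : h * U = U * h) (hsym : sadj h = h) (hunit : IsUnit h)
    (μ : F) (hμ : ¬ IsSquare μ) :
    ∃ c : Matrix (l ⊕ l) (l ⊕ l) F, c * U = U * c ∧ sadj c = c ∧
      (c * h * c = 1 ∨ c * h * c = μ • 1) := by
  classical
  have h2 : (2 : F) ≠ 0 := by
    intro h
    have : ((2 : ℕ) : F) = 0 := by exact_mod_cast h
    rw [CharP.cast_eq_zero_iff F p] at this
    exact hp ((Nat.prime_dvd_prime_iff_eq (Fact.out : p.Prime) Nat.prime_two).mp this)
  set Y := yMat U with hYdef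
  have hY : IsRegNil Y := yMat_isRegNil h2 U hU hreg
  have hYadj : sadj Y = -Y := sadj_yMat U
  have hYU : Commute Y U := commute_yMat U hU
  have hcard : Fintype.card (l ⊕ l) = 2 * Fintype.card l := by simp [two_mul]
  have hpos' : 0 < Fintype.card (l ⊕ l) := by omega
  have hYpow : Y ^ (2 * Fintype.card l) = 0 := by rw [← hcard]; exact hY.1
  have hne : Nonempty (l ⊕ l) := Fintype.card_pos_iff.mp hpos'
  obtain ⟨f, hf⟩ := exists_aeval_eq_of_commute Y hY hpos' h (commute_yMat_of_commute U hU h hhU)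
  set a := contract 2 f with ha
  have hEa : aeval Y (expand F 2 a) = h := by
    have e1 : aeval Y (f + negSub f) = h + h := by
      rw [map_add, ← sadj_aeval Y hYadj, hf, hsym]
    rw [add_negSub, map_mul] at e1
    have e2 : aeval Y (2 : F[X]) = (2 : F) • (1 : Matrix (l ⊕ l) (l ⊕ l) F) := by
      rw [show (2 : F[X]) = C (2 : F) from (map_ofNat C 2).symm, aeval_C,
        Algebra.algebraMap_eq_smul_one]
    rw [e2, smul_mul_assoc, one_mul, ← two_smul F h] at e1
    exact smul_right_injective _ h2 e1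
  have hE0 : (expand F 2 a).coeff 0 = a.coeff 0 := by
    have := coeff_expand_mul (R := F) (p := 2) (by norm_num) a 0
    rwa [zero_mul] at this
  have ha0 : a.coeff 0 ≠ 0 := by
    intro h0
    have hX : (X : F[X]) ∣ expand F 2 a := by
      rw [X_dvd_iff, hE0, h0]
    obtain ⟨q, hq⟩ := hX
    have hnil : IsNilpotent (aeval Y (expand F 2 a)) := by
      rw [hq, map_mul, aeval_X]
      have hc : Commute Y (aeval Y q) := (commute_aeval Y Y (Commute.refl Y) q).symm
      exact hc.isNilpotent_mul_right ⟨_, hY.1⟩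
    rw [hEa] at hnil
    exact hunit.not_isNilpotent hnil
  obtain ⟨ν, b, hν, hb, hab⟩ : ∃ ν b : F, (ν = 1 ∨ ν = μ) ∧ b ≠ 0 ∧ a.coeff 0 = ν * b ^ 2 := by
    by_cases hsq : IsSquare (a.coeff 0)
    · obtain ⟨b, hb⟩ := hsq
      refine ⟨1, b, Or.inl rfl, ?_, by rw [hb]; ring⟩
      rintro rfl
      apply ha0
      rw [hb, mul_zero]
    · have hμ0 : μ ≠ 0 := by
        rintro rfl
        exact hμ ⟨0, by ring⟩
      have h1 : quadraticChar F (a.coeff 0) = -1 := quadraticChar_neg_one_iff_not_isSquare.mpr hsq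
      have h2' : quadraticChar F μ = -1 := quadraticChar_neg_one_iff_not_isSquare.mpr hμ
      have h3 : quadraticChar F (a.coeff 0 * μ) = 1 := by
        rw [map_mul, h1, h2']; norm_num
      obtain ⟨b, hb⟩ := (quadraticChar_one_iff_isSquare (mul_ne_zero ha0 hμ0)).mp h3
      have hb0 : b ≠ 0 := by
        rintro rfl
        rw [mul_zero] at hb
        exact (mul_ne_zero ha0 hμ0) hb
      refine ⟨μ, b / μ, Or.inr rfl, div_ne_zero hb0 hμ0, ?_⟩
      field_simp
      rw [hb]; ring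
  have hν0 : ν ≠ 0 := by
    rcases hν with rfl | rfl
    · exact one_ne_zero
    · rintro rfl
      exact hμ ⟨0, by ring⟩
  have hνb : ν * b ^ 2 ≠ 0 := mul_ne_zero hν0 (pow_ne_zero 2 hb)
  set w := C ((ν * b ^ 2)⁻¹) * a with hwdef
  have hw : w.coeff 0 = 1 := by
    rw [hwdef, coeff_C_mul, hab, inv_mul_cancel₀ hνb]
  have ha' : a = C (ν * b ^ 2) * w := by
    rw [hwdef, ← mul_assoc, ← C_mul, mul_inv_cancel₀ hνb, C_1, one_mul]
  obtain ⟨r, hr⟩ := exists_inv_sqrt_one_unit p hp w hw (Fintype.card l)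
  refine ⟨aeval Y (C b⁻¹ * expand F 2 r), (commute_aeval Y U hYU _).eq, ?_, ?_⟩
  · rw [sadj_aeval Y hYadj, map_mul, negSub_C, negSub_expand]
  · have key : (C b⁻¹ * expand F 2 r) * expand F 2 a * (C b⁻¹ * expand F 2 r) - C ν
        = expand F 2 (C ν * (r ^ 2 * w - 1)) := by
      rw [ha']
      simp only [map_mul, map_sub, map_pow, expand_C, map_one]
      have hC : (C b⁻¹ : F[X]) ^ 2 * (C ν * C b ^ 2) = C ν := by
        rw [← C_pow, ← C_pow, ← C_mul, ← C_mul]
        congr 1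
        field_simp
      linear_combination (expand F 2 r ^ 2 * expand F 2 w) * hC
    have hzero : aeval Y ((C b⁻¹ * expand F 2 r) * expand F 2 a * (C b⁻¹ * expand F 2 r) - C ν)
        = 0 := by
      rw [key]
      apply aeval_eq_zero_of_X_pow_dvd Y (2 * Fintype.card l) hYpow
      rw [X_pow_dvd_expand_iff]
      exact Dvd.dvd.mul_left hr _
    rw [map_sub, map_mul, map_mul, hEa, aeval_C, Algebra.algebraMap_eq_smul_one, sub_eq_zero]
      at hzero
    rcases hν with rfl | rfl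
    · left; rw [hzero, one_smul]
    · right; exact hzero

/-- An element of the commutant which is a similitude has square multiplier. -/
theorem isSquare_of_commute_similitude (h2 : (2 : F) ≠ 0) (hpos : 0 < Fintype.card l)
    (U : Matrix (l ⊕ l) (l ⊕ l) F) (hU : U ∈ symplecticGroup l F) (hreg : IsRegNil (U - 1))
    (c : Matrix (l ⊕ l) (l ⊕ l) F) (hc : c * U = U * c) (μ : F) (hcμ : sadj c * c = μ • 1) :
    IsSquare μ := by
  set Y := yMat U with hYdef
  have hY : IsRegNil Y := yMat_isRegNil h2 U hU hreg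
  have hYadj : sadj Y = -Y := sadj_yMat U
  have hcard : Fintype.card (l ⊕ l) = 2 * Fintype.card l := by simp [two_mul]
  have hpos' : 0 < Fintype.card (l ⊕ l) := by omega
  obtain ⟨f, hf⟩ := exists_aeval_eq_of_commute Y hY hpos' c (commute_yMat_of_commute U hU c hc)
  have e : aeval Y (negSub f * f - C μ) = 0 := by
    rw [map_sub, map_mul, ← sadj_aeval Y hYadj, hf, hcμ, aeval_C, Algebra.algebraMap_eq_smul_one,
      sub_self]
  have hdvd := X_pow_dvd_of_aeval_eq_zero Y hY hpos' _ e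
  have hX : (X : F[X]) ∣ negSub f * f - C μ := dvd_trans (dvd_pow_self X (by omega)) hdvd
  rw [X_dvd_iff, coeff_sub, coeff_C_zero, mul_coeff_zero, negSub_coeff_zero, sub_eq_zero] at hX
  exact ⟨f.coeff 0, hX.symm⟩

/-- Any two regular unipotent symplectic matrices are conjugate under a similitude with
multiplier `1` or a fixed non-square. -/
theorem exists_similitude [Fintype F] (p : ℕ) [Fact p.Prime] [CharP F p] (hp : p ≠ 2)
    (hpos : 0 < Fintype.card l)
    (U₀ U : Matrix (l ⊕ l) (l ⊕ l) F) (hU₀ : U₀ ∈ symplecticGroup l F)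
    (hU : U ∈ symplecticGroup l F) (hreg₀ : IsRegNil (U₀ - 1)) (hreg : IsRegNil (U - 1))
    (μ : F) (hμ : ¬ IsSquare μ) :
    ∃ t : Matrix (l ⊕ l) (l ⊕ l) F, t * U₀ = U * t ∧ (sadj t * t = 1 ∨ sadj t * t = μ • 1) := by
  have hcard : Fintype.card (l ⊕ l) = 2 * Fintype.card l := by simp [two_mul]
  have hpos' : 0 < Fintype.card (l ⊕ l) := by omega
  obtain ⟨g, hg⟩ := exists_gl_conj_of_regular (U₀ - 1) (U - 1) hreg₀ hreg hpos'
  have hgU : (g : Matrix (l ⊕ l) (l ⊕ l) F) * U₀ = U * g := by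
    rw [mul_sub, sub_mul, mul_one, one_mul] at hg
    exact sub_left_injective hg
  set h := sadj (g : Matrix (l ⊕ l) (l ⊕ l) F) * g with hh
  have hsym : sadj h = h := by rw [hh, sadj_mul, sadj_sadj]
  have hhU : h * U₀ = U₀ * h := by
    have := sadj_intertwine U₀ U hU₀ hU g hgU
    calc h * U₀ = sadj (g : Matrix (l ⊕ l) (l ⊕ l) F) * (g * U₀) := by rw [hh, mul_assoc]
      _ = sadj (g : Matrix (l ⊕ l) (l ⊕ l) F) * U * g := by rw [hgU, mul_assoc]
      _ = U₀ * h := by rw [this, mul_assoc]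
  have hunit : IsUnit h := by
    rw [Matrix.isUnit_iff_isUnit_det, hh, det_mul]
    have hg' : IsUnit (g : Matrix (l ⊕ l) (l ⊕ l) F).det :=
      (Matrix.isUnit_iff_isUnit_det _).mp (Units.isUnit g)
    have hs : IsUnit (sadj (g : Matrix (l ⊕ l) (l ⊕ l) F)).det := by
      have e : sadj ((g⁻¹ : GL (l ⊕ l) F) : Matrix (l ⊕ l) (l ⊕ l) F)
          * sadj (g : Matrix (l ⊕ l) (l ⊕ l) F) = 1 := by
        rw [← sadj_mul, Units.mul_inv, sadj_one]
      have := congrArg Matrix.det e
      rw [det_mul, det_one] at this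
      exact IsUnit.of_mul_eq_one _ (by rw [mul_comm]; exact this)
    exact hs.mul hg'
  obtain ⟨c, hcU, hcsym, hc⟩ := exists_sym_sqrt p hp hpos U₀ hU₀ hreg₀ h hhU hsym hunit μ hμ
  refine ⟨g * c, ?_, ?_⟩
  · rw [mul_assoc, hcU, ← mul_assoc, hgU, mul_assoc]
  · have : sadj ((g : Matrix (l ⊕ l) (l ⊕ l) F) * c) * (g * c) = c * h * c := by
      rw [sadj_mul, hcsym, hh]; simp only [mul_assoc]
    rw [this]; exact hc

theorem isConj_of_sadj_mul_eq_one (u₀ u : symplecticGroup l F)
    (t : Matrix (l ⊕ l) (l ⊕ l) F) (ht : t * u₀.1 = u.1 * t) (h1 : sadj t * t = 1) :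
    IsConj u₀ u := by
  have htm : t ∈ symplecticGroup l F := (mem_symplectic_iff_sadj t).mpr (mul_eq_one_comm.mp h1)
  rw [isConj_iff]
  refine ⟨⟨t, htm⟩, ?_⟩
  rw [mul_inv_eq_iff_eq_mul]
  exact Subtype.ext ht

theorem isConj_of_similitudes (u₀ u u' : symplecticGroup l F) (ν : F) (hν : ν ≠ 0)
    (t t' : Matrix (l ⊕ l) (l ⊕ l) F) (ht : t * u₀.1 = u.1 * t) (ht' : t' * u₀.1 = u'.1 * t')
    (h1 : sadj t * t = ν • 1) (h1' : sadj t' * t' = ν • 1) : IsConj u u' := by
  set s := ν⁻¹ • (t' * sadj t) with hs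
  have hst : sadj t * u.1 = u₀.1 * sadj t := sadj_intertwine u₀.1 u.1 u₀.2 u.2 t ht
  have hsU : s * u.1 = u'.1 * s := by
    rw [hs, smul_mul_assoc, mul_smul_comm, mul_assoc, hst, ← mul_assoc, ht', mul_assoc]
  have hss : s * sadj s = 1 := by
    have e2 : t' * sadj t' = ν • 1 := mul_sadj_of_sadj_mul t' ν hν h1'
    have e3 : t' * sadj t * (t * sadj t') = ν • ν • 1 := by
      calc t' * sadj t * (t * sadj t') = t' * (sadj t * t) * sadj t' := by simp only [mul_assoc]
        _ = ν • (t' * sadj t') := by rw [h1, mul_smul_comm, mul_one, smul_mul_assoc]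
        _ = ν • ν • 1 := by rw [e2]
    rw [hs, sadj_smul, sadj_mul, sadj_sadj, smul_mul_assoc, mul_smul_comm, e3, smul_smul, smul_smul,
      smul_smul]
    have : ν⁻¹ * ν⁻¹ * ν * ν = 1 := by field_simp
    rw [this, one_smul]
  have hsm : s ∈ symplecticGroup l F := (mem_symplectic_iff_sadj s).mpr hss
  rw [isConj_iff]
  exact ⟨⟨s, hsm⟩, by rw [mul_inv_eq_iff_eq_mul]; exact Subtype.ext hsU⟩

theorem not_isConj_of_similitude (h2 : (2 : F) ≠ 0) (hpos : 0 < Fintype.card l)
    (u₀ u₁ : symplecticGroup l F) (hreg₀ : IsRegNil (u₀.1 - 1))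
    (d : Matrix (l ⊕ l) (l ⊕ l) F) (hd : d * u₀.1 = u₁.1 * d) (μ : F) (hμ : ¬ IsSquare μ)
    (hdμ : sadj d * d = μ • 1) : ¬ IsConj u₀ u₁ := by
  intro hconj
  rw [isConj_iff] at hconj
  obtain ⟨s, hs⟩ := hconj
  rw [mul_inv_eq_iff_eq_mul] at hs
  have hsU : s.1 * u₀.1 = u₁.1 * s.1 := congrArg Subtype.val hs
  have hss : s.1 * sadj s.1 = 1 := (mem_symplectic_iff_sadj s.1).mp s.2
  have hc : (sadj s.1 * d) * u₀.1 = u₀.1 * (sadj s.1 * d) := by
    have := sadj_intertwine u₀.1 u₁.1 u₀.2 u₁.2 s.1 hsU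
    rw [mul_assoc, hd, ← mul_assoc, this, mul_assoc]
  have hcμ : sadj (sadj s.1 * d) * (sadj s.1 * d) = μ • 1 := by
    rw [sadj_mul, sadj_sadj]
    calc sadj d * s.1 * (sadj s.1 * d) = sadj d * (s.1 * sadj s.1) * d := by simp only [mul_assoc]
      _ = μ • 1 := by rw [hss, mul_one, hdμ]
  exact hμ (isSquare_of_commute_similitude h2 hpos u₀.1 u₀.2 hreg₀ _ hc μ hcμ)

end Sym

section Exist

variable {F : Type*} [Field F]

theorem fromBlocks_lower_pow {n : Type*} [Fintype n] [DecidableEq n] (P R₀ Q : Matrix n n F)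
    (k : ℕ) : ∃ R, (fromBlocks P 0 R₀ Q) ^ k = fromBlocks (P ^ k) 0 R (Q ^ k) := by
  induction k with
  | zero => exact ⟨0, by simp [fromBlocks_one]⟩
  | succ k ih =>
    obtain ⟨R, hR⟩ := ih
    refine ⟨R * P + Q ^ k * R₀, ?_⟩
    rw [pow_succ, hR, fromBlocks_multiply]
    simp [pow_succ]

/-- The standard similitude with multiplier `μ`. -/
theorem sadj_similitude {l : Type*} [Fintype l] [DecidableEq l] (μ : F) :
    sadj (fromBlocks (μ • (1 : Matrix l l F)) 0 0 1) * fromBlocks (μ • (1 : Matrix l l F)) 0 0 1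
      = μ • (1 : Matrix (l ⊕ l) (l ⊕ l) F) := by
  unfold sadj Matrix.J
  rw [fromBlocks_transpose, fromBlocks_multiply, fromBlocks_multiply, fromBlocks_neg,
    fromBlocks_multiply, ← fromBlocks_one, fromBlocks_smul]
  congr 1 <;> simp

/-- Conjugating a regular unipotent symplectic matrix by a similitude. -/
theorem exists_conj_similitude {l : Type*} [Fintype l] [DecidableEq l]
    (U₀ : Matrix (l ⊕ l) (l ⊕ l) F) (hU₀ : U₀ ∈ symplecticGroup l F)
    (hreg₀ : IsRegNil (U₀ - 1)) (d : Matrix (l ⊕ l) (l ⊕ l) F) (μ : F) (hμ0 : μ ≠ 0)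
    (hd : sadj d * d = μ • 1) :
    ∃ U₁ : Matrix (l ⊕ l) (l ⊕ l) F, U₁ ∈ symplecticGroup l F ∧ IsRegNil (U₁ - 1)
      ∧ d * U₀ = U₁ * d := by
  have hd' : d * sadj d = μ • 1 := mul_sadj_of_sadj_mul d μ hμ0 hd
  have h0 : U₀ * sadj U₀ = 1 := (mem_symplectic_iff_sadj U₀).mp hU₀
  refine ⟨μ⁻¹ • (d * U₀ * sadj d), ?_, ?_, ?_⟩
  · rw [mem_symplectic_iff_sadj, sadj_smul, sadj_mul, sadj_mul, sadj_sadj, smul_mul_assoc,
      mul_smul_comm, smul_smul]
    have e : d * U₀ * sadj d * (d * (sadj U₀ * sadj d)) = μ • μ • 1 := by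
      calc d * U₀ * sadj d * (d * (sadj U₀ * sadj d))
          = d * U₀ * (sadj d * d) * sadj U₀ * sadj d := by simp only [mul_assoc]
        _ = μ • (d * (U₀ * sadj U₀) * sadj d) := by
            rw [hd]; simp only [mul_smul_comm, smul_mul_assoc, mul_one, mul_assoc]
        _ = μ • μ • 1 := by rw [h0, mul_one, hd']
    rw [e, smul_smul, smul_smul]
    have : μ⁻¹ * μ⁻¹ * μ * μ = 1 := by field_simp
    rw [this, one_smul]
  · let gd : GL (l ⊕ l) F := ⟨d, μ⁻¹ • sadj d,
      by rw [mul_smul_comm, hd', smul_smul, inv_mul_cancel₀ hμ0, one_smul],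
      by rw [smul_mul_assoc, hd, smul_smul, inv_mul_cancel₀ hμ0, one_smul]⟩
    have := IsRegNil.conj gd U₀ hreg₀
    have e : μ⁻¹ • (d * U₀ * sadj d)
        = (gd : Matrix (l ⊕ l) (l ⊕ l) F) * U₀ * ((gd⁻¹ : GL (l ⊕ l) F) : Matrix (l ⊕ l) (l ⊕ l) F) := by
      show μ⁻¹ • (d * U₀ * sadj d) = d * U₀ * (μ⁻¹ • sadj d)
      rw [mul_smul_comm]
    rw [e]
    exact this
  · rw [smul_mul_assoc, mul_assoc, hd, mul_smul_comm, mul_one, smul_smul, inv_mul_cancel₀ hμ0,
      one_smul]

/-- A block construction of a regular unipotent symplectic matrix. -/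
theorem exists_regular_of_block (m : ℕ) (hm : 1 ≤ m) (A : Matrix (Fin m) (Fin m) F)
    (hdet : IsUnit A.det) (hA1 : (A - 1) ^ m = 0) (hrank : (A - 1).rank = m - 1)
    (hmv : ∀ (x : Fin m → F) (j : Fin m) (hj : (j : ℕ) + 1 < m),
      ((A - 1) *ᵥ x) ⟨(j : ℕ) + 1, hj⟩ = x j)
    (hcol : ∀ j : Fin m, (A - 1) j ⟨m - 1, by omega⟩ = 0) :
    ∃ U : Matrix (Fin m ⊕ Fin m) (Fin m ⊕ Fin m) F,
      U ∈ symplecticGroup (Fin m) F ∧ IsRegNil (U - 1) := by
  classical
  have hAi : A * A⁻¹ = 1 := Matrix.mul_nonsing_inv A hdet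
  have hiA : A⁻¹ * A = 1 := Matrix.nonsing_inv_mul A hdet
  obtain ⟨B, hB⟩ : ∃ B, B = (A⁻¹)ᵀ := ⟨_, rfl⟩
  have hAtB : Aᵀ * B = 1 := by rw [hB, ← transpose_mul, hiA, transpose_one]
  have hBAt : B * Aᵀ = 1 := by rw [hB, ← transpose_mul, hAi, transpose_one]
  have hABt : A * Bᵀ = 1 := by rw [hB, transpose_transpose, hAi]
  let last : Fin m := ⟨m - 1, by omega⟩
  obtain ⟨S, hS⟩ : ∃ S : Matrix (Fin m) (Fin m) F, S = Matrix.single last last 1 := ⟨_, rfl⟩
  have hSt : Sᵀ = S := by rw [hS, transpose_single]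
  refine ⟨fromBlocks A 0 (B * S) B, ?_, ?_⟩
  · rw [SymplecticGroup.mem_iff]
    unfold Matrix.J
    rw [fromBlocks_transpose, fromBlocks_multiply, fromBlocks_multiply]
    congr 1
    · simp
    · simp [hABt]
    · simp [hBAt]
    · simp [hSt, Matrix.mul_assoc, transpose_mul]
  · have hN : fromBlocks A 0 (B * S) B - 1 = fromBlocks (A - 1) 0 (B * S) (B - 1) := by
      rw [← fromBlocks_one, sub_eq_add_neg, fromBlocks_neg, fromBlocks_add]
      simp [sub_eq_add_neg]
    rw [hN]
    have hB1eq : B - 1 = ((-A⁻¹) * (A - 1))ᵀ := by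
      rw [hB, neg_mul, mul_sub, hiA, mul_one, neg_sub, transpose_sub, transpose_one]
    have hcomm : Commute (-A⁻¹) (A - 1) := by
      show -A⁻¹ * (A - 1) = (A - 1) * -A⁻¹
      rw [neg_mul, mul_sub, mul_neg, sub_mul, hiA, hAi, mul_one, one_mul]
    have hB1 : (B - 1) ^ m = 0 := by
      rw [hB1eq, ← transpose_pow, hcomm.mul_pow, hA1, mul_zero, transpose_zero]
    have hc : Fintype.card (Fin m ⊕ Fin m) = m + m := by simp
    have hnil : (fromBlocks (A - 1) 0 (B * S) (B - 1)) ^ (Fintype.card (Fin m ⊕ Fin m)) = 0 := by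
      obtain ⟨R, hR⟩ := fromBlocks_lower_pow (A - 1) (B * S) (B - 1) m
      rw [hc, pow_add, hR, hA1, hB1, fromBlocks_multiply]
      simp [fromBlocks_zero]
    refine ⟨hnil, ?_⟩
    have hrankB : (B - 1).rank = m - 1 := by
      have hu : IsUnit (-A⁻¹).det := by
        apply Matrix.isUnit_det_of_right_inverse (B := -A)
        rw [neg_mul_neg, hiA]
      rw [hB1eq, rank_transpose, rank_mul_eq_right_of_isUnit_det _ _ hu, hrank]
    have hkerB : finrank F (LinearMap.ker (Matrix.mulVecLin (B - 1))) ≤ 1 := by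
      rw [finrank_ker_mulVecLin', hrankB]
      simp
      omega
    let ψ : (Fin m → F) →ₗ[F] (Fin m ⊕ Fin m → F) :=
      ((LinearEquiv.sumArrowLequivProdArrow (Fin m) (Fin m) F F).symm :
          ((Fin m → F) × (Fin m → F)) →ₗ[F] (Fin m ⊕ Fin m → F))
        ∘ₗ LinearMap.inr F (Fin m → F) (Fin m → F)
    have hψ : ∀ y : Fin m → F, ψ y = Sum.elim (0 : Fin m → F) y := by
      intro y
      funext i
      rcases i with i | i <;> simp [ψ, LinearEquiv.sumArrowLequivProdArrow]
    have hsub : LinearMap.ker (Matrix.toLin' (fromBlocks (A - 1) 0 (B * S) (B - 1)))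
        ≤ (LinearMap.ker (Matrix.mulVecLin (B - 1))).map ψ := by
      intro v hv
      rw [LinearMap.mem_ker, Matrix.toLin'_apply, fromBlocks_mulVec] at hv
      have hv1 : (A - 1) *ᵥ (v ∘ Sum.inl) = 0 := by
        have := congrArg (fun f => f ∘ Sum.inl) hv
        simpa using this
      have hv2 : (B * S) *ᵥ (v ∘ Sum.inl) + (B - 1) *ᵥ (v ∘ Sum.inr) = 0 := by
        have := congrArg (fun f => f ∘ Sum.inr) hv
        simpa using this
      have hx : v ∘ Sum.inl = 0 := by
        have hx1 : ∀ j : Fin m, (j : ℕ) + 1 < m → v (Sum.inl j) = 0 := by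
          intro j hj
          have := congrFun hv1 ⟨(j : ℕ) + 1, hj⟩
          rw [hmv _ j hj] at this
          exact this
        have hlast : v (Sum.inl last) = 0 := by
          have h3 := congrArg (fun w => Aᵀ *ᵥ w) hv2
          simp only [mulVec_add, mulVec_mulVec, mulVec_zero] at h3
          rw [← Matrix.mul_assoc, hAtB, Matrix.one_mul, Matrix.mul_sub, hAtB, Matrix.mul_one] at h3
          have h4 := congrFun h3 last
          simp only [Pi.add_apply, Pi.zero_apply] at h4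
          have e1 : (S *ᵥ (v ∘ Sum.inl)) last = v (Sum.inl last) := by
            rw [hS, single_mulVec]; simp
          have e2 : ((1 - Aᵀ) *ᵥ (v ∘ Sum.inr)) last = 0 := by
            have e : (1 - Aᵀ) = -((A - 1)ᵀ) := by rw [transpose_sub, transpose_one, neg_sub]
            rw [e, Matrix.neg_mulVec, Pi.neg_apply, neg_eq_zero, Matrix.mulVec, dotProduct]
            apply Finset.sum_eq_zero
            intro j _
            rw [transpose_apply, hcol j, zero_mul]
          rw [e1, e2, add_zero] at h4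
          exact h4
        funext j
        by_cases hj : (j : ℕ) + 1 < m
        · exact hx1 j hj
        · have : j = last := Fin.ext (by simp only [last]; omega)
          rw [this]; exact hlast
      refine ⟨v ∘ Sum.inr, ?_, ?_⟩
      · rw [SetLike.mem_coe, LinearMap.mem_ker, Matrix.mulVecLin_apply]
        rw [hx, Matrix.mulVec_zero, zero_add] at hv2
        exact hv2
      · rw [hψ]
        funext i
        rcases i with i | i
        · exact (congrFun hx i).symm
        · rfl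
    have hker1 : finrank F (LinearMap.ker (Matrix.toLin' (fromBlocks (A - 1) 0 (B * S) (B - 1))))
        ≤ 1 :=
      le_trans (Submodule.finrank_mono hsub) (le_trans (Submodule.finrank_map_le ψ _) hkerB)
    have hd : finrank F (Fin m ⊕ Fin m → F) = Fintype.card (Fin m ⊕ Fin m) :=
      Module.finrank_fintype_fun_eq_card F
    have hk1 := finrank_ker_pow_eq (Matrix.toLin' (fromBlocks (A - 1) 0 (B * S) (B - 1))) hker1
      (toLin'_pow_finrank_eq_zero _ hnil) 1 (by rw [hd, hc]; omega)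
    rw [pow_one, Matrix.toLin'_apply', finrank_ker_mulVecLin'] at hk1
    have hle := Matrix.rank_le_card_width (fromBlocks (A - 1) 0 (B * S) (B - 1))
    omega

/-- Existence of a regular unipotent element of `Sp_2m(F)`. -/
theorem exists_regular_unipotent (m : ℕ) (hm : 1 ≤ m) :
    ∃ U : Matrix (Fin m ⊕ Fin m) (Fin m ⊕ Fin m) F,
      U ∈ symplecticGroup (Fin m) F ∧ IsRegNil (U - 1) := by
  apply exists_regular_of_block m hm (Cfsg.jordanBlock m F)
  · rw [det_jordanBlock]; exact isUnit_one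
  · exact jordanBlock_sub_one_pow m F
  · exact rank_jordanBlock_sub_one m F
  · intro x j hj
    exact jordanBlock_sub_one_mulVec m F x j hj
  · intro j
    rw [jordanBlock_sub_one_apply, if_neg]
    have := j.2
    simp only
    omega

end Exist

end Cfsg.Agent.H48
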