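import Cfsg.Agent.H48.JordanType
import Cfsg.Agent.H48.RegSp2
import Cfsg.Agent.H42.AltRank
import Cfsg.Agent.H17.Symp

set_option autoImplicit false

/-!
Helper lemmas (helper48): unipotent Jordan types in symplectic groups: parity of kernel
dimensions, direct sums of symplectic matrices, and existence for every admissible type.
-/

namespace Cfsg.Agent.H48

open Module Matrix

section SpEven

variable {F : Type*} [Field F] {l : Type*} [Fintype l] [DecidableEq l]

theorem transpose_mul_J (g : Matrix (l ⊕ l) (l ⊕ l) F) : gᵀ * J l F = J l F * sadj g := by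
  unfold sadj
  rw [mul_neg, ← mul_assoc, ← mul_assoc, J_squared]
  simp

theorem dot_J_self (y : l ⊕ l → F) : y ⬝ᵥ J l F *ᵥ y = 0 := by
  unfold Matrix.J
  rw [fromBlocks_mulVec]
  simp only [dotProduct, Fintype.sum_sum_type, Sum.elim_inl, Sum.elim_inr, Matrix.zero_mulVec,
    zero_add, add_zero, Matrix.neg_mulVec, Matrix.one_mulVec, Pi.neg_apply, Function.comp_apply]
  rw [← Finset.sum_add_distrib]
  apply Finset.sum_eq_zero
  intro i _
  ring

/-- For a symplectic matrix `A`, the rank of `(A - 1)^(2i)` is even. -/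
theorem even_rank_sub_one_pow (A : Matrix (l ⊕ l) (l ⊕ l) F) (hA : A ∈ symplecticGroup l F)
    (i : ℕ) : Even ((A - 1) ^ (2 * i)).rank := by
  have h1 : A * sadj A = 1 := (mem_symplectic_iff_sadj A).mp hA
  have h1' : sadj A * A = 1 := mul_eq_one_comm.mp h1
  have hsN : sadj (A - 1) = (-sadj A) * (A - 1) := by
    rw [sadj_sub, sadj_one, neg_mul, mul_sub, h1', mul_one, neg_sub]
  have hcomm : Commute (-sadj A) (A - 1) := by
    have hUS : Commute (sadj A) A := by
      show sadj A * A = A * sadj A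
      rw [h1, h1']
    exact (hUS.sub_right (Commute.one_right _)).neg_left
  have halt : ∀ x : l ⊕ l → F, x ⬝ᵥ (((A - 1) ^ i)ᵀ * J l F * (A - 1) ^ i) *ᵥ x = 0 := by
    intro x
    have : x ⬝ᵥ (((A - 1) ^ i)ᵀ * J l F * (A - 1) ^ i) *ᵥ x
        = ((A - 1) ^ i *ᵥ x) ⬝ᵥ J l F *ᵥ ((A - 1) ^ i *ᵥ x) := by
      rw [← Matrix.mulVec_mulVec, ← Matrix.mulVec_mulVec, Matrix.dotProduct_mulVec,
        Matrix.vecMul_transpose]
    rw [this]
    exact dot_J_self _
  have hCeq : ((A - 1) ^ i)ᵀ * J l F * (A - 1) ^ i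
      = (J l F * (-sadj A) ^ i) * (A - 1) ^ (2 * i) := by
    rw [transpose_mul_J, sadj_pow, hsN, hcomm.mul_pow, two_mul, pow_add]
    simp only [mul_assoc]
  have hunit : IsUnit (J l F * (-sadj A) ^ i).det := by
    rw [det_mul, det_pow]
    apply IsUnit.mul
    · apply Matrix.isUnit_det_of_right_inverse (B := -J l F)
      rw [mul_neg, J_squared, neg_neg]
    · apply IsUnit.pow
      apply Matrix.isUnit_det_of_right_inverse (B := -A)
      rw [neg_mul_neg, h1']
  have := Cfsg.Agent.H42.even_rank_of_alt _ halt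
  rwa [hCeq, rank_mul_eq_right_of_isUnit_det _ _ hunit] at this

theorem even_finrank_ker_pow (A : Matrix (l ⊕ l) (l ⊕ l) F) (hA : A ∈ symplecticGroup l F)
    (i : ℕ) : Even (finrank F (LinearMap.ker ((Matrix.toLin' (A - 1)) ^ (2 * i)))) := by
  rw [← toLin'_pow', Matrix.toLin'_apply', finrank_ker_mulVecLin']
  have h1 := even_rank_sub_one_pow A hA i
  have h2 := Matrix.rank_le_card_width ((A - 1) ^ (2 * i))
  rw [Nat.even_sub h2]
  have h3 : Even (Fintype.card (l ⊕ l)) := by
    rw [Fintype.card_sum]; exact ⟨_, rfl⟩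
  exact ⟨fun _ => h1, fun _ => h3⟩

end SpEven

section SpSum

variable {F : Type*} [Field F]

theorem finrank_ker_fromBlocks_diag_pow {a b : Type*} [Fintype a] [DecidableEq a] [Fintype b]
    [DecidableEq b] (P : Matrix a a F) (Q : Matrix b b F) (k : ℕ) :
    finrank F (LinearMap.ker ((Matrix.toLin' (fromBlocks P 0 0 Q)) ^ k))
      = finrank F (LinearMap.ker ((Matrix.toLin' P) ^ k))
        + finrank F (LinearMap.ker ((Matrix.toLin' Q) ^ k)) := by
  rw [← finrank_ker_prodMap_pow]
  apply finrank_ker_pow_of_equiv _ _ (LinearEquiv.sumArrowLequivProdArrow a b F F)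
  intro x
  rw [Matrix.toLin'_apply, fromBlocks_mulVec]
  apply Prod.ext
  · funext i
    simp [LinearEquiv.sumArrowLequivProdArrow, Matrix.toLin'_apply]
    rfl
  · funext i
    simp [LinearEquiv.sumArrowLequivProdArrow, Matrix.toLin'_apply]
    rfl

/-- The index bijection for the orthogonal direct sum of two symplectic spaces. -/
def sumSympEquiv (a b : ℕ) : (Fin a ⊕ Fin a) ⊕ (Fin b ⊕ Fin b) ≃ Fin (a + b) ⊕ Fin (a + b) :=
  (Equiv.sumSumSumComm (Fin a) (Fin a) (Fin b) (Fin b)).trans
    (Equiv.sumCongr finSumFinEquiv finSumFinEquiv)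

/-- Splitting a vector of the direct sum. -/
noncomputable def sumSympLin (a b : ℕ) (F : Type*) [Field F] :
    (Fin (a + b) ⊕ Fin (a + b) → F) ≃ₗ[F] (Fin a ⊕ Fin a → F) × (Fin b ⊕ Fin b → F) :=
  (LinearEquiv.funCongrLeft F F (sumSympEquiv a b)).trans
    (LinearEquiv.sumArrowLequivProdArrow (Fin a ⊕ Fin a) (Fin b ⊕ Fin b) F F)

theorem sumSympLin_fst_inl (a b : ℕ) (x : Fin (a + b) ⊕ Fin (a + b) → F) (i : Fin a) :
    (sumSympLin a b F x).1 (Sum.inl i) = x (Sum.inl (Fin.castAdd b i)) := by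
  simp [sumSympLin, sumSympEquiv, LinearEquiv.sumArrowLequivProdArrow, LinearEquiv.funCongrLeft]

theorem sumSympLin_fst_inr (a b : ℕ) (x : Fin (a + b) ⊕ Fin (a + b) → F) (i : Fin a) :
    (sumSympLin a b F x).1 (Sum.inr i) = x (Sum.inr (Fin.castAdd b i)) := by
  simp [sumSympLin, sumSympEquiv, LinearEquiv.sumArrowLequivProdArrow, LinearEquiv.funCongrLeft]

theorem sumSympLin_snd_inl (a b : ℕ) (x : Fin (a + b) ⊕ Fin (a + b) → F) (i : Fin b) :
    (sumSympLin a b F x).2 (Sum.inl i) = x (Sum.inl (Fin.natAdd a i)) := by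
  simp [sumSympLin, sumSympEquiv, LinearEquiv.sumArrowLequivProdArrow, LinearEquiv.funCongrLeft]

theorem sumSympLin_snd_inr (a b : ℕ) (x : Fin (a + b) ⊕ Fin (a + b) → F) (i : Fin b) :
    (sumSympLin a b F x).2 (Sum.inr i) = x (Sum.inr (Fin.natAdd a i)) := by
  simp [sumSympLin, sumSympEquiv, LinearEquiv.sumArrowLequivProdArrow, LinearEquiv.funCongrLeft]

theorem sympForm_sumSympLin (a b : ℕ) (x y : Fin (a + b) ⊕ Fin (a + b) → F) :
    Cfsg.sympForm (a + b) F x y
      = Cfsg.sympForm a F (sumSympLin a b F x).1 (sumSympLin a b F y).1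
        + Cfsg.sympForm b F (sumSympLin a b F x).2 (sumSympLin a b F y).2 := by
  rw [Cfsg.Agent.H17.sympForm_eq_sum, Cfsg.Agent.H17.sympForm_eq_sum,
    Cfsg.Agent.H17.sympForm_eq_sum, Fin.sum_univ_add]
  simp only [sumSympLin_fst_inl, sumSympLin_fst_inr, sumSympLin_snd_inl, sumSympLin_snd_inr]

/-- Orthogonal direct sum of symplectic matrices. -/
theorem exists_symplectic_sum {a b : ℕ} (A : Matrix (Fin a ⊕ Fin a) (Fin a ⊕ Fin a) F)
    (hA : A ∈ symplecticGroup (Fin a) F) (A' : Matrix (Fin b ⊕ Fin b) (Fin b ⊕ Fin b) F)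
    (hA' : A' ∈ symplecticGroup (Fin b) F) :
    ∃ A'' : Matrix (Fin (a + b) ⊕ Fin (a + b)) (Fin (a + b) ⊕ Fin (a + b)) F,
      A'' ∈ symplecticGroup (Fin (a + b)) F ∧
      ∀ k, finrank F (LinearMap.ker ((Matrix.toLin' (A'' - 1)) ^ k))
        = finrank F (LinearMap.ker ((Matrix.toLin' (A - 1)) ^ k))
          + finrank F (LinearMap.ker ((Matrix.toLin' (A' - 1)) ^ k)) := by
  set Λ := sumSympLin a b F with hΛ
  let T : (Fin (a + b) ⊕ Fin (a + b) → F) →ₗ[F] (Fin (a + b) ⊕ Fin (a + b) → F) :=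
    (Λ.symm : _ →ₗ[F] _) ∘ₗ ((Matrix.toLin' A).prodMap (Matrix.toLin' A')) ∘ₗ (Λ : _ →ₗ[F] _)
  have hT : ∀ x, Λ (T x) = (A *ᵥ (Λ x).1, A' *ᵥ (Λ x).2) := by
    intro x
    simp [T, Matrix.toLin'_apply]
  have hmv : ∀ x, (LinearMap.toMatrix' T) *ᵥ x = T x := by
    intro x
    rw [← Matrix.toLin'_apply, Matrix.toLin'_toMatrix']
  refine ⟨LinearMap.toMatrix' T, ?_, fun k => ?_⟩
  · rw [Cfsg.Agent.H17.mem_symplecticGroup_iff_form]
    intro u v
    rw [hmv, hmv, sympForm_sumSympLin, hT, hT, sympForm_sumSympLin a b u v]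
    simp only
    rw [(Cfsg.Agent.H17.mem_symplecticGroup_iff_form a A).mp hA,
      (Cfsg.Agent.H17.mem_symplecticGroup_iff_form b A').mp hA']
  · rw [← finrank_ker_prodMap_pow]
    apply finrank_ker_pow_of_equiv _ _ Λ
    intro x
    have e1 : Matrix.toLin' (LinearMap.toMatrix' T - 1) x = T x - x := by
      rw [map_sub, Matrix.toLin'_toMatrix', Matrix.toLin'_one]
      rfl
    rw [e1, map_sub, hT]
    apply Prod.ext
    · simp [Matrix.toLin'_apply]
    · simp [Matrix.toLin'_apply]

theorem isRegNil_inv_transpose {ι : Type*} [Fintype ι] [DecidableEq ι] (A : Matrix ι ι F)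
    (hdet : IsUnit A.det) (hA : IsRegNil (A - 1)) : IsRegNil ((A⁻¹)ᵀ - 1) := by
  have hAi : A * A⁻¹ = 1 := Matrix.mul_nonsing_inv A hdet
  have hiA : A⁻¹ * A = 1 := Matrix.nonsing_inv_mul A hdet
  have hB1eq : (A⁻¹)ᵀ - 1 = ((-A⁻¹) * (A - 1))ᵀ := by
    rw [neg_mul, mul_sub, hiA, mul_one, neg_sub, transpose_sub, transpose_one]
  have hcomm : Commute (-A⁻¹) (A - 1) := by
    show -A⁻¹ * (A - 1) = (A - 1) * -A⁻¹
    rw [neg_mul, mul_sub, mul_neg, sub_mul, hiA, hAi, mul_one, one_mul]
  constructor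
  · rw [hB1eq, ← transpose_pow, hcomm.mul_pow, hA.1, mul_zero, transpose_zero]
  · have hu : IsUnit (-A⁻¹).det := by
      apply Matrix.isUnit_det_of_right_inverse (B := -A)
      rw [neg_mul_neg, hiA]
    rw [hB1eq, rank_transpose, rank_mul_eq_right_of_isUnit_det _ _ hu, hA.2]

/-- The hyperbolic block `diag(J_a, J_a^{-T})`. -/
theorem exists_hyperbolic_block (a : ℕ) :
    ∃ H : Matrix (Fin a ⊕ Fin a) (Fin a ⊕ Fin a) F, H ∈ symplecticGroup (Fin a) F ∧
      ∀ k, finrank F (LinearMap.ker ((Matrix.toLin' (H - 1)) ^ k)) = min k a + min k a := by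
  have hdet : IsUnit (Cfsg.jordanBlock a F).det := by rw [det_jordanBlock]; exact isUnit_one
  have hAi : Cfsg.jordanBlock a F * (Cfsg.jordanBlock a F)⁻¹ = 1 := Matrix.mul_nonsing_inv _ hdet
  have hreg : IsRegNil (Cfsg.jordanBlock a F - 1) :=
    ⟨by rw [Fintype.card_fin]; exact jordanBlock_sub_one_pow a F,
     by rw [Fintype.card_fin]; exact rank_jordanBlock_sub_one a F⟩
  have hreg' := isRegNil_inv_transpose _ hdet hreg
  refine ⟨fromBlocks (Cfsg.jordanBlock a F) 0 0 ((Cfsg.jordanBlock a F)⁻¹)ᵀ, ?_, fun k => ?_⟩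
  · rw [SymplecticGroup.mem_iff]
    unfold Matrix.J
    rw [fromBlocks_transpose, fromBlocks_multiply, fromBlocks_multiply]
    congr 1
    · simp
    · simp [hAi]
    · simp [← transpose_mul, hAi]
    · simp
  · have hN : fromBlocks (Cfsg.jordanBlock a F) 0 0 ((Cfsg.jordanBlock a F)⁻¹)ᵀ - 1
        = fromBlocks (Cfsg.jordanBlock a F - 1) 0 0 (((Cfsg.jordanBlock a F)⁻¹)ᵀ - 1) := by
      rw [← fromBlocks_one, sub_eq_add_neg, fromBlocks_neg, fromBlocks_add]
      simp [sub_eq_add_neg]
    rw [hN, finrank_ker_fromBlocks_diag_pow, finrank_ker_pow_of_isRegNil _ hreg,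
      finrank_ker_pow_of_isRegNil _ hreg', Fintype.card_fin]

/-- Every admissible Jordan type (odd parts with even multiplicity) occurs in a symplectic
group. -/
theorem exists_symplectic_of_type : ∀ (c : ℕ) (μ : Multiset ℕ), Multiset.card μ = c →
    (∀ a ∈ μ, 1 ≤ a) → (∀ j, Odd j → Even (μ.count j)) →
    ∃ (m : ℕ) (_ : 2 * m = μ.sum) (A : Matrix (Fin m ⊕ Fin m) (Fin m ⊕ Fin m) F),
      A ∈ symplecticGroup (Fin m) F ∧
      ∀ k, finrank F (LinearMap.ker ((Matrix.toLin' (A - 1)) ^ k)) = kap μ k := by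
  intro c
  induction c using Nat.strong_induction_on with
  | _ c ih =>
    intro μ hc hpos hpar
    rcases Multiset.empty_or_exists_mem μ with rfl | ⟨a, ha⟩
    · refine ⟨0, by simp, 1, (symplecticGroup (Fin 0) F).one_mem, fun k => ?_⟩
      have : finrank F (LinearMap.ker ((Matrix.toLin'
          ((1 : Matrix (Fin 0 ⊕ Fin 0) (Fin 0 ⊕ Fin 0) F) - 1)) ^ k))
          ≤ finrank F (Fin 0 ⊕ Fin 0 → F) := Submodule.finrank_le _
      have h0 : finrank F (Fin 0 ⊕ Fin 0 → F) = 0 := by simp
      rw [kap_zero]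
      omega
    · rcases Nat.even_or_odd a with hae | hao
      · obtain ⟨k₀, hk₀⟩ := hae
        have hk₀pos : 1 ≤ k₀ := by
          have := hpos a ha
          omega
        obtain ⟨μ', rfl⟩ := Multiset.exists_cons_of_mem ha
        have hpos' : ∀ b ∈ μ', 1 ≤ b := fun b hb => hpos b (Multiset.mem_cons_of_mem hb)
        have hpar' : ∀ j, Odd j → Even (μ'.count j) := by
          intro j hj
          have := hpar j hj
          rw [Multiset.count_cons_of_ne] at this
          · exact this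
          · rintro rfl
            exact (Nat.not_even_iff_odd.mpr hj) ⟨k₀, hk₀⟩
        obtain ⟨m', hm', A', hA', hker'⟩ := ih (Multiset.card μ')
          (by rw [← hc, Multiset.card_cons]; omega) μ' rfl hpos' hpar'
        obtain ⟨U, hU, hreg⟩ := exists_regular_unipotent (F := F) k₀ hk₀pos
        obtain ⟨A'', hA'', hker''⟩ := exists_symplectic_sum U hU A' hA'
        refine ⟨k₀ + m', by rw [Multiset.sum_cons]; omega, A'', hA'', fun k => ?_⟩
        rw [hker'', hker', kap_cons, finrank_ker_pow_of_isRegNil _ hreg]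
        have : Fintype.card (Fin k₀ ⊕ Fin k₀) = a := by simp [hk₀]
        rw [this]
      · have hcnt : 2 ≤ μ.count a := by
          have h1 := hpar a hao
          have h2 : 1 ≤ μ.count a := Multiset.one_le_count_iff_mem.mpr ha
          obtain ⟨r, hr⟩ := h1
          omega
        have ha' : a ∈ μ.erase a := by
          rw [← Multiset.one_le_count_iff_mem, Multiset.count_erase_self]
          omega
        have hμeq : μ = a ::ₘ a ::ₘ (μ.erase a).erase a := by
          rw [Multiset.cons_erase ha', Multiset.cons_erase ha]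
        have hpos'' : ∀ b ∈ (μ.erase a).erase a, 1 ≤ b := fun b hb =>
          hpos b (Multiset.mem_of_mem_erase (Multiset.mem_of_mem_erase hb))
        have hpar'' : ∀ j, Odd j → Even (((μ.erase a).erase a).count j) := by
          intro j hj
          have := hpar j hj
          by_cases h : j = a
          · subst h
            rw [Multiset.count_erase_self, Multiset.count_erase_self]
            obtain ⟨r, hr⟩ := this
            exact ⟨r - 1, by omega⟩
          · rw [Multiset.count_erase_of_ne h, Multiset.count_erase_of_ne h]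
            exact this
        have hcard'' : Multiset.card ((μ.erase a).erase a) < c := by
          have h1 := Multiset.card_erase_of_mem ha'
          have h2 := Multiset.card_erase_of_mem ha
          rw [Nat.pred_eq_sub_one] at h1 h2
          have h3 : 1 ≤ Multiset.card μ := Multiset.card_pos_iff_exists_mem.mpr ⟨a, ha⟩
          omega
        obtain ⟨m'', hm'', A', hA', hker'⟩ := ih _ hcard'' _ rfl hpos'' hpar''
        obtain ⟨H, hH, hkerH⟩ := exists_hyperbolic_block (F := F) a
        obtain ⟨A'', hA'', hker''⟩ := exists_symplectic_sum H hH A' hA'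
        have hsum : μ.sum = a + (a + ((μ.erase a).erase a).sum) := by
          conv_lhs => rw [hμeq]
          rw [Multiset.sum_cons, Multiset.sum_cons]
        have hkap : ∀ k, kap μ k = min k a + (min k a + kap ((μ.erase a).erase a) k) := by
          intro k
          conv_lhs => rw [hμeq]
          rw [kap_cons, kap_cons]
        refine ⟨a + m'', by rw [hsum]; omega, A'', hA'', fun k => ?_⟩
        rw [hker'', hker', hkerH, hkap]
        ring

end SpSum

end Cfsg.Agent.H48
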