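import Cfsg.Agent.H48.JyV
import Cfsg.Agent.H64.JyDefs
import Cfsg.Agent.H52.JxDefs

set_option autoImplicit false

/-!
S2953 (team project JY, kill of the residual situation, helper52's piece (X3) VNE):
in `RCtx2`, `V = Ω₁Z(O₂(L))` is nontrivial and lies in `T'`.

`[S, V] ≤ ⟨z⟩` (`V` is a four-group normalized by `S`, `z ∈ V ∩ Z(S)`), and `z ∈ O₂(L')`, so
every element of `V` normalizes `O₂(L')`; hence `V ≤ N_G(O₂(L')) = L'`, and `S ∩ L' = T'`.
-/

open Cfsg

namespace Cfsg.Agent.H48.Jx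

open Cfsg.Agent.H64.Jz

universe u

/-- a subgroup of order 4 is `{1, a, b, c}` for distinct nontrivial `a, b, c` in it -/
theorem four_all {G : Type u} [Group G] [Finite G] {W : Subgroup G} (hcard : Nat.card ↥W = 4)
    {a b c : G} (ha : a ∈ W) (hb : b ∈ W) (hc : c ∈ W)
    (ha1 : a ≠ 1) (hb1 : b ≠ 1) (hc1 : c ≠ 1) (hab : a ≠ b) (hac : a ≠ c) (hbc : b ≠ c) :
    ∀ w ∈ W, w = 1 ∨ w = a ∨ w = b ∨ w = c := by
  classical
  intro w hw
  by_contra hcon
  push_neg at hcon
  obtain ⟨c1, c2, c3, c4⟩ := hcon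
  let s : Finset G := {1, a, b, c, w}
  have hs5 : s.card = 5 := by
    simp only [s]
    rw [Finset.card_insert_of_notMem, Finset.card_insert_of_notMem,
      Finset.card_insert_of_notMem, Finset.card_insert_of_notMem, Finset.card_singleton]
    · simp only [Finset.mem_singleton]; exact fun h => c4 h.symm
    · simp only [Finset.mem_insert, Finset.mem_singleton]
      rintro (h | h)
      · exact hbc h
      · exact c3 h.symm
    · simp only [Finset.mem_insert, Finset.mem_singleton]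
      rintro (h | h | h)
      · exact hab h
      · exact hac h
      · exact c2 h.symm
    · simp only [Finset.mem_insert, Finset.mem_singleton]
      rintro (h | h | h | h)
      · exact ha1 h.symm
      · exact hb1 h.symm
      · exact hc1 h.symm
      · exact c1 h.symm
  have hsub : (↑s : Set G) ⊆ (W : Set G) := by
    intro t ht
    simp only [s, Finset.coe_insert, Finset.coe_singleton, Set.mem_insert_iff,
      Set.mem_singleton_iff] at ht
    rcases ht with rfl | rfl | rfl | rfl | rfl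
    · exact W.one_mem
    · exact ha
    · exact hb
    · exact hc
    · exact hw
  have h1 : (↑s : Set G).ncard ≤ (W : Set G).ncard := Set.ncard_le_ncard hsub (Set.toFinite _)
  rw [Set.ncard_coe_finset, hs5] at h1
  have h2 : (W : Set G).ncard = Nat.card ↥W := (Nat.card_coe_set_eq (W : Set G)).symm
  rw [h2, hcard] at h1
  omega

/-- **(X3) VNE**: in the residual situation, `V = Ω₁Z(O₂(L)) ≠ 1` and `V ≤ T'`. -/
theorem vne {G : Type u} [Group G] [Finite G] (S : Sylow 2 G) (M K L T' K' L' : Subgroup G)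
    (hR : Cfsg.Agent.H64.Jy.RCtx2 S M K L T' K' L') :
    omegaCenterOf (pCoreOf 2 L) ≠ ⊥ ∧ omegaCenterOf (pCoreOf 2 L) ≤ T' := by
  obtain ⟨hB, hNS, hB', hne⟩ := hR
  obtain ⟨hc4, hexp, hNV, ⟨z, hzV, hz1, hzZ, hzQ', hZall, htr⟩, hCent, hTI⟩ :=
    Cfsg.Agent.H48.Jy.vfacts S M K L T' K' L' hB hNS hB' hne
  refine ⟨fun h => hz1 (by rw [h] at hzV; exact Subgroup.mem_bot.mp hzV), ?_⟩
  obtain ⟨-, hSylT'⟩ := Cfsg.Agent.H61.Jk.base_facts S L T' K' L' hB'
  obtain ⟨-, hSylS⟩ := Cfsg.Agent.H61.Jk.base_facts S M (S : Subgroup G) K L hB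
  have hL'max : IsMaximalTwoLocal L' := hB'.2.2.2.2.2.2.2.1
  have hT'S : T' ≤ (S : Subgroup G) := hB'.2.2.2.2.2.1
  have hSL : (S : Subgroup G) ≤ L := hSylS.1
  have hQS : pCoreOf 2 L ≤ (S : Subgroup G) :=
    Cfsg.Agent.Helper55.J48.pCoreOf_le_of_sylowIn hSylS
  have hQ'T : pCoreOf 2 L' ≤ T' := Cfsg.Agent.Helper55.J48.pCoreOf_le_of_sylowIn hSylT'
  have hVS : omegaCenterOf (pCoreOf 2 L) ≤ (S : Subgroup G) :=
    (Cfsg.Agent.H12.Jk.omegaCenterOf_le_self _).trans hQS
  have hzS : ∀ s ∈ (S : Subgroup G), s * z = z * s := by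
    intro s hs
    have := (Cfsg.Agent.H48.Jk.omegaCenterOf_le_inf' _ hzZ).2
    exact ((Subgroup.mem_centralizer_iff.mp this) s hs)
  have hzz : z * z = 1 := hexp z hzV
  -- `S` normalizes `V`
  have hSV : ∀ s ∈ (S : Subgroup G), ∀ v ∈ omegaCenterOf (pCoreOf 2 L),
      s * v * s⁻¹ ∈ omegaCenterOf (pCoreOf 2 L) := by
    intro s hs v hv
    have h1 : s ∈ Subgroup.normalizer (omegaCenterOf (pCoreOf 2 L) : Set G) := by
      rw [hNV]; exact hSL hs
    exact (Subgroup.mem_normalizer_iff.mp h1 v).mp hv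
  -- `[S, V] ≤ ⟨z⟩`
  have hkey : ∀ s ∈ (S : Subgroup G), ∀ v ∈ omegaCenterOf (pCoreOf 2 L),
      s * v * s⁻¹ = v ∨ s * v * s⁻¹ = v * z := by
    intro s hs v hv
    by_contra hcon
    push_neg at hcon
    obtain ⟨h1, h2⟩ := hcon
    have hv1 : v ≠ 1 := by
      intro h; apply h1; rw [h]; group
    have hvz : v ≠ z := by
      intro h; apply h1; rw [h]
      rw [hzS s hs]; group
    have hb1 : v * z ≠ 1 := by
      intro h; apply hvz
      calc v = (v * z) * z := by rw [mul_assoc, hzz, mul_one]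
        _ = z := by rw [h, one_mul]
    have hbz : z ≠ v * z := by
      intro h; apply hv1
      calc v = (v * z) * z⁻¹ := by group
        _ = z * z⁻¹ := by rw [← h]
        _ = 1 := by group
    have hbv : v ≠ v * z := by
      intro h; apply hz1
      calc z = v⁻¹ * (v * z) := by group
        _ = v⁻¹ * v := by rw [← h]
        _ = 1 := by group
    have hall := four_all hc4 hzV hv (Subgroup.mul_mem _ hv hzV) hz1 hv1 hb1 (Ne.symm hvz)
      hbz hbv
    rcases hall _ (hSV s hs v hv) with h | h | h | h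
    · apply hv1
      have : v = s⁻¹ * (s * v * s⁻¹) * s := by group
      rw [this, h]; group
    · apply hvz
      have e : v = s⁻¹ * (s * v * s⁻¹) * s := by group
      rw [e, h, hzS s⁻¹ (Subgroup.inv_mem _ hs)]; group
    · exact h1 h
    · exact h2 h
  -- every element of `V` normalizes `O₂(L')`
  have hfw : ∀ v ∈ omegaCenterOf (pCoreOf 2 L), ∀ q ∈ pCoreOf 2 L',
      v * q * v⁻¹ ∈ pCoreOf 2 L' := by
    intro v hv q hq
    have hqS : q ∈ (S : Subgroup G) := hT'S (hQ'T hq)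
    have hvz : v * z = z * v := hzS v (hVS hv)
    have e : v * q * v⁻¹ = q * (q⁻¹ * v * q⁻¹⁻¹) * v⁻¹ := by group
    rcases hkey q⁻¹ (Subgroup.inv_mem _ hqS) v hv with h | h
    · rw [e, h]
      have : q * v * v⁻¹ = q := by group
      rw [this]; exact hq
    · rw [e, h]
      have : q * (v * z) * v⁻¹ = q * z := by
        rw [hvz]; group
      rw [this]; exact Subgroup.mul_mem _ hq hzQ'
  intro v hv
  have hvN : v ∈ Subgroup.normalizer (pCoreOf 2 L' : Set G) := by
    rw [Subgroup.mem_normalizer_iff]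
    intro q
    constructor
    · exact hfw v hv q
    · intro h
      have := hfw v⁻¹ (Subgroup.inv_mem _ hv) _ h
      have e : v⁻¹ * (v * q * v⁻¹) * v⁻¹⁻¹ = q := by group
      rwa [e] at this
  have hvL' : v ∈ L' := by
    rw [← (Cfsg.Agent.H12.Jz.normalizer_pCoreOf_eq hL'max).2]; exact hvN
  -- `S ⊓ L' ≤ T'`
  have hle : (S : Subgroup G) ⊓ L' ≤ T' := by
    obtain ⟨hT'L', hT'2, hodd⟩ := hSylT'
    have hP2 : IsPGroup 2 ↥((S : Subgroup G) ⊓ L') := S.isPGroup'.to_le inf_le_left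
    have hTP : T' ≤ (S : Subgroup G) ⊓ L' := le_inf hT'S hT'L'
    have hmul := Subgroup.relIndex_mul_relIndex T' ((S : Subgroup G) ⊓ L') L' hTP inf_le_right
    have hodd1 : Odd (T'.relIndex ((S : Subgroup G) ⊓ L')) := by
      rw [← hmul] at hodd
      exact (Nat.odd_mul.mp hodd).1
    have hdvd : T'.relIndex ((S : Subgroup G) ⊓ L') ∣ Nat.card ↥((S : Subgroup G) ⊓ L') :=
      Subgroup.relIndex_dvd_card _ _
    obtain ⟨n, hn⟩ := IsPGroup.iff_card.mp hP2
    rw [hn] at hdvd
    obtain ⟨m, -, hm⟩ := (Nat.dvd_prime_pow Nat.prime_two).mp hdvd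
    have h1 : T'.relIndex ((S : Subgroup G) ⊓ L') = 1 := by
      rw [hm] at hodd1 ⊢
      cases m with
      | zero => rfl
      | succ m =>
        exact absurd hodd1 (by rw [Nat.not_odd_iff_even]; exact ⟨2 ^ m, by ring⟩)
    exact Subgroup.relIndex_eq_one.mp h1
  exact hle ⟨hVS hv, hvL'⟩

/-- (X3) in the exact shape of `Cfsg.Agent.H52.Jx.StVne`. -/
theorem stVne : Cfsg.Agent.H52.Jx.StVne.{u} := by
  intro G _ _ S M K L T' K' L' hR
  exact vne S M K L T' K' L' hR

example : Cfsg.Agent.H52.Jx.StVne.{u} := stVne.{u}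

end Cfsg.Agent.H48.Jx
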