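import Mathlib
import Cfsg.Agent.H17.MnDefs
import Cfsg.Agent.H77.MnBas1
import Cfsg.Agent.H77.MnBas2
import Cfsg.Agent.H27.MnNM
import Cfsg.Agent.H27.MnTS

/-!
helper48: piece S5634-COL for helper17: an overgroup `M` of the monomial group of determinant one
in which elements with a coordinate column are monomial has no non-monomial element with two zeros
in one column.
-/

set_option autoImplicit false

namespace Cfsg.Agent.H48.Mn

open Cfsg Cfsg.Geo Cfsg.Agent.H17.Mn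
open scoped MatrixGroups Matrix

variable {ι : Type} [Fintype ι] [DecidableEq ι] {F : Type*} [Field F]

theorem hfun_prod (k k' : ι) (hkk' : k ≠ k') (a : F) (ha : a ≠ 0) :
    ∏ i, (if i = k then a else if i = k' then a⁻¹ else 1 : F) = 1 := by
  have h : ∀ i : ι, (if i = k then a else if i = k' then a⁻¹ else 1 : F)
      = (if i = k then a else 1) * (if i = k' then a⁻¹ else 1) := by
    intro i
    by_cases h1 : i = k
    · subst h1
      rw [if_pos rfl, if_pos rfl, if_neg hkk', mul_one]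
    · rw [if_neg h1, if_neg h1, one_mul]
  rw [Finset.prod_congr rfl (fun i _ => h i), Finset.prod_mul_distrib,
    Finset.prod_ite_eq', Finset.prod_ite_eq']
  simp [ha]

theorem conj_diag_apply (g γ : Matrix ι ι F) (d : ι → F) (i j : ι) :
    (g * Matrix.diagonal d * γ) i j = ∑ l, g i l * d l * γ l j := by
  rw [Matrix.mul_apply]
  refine Finset.sum_congr rfl (fun l _ => ?_)
  rw [Matrix.mul_diagonal]

theorem conj_diag_fix (g γ : Matrix ι ι F) (hgγ : g * γ = 1) (d : ι → F) (j : ι)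
    (h : ∀ l, d l ≠ 1 → γ l j = 0) (i : ι) :
    (g * Matrix.diagonal d * γ) i j = (1 : Matrix ι ι F) i j := by
  rw [conj_diag_apply, ← hgγ, Matrix.mul_apply]
  refine Finset.sum_congr rfl (fun l _ => ?_)
  by_cases hl : d l = 1
  · rw [hl, mul_one]
  · rw [h l hl, mul_zero, mul_zero]

theorem exists_good_elt [Fintype F] (hq : 5 ≤ Fintype.card F) :
    ∃ a : F, a ≠ 0 ∧ a ^ 2 ≠ 1 ∧ a ^ 3 ≠ 1 := by
  classical
  obtain ⟨u, hu⟩ := IsCyclic.exists_generator (α := Fˣ)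
  have hord : orderOf u = Fintype.card F - 1 := by
    rw [orderOf_eq_card_of_forall_mem_zpowers hu, Nat.card_eq_fintype_card, Fintype.card_units]
  refine ⟨(u : F), u.ne_zero, ?_, ?_⟩
  · intro h
    have h1 : u ^ 2 = 1 := Units.ext (by rw [Units.val_pow_eq_pow_val, h, Units.val_one])
    exact pow_ne_one_of_lt_orderOf (by norm_num) (by rw [hord]; omega) h1
  · intro h
    have h1 : u ^ 3 = 1 := Units.ext (by rw [Units.val_pow_eq_pow_val, h, Units.val_one])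
    exact pow_ne_one_of_lt_orderOf (by norm_num) (by rw [hord]; omega) h1

/-- one round: if column `j` of `γ` vanishes at `k ≠ k'`, then columns `k`, `k'` of `γ⁻¹` are
supported on two rows -/
theorem round (M : Subgroup (GL ι F)) (hM : monoS ι F ≤ M)
    (hstar : ∀ m ∈ M, (∃ i j, ∀ i', i' ≠ i → (m : Matrix ι ι F) i' j = 0) → m ∈ mono ι F)
    (γ : GL ι F) (hγM : γ ∈ M) (hnc : ∀ j i, ∃ i', i' ≠ i ∧ (γ : Matrix ι ι F) i' j ≠ 0)
    (a : F) (ha0 : a ≠ 0) (ha2 : a ^ 2 ≠ 1) (ha3 : a ^ 3 ≠ 1)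
    (j k k' : ι) (hkk' : k ≠ k') (h1 : (γ : Matrix ι ι F) k j = 0)
    (h2 : (γ : Matrix ι ι F) k' j = 0) :
    ∃ r s : ι, r ≠ s ∧ ∀ i, i ≠ r → i ≠ s →
      ((γ⁻¹ : GL ι F) : Matrix ι ι F) i k = 0 ∧ ((γ⁻¹ : GL ι F) : Matrix ι ι F) i k' = 0 := by
  classical
  have ha1 : a ≠ 1 := by
    intro h
    apply ha2
    rw [h, one_pow]
  have hai1 : a⁻¹ ≠ 1 := by
    intro h
    apply ha1
    rw [← inv_inv a, h, inv_one]
  obtain ⟨d, hd⟩ : ∃ d : ι → F, d = fun i => if i = k then a else if i = k' then a⁻¹ else 1 :=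
    ⟨_, rfl⟩
  have hdk : d k = a := by rw [hd]; simp
  have hdk' : d k' = a⁻¹ := by rw [hd]; simp [hkk'.symm]
  have hdo : ∀ l, l ≠ k → l ≠ k' → d l = 1 := by
    intro l h1 h2; rw [hd]; simp [h1, h2]
  have hd0 : ∀ i, d i ≠ 0 := by
    intro i
    by_cases hi : i = k
    · rw [hi, hdk]; exact ha0
    · by_cases hi' : i = k'
      · rw [hi', hdk']; exact inv_ne_zero ha0
      · rw [hdo i hi hi']; exact one_ne_zero
  have hprod : ∏ i, d i = 1 := by rw [hd]; exact hfun_prod k k' hkk' a ha0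
  obtain ⟨hG, hGv, -, hGS⟩ := Cfsg.Agent.H77.Mn.exists_diag d hd0
  have hGM : hG ∈ M := hM (hGS hprod)
  have hgγ : ((γ⁻¹ : GL ι F) : Matrix ι ι F) * (γ : Matrix ι ι F) = 1 := by
    rw [← Units.val_mul, inv_mul_cancel, Units.val_one]
  have hxM : γ⁻¹ * hG * γ ∈ M := M.mul_mem (M.mul_mem (M.inv_mem hγM) hGM) hγM
  have hxv : ((γ⁻¹ * hG * γ : GL ι F) : Matrix ι ι F)
      = ((γ⁻¹ : GL ι F) : Matrix ι ι F) * Matrix.diagonal d * (γ : Matrix ι ι F) := by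
    rw [Units.val_mul, Units.val_mul, hGv]
  have hfix : ∀ i, ((γ⁻¹ * hG * γ : GL ι F) : Matrix ι ι F) i j = (1 : Matrix ι ι F) i j := by
    intro i
    rw [hxv]
    apply conj_diag_fix _ _ hgγ
    intro l hl
    by_cases hlk : l = k
    · rw [hlk]; exact h1
    · by_cases hlk' : l = k'
      · rw [hlk']; exact h2
      · exact absurd (hdo l hlk hlk') hl
  have hxm : γ⁻¹ * hG * γ ∈ mono ι F := by
    apply hstar _ hxM
    refine ⟨j, j, fun i' hi' => ?_⟩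
    rw [hfix, Matrix.one_apply_ne hi']
  obtain ⟨π, hπ⟩ := Cfsg.Agent.H77.Mn.exists_perm_of_mem_mono _ hxm
  have hπ' : ∀ i l, i ≠ π l →
      (((γ⁻¹ : GL ι F) : Matrix ι ι F) * Matrix.diagonal d * (γ : Matrix ι ι F)) i l = 0 := by
    intro i l hil
    by_contra hne
    rw [← hxv] at hne
    exact hil ((hπ i l).mp hne)
  have hNM := Cfsg.Agent.H27.Mn.nm_bound _ _ hgγ d π hπ'
  have hK : Nat.card {k₀ : ι // d k₀ ≠ 1} ≤ 2 := by
    rw [Nat.card_eq_fintype_card, Fintype.card_subtype]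
    calc (Finset.univ.filter (fun k₀ => d k₀ ≠ 1)).card ≤ ({k, k'} : Finset ι).card := by
          apply Finset.card_le_card
          intro l hl
          rw [Finset.mem_filter] at hl
          rw [Finset.mem_insert, Finset.mem_singleton]
          by_contra hne
          rw [not_or] at hne
          exact hl.2 (hdo l hne.1 hne.2)
      _ ≤ 2 := Finset.card_le_two
  have hL : Nat.card {l : ι // (γ : Matrix ι ι F) k l ≠ 0 ∨ (γ : Matrix ι ι F) k' l ≠ 0} ≤ 4 := by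
    have h3 : Nat.card {l : ι // (γ : Matrix ι ι F) k l ≠ 0 ∨ (γ : Matrix ι ι F) k' l ≠ 0}
        ≤ Nat.card {l : ι // ∃ k₀, d k₀ ≠ 1 ∧ (γ : Matrix ι ι F) k₀ l ≠ 0} := by
      apply Nat.card_le_card_of_injective
        (fun x : {l : ι // (γ : Matrix ι ι F) k l ≠ 0 ∨ (γ : Matrix ι ι F) k' l ≠ 0} =>
          (⟨x.1, by
            rcases x.2 with h | h
            · exact ⟨k, by rw [hdk]; exact ha1, h⟩
            · exact ⟨k', by rw [hdk']; exact hai1, h⟩⟩ :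
            {l : ι // ∃ k₀, d k₀ ≠ 1 ∧ (γ : Matrix ι ι F) k₀ l ≠ 0}))
      intro x y hxy
      exact Subtype.ext (Subtype.mk.inj hxy)
    omega
  rw [hd] at hπ'
  exact Cfsg.Agent.H27.Mn.two_support _ _ hgγ k k' hkk' a ha0 ha2 ha3 π hπ' hnc hL

/-- **S5634-COL** -/
theorem col_zero_le_one [Fintype F] (hι : 5 ≤ Fintype.card ι) (hq : 5 ≤ Fintype.card F) (M : Subgroup (GL ι F)) (hM : monoS ι F ≤ M) (hstar : ∀ m ∈ M, (∃ i j, ∀ i', i' ≠ i → (m : Matrix ι ι F) i' j = 0) → m ∈ mono ι F) (γ : GL ι F) (hγM : γ ∈ M) (hγ : γ ∉ mono ι F) (j k k' : ι) (hkk' : k ≠ k') (h1 : (γ : Matrix ι ι F) k j = 0) (h2 : (γ : Matrix ι ι F) k' j = 0) : False := by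
  classical
  obtain ⟨a, ha0, ha2, ha3⟩ : ∃ a : F, a ≠ 0 ∧ a ^ 2 ≠ 1 ∧ a ^ 3 ≠ 1 := exists_good_elt hq
  have hnc_of : ∀ m ∈ M, m ∉ mono ι F →
      ∀ j i, ∃ i', i' ≠ i ∧ (m : Matrix ι ι F) i' j ≠ 0 := by
    intro m hm hmn j i
    by_contra hne
    apply hmn
    apply hstar m hm
    refine ⟨i, j, fun i' hi' => ?_⟩
    by_contra h0
    exact hne ⟨i', hi', h0⟩
  have hgM : γ⁻¹ ∈ M := M.inv_mem hγM
  have hgn : γ⁻¹ ∉ mono ι F := fun h => hγ (by simpa using (mono ι F).inv_mem h)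
  have hncγ := hnc_of γ hγM hγ
  have hncg := hnc_of γ⁻¹ hgM hgn
  obtain ⟨r, s, hrs, hsupp⟩ := round M hM hstar γ hγM hncγ a ha0 ha2 ha3 j k k' hkk' h1 h2
  -- three indices outside `{r, s}`
  have hcard : 2 < (Finset.univ \ ({r, s} : Finset ι)).card := by
    have h3 := Finset.le_card_sdiff ({r, s} : Finset ι) Finset.univ
    have h4 : ({r, s} : Finset ι).card ≤ 2 := Finset.card_le_two
    rw [Finset.card_univ] at h3
    omega
  obtain ⟨i1, hi1, i2, hi2, i3, hi3, h12, h13, h23⟩ := Finset.two_lt_card.mp hcard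
  simp only [Finset.mem_sdiff, Finset.mem_univ, Finset.mem_insert, Finset.mem_singleton,
    true_and, not_or] at hi1 hi2 hi3
  have z1 := (hsupp i1 hi1.1 hi1.2).1
  have z2 := (hsupp i2 hi2.1 hi2.2).1
  have z3 := (hsupp i3 hi3.1 hi3.2).1
  obtain ⟨r', s', hrs', hsupp'⟩ :=
    round M hM hstar γ⁻¹ hgM hncg a ha0 ha2 ha3 k i1 i2 h12 z1 z2
  obtain ⟨r'', s'', hrs'', hsupp''⟩ :=
    round M hM hstar γ⁻¹ hgM hncg a ha0 ha2 ha3 k i1 i3 h13 z1 z3
  rw [inv_inv] at hsupp' hsupp''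
  -- two non-zero entries in column `i1` of `γ`
  obtain ⟨p, -, hp⟩ := hncγ i1 i1
  obtain ⟨p', hpp', hp'⟩ := hncγ i1 p
  have hmem' : ∀ x, (γ : Matrix ι ι F) x i1 ≠ 0 → x = r' ∨ x = s' := by
    intro x hx
    by_contra hne
    rw [not_or] at hne
    exact hx (hsupp' x hne.1 hne.2).1
  have hmem'' : ∀ x, (γ : Matrix ι ι F) x i1 ≠ 0 → x = r'' ∨ x = s'' := by
    intro x hx
    by_contra hne
    rw [not_or] at hne
    exact hx (hsupp'' x hne.1 hne.2).1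
  have hall : ∀ i, i ≠ p → i ≠ p' → (γ : Matrix ι ι F) i i1 = 0 ∧
      (γ : Matrix ι ι F) i i2 = 0 ∧ (γ : Matrix ι ι F) i i3 = 0 := by
    intro i hip hip'
    have hA : i ≠ r' ∧ i ≠ s' := by
      rcases hmem' p hp with h | h <;> rcases hmem' p' hp' with h' | h'
      · exact absurd (h'.trans h.symm) hpp'
      · exact ⟨h ▸ hip, h' ▸ hip'⟩
      · exact ⟨h' ▸ hip', h ▸ hip⟩
      · exact absurd (h'.trans h.symm) hpp'
    have hB : i ≠ r'' ∧ i ≠ s'' := by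
      rcases hmem'' p hp with h | h <;> rcases hmem'' p' hp' with h' | h'
      · exact absurd (h'.trans h.symm) hpp'
      · exact ⟨h ▸ hip, h' ▸ hip'⟩
      · exact ⟨h' ▸ hip', h ▸ hip⟩
      · exact absurd (h'.trans h.symm) hpp'
    exact ⟨(hsupp' i hA.1 hA.2).1, (hsupp' i hA.1 hA.2).2, (hsupp'' i hB.1 hB.2).2⟩
  -- three columns supported on two rows: rank contradiction
  have hgγ : ((γ⁻¹ : GL ι F) : Matrix ι ι F) * (γ : Matrix ι ι F) = 1 := by
    rw [← Units.val_mul, inv_mul_cancel, Units.val_one]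
  have key : ∀ x y : ι, (y = i1 ∨ y = i2 ∨ y = i3) → (1 : Matrix ι ι F) x y =
      ((γ⁻¹ : GL ι F) : Matrix ι ι F) x p * (γ : Matrix ι ι F) p y +
        ((γ⁻¹ : GL ι F) : Matrix ι ι F) x p' * (γ : Matrix ι ι F) p' y := by
    intro x y hy
    rw [← hgγ, Matrix.mul_apply]
    apply Fintype.sum_eq_add p p' hpp'.symm
    intro l hl
    have h0 := hall l hl.1 hl.2
    rcases hy with rfl | rfl | rfl
    · rw [h0.1, mul_zero]
    · rw [h0.2.1, mul_zero]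
    · rw [h0.2.2, mul_zero]
  have e11 := key i1 i1 (Or.inl rfl)
  have e12 := key i1 i2 (Or.inr (Or.inl rfl))
  have e13 := key i1 i3 (Or.inr (Or.inr rfl))
  have e21 := key i2 i1 (Or.inl rfl)
  have e22 := key i2 i2 (Or.inr (Or.inl rfl))
  have e23 := key i2 i3 (Or.inr (Or.inr rfl))
  have e31 := key i3 i1 (Or.inl rfl)
  have e32 := key i3 i2 (Or.inr (Or.inl rfl))
  have e33 := key i3 i3 (Or.inr (Or.inr rfl))
  rw [Matrix.one_apply_eq] at e11 e22 e33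
  rw [Matrix.one_apply_ne h12] at e12
  rw [Matrix.one_apply_ne h13] at e13
  rw [Matrix.one_apply_ne h12.symm] at e21
  rw [Matrix.one_apply_ne h23] at e23
  rw [Matrix.one_apply_ne h13.symm] at e31
  rw [Matrix.one_apply_ne h23.symm] at e32
  have hdet :
      (((γ⁻¹ : GL ι F) : Matrix ι ι F) i1 p * (γ : Matrix ι ι F) p i1 +
          ((γ⁻¹ : GL ι F) : Matrix ι ι F) i1 p' * (γ : Matrix ι ι F) p' i1) *
        ((((γ⁻¹ : GL ι F) : Matrix ι ι F) i2 p * (γ : Matrix ι ι F) p i2 +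
            ((γ⁻¹ : GL ι F) : Matrix ι ι F) i2 p' * (γ : Matrix ι ι F) p' i2) *
          (((γ⁻¹ : GL ι F) : Matrix ι ι F) i3 p * (γ : Matrix ι ι F) p i3 +
            ((γ⁻¹ : GL ι F) : Matrix ι ι F) i3 p' * (γ : Matrix ι ι F) p' i3) -
          (((γ⁻¹ : GL ι F) : Matrix ι ι F) i2 p * (γ : Matrix ι ι F) p i3 +
            ((γ⁻¹ : GL ι F) : Matrix ι ι F) i2 p' * (γ : Matrix ι ι F) p' i3) *
          (((γ⁻¹ : GL ι F) : Matrix ι ι F) i3 p * (γ : Matrix ι ι F) p i2 +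
            ((γ⁻¹ : GL ι F) : Matrix ι ι F) i3 p' * (γ : Matrix ι ι F) p' i2)) -
      (((γ⁻¹ : GL ι F) : Matrix ι ι F) i1 p * (γ : Matrix ι ι F) p i2 +
          ((γ⁻¹ : GL ι F) : Matrix ι ι F) i1 p' * (γ : Matrix ι ι F) p' i2) *
        ((((γ⁻¹ : GL ι F) : Matrix ι ι F) i2 p * (γ : Matrix ι ι F) p i1 +
            ((γ⁻¹ : GL ι F) : Matrix ι ι F) i2 p' * (γ : Matrix ι ι F) p' i1) *
          (((γ⁻¹ : GL ι F) : Matrix ι ι F) i3 p * (γ : Matrix ι ι F) p i3 +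
            ((γ⁻¹ : GL ι F) : Matrix ι ι F) i3 p' * (γ : Matrix ι ι F) p' i3) -
          (((γ⁻¹ : GL ι F) : Matrix ι ι F) i2 p * (γ : Matrix ι ι F) p i3 +
            ((γ⁻¹ : GL ι F) : Matrix ι ι F) i2 p' * (γ : Matrix ι ι F) p' i3) *
          (((γ⁻¹ : GL ι F) : Matrix ι ι F) i3 p * (γ : Matrix ι ι F) p i1 +
            ((γ⁻¹ : GL ι F) : Matrix ι ι F) i3 p' * (γ : Matrix ι ι F) p' i1)) +
      (((γ⁻¹ : GL ι F) : Matrix ι ι F) i1 p * (γ : Matrix ι ι F) p i3 +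
          ((γ⁻¹ : GL ι F) : Matrix ι ι F) i1 p' * (γ : Matrix ι ι F) p' i3) *
        ((((γ⁻¹ : GL ι F) : Matrix ι ι F) i2 p * (γ : Matrix ι ι F) p i1 +
            ((γ⁻¹ : GL ι F) : Matrix ι ι F) i2 p' * (γ : Matrix ι ι F) p' i1) *
          (((γ⁻¹ : GL ι F) : Matrix ι ι F) i3 p * (γ : Matrix ι ι F) p i2 +
            ((γ⁻¹ : GL ι F) : Matrix ι ι F) i3 p' * (γ : Matrix ι ι F) p' i2) -
          (((γ⁻¹ : GL ι F) : Matrix ι ι F) i2 p * (γ : Matrix ι ι F) p i2 +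
            ((γ⁻¹ : GL ι F) : Matrix ι ι F) i2 p' * (γ : Matrix ι ι F) p' i2) *
          (((γ⁻¹ : GL ι F) : Matrix ι ι F) i3 p * (γ : Matrix ι ι F) p i1 +
            ((γ⁻¹ : GL ι F) : Matrix ι ι F) i3 p' * (γ : Matrix ι ι F) p' i1)) = 0 := by
    ring
  rw [← e11, ← e12, ← e13, ← e21, ← e22, ← e23, ← e31, ← e32, ← e33] at hdet
  norm_num at hdet
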