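import Mathlib
import Cfsg.Agent.H17.MnDefs
import Cfsg.Agent.H77.MnBas1
import Cfsg.Agent.H77.MnBas2
import Cfsg.Agent.H27.MnNM

/-!
helper48: piece S5634-NZ for helper17: if non-monomial elements of `M ≥ monoS` have at most one
zero in each row and column, they have no zero at all (dimension at least 10, `q ≥ 5`).
-/

set_option autoImplicit false

namespace Cfsg.Agent.H48.Mn

open Cfsg Cfsg.Geo Cfsg.Agent.H17.Mn
open scoped MatrixGroups Matrix

variable {ι : Type} [Fintype ι] [DecidableEq ι] {F : Type*} [Field F]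

theorem nz_conj_diag_apply (g γ : Matrix ι ι F) (d : ι → F) (i j : ι) :
    (g * Matrix.diagonal d * γ) i j = ∑ l, g i l * d l * γ l j := by
  rw [Matrix.mul_apply]
  refine Finset.sum_congr rfl (fun l _ => ?_)
  rw [Matrix.mul_diagonal]

theorem sum_three (f : ι → F) (a b c : ι) (hab : a ≠ b) (hac : a ≠ c) (hbc : b ≠ c)
    (h : ∀ x, x ≠ a → x ≠ b → x ≠ c → f x = 0) : ∑ x, f x = f a + f b + f c := by
  classical
  rw [← Finset.sum_subset (Finset.subset_univ ({a, b, c} : Finset ι))]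
  · rw [Finset.sum_insert (by simp [hab, hac]), Finset.sum_insert (by simp [hbc]),
      Finset.sum_singleton, add_assoc]
  · intro x _ hx
    simp only [Finset.mem_insert, Finset.mem_singleton, not_or] at hx
    exact h x hx.1 hx.2.1 hx.2.2

/-- two homogeneous linear equations in three unknowns have a non-trivial solution -/
theorem exists_ker3 (u0 u1 u2 v0 v1 v2 : F) : ∃ b0 b1 b2 : F, (b0 ≠ 0 ∨ b1 ≠ 0 ∨ b2 ≠ 0) ∧
    b0 * u0 + b1 * u1 + b2 * u2 = 0 ∧ b0 * v0 + b1 * v1 + b2 * v2 = 0 := by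
  have hdet : (!![u0, u1, u2; v0, v1, v2; 0, 0, 0] : Matrix (Fin 3) (Fin 3) F).det = 0 := by
    rw [Matrix.det_fin_three]
    simp
  obtain ⟨β, hβ, hMβ⟩ := Matrix.exists_mulVec_eq_zero_iff.mpr hdet
  have e0 := congrFun hMβ 0
  have e1 := congrFun hMβ 1
  simp [Matrix.mulVec, dotProduct, Fin.sum_univ_three] at e0 e1
  refine ⟨β 0, β 1, β 2, ?_, by linear_combination e0, by linear_combination e1⟩
  by_contra hne
  rw [not_or, not_or, not_not, not_not, not_not] at hne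
  apply hβ
  funext x
  fin_cases x
  · exact hne.1
  · exact hne.2.1
  · exact hne.2.2

theorem prod_four (k1 k2 k3 k0 : ι) (h12 : k1 ≠ k2) (h13 : k1 ≠ k3) (h23 : k2 ≠ k3)
    (h10 : k1 ≠ k0) (h20 : k2 ≠ k0) (h30 : k3 ≠ k0) (c1 c2 c3 c0 : F) :
    ∏ i, (if i = k1 then c1 else if i = k2 then c2 else if i = k3 then c3 else
      if i = k0 then c0 else 1 : F) = c1 * c2 * c3 * c0 := by
  have h : ∀ i : ι, (if i = k1 then c1 else if i = k2 then c2 else if i = k3 then c3 else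
      if i = k0 then c0 else 1 : F)
      = (if i = k1 then c1 else 1) * (if i = k2 then c2 else 1) * (if i = k3 then c3 else 1) *
        (if i = k0 then c0 else 1) := by
    intro i
    by_cases h1 : i = k1
    · subst h1
      rw [if_pos rfl, if_pos rfl, if_neg h12, if_neg h13, if_neg h10, mul_one, mul_one, mul_one]
    · by_cases h2 : i = k2
      · subst h2
        rw [if_neg h1, if_pos rfl, if_neg h1, if_pos rfl, if_neg h23, if_neg h20, one_mul,
          mul_one, mul_one]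
      · by_cases h3 : i = k3
        · subst h3
          rw [if_neg h1, if_neg h2, if_pos rfl, if_neg h1, if_neg h2, if_pos rfl, if_neg h30,
            one_mul, one_mul, mul_one]
        · rw [if_neg h1, if_neg h2, if_neg h3, if_neg h1, if_neg h2, if_neg h3, one_mul,
            one_mul, one_mul]
  rw [Finset.prod_congr rfl (fun i _ => h i), Finset.prod_mul_distrib, Finset.prod_mul_distrib,
    Finset.prod_mul_distrib, Finset.prod_ite_eq', Finset.prod_ite_eq', Finset.prod_ite_eq',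
    Finset.prod_ite_eq']
  simp

/-- **S5634-NZ** -/
theorem no_zero [Fintype F] (hι : 10 ≤ Fintype.card ι) (hq : 5 ≤ Fintype.card F) (M : Subgroup (GL ι F)) (hM : monoS ι F ≤ M) (hcol : ∀ γ ∈ M, γ ∉ mono ι F → ∀ j k k', k ≠ k' → (γ : Matrix ι ι F) k j = 0 → (γ : Matrix ι ι F) k' j = 0 → False) (hrow : ∀ γ ∈ M, γ ∉ mono ι F → ∀ i l l', l ≠ l' → (γ : Matrix ι ι F) i l = 0 → (γ : Matrix ι ι F) i l' = 0 → False) (γ : GL ι F) (hγM : γ ∈ M) (hγ : γ ∉ mono ι F) (i j : ι) : (γ : Matrix ι ι F) i j ≠ 0 := by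
  classical
  intro h0
  -- three more rows
  have hcard3 : 2 < (Finset.univ \ ({i} : Finset ι)).card := by
    have h3 := Finset.le_card_sdiff ({i} : Finset ι) Finset.univ
    rw [Finset.card_univ, Finset.card_singleton] at h3
    omega
  obtain ⟨k1, hk1, k2, hk2, k3, hk3, h12, h13, h23⟩ := Finset.two_lt_card.mp hcard3
  simp only [Finset.mem_sdiff, Finset.mem_univ, Finset.mem_singleton, true_and] at hk1 hk2 hk3
  -- two rows different from `j`
  have hcard2 : 1 < (Finset.univ \ ({j} : Finset ι)).card := by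
    have h3 := Finset.le_card_sdiff ({j} : Finset ι) Finset.univ
    rw [Finset.card_univ, Finset.card_singleton] at h3
    omega
  obtain ⟨i1, hi1, i2, hi2, hi12⟩ := Finset.one_lt_card.mp hcard2
  simp only [Finset.mem_sdiff, Finset.mem_univ, Finset.mem_singleton, true_and] at hi1 hi2
  have hgγ : ((γ⁻¹ : GL ι F) : Matrix ι ι F) * (γ : Matrix ι ι F) = 1 := by
    rw [← Units.val_mul, inv_mul_cancel, Units.val_one]
  -- the coefficients
  obtain ⟨b1, b2, b3, hb, eq1, eq2⟩ := exists_ker3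
    ((γ : Matrix ι ι F) k1 j * ((γ⁻¹ : GL ι F) : Matrix ι ι F) i1 k1)
    ((γ : Matrix ι ι F) k2 j * ((γ⁻¹ : GL ι F) : Matrix ι ι F) i1 k2)
    ((γ : Matrix ι ι F) k3 j * ((γ⁻¹ : GL ι F) : Matrix ι ι F) i1 k3)
    ((γ : Matrix ι ι F) k1 j * ((γ⁻¹ : GL ι F) : Matrix ι ι F) i2 k1)
    ((γ : Matrix ι ι F) k2 j * ((γ⁻¹ : GL ι F) : Matrix ι ι F) i2 k2)
    ((γ : Matrix ι ι F) k3 j * ((γ⁻¹ : GL ι F) : Matrix ι ι F) i2 k3)
  -- the scalar
  have hB : ({0, -b1⁻¹, -b2⁻¹, -b3⁻¹} : Finset F).card ≤ 4 := Finset.card_le_four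
  have hpos : 0 < (Finset.univ \ ({0, -b1⁻¹, -b2⁻¹, -b3⁻¹} : Finset F)).card := by
    have h3 := Finset.le_card_sdiff ({0, -b1⁻¹, -b2⁻¹, -b3⁻¹} : Finset F) Finset.univ
    rw [Finset.card_univ] at h3
    omega
  obtain ⟨lam, hlam⟩ := Finset.card_pos.mp hpos
  simp only [Finset.mem_sdiff, Finset.mem_univ, Finset.mem_insert, Finset.mem_singleton,
    true_and, not_or] at hlam
  obtain ⟨hl0, hl1, hl2, hl3⟩ := hlam
  have hne0 : ∀ b : F, lam ≠ -b⁻¹ → 1 + lam * b ≠ 0 := by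
    intro b hb' h
    by_cases hb0 : b = 0
    · rw [hb0, mul_zero, add_zero] at h
      exact one_ne_zero h
    · apply hb'
      have h1 : lam * b = -1 := by linear_combination h
      calc lam = lam * b * b⁻¹ := by rw [mul_assoc, mul_inv_cancel₀ hb0, mul_one]
        _ = -b⁻¹ := by rw [h1, neg_one_mul]
  have hc1 := hne0 b1 hl1
  have hc2 := hne0 b2 hl2
  have hc3 := hne0 b3 hl3
  obtain ⟨d, hd⟩ : ∃ d : ι → F, d = fun x => if x = k1 then 1 + lam * b1 else
      if x = k2 then 1 + lam * b2 else if x = k3 then 1 + lam * b3 else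
      if x = i then ((1 + lam * b1) * (1 + lam * b2) * (1 + lam * b3))⁻¹ else 1 := ⟨_, rfl⟩
  have hd1 : d k1 = 1 + lam * b1 := by rw [hd]; simp
  have hd2 : d k2 = 1 + lam * b2 := by rw [hd]; simp [h12.symm]
  have hd3 : d k3 = 1 + lam * b3 := by rw [hd]; simp [h13.symm, h23.symm]
  have hdi : d i = ((1 + lam * b1) * (1 + lam * b2) * (1 + lam * b3))⁻¹ := by
    rw [hd]; simp [Ne.symm hk1, Ne.symm hk2, Ne.symm hk3]
  have hdo : ∀ x, x ≠ k1 → x ≠ k2 → x ≠ k3 → x ≠ i → d x = 1 := by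
    intro x h1 h2 h3 h4; rw [hd]; simp [h1, h2, h3, h4]
  have hd0 : ∀ x, d x ≠ 0 := by
    intro x
    by_cases h1 : x = k1
    · rw [h1, hd1]; exact hc1
    · by_cases h2 : x = k2
      · rw [h2, hd2]; exact hc2
      · by_cases h3 : x = k3
        · rw [h3, hd3]; exact hc3
        · by_cases h4 : x = i
          · rw [h4, hdi]; exact inv_ne_zero (mul_ne_zero (mul_ne_zero hc1 hc2) hc3)
          · rw [hdo x h1 h2 h3 h4]; exact one_ne_zero
  have hprod : ∏ x, d x = 1 := by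
    rw [hd, prod_four k1 k2 k3 i h12 h13 h23 hk1 hk2 hk3]
    exact mul_inv_cancel₀ (mul_ne_zero (mul_ne_zero hc1 hc2) hc3)
  obtain ⟨hG, hGv, -, hGS⟩ := Cfsg.Agent.H77.Mn.exists_diag d hd0
  have hGM : hG ∈ M := hM (hGS hprod)
  have hyM : γ⁻¹ * hG * γ ∈ M := M.mul_mem (M.mul_mem (M.inv_mem hγM) hGM) hγM
  have hyv : ((γ⁻¹ * hG * γ : GL ι F) : Matrix ι ι F)
      = ((γ⁻¹ : GL ι F) : Matrix ι ι F) * Matrix.diagonal d * (γ : Matrix ι ι F) := by
    rw [Units.val_mul, Units.val_mul, hGv]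
  -- two zeros in column `j` of `y`
  have hzero : ∀ r : ι, r ≠ j →
      b1 * ((γ : Matrix ι ι F) k1 j * ((γ⁻¹ : GL ι F) : Matrix ι ι F) r k1) +
        b2 * ((γ : Matrix ι ι F) k2 j * ((γ⁻¹ : GL ι F) : Matrix ι ι F) r k2) +
        b3 * ((γ : Matrix ι ι F) k3 j * ((γ⁻¹ : GL ι F) : Matrix ι ι F) r k3) = 0 →
      ((γ⁻¹ * hG * γ : GL ι F) : Matrix ι ι F) r j = 0 := by
    intro r hrj heq
    rw [hyv, nz_conj_diag_apply]
    have hone : ∑ l, ((γ⁻¹ : GL ι F) : Matrix ι ι F) r l * (γ : Matrix ι ι F) l j = 0 := by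
      rw [← Matrix.mul_apply, hgγ, Matrix.one_apply_ne hrj]
    have hdiff : ∑ l, (((γ⁻¹ : GL ι F) : Matrix ι ι F) r l * d l * (γ : Matrix ι ι F) l j -
        ((γ⁻¹ : GL ι F) : Matrix ι ι F) r l * (γ : Matrix ι ι F) l j) =
        (((γ⁻¹ : GL ι F) : Matrix ι ι F) r k1 * d k1 * (γ : Matrix ι ι F) k1 j -
          ((γ⁻¹ : GL ι F) : Matrix ι ι F) r k1 * (γ : Matrix ι ι F) k1 j) +
        (((γ⁻¹ : GL ι F) : Matrix ι ι F) r k2 * d k2 * (γ : Matrix ι ι F) k2 j -
          ((γ⁻¹ : GL ι F) : Matrix ι ι F) r k2 * (γ : Matrix ι ι F) k2 j) +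
        (((γ⁻¹ : GL ι F) : Matrix ι ι F) r k3 * d k3 * (γ : Matrix ι ι F) k3 j -
          ((γ⁻¹ : GL ι F) : Matrix ι ι F) r k3 * (γ : Matrix ι ι F) k3 j) := by
      apply sum_three _ k1 k2 k3 h12 h13 h23
      intro x h1 h2 h3
      by_cases h4 : x = i
      · rw [h4, h0, mul_zero, mul_zero, sub_zero]
      · rw [hdo x h1 h2 h3 h4, mul_one, sub_self]
    rw [Finset.sum_sub_distrib, hone, sub_zero, hd1, hd2, hd3] at hdiff
    rw [hdiff]
    linear_combination lam * heq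
  have y1 := hzero i1 hi1 eq1
  have y2 := hzero i2 hi2 eq2
  have hym : γ⁻¹ * hG * γ ∈ mono ι F := by
    by_contra hy
    exact hcol _ hyM hy j i1 i2 hi12 y1 y2
  obtain ⟨π, hπ⟩ := Cfsg.Agent.H77.Mn.exists_perm_of_mem_mono _ hym
  have hπ' : ∀ r l, r ≠ π l →
      (((γ⁻¹ : GL ι F) : Matrix ι ι F) * Matrix.diagonal d * (γ : Matrix ι ι F)) r l = 0 := by
    intro r l hil
    by_contra hne
    rw [← hyv] at hne
    exact hil ((hπ r l).mp hne)
  have hNM := Cfsg.Agent.H27.Mn.nm_bound _ _ hgγ d π hπ'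
  have hK : Nat.card {k₀ : ι // d k₀ ≠ 1} ≤ 4 := by
    rw [Nat.card_eq_fintype_card, Fintype.card_subtype]
    calc (Finset.univ.filter (fun k₀ => d k₀ ≠ 1)).card ≤ ({k1, k2, k3, i} : Finset ι).card := by
          apply Finset.card_le_card
          intro l hl
          rw [Finset.mem_filter] at hl
          simp only [Finset.mem_insert, Finset.mem_singleton]
          by_contra hne
          rw [not_or, not_or, not_or] at hne
          exact hl.2 (hdo l hne.1 hne.2.1 hne.2.2.1 hne.2.2.2)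
      _ ≤ 4 := Finset.card_le_four
  -- a row with `d ≠ 1`
  have hne1 : ∀ b : F, b ≠ 0 → 1 + lam * b ≠ 1 := by
    intro b hb' h
    have h1 : lam * b = 0 := by linear_combination h
    rcases mul_eq_zero.mp h1 with h2 | h2
    · exact hl0 h2
    · exact hb' h2
  obtain ⟨ks, hks⟩ : ∃ ks, d ks ≠ 1 := by
    rcases hb with h | h | h
    · exact ⟨k1, by rw [hd1]; exact hne1 b1 h⟩
    · exact ⟨k2, by rw [hd2]; exact hne1 b2 h⟩
    · exact ⟨k3, by rw [hd3]; exact hne1 b3 h⟩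
  have hsupp : Fintype.card ι - 1 ≤ Nat.card {l : ι // (γ : Matrix ι ι F) ks l ≠ 0} := by
    rw [Nat.card_eq_fintype_card, Fintype.card_subtype]
    have h1 : (Finset.univ.filter (fun l => (γ : Matrix ι ι F) ks l = 0)).card +
        (Finset.univ.filter (fun l => (γ : Matrix ι ι F) ks l ≠ 0)).card =
        (Finset.univ : Finset ι).card :=
      Finset.card_filter_add_card_filter_not _
    have h2 : (Finset.univ.filter (fun l => (γ : Matrix ι ι F) ks l = 0)).card ≤ 1 := by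
      rw [Finset.card_le_one]
      intro a ha b hb'
      rw [Finset.mem_filter] at ha hb'
      by_contra hab
      exact hrow γ hγM hγ ks a b hab ha.2 hb'.2
    rw [Finset.card_univ] at h1
    omega
  have hle : Nat.card {l : ι // (γ : Matrix ι ι F) ks l ≠ 0}
      ≤ Nat.card {l : ι // ∃ k₀, d k₀ ≠ 1 ∧ (γ : Matrix ι ι F) k₀ l ≠ 0} := by
    apply Nat.card_le_card_of_injective
      (fun x : {l : ι // (γ : Matrix ι ι F) ks l ≠ 0} =>
        (⟨x.1, ⟨ks, hks, x.2⟩⟩ : {l : ι // ∃ k₀, d k₀ ≠ 1 ∧ (γ : Matrix ι ι F) k₀ l ≠ 0}))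
    intro x y hxy
    exact Subtype.ext (Subtype.mk.inj hxy)
  omega
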