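import Mathlib
import Cfsg.Prelude.Def_JordanBlocks
import Cfsg.Prelude.Def_LieClassical
import Cfsg.Agent.H61.UnipCent
import Cfsg.Agent.H97.Herm

/-!
Shared definitions and EXACT piece statements for S2646
(order of the centraliser of a unipotent element of `GU_n(q)`).

Notation: `adj σ M = (M.map σ)ᵀ` (from `Cfsg.Agent.H97.Herm`), `JI d = (k : Fin t) × Fin (d k)`,
`jordanNil d K` = nilpotent part of `Cfsg.jordanTypeMatrix d K` (from `Cfsg.Agent.H61`).
-/

set_option autoImplicit false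

namespace Cfsg.Agent.H48.GUC

open Finset Cfsg.Agent.H61 Cfsg.Agent.H97.Herm

universe u

/-- Hermitian invertible matrices over an arbitrary finite index type. -/
abbrev HermInv {K : Type u} [Field K] (σ : K →+* K) (ι : Type) [Fintype ι] [DecidableEq ι] :
    Type u :=
  {H : Matrix ι ι K // (H.map σ).transpose = H ∧ H.det ≠ 0}

/-- Nondegenerate hermitian forms for which the nilpotent Jordan matrix `jordanNil d K` is
self-adjoint. -/
abbrev OmegaSA {K : Type u} [Field K] {t : ℕ} (σ : K →+* K) (d : Fin t → ℕ) : Type u :=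
  {G : Matrix (JI d) (JI d) K // (G.map σ).transpose = G ∧ G.det ≠ 0 ∧
    (jordanNil d K).transpose * G = G * jordanNil d K}

/-- Parameter functions (first block-columns, as in `Cfsg.Agent.H61.commEquivParam`) that are
zero where required, hermitian-symmetric, and have invertible diagonal blocks. -/
abbrev ParSA {K : Type u} [Field K] {t : ℕ} (σ : K →+* K) (d : Fin t → ℕ)
    (hd : ∀ k, 1 ≤ d k) : Type u :=
  {f : JI d × Fin t → K //
    (∀ p : JI d × Fin t, p.1.2.val < d p.1.1 - d p.2 → f p = 0) ∧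
    (∀ (k l : Fin t) (s : ℕ) (hk : s < d k) (hl : s < d l),
      f ((⟨l, ⟨d l - 1 - s, by omega⟩⟩ : JI d), k) =
        σ (f ((⟨k, ⟨d k - 1 - s, by omega⟩⟩ : JI d), l))) ∧
    ∀ i : Fin (univ.sup d + 1), (paramBlock hd f i.val).det ≠ 0}

/-- The involution on the free parameters `ZR d`:
`((k, r), l) ↦ ((l, r + d l - d k), k)`. -/
def tauZR {t : ℕ} (d : Fin t → ℕ) (z : ZR d) : ZR d :=
  ⟨((⟨z.1.2, ⟨z.1.1.2.val + d z.1.2 - d z.1.1.1, by
      have h1 := z.2.1
      have h2 := z.1.1.2.2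
      omega⟩⟩ : JI d), z.1.1.1), by
    have h1 := z.2.1
    have h2 := z.1.1.2.2
    have h3 := z.2.2
    constructor
    · simp only
      omega
    · simp only
      omega⟩

theorem tauZR_fst_fst {t : ℕ} (d : Fin t → ℕ) (z : ZR d) : (tauZR d z).1.1.1 = z.1.2 := rfl
theorem tauZR_snd {t : ℕ} (d : Fin t → ℕ) (z : ZR d) : (tauZR d z).1.2 = z.1.1.1 := rfl
theorem tauZR_fst_snd {t : ℕ} (d : Fin t → ℕ) (z : ZR d) :
    (tauZR d z).1.1.2.val = z.1.1.2.val + d z.1.2 - d z.1.1.1 := rfl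

/-! ### Exact piece statements -/

/-- GUC-ZRFIX: the number of `σ`-symmetric functions on the free parameters. -/
def ZRFixStmt : Prop :=
  ∀ {K : Type u} [Field K] [Fintype K] {q t : ℕ} (_ : Fintype.card K = q ^ 2)
    (σ : K →+* K) (_ : ∀ x, σ (σ x) = x) (ω₀ : K) (_ : σ ω₀ ≠ ω₀) (d : Fin t → ℕ),
    Nat.card {h : ZR d → K // ∀ z, h (tauZR d z) = σ (h z)} = q ^ Fintype.card (ZR d)

/-- GUC-HERM: `|GU_a(q)| * #(invertible hermitian a × a matrices) = |GL_a(q²)|`, over an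
arbitrary index type with `a` elements. -/
def HermStmt : Prop :=
  ∀ {K : Type u} [Field K] [Fintype K] {q : ℕ} (_ : Fintype.card K = q ^ 2) (_ : q ≠ 0)
    (σ : K →+* K) (_ : ∀ x, σ x = x ^ q) (_ : ∀ x, σ (σ x) = x) (ω₀ : K) (_ : σ ω₀ ≠ ω₀)
    (ι : Type) [Fintype ι] [DecidableEq ι] (a : ℕ) (_ : Fintype.card ι = a),
    Nat.card ↥(Cfsg.GU a K q) * Nat.card (HermInv σ ι) =
      Nat.card {m : Matrix ι ι K // m.det ≠ 0}

/-- GUC-GUORD: the order of `GU_a(q)` as an integer, in the shape of S2646. -/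
def GUOrdStmt : Prop :=
  ∀ {K : Type u} [Field K] [Fintype K] {q : ℕ} (_ : Fintype.card K = q ^ 2) (a : ℕ),
    (Nat.card ↥(Cfsg.GU a K q) : ℤ) =
      (q : ℤ) ^ (a * (a - 1) / 2) * ∏ j : Fin a, ((q : ℤ) ^ ((j : ℕ) + 1) - (-1) ^ ((j : ℕ) + 1))

/-- GUC-CAY: generalized Cayley transform of a unipotent unitary matrix: a hermitian matrix
`s` with the same commutant and the same ranks of powers as `u - 1`. -/
def CayStmt : Prop :=
  ∀ {K : Type u} [Field K] {n : ℕ} (σ : K →+* K) (_ : ∀ x, σ (σ x) = x) (ω₀ : K)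
    (_ : σ ω₀ ≠ ω₀) (u : Matrix (Fin n) (Fin n) K) (_ : adj σ u * u = 1) (m : ℕ)
    (_ : (u - 1) ^ m = 0),
    ∃ s : Matrix (Fin n) (Fin n) K, adj σ s = s ∧
      (∀ g : Matrix (Fin n) (Fin n) K, g * u = u * g ↔ g * s = s * g) ∧
      ∀ j : ℕ, (s ^ j).rank = ((u - 1) ^ j).rank

/-- GUC-CONJ: a matrix conjugate to the Jordan-type matrix is unipotent, and any matrix with
the same ranks of powers as `u - 1` is conjugate to the nilpotent Jordan matrix. -/
def ConjStmt : Prop :=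
  ∀ {K : Type u} [Field K] {n t : ℕ} (d : Fin t → ℕ) (e : ((k : Fin t) × Fin (d k)) ≃ Fin n)
    (u : Matrix (Fin n) (Fin n) K)
    (_ : IsConj (Matrix.reindex e e (Cfsg.jordanTypeMatrix d K)) u),
    (∃ m : ℕ, (u - 1) ^ m = 0) ∧
    ∀ s : Matrix (Fin n) (Fin n) K, (∀ j : ℕ, (s ^ j).rank = ((u - 1) ^ j).rank) →
      ∃ P : GL (Fin n) K, s * (P : Matrix (Fin n) (Fin n) K) =
        (P : Matrix (Fin n) (Fin n) K) * Matrix.reindex e e (jordanNil d K)

/-- GUC-ORB: orbit–stabilizer for the action of the commutant of `NN` on the nondegenerate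
hermitian forms making `NN` self-adjoint. -/
def OrbStmt : Prop :=
  ∀ {K : Type u} [Field K] [Fintype K] {n : ℕ} (σ : K →+* K) (_ : ∀ x, σ (σ x) = x) (ω₀ : K)
    (_ : σ ω₀ ≠ ω₀) (s NN : Matrix (Fin n) (Fin n) K) (_ : adj σ s = s) (P : GL (Fin n) K)
    (_ : s * (P : Matrix (Fin n) (Fin n) K) = (P : Matrix (Fin n) (Fin n) K) * NN),
    Nat.card {g : GL (Fin n) K //
        adj σ (g : Matrix (Fin n) (Fin n) K) * (g : Matrix (Fin n) (Fin n) K) = 1 ∧
        (g : Matrix (Fin n) (Fin n) K) * s = s * (g : Matrix (Fin n) (Fin n) K)} *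
      Nat.card {G : Matrix (Fin n) (Fin n) K //
        adj σ G = G ∧ G.det ≠ 0 ∧ adj σ NN * G = G * NN} =
    Nat.card {g : GL (Fin n) K //
        (g : Matrix (Fin n) (Fin n) K) * NN = NN * (g : Matrix (Fin n) (Fin n) K)}

/-- GUC-SAPAR: the forms in `OmegaSA` are parametrised by `ParSA`. -/
def SAParStmt : Prop :=
  ∀ {K : Type u} [Field K] {t : ℕ} (σ : K →+* K) (_ : ∀ x, σ (σ x) = x) (d : Fin t → ℕ)
    (hd : ∀ k, 1 ≤ d k), Nonempty (OmegaSA σ d ≃ ParSA σ d hd)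

/-- GUC-PARCNT: `ParSA` splits into invertible hermitian diagonal blocks and symmetric free
parameters. -/
def ParCntStmt : Prop :=
  ∀ {K : Type u} [Field K] {t : ℕ} (σ : K →+* K) (_ : ∀ x, σ (σ x) = x) (d : Fin t → ℕ)
    (hd : ∀ k, 1 ≤ d k),
    Nonempty (ParSA σ d hd ≃
      (∀ i : Fin (univ.sup d + 1), HermInv σ {k : Fin t // d k = i.val}) ×
        {h : ZR d → K // ∀ z, h (tauZR d z) = σ (h z)})

/-- GUC-REIDX: transport from index `Fin n` to index `JI d`. -/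
def ReidxStmt : Prop :=
  ∀ {K : Type u} [Field K] {n t : ℕ} (σ : K →+* K) (d : Fin t → ℕ)
    (e : ((k : Fin t) × Fin (d k)) ≃ Fin n),
    Nonempty ({G : Matrix (Fin n) (Fin n) K // adj σ G = G ∧ G.det ≠ 0 ∧
        adj σ (Matrix.reindex e e (jordanNil d K)) * G =
          G * Matrix.reindex e e (jordanNil d K)} ≃ OmegaSA σ d) ∧
    Nonempty ({g : GL (Fin n) K // (g : Matrix (Fin n) (Fin n) K) *
          Matrix.reindex e e (jordanNil d K) =
        Matrix.reindex e e (jordanNil d K) * (g : Matrix (Fin n) (Fin n) K)} ≃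
      {g : GL (JI d) K // (g : Matrix (JI d) (JI d) K) * Cfsg.jordanTypeMatrix d K =
        Cfsg.jordanTypeMatrix d K * (g : Matrix (JI d) (JI d) K)})

/-- GUC-UNF: the centraliser in `GU_n(q)` as a set of matrices. -/
def UnfStmt : Prop :=
  ∀ {K : Type u} [Field K] [Fintype K] {q n : ℕ} (_ : q ≠ 0) (σ : K →+* K)
    (_ : ∀ x, σ x = x ^ q) (u : ↥(Cfsg.GU n K q)),
    adj σ ((u : GL (Fin n) K) : Matrix (Fin n) (Fin n) K) *
        ((u : GL (Fin n) K) : Matrix (Fin n) (Fin n) K) = 1 ∧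
    ∀ s : Matrix (Fin n) (Fin n) K,
      (∀ g : Matrix (Fin n) (Fin n) K,
        g * ((u : GL (Fin n) K) : Matrix (Fin n) (Fin n) K) =
          ((u : GL (Fin n) K) : Matrix (Fin n) (Fin n) K) * g ↔ g * s = s * g) →
      Nonempty (↥(Subgroup.centralizer ({u} : Set ↥(Cfsg.GU n K q))) ≃
        {g : GL (Fin n) K //
          adj σ (g : Matrix (Fin n) (Fin n) K) * (g : Matrix (Fin n) (Fin n) K) = 1 ∧
          (g : Matrix (Fin n) (Fin n) K) * s = s * (g : Matrix (Fin n) (Fin n) K)})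

end Cfsg.Agent.H48.GUC
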