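import Mathlib
import Cfsg.Agent.H77.TqDefs
import Cfsg.Agent.H49.Basic

/-!
# S5978-BADAPT (helper48, for helper77): an isometry `x` with `x² = -1` has an orthonormal basis
`e_1, …, e_n, x e_1, …, x e_n` (all `Q = 1`).
-/

set_option autoImplicit false
open scoped MatrixGroups
open scoped Matrix

namespace Cfsg.Agent.H48.Tq

open Module Cfsg.Agent.H77.Tq

universe u

/-- Every element of a finite field is a sum of two squares. -/
theorem sum_two_sq {K : Type*} [Field K] [Fintype K] (c : K) : ∃ a b : K, a ^ 2 + b ^ 2 = c := by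
  classical
  rcases Nat.mod_two_eq_zero_or_one (Fintype.card K) with h | h
  · have h2 : ringChar K = 2 := FiniteField.even_card_iff_char_two.mpr h
    obtain ⟨a, ha⟩ := FiniteField.isSquare_of_char_two h2 c
    exact ⟨a, 0, by rw [ha]; ring⟩
  · open Polynomial in
    obtain ⟨a, b, hab⟩ := @FiniteField.exists_root_sum_quadratic K _ _ _ (X ^ 2 : K[X])
      (X ^ 2 - C c) (degree_X_pow 2) (degree_X_pow_sub_C (by decide) _) h
    refine ⟨a, b, ?_⟩
    simp only [eval_pow, eval_X, eval_sub, eval_C] at hab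
    linear_combination hab

section Abstract

variable {F : Type u} [Field F] [Fintype F] {V : Type*} [AddCommGroup V] [Module F V]
  [FiniteDimensional F V]

theorem adapt_aux (Q : QuadraticForm F V) (h2 : (2 : F) ≠ 0) (X : V →ₗ[F] V)
    (hQX : ∀ w, Q (X w) = Q w) (hXX : ∀ w, X (X w) = -w) :
    ∀ (d : ℕ) (W : Submodule F V), Module.finrank F W ≤ d → (∀ w ∈ W, X w ∈ W) →
      (∀ u ∈ W, (∀ v ∈ W, QuadraticMap.polar Q u v = 0) → u = 0) →
      ∃ (n : ℕ) (v : Fin n → V), (∀ l, v l ∈ W) ∧ (∀ l, Q (v l) = 1) ∧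
        (∀ l k, l ≠ k → QuadraticMap.polar Q (v l) (v k) = 0) ∧
        (∀ l k, QuadraticMap.polar Q (v l) (X (v k)) = 0) ∧
        W ≤ Submodule.span F (Set.range v ∪ Set.range (fun l => X (v l))) := by
  have hpol : ∀ a b, QuadraticMap.polar Q (X a) (X b) = QuadraticMap.polar Q a b := by
    intro a b
    simp only [QuadraticMap.polar, ← map_add, hQX]
  have hskew : ∀ a, QuadraticMap.polar Q a (X a) = 0 := by
    intro a
    have h1 : QuadraticMap.polar Q a (X a) = - QuadraticMap.polar Q a (X a) := by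
      calc QuadraticMap.polar Q a (X a) = QuadraticMap.polar Q (X a) (X (X a)) := (hpol a (X a)).symm
        _ = QuadraticMap.polar Q (X a) (-a) := by rw [hXX]
        _ = - QuadraticMap.polar Q (X a) a := QuadraticMap.polar_neg_right Q _ _
        _ = - QuadraticMap.polar Q a (X a) := by rw [QuadraticMap.polar_comm]
    have h3 : (2 : F) * QuadraticMap.polar Q a (X a) = 0 := by linear_combination h1
    rcases mul_eq_zero.mp h3 with h4 | h4
    · exact absurd h4 h2
    · exact h4
  have hbase : ∀ W : Submodule F V, W = ⊥ →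
      ∃ (n : ℕ) (v : Fin n → V), (∀ l, v l ∈ W) ∧ (∀ l, Q (v l) = 1) ∧
        (∀ l k, l ≠ k → QuadraticMap.polar Q (v l) (v k) = 0) ∧
        (∀ l k, QuadraticMap.polar Q (v l) (X (v k)) = 0) ∧
        W ≤ Submodule.span F (Set.range v ∪ Set.range (fun l => X (v l))) := by
    intro W hW
    refine ⟨0, fun l => l.elim0, fun l => l.elim0, fun l => l.elim0, fun l => l.elim0,
      fun l => l.elim0, ?_⟩
    rw [hW]
    exact bot_le
  intro d
  induction d with
  | zero =>
    intro W hd _ _
    exact hbase W (Submodule.finrank_eq_zero.mp (Nat.le_zero.mp hd))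
  | succ d ih =>
    intro W hd hinv hnd
    by_cases hW : W = ⊥
    · exact hbase W hW
    obtain ⟨w₀, hw₀W, hw₀⟩ := Submodule.exists_mem_ne_zero_of_ne_bot hW
    -- a non-singular vector
    have hns : ∃ v₀ ∈ W, Q v₀ ≠ 0 := by
      by_contra hcon
      have hcon' : ∀ v ∈ W, Q v = 0 := by
        intro v hv
        by_contra h
        exact hcon ⟨v, hv, h⟩
      apply hw₀
      apply hnd w₀ hw₀W
      intro v hv
      simp only [QuadraticMap.polar]
      rw [hcon' _ (W.add_mem hw₀W hv), hcon' _ hw₀W, hcon' _ hv]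
      simp
    obtain ⟨v₀, hv₀W, hv₀⟩ := hns
    obtain ⟨s, t, hst⟩ := sum_two_sq ((Q v₀)⁻¹)
    obtain ⟨e, he⟩ : ∃ e : V, e = s • v₀ + t • X v₀ := ⟨_, rfl⟩
    have heW : e ∈ W := by
      rw [he]
      exact W.add_mem (W.smul_mem _ hv₀W) (W.smul_mem _ (hinv _ hv₀W))
    have hQe : Q e = 1 := by
      rw [he, QuadraticMap.map_add (⇑Q), QuadraticMap.map_smul, QuadraticMap.map_smul, hQX,
        QuadraticMap.polar_smul_left, QuadraticMap.polar_smul_right, hskew]
      simp only [smul_eq_mul, mul_zero, add_zero]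
      have : (s ^ 2 + t ^ 2) * Q v₀ = 1 := by rw [hst]; exact inv_mul_cancel₀ hv₀
      linear_combination this
    obtain ⟨f, hf⟩ : ∃ f : V, f = X e := ⟨_, rfl⟩
    have hfW : f ∈ W := by rw [hf]; exact hinv _ heW
    have hQf : Q f = 1 := by rw [hf, hQX, hQe]
    have hef : QuadraticMap.polar Q e f = 0 := by rw [hf]; exact hskew e
    have hfe : QuadraticMap.polar Q f e = 0 := by rw [QuadraticMap.polar_comm]; exact hef
    have hXf : X f = -e := by rw [hf, hXX]
    have hee : QuadraticMap.polar Q e e = 2 := by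
      rw [QuadraticMap.polar_self, hQe]; simp
    have hff : QuadraticMap.polar Q f f = 2 := by
      rw [QuadraticMap.polar_self, hQf]; simp
    -- the orthogonal complement of ⟨e, f⟩ in W
    obtain ⟨W', hW'⟩ : ∃ W' : Submodule F V, ∀ w, w ∈ W' ↔
        (w ∈ W ∧ QuadraticMap.polar Q w e = 0 ∧ QuadraticMap.polar Q w f = 0) := by
      refine ⟨W ⊓ LinearMap.ker ((QuadraticMap.polarBilin Q).flip e) ⊓
        LinearMap.ker ((QuadraticMap.polarBilin Q).flip f), ?_⟩
      intro w
      simp only [Submodule.mem_inf, LinearMap.mem_ker, LinearMap.flip_apply,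
        QuadraticMap.polarBilin_apply_apply, and_assoc]
    have hW'W : W' ≤ W := fun w hw => ((hW' w).mp hw).1
    have hlt : W' < W := by
      refine lt_of_le_of_ne hW'W ?_
      intro h
      have : e ∈ W' := by rw [h]; exact heW
      have h3 := ((hW' e).mp this).2.1
      rw [hee] at h3
      exact h2 h3
    have hd' : Module.finrank F W' ≤ d := by
      have := Submodule.finrank_lt_finrank_of_lt hlt
      omega
    have hinv' : ∀ w ∈ W', X w ∈ W' := by
      intro w hw
      obtain ⟨hwW, hwe, hwf⟩ := (hW' w).mp hw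
      rw [hW']
      refine ⟨hinv w hwW, ?_, ?_⟩
      · have : e = X (-f) := by rw [map_neg, hXf, neg_neg]
        rw [this, hpol, QuadraticMap.polar_neg_right, hwf, neg_zero]
      · rw [hf, hpol, hwe]
    -- decomposition of W
    have hdec : ∀ w ∈ W, ∃ w' ∈ W', ∃ a b : F, w = w' + a • e + b • f := by
      intro w hw
      refine ⟨w - (QuadraticMap.polar Q w e / 2) • e - (QuadraticMap.polar Q w f / 2) • f, ?_,
        QuadraticMap.polar Q w e / 2, QuadraticMap.polar Q w f / 2, by abel⟩
      rw [hW']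
      refine ⟨W.sub_mem (W.sub_mem hw (W.smul_mem _ heW)) (W.smul_mem _ hfW), ?_, ?_⟩
      · rw [QuadraticMap.polar_sub_left, QuadraticMap.polar_sub_left, QuadraticMap.polar_smul_left,
          QuadraticMap.polar_smul_left, hee, hfe]
        simp only [smul_eq_mul, mul_zero, sub_zero]
        field_simp
        ring
      · rw [QuadraticMap.polar_sub_left, QuadraticMap.polar_sub_left, QuadraticMap.polar_smul_left,
          QuadraticMap.polar_smul_left, hff, hef]
        simp only [smul_eq_mul, mul_zero, sub_zero]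
        field_simp
        ring
    have hnd' : ∀ u ∈ W', (∀ v ∈ W', QuadraticMap.polar Q u v = 0) → u = 0 := by
      intro u hu hperp
      obtain ⟨huW, hue, huf⟩ := (hW' u).mp hu
      apply hnd u huW
      intro w hw
      obtain ⟨w', hw', a, b, rfl⟩ := hdec w hw
      rw [QuadraticMap.polar_comm, QuadraticMap.polar_add_left, QuadraticMap.polar_add_left,
        QuadraticMap.polar_smul_left, QuadraticMap.polar_smul_left,
        QuadraticMap.polar_comm Q w' u, hperp w' hw', QuadraticMap.polar_comm Q e u, hue,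
        QuadraticMap.polar_comm Q f u, huf]
      simp
    obtain ⟨n', v', hv'W, hv'Q, hv'o, hv'x, hv'sp⟩ := ih W' hd' hinv' hnd'
    have hv'e : ∀ l, QuadraticMap.polar Q (v' l) e = 0 := fun l => ((hW' _).mp (hv'W l)).2.1
    have hv'f : ∀ l, QuadraticMap.polar Q (v' l) f = 0 := fun l => ((hW' _).mp (hv'W l)).2.2
    have hXv'e : ∀ l, QuadraticMap.polar Q (X (v' l)) e = 0 :=
      fun l => ((hW' _).mp (hinv' _ (hv'W l))).2.1
    refine ⟨n' + 1, Fin.cons e v', ?_, ?_, ?_, ?_, ?_⟩
    · intro l
      refine Fin.cases ?_ (fun l => ?_) l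
      · rw [Fin.cons_zero]; exact heW
      · rw [Fin.cons_succ]; exact hW'W (hv'W l)
    · intro l
      refine Fin.cases ?_ (fun l => ?_) l
      · rw [Fin.cons_zero]; exact hQe
      · rw [Fin.cons_succ]; exact hv'Q l
    · intro l k
      refine Fin.cases ?_ (fun l => ?_) l <;> refine Fin.cases ?_ (fun k => ?_) k
      · intro h; exact absurd rfl h
      · intro _
        rw [Fin.cons_zero, Fin.cons_succ, QuadraticMap.polar_comm]
        exact hv'e k
      · intro _
        rw [Fin.cons_zero, Fin.cons_succ]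
        exact hv'e l
      · intro h
        rw [Fin.cons_succ, Fin.cons_succ]
        exact hv'o l k (fun h' => h (by rw [h']))
    · intro l k
      refine Fin.cases ?_ (fun l => ?_) l <;> refine Fin.cases ?_ (fun k => ?_) k
      · rw [Fin.cons_zero]; exact hskew e
      · rw [Fin.cons_zero, Fin.cons_succ, QuadraticMap.polar_comm]
        exact hXv'e k
      · rw [Fin.cons_zero, Fin.cons_succ, ← hf]
        exact hv'f l
      · rw [Fin.cons_succ, Fin.cons_succ]
        exact hv'x l k
    · intro w hw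
      obtain ⟨w', hw', a, b, rfl⟩ := hdec w hw
      have hmono : Submodule.span F (Set.range v' ∪ Set.range (fun l => X (v' l))) ≤
          Submodule.span F (Set.range (Fin.cons e v' : Fin (n' + 1) → V) ∪
            Set.range (fun l => X ((Fin.cons e v' : Fin (n' + 1) → V) l))) := by
        apply Submodule.span_mono
        rintro z (⟨l, rfl⟩ | ⟨l, rfl⟩)
        · left; exact ⟨l.succ, by rw [Fin.cons_succ]⟩
        · right; exact ⟨l.succ, by simp only [Fin.cons_succ]⟩
      have hemem : e ∈ Submodule.span F (Set.range (Fin.cons e v' : Fin (n' + 1) → V) ∪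
            Set.range (fun l => X ((Fin.cons e v' : Fin (n' + 1) → V) l))) :=
        Submodule.subset_span (Or.inl ⟨0, by rw [Fin.cons_zero]⟩)
      have hfmem : f ∈ Submodule.span F (Set.range (Fin.cons e v' : Fin (n' + 1) → V) ∪
            Set.range (fun l => X ((Fin.cons e v' : Fin (n' + 1) → V) l))) :=
        Submodule.subset_span (Or.inr ⟨0, by simp only [Fin.cons_zero]; exact hf.symm⟩)
      exact Submodule.add_mem _ (Submodule.add_mem _ (hmono (hv'sp hw'))
        (Submodule.smul_mem _ _ hemem)) (Submodule.smul_mem _ _ hfmem)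

end Abstract

/-- **S5978-BADAPT**. -/
theorem bAdapt : StBAdapt.{u} := by
  intro F _ _ ι _ _ Q h2 hnd x hx hxx
  classical
  obtain ⟨X, hX⟩ : ∃ X : (ι → F) →ₗ[F] (ι → F), ∀ w, X w = (x : Matrix ι ι F) *ᵥ w :=
    ⟨Matrix.toLin' (x : Matrix ι ι F), fun w => Matrix.toLin'_apply _ _⟩
  have hQX : ∀ w, Q (X w) = Q w := by
    intro w
    rw [hX]
    exact (Cfsg.Agent.H49.mem_isometryGroup_iff.mp hx) w
  have hXX : ∀ w, X (X w) = -w := by
    intro w
    rw [hX, hX, Matrix.mulVec_mulVec, hxx, Matrix.neg_mulVec, Matrix.one_mulVec]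
  have hpol : ∀ a b, QuadraticMap.polar Q (X a) (X b) = QuadraticMap.polar Q a b := by
    intro a b
    simp only [QuadraticMap.polar, ← map_add, hQX]
  obtain ⟨n, v, -, hvQ, hvo, hvx, hsp⟩ := adapt_aux Q h2 X hQX hXX
    (Module.finrank F (⊤ : Submodule F (ι → F))) ⊤ le_rfl (fun _ _ => Submodule.mem_top)
    (fun u _ hu => hnd.1 u (fun w => by
      rw [QuadraticMap.polarBilin_apply_apply]; exact hu w Submodule.mem_top))
  obtain ⟨bf, hbf⟩ : ∃ bf : Fin n ⊕ Fin n → (ι → F), bf = Sum.elim v (fun l => X (v l)) := ⟨_, rfl⟩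
  have hbQ : ∀ i, Q (bf i) = 1 := by
    intro i
    rw [hbf]
    rcases i with l | l
    · exact hvQ l
    · show Q (X (v l)) = 1
      rw [hQX]; exact hvQ l
  have hbo : ∀ i j, i ≠ j → QuadraticMap.polar (⇑Q) (bf i) (bf j) = 0 := by
    intro i j hij
    rw [hbf]
    rcases i with l | l <;> rcases j with k | k
    · exact hvo l k (fun h => hij (by rw [h]))
    · exact hvx l k
    · show QuadraticMap.polar (⇑Q) (X (v l)) (v k) = 0
      rw [QuadraticMap.polar_comm]; exact hvx k l
    · show QuadraticMap.polar (⇑Q) (X (v l)) (X (v k)) = 0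
      rw [hpol]
      exact hvo l k (fun h => hij (by rw [h]))
  have hli : LinearIndependent F bf := by
    apply LinearMap.BilinForm.linearIndependent_of_iIsOrtho (B := QuadraticMap.polarBilin Q)
    · rw [LinearMap.BilinForm.iIsOrtho_def]
      intro i j hij
      rw [QuadraticMap.polarBilin_apply_apply]
      exact hbo i j hij
    · intro i
      rw [QuadraticMap.polarBilin_apply_apply, QuadraticMap.polar_self, hbQ]
      simpa using h2
  have hspan : ⊤ ≤ Submodule.span F (Set.range bf) := by
    have : Set.range bf = Set.range v ∪ Set.range (fun l => X (v l)) := by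
      rw [hbf, Set.Sum.elim_range]
    rw [this]
    exact hsp
  refine ⟨n, Module.Basis.mk hli hspan, ?_, ?_, ?_⟩
  · intro l
    rw [Module.Basis.mk_apply, Module.Basis.mk_apply, hbf]
    show X (v l) = _
    rw [hX]
    rfl
  · intro i
    rw [Module.Basis.mk_apply]
    exact hbQ i
  · intro i j hij
    rw [Module.Basis.mk_apply, Module.Basis.mk_apply]
    exact hbo i j hij

example : StBAdapt.{u} := bAdapt

end Cfsg.Agent.H48.Tq
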