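import Mathlib

/-!
helper48: piece EL-EX1 for helper42 (S5949): an element `x` of `SL_n(q)` with `x ^ r = c`,
`c` not an `r`-th power.
-/

set_option autoImplicit false

namespace Cfsg.Agent.H48.El

open Polynomial

/-- a matrix with `C ^ r = c` and determinant `(-1)^(r+1) c` (multiplication by the root on
`F[X]/(X^r - c)`) -/
theorem exists_companion {F : Type*} [Field F] (r : ℕ) (hr : 0 < r) (c : F) :
    ∃ C : Matrix (Fin r) (Fin r) F, C ^ r = c • (1 : Matrix (Fin r) (Fin r) F) ∧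
      C.det = (-1) ^ (r + 1) * c := by
  classical
  have hmon : (X ^ r - Polynomial.C c : F[X]).Monic := monic_X_pow_sub_C c hr.ne'
  have hf : (X ^ r - Polynomial.C c : F[X]) ≠ 0 := hmon.ne_zero
  have hdeg : (X ^ r - Polynomial.C c : F[X]).natDegree = r := natDegree_X_pow_sub_C
  obtain ⟨pb, hpb⟩ : ∃ pb : PowerBasis F (AdjoinRoot (X ^ r - Polynomial.C c : F[X])),
      pb = AdjoinRoot.powerBasis hf := ⟨_, rfl⟩
  have hdim : pb.dim = r := by rw [hpb, AdjoinRoot.powerBasis_dim, hdeg]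
  have hgen : pb.gen = AdjoinRoot.root (X ^ r - Polynomial.C c : F[X]) := by
    rw [hpb, AdjoinRoot.powerBasis_gen]
  have hmin : minpoly F pb.gen = X ^ r - Polynomial.C c := by
    rw [hpb]; exact AdjoinRoot.minpoly_powerBasis_gen_of_monic hmon
  refine ⟨Algebra.leftMulMatrix (pb.basis.reindex (finCongr hdim)) (AdjoinRoot.root _), ?_, ?_⟩
  · rw [← map_pow]
    have hroot : (AdjoinRoot.root (X ^ r - Polynomial.C c : F[X])) ^ r =
        algebraMap F (AdjoinRoot (X ^ r - Polynomial.C c : F[X])) c := by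
      have h1 := AdjoinRoot.eval₂_root (X ^ r - Polynomial.C c : F[X])
      rw [eval₂_sub, eval₂_pow, eval₂_X, eval₂_C] at h1
      exact sub_eq_zero.mp h1
    rw [hroot, AlgHom.commutes, Algebra.algebraMap_eq_smul_one]
  · have hcoeff : (X ^ r - Polynomial.C c : F[X]).coeff 0 = -c := by
      rw [coeff_sub, coeff_X_pow, coeff_C_zero, if_neg hr.ne, zero_sub]
    rw [← Algebra.norm_eq_matrix_det, ← hgen, Algebra.PowerBasis.norm_gen_eq_coeff_zero_minpoly,
      hmin, hdim, hcoeff]
    ring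

/-- block diagonal matrices -/
theorem exists_block {F : Type*} [Field F] (r k n : ℕ) (hn : r * k = n) (c : F)
    (C : Matrix (Fin r) (Fin r) F) (hC : C ^ r = c • (1 : Matrix (Fin r) (Fin r) F)) :
    ∃ x : Matrix (Fin n) (Fin n) F, x ^ r = c • (1 : Matrix (Fin n) (Fin n) F) ∧
      x.det = C.det ^ k := by
  classical
  refine ⟨Matrix.reindexAlgEquiv F F (finProdFinEquiv.trans (finCongr hn))
    (Matrix.blockDiagonal (fun _ : Fin k => C)), ?_, ?_⟩
  · rw [← map_pow, ← Matrix.blockDiagonal_pow]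
    have h1 : (fun _ : Fin k => C) ^ r = c • (1 : Fin k → Matrix (Fin r) (Fin r) F) := by
      funext i
      rw [Pi.pow_apply, hC]
      rfl
    rw [h1, Matrix.blockDiagonal_smul, Matrix.blockDiagonal_one, map_smul, map_one]
  · rw [Matrix.det_reindexAlgEquiv, Matrix.det_blockDiagonal, Finset.prod_const,
      Finset.card_univ, Fintype.card_fin]

/-- an element of `r`-power order which is not an `r`-th power -/
theorem exists_not_pow {F : Type*} [Field F] [Fintype F] (r : ℕ) (hr : r.Prime)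
    (hrq : r ∣ Fintype.card F - 1) :
    ∃ c : F, (∀ b : F, b ^ r ≠ c) ∧ c ^ (r ^ padicValNat r (Fintype.card F - 1)) = 1 := by
  classical
  have hq1 : Fintype.card F - 1 ≠ 0 := by
    have := Fintype.one_lt_card (α := F)
    omega
  obtain ⟨g, hg⟩ := IsCyclic.exists_generator (α := Fˣ)
  have hord : orderOf g = Fintype.card F - 1 := by
    rw [orderOf_eq_card_of_forall_mem_zpowers hg, Nat.card_eq_fintype_card, Fintype.card_units]
  obtain ⟨m, hm⟩ : ∃ m, m = (Fintype.card F - 1) / r ^ (Fintype.card F - 1).factorization r :=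
    ⟨_, rfl⟩
  have hfac : (Fintype.card F - 1).factorization r = padicValNat r (Fintype.card F - 1) :=
    Nat.factorization_def _ hr
  have hmul : r ^ padicValNat r (Fintype.card F - 1) * m = Fintype.card F - 1 := by
    rw [hm, ← hfac]; exact Nat.ordProj_mul_ordCompl_eq_self _ r
  have hrm : ¬ r ∣ m := by rw [hm]; exact Nat.not_dvd_ordCompl hr hq1
  refine ⟨((g ^ m : Fˣ) : F), ?_, ?_⟩
  · intro b hb
    have hb0 : b ≠ 0 := by
      intro h
      rw [h, zero_pow hr.ne_zero] at hb
      exact (g ^ m).ne_zero hb.symm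
    obtain ⟨t, ht⟩ := Subgroup.mem_zpowers_iff.mp (hg (Units.mk0 b hb0))
    have h1 : g ^ (t * r - m) = 1 := by
      have h2 : (Units.mk0 b hb0) ^ r = g ^ m := by
        apply Units.ext
        rw [Units.val_pow_eq_pow_val, Units.val_mk0, hb]
      rw [zpow_sub, zpow_mul, ht, zpow_natCast, zpow_natCast, h2, mul_inv_cancel]
    have h3 : ((Fintype.card F - 1 : ℕ) : ℤ) ∣ t * r - m := by
      rw [← hord]; exact orderOf_dvd_iff_zpow_eq_one.mpr h1
    have h4 : (r : ℤ) ∣ t * r - m := (Int.natCast_dvd_natCast.mpr hrq).trans h3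
    have h5 : (r : ℤ) ∣ (m : ℤ) := by
      have h6 : (r : ℤ) ∣ t * r := dvd_mul_left _ _
      have h7 := dvd_sub h6 h4
      rwa [sub_sub_cancel] at h7
    exact hrm (Int.natCast_dvd_natCast.mp h5)
  · rw [← Units.val_pow_eq_pow_val, ← pow_mul, mul_comm, hmul, ← hord, pow_orderOf_eq_one,
      Units.val_one]

/-- **EL-EX1** -/
theorem exists_kummer_SL {F : Type*} [Field F] [Fintype F] (r : ℕ) (hr : r.Prime)
    (hrq : r ∣ Fintype.card F - 1) (n : ℕ) (hn : 0 < n)
    (h : padicValNat r (Fintype.card F - 1) < padicValNat r n ∨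
      (r = 2 ∧ Even n ∧ Fintype.card F % 4 = 3)) :
    ∃ (x : Matrix.SpecialLinearGroup (Fin n) F) (c : F), (∀ b : F, b ^ r ≠ c) ∧
      ((x ^ r : Matrix.SpecialLinearGroup (Fin n) F) : Matrix (Fin n) (Fin n) F)
        = c • (1 : Matrix (Fin n) (Fin n) F) := by
  classical
  have hrf : Fact r.Prime := ⟨hr⟩
  have hq1 : Fintype.card F - 1 ≠ 0 := by
    have := Fintype.one_lt_card (α := F)
    omega
  obtain ⟨c, hc, hrn, hdet⟩ : ∃ c : F, (∀ b : F, b ^ r ≠ c) ∧ r ∣ n ∧
      ((-1 : F) ^ (r + 1) * c) ^ (n / r) = 1 := by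
    rcases h with h | ⟨h2, hev, h43⟩
    · obtain ⟨c, hc, hcpow⟩ := exists_not_pow (F := F) r hr hrq
      have ha1 : 1 ≤ padicValNat r (Fintype.card F - 1) := one_le_padicValNat_of_dvd hq1 hrq
      have hdvd : r ^ (padicValNat r (Fintype.card F - 1) + 1) ∣ n :=
        (padicValNat_dvd_iff_le hn.ne').mpr h
      have hrn : r ∣ n := (dvd_pow_self r (Nat.succ_ne_zero _)).trans hdvd
      have hdvd' : r ^ padicValNat r (Fintype.card F - 1) ∣ n / r := by
        obtain ⟨m, hm⟩ := hdvd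
        rw [hm, pow_succ, mul_assoc, Nat.mul_div_assoc _ (dvd_mul_right r m),
          Nat.mul_div_cancel_left m hr.pos]
        exact dvd_mul_right _ _
      refine ⟨c, hc, hrn, ?_⟩
      have hc1 : c ^ (n / r) = 1 := by
        obtain ⟨m, hm⟩ := hdvd'
        rw [hm, pow_mul, hcpow, one_pow]
      have hsign : ((-1 : F) ^ (r + 1)) ^ (n / r) = 1 := by
        rcases hr.eq_two_or_odd' with h2 | hodd
        · subst h2
          have hev : Even (n / 2) := by
            obtain ⟨m, hm⟩ := hdvd'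
            rw [hm]
            exact (Nat.even_pow.mpr ⟨even_two, by omega⟩).mul_right m
          rw [← pow_mul]
          exact Even.neg_one_pow (hev.mul_left _)
        · rw [hodd.add_one.neg_one_pow, one_pow]
      rw [mul_pow, hsign, hc1, one_mul]
    · subst h2
      refine ⟨-1, ?_, hev.two_dvd, ?_⟩
      · intro b hb
        have hsq : IsSquare (-1 : F) := ⟨b, by rw [← hb, pow_two]⟩
        exact (FiniteField.isSquare_neg_one_iff.mp hsq) h43
      · have h1 : ((-1 : F) ^ (2 + 1) * -1) = 1 := by norm_num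
        rw [h1, one_pow]
  obtain ⟨C, hC, hCdet⟩ := exists_companion r hr.pos c
  obtain ⟨x, hx, hxdet⟩ := exists_block r (n / r) n (Nat.mul_div_cancel' hrn) c C hC
  obtain ⟨xs, hxs⟩ : ∃ xs : Matrix.SpecialLinearGroup (Fin n) F,
      (xs : Matrix (Fin n) (Fin n) F) = x := ⟨⟨x, by rw [hxdet, hCdet, hdet]⟩, rfl⟩
  refine ⟨xs, c, hc, ?_⟩
  rw [Matrix.SpecialLinearGroup.coe_pow, hxs]
  exact hx

end Cfsg.Agent.H48.El
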