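import Mathlib

/-!
helper48: piece EL-NT for helper42 (S5949): arithmetic of the determinant of a Kummer element.
-/

set_option autoImplicit false

namespace Cfsg.Agent.H48.El

/-- in a finite field, an element that is not an `r`-th power has order divisible by every power
of `r` dividing `q - 1` -/
theorem pow_dvd_of_not_pow {F : Type*} [Field F] [Fintype F] (r : ℕ) (hr : r.Prime) (e : ℕ)
    (he : r ^ e ∣ Fintype.card F - 1) (d : F) (hd : ∀ b : F, b ^ r ≠ d) (N : ℕ)
    (hN : d ^ N = 1) : r ^ e ∣ N := by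
  classical
  have hd0 : d ≠ 0 := by
    intro h
    exact hd 0 (by rw [h, zero_pow hr.ne_zero])
  obtain ⟨g, hg⟩ := IsCyclic.exists_generator (α := Fˣ)
  have hord : orderOf g = Fintype.card F - 1 := by
    rw [orderOf_eq_card_of_forall_mem_zpowers hg, Nat.card_eq_fintype_card, Fintype.card_units]
  obtain ⟨k, hk⟩ := Subgroup.mem_zpowers_iff.mp (hg (Units.mk0 d hd0))
  have hrk : ¬ (r : ℤ) ∣ k := by
    rintro ⟨m, rfl⟩
    apply hd ((g ^ m : Fˣ) : F)
    have h1 : (g ^ m) ^ r = Units.mk0 d hd0 := by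
      rw [← hk, ← zpow_natCast, ← zpow_mul, mul_comm]
    have h2 := congrArg (fun u : Fˣ => (u : F)) h1
    simpa using h2
  have h3 : g ^ (k * N) = 1 := by
    rw [zpow_mul, hk, zpow_natCast]
    apply Units.ext
    rw [Units.val_pow_eq_pow_val, Units.val_mk0, hN, Units.val_one]
  have h4 : ((Fintype.card F - 1 : ℕ) : ℤ) ∣ k * N := by
    rw [← hord]; exact orderOf_dvd_iff_zpow_eq_one.mpr h3
  have h5 : ((r ^ e : ℕ) : ℤ) ∣ k * N := (Int.natCast_dvd_natCast.mpr he).trans h4
  have h6 : r ^ e ∣ k.natAbs * N := by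
    have h7 := Int.natAbs_dvd_natAbs.mpr h5
    rwa [Int.natAbs_mul, Int.natAbs_natCast, Int.natAbs_natCast] at h7
  have hcop : Nat.Coprime (r ^ e) k.natAbs := by
    apply Nat.Coprime.pow_left
    rw [hr.coprime_iff_not_dvd]
    intro h
    exact hrk (Int.natCast_dvd.mpr h)
  exact hcop.dvd_of_dvd_mul_left h6

/-- **EL-NT** -/
theorem kummer_det_one_imp {F : Type*} [Field F] [Fintype F] (r : ℕ) (hr : r.Prime)
    (hrq : r ∣ Fintype.card F - 1) (c : F) (hc : ∀ b : F, b ^ r ≠ c) (n : ℕ) (hn0 : 0 < n)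
    (hn : r ∣ n) (hdet : ((-1 : F) ^ (r + 1) * c) ^ (n / r) = 1) :
    padicValNat r (Fintype.card F - 1) < padicValNat r n ∨ (r = 2 ∧ Fintype.card F % 4 = 3) := by
  have hrf : Fact r.Prime := ⟨hr⟩
  have hpow : r ^ padicValNat r (Fintype.card F - 1) ∣ Fintype.card F - 1 := pow_padicValNat_dvd
  have fin : r ^ padicValNat r (Fintype.card F - 1) ∣ n / r →
      padicValNat r (Fintype.card F - 1) < padicValNat r n := by
    intro h
    have h1 : r ^ (padicValNat r (Fintype.card F - 1) + 1) ∣ n := by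
      obtain ⟨m, hm⟩ := hn
      rw [hm, Nat.mul_div_cancel_left m hr.pos] at h
      rw [hm, pow_succ, mul_comm]
      exact Nat.mul_dvd_mul_left r h
    exact (padicValNat_dvd_iff_le hn0.ne').mp h1
  by_cases h2 : r = 2
  · subst h2
    by_cases h43 : Fintype.card F % 4 = 3
    · exact Or.inr ⟨rfl, h43⟩
    · left
      apply fin
      obtain ⟨i, hi⟩ := FiniteField.isSquare_neg_one_iff.mpr h43
      have hdet' : (-c) ^ (n / 2) = 1 := by
        rw [← hdet]; congr 1; ring
      apply pow_dvd_of_not_pow 2 hr _ hpow (-c) _ _ hdet'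
      intro b hb
      apply hc (i * b)
      rw [mul_pow, pow_two i, ← hi, hb]; ring
  · left
    apply fin
    have hodd : Even (r + 1) := by
      rcases hr.eq_two_or_odd' with h | h
      · exact absurd h h2
      · exact h.add_one
    have hdet' : c ^ (n / r) = 1 := by
      rw [← hdet, hodd.neg_one_pow, one_mul]
    exact pow_dvd_of_not_pow r hr _ hpow c hc _ hdet'

end Cfsg.Agent.H48.El
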