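import Cfsg.Agent.H48.EpDefs
import Cfsg.Agent.H77.TmDefs2
import Cfsg.Agent.H86.Ev2Defs
import Cfsg.Agent.H49.PtDefs

/-!
# S5974 team project (helper48): second wave of piece statements

* `StStructOdd` / `StStructEven`: the structure theorem `StStruct` split by characteristic;
  the characteristic `2` half is built from `StType0`, `StQSum`, `StQBoth2` and helper42's
  symplectic library applied to the (alternating) polar form.
* `StExist4`, `StOrbP`, `StCntA'` : existence and counting.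
* `StTwoOdd` / `StTwoEven`: the case `r = 2` split by characteristic; the odd half is built
  from `StTwoInv`, `StJNd`, `StTwoNeg` and helper86's `Ev2` statements.
-/

set_option autoImplicit false

namespace Cfsg.Agent.H48.Ep

open Cfsg.Agent.H45 Cfsg.Agent.H42.Spd Cfsg.Agent.H42.Ti Module

universe u v

/-! ## EP-STRUCT by characteristic -/

/-- The conclusion of EP-STRUCT. -/
def StructBody {F : Type u} [Field F] [Fintype F] {V : Type v} [AddCommGroup V] [Module F V]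
    (Q : QuadraticForm F V) (T : Module.End F V) (r : ℕ) (plV : Prop) : Prop :=
  QNd Q (LinearMap.ker (T - 1)) ∧
    ∃ A : ℕ, Module.finrank F V = kk T ⊤ + cc F r * A ∧
      (kk T ⊤ = 0 → (plV ↔ (Odd (ii F r) ∨ Even A))) ∧
      (∀ (j e : ℕ) (pl : Prop), j ≤ A → e ≤ kk T ⊤ → Even e →
        (e = 0 → (pl ↔ (Odd (ii F r) ∨ Even j))) →
        (e = kk T ⊤ → e ≠ 0 → (pl ↔ (plV ↔ (Odd (ii F r) ∨ Even (A - j))))) →
        ∃ W : Submodule F V, W ∈ T.invtSubmodule ∧ QNd Q W ∧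
          Module.finrank F W = cc F r * j + e ∧ (QPlus Q W ↔ pl)) ∧
      (∀ (W : Submodule F V) (pl : Prop), W ∈ T.invtSubmodule → QNd Q W →
        Even (Module.finrank F W) → (QPlus Q W ↔ pl) →
        ∃ j : ℕ, j ≤ A ∧ Module.finrank F W = cc F r * j + kk T W ∧ kk T W ≤ kk T ⊤ ∧
          (kk T W = 0 → (pl ↔ (Odd (ii F r) ∨ Even j))) ∧
          (kk T W = kk T ⊤ → kk T W ≠ 0 → (pl ↔ (plV ↔ (Odd (ii F r) ∨ Even (A - j))))))

/-- EP-STRUCT-ODD: `StStruct` in odd characteristic. -/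
def StStructOdd : Prop :=
  ∀ (F : Type u) [Field F] [Fintype F] (V : Type v) [AddCommGroup V] [Module F V]
    [FiniteDimensional F V] (Q : QuadraticForm F V) (T : Module.End F V) (r : ℕ) (plV : Prop),
    (2 : F) ≠ 0 →
    r.Prime → r ≠ 2 → (r : F) ≠ 0 → QNd Q ⊤ → (∀ v, Q (T v) = Q v) → T ^ r = 1 →
    Even (Module.finrank F V) → (QPlus Q ⊤ ↔ plV) → StructBody Q T r plV

/-- EP-STRUCT-EVEN: `StStruct` in characteristic `2`. -/
def StStructEven : Prop :=
  ∀ (F : Type u) [Field F] [Fintype F] (V : Type v) [AddCommGroup V] [Module F V]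
    [FiniteDimensional F V] (Q : QuadraticForm F V) (T : Module.End F V) (r : ℕ) (plV : Prop),
    (2 : F) = 0 →
    r.Prime → r ≠ 2 → (r : F) ≠ 0 → QNd Q ⊤ → (∀ v, Q (T v) = Q v) → T ^ r = 1 →
    Even (Module.finrank F V) → (QPlus Q ⊤ ↔ plV) → StructBody Q T r plV

theorem struct_of (hO : StStructOdd.{u, v}) (hE : StStructEven.{u, v}) : StStruct.{u, v} := by
  intro F _ _ V _ _ _ Q T r plV hr hr2 hrF hQ hT hTr hev hpl
  by_cases h2 : (2 : F) = 0
  · exact hE F V Q T r plV h2 hr hr2 hrF hQ hT hTr hev hpl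
  · exact hO F V Q T r plV h2 hr hr2 hrF hQ hT hTr hev hpl

/-! ## Generic quadratic spaces (any characteristic unless stated) -/

/-- EP-TYPE0: an invariant nondegenerate subspace without fixed vectors, of dimension `c j`, is of
plus type iff `i` is odd or `j` is even. -/
def StType0 : Prop :=
  ∀ (F : Type u) [Field F] [Fintype F] (V : Type v) [AddCommGroup V] [Module F V]
    [FiniteDimensional F V] (Q : QuadraticForm F V) (T : Module.End F V) (r : ℕ),
    r.Prime → r ≠ 2 → (r : F) ≠ 0 → QNd Q ⊤ → (∀ v, Q (T v) = Q v) → T ^ r = 1 →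
    ∀ (W : Submodule F V) (j : ℕ), W ∈ T.invtSubmodule → QNd Q W → kk T W = 0 →
    Module.finrank F W = cc F r * j → (QPlus Q W ↔ (Odd (ii F r) ∨ Even j))

/-- EP-QSUM: the orthogonal sum of two nondegenerate subspaces of even dimension is
nondegenerate, and of plus type iff the summands have the same type. -/
def StQSum : Prop :=
  ∀ (F : Type u) [Field F] [Fintype F] (V : Type v) [AddCommGroup V] [Module F V]
    [FiniteDimensional F V] (Q : QuadraticForm F V) (W₀ W₁ : Submodule F V),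
    QNd Q W₀ → QNd Q W₁ → (∀ x ∈ W₀, ∀ y ∈ W₁, QuadraticMap.polar ⇑Q x y = 0) →
    Even (Module.finrank F W₀) → Even (Module.finrank F W₁) →
    QNd Q (W₀ ⊔ W₁) ∧
      Module.finrank F ↥(W₀ ⊔ W₁) = Module.finrank F W₀ + Module.finrank F W₁ ∧
      (QPlus Q (W₀ ⊔ W₁) ↔ (QPlus Q W₀ ↔ QPlus Q W₁))

/-- EP-QBOTH2 (characteristic `2`): a nondegenerate subspace `K` of dimension at least `e + 2`
contains nondegenerate subspaces of even dimension `e ≥ 2` of both types. -/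
def StQBoth2 : Prop :=
  ∀ (F : Type u) [Field F] [Fintype F] (V : Type v) [AddCommGroup V] [Module F V]
    [FiniteDimensional F V] (Q : QuadraticForm F V) (K : Submodule F V) (e : ℕ) (pl : Prop),
    (2 : F) = 0 → QNd Q K → Even e → 2 ≤ e → e + 2 ≤ Module.finrank F K →
    ∃ W : Submodule F V, W ≤ K ∧ QNd Q W ∧ Module.finrank F W = e ∧ (QPlus Q W ↔ pl)

/-! ## Existence and counting on the standard plus space -/

/-- EP-EXIST: `StExist` for `4 ≤ d`. -/
def StExist4 : Prop :=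
  ∀ (F : Type u) [Field F] [Fintype F] (p : ℕ) [Fact p.Prime] [CharP F p] (r : ℕ), r.Prime →
    r ≠ 2 → r ≠ p → ∀ d A : ℕ, 4 ≤ d → 1 ≤ A → cc F r * A ≤ 2 * d →
    (cc F r * A = 2 * d → (Odd (ii F r) ∨ Even A)) →
    ∃ x : Matrix.GeneralLinearGroup (Fin d ⊕ Fin d) F,
      x ∈ Cfsg.Geo.omegaGL (Cfsg.quadFormPlus d F) ∧ x ^ r = 1 ∧
      Module.finrank F ↥(LinearMap.ker (Matrix.toLin'
        (x : Matrix (Fin d ⊕ Fin d) (Fin d ⊕ Fin d) F) - 1)) + cc F r * A = 2 * d ∧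
      ∀ z : F, (x : Matrix (Fin d ⊕ Fin d) (Fin d ⊕ Fin d) F) ≠
        z • (1 : Matrix (Fin d ⊕ Fin d) (Fin d ⊕ Fin d) F)

/-- EP-ORBP (Witt): two nondegenerate plus-type subspaces of the same dimension, both orthogonal
to a nondegenerate subspace `R`, are conjugate under an isometry fixing `R` pointwise. -/
def StOrbP : Prop :=
  ∀ (F : Type u) [Field F] [Fintype F] (d : ℕ), 4 ≤ d →
    ∀ R W W' : Submodule F (Fin d ⊕ Fin d → F),
    QNd (Cfsg.Agent.H49.QP d F) R → QNd (Cfsg.Agent.H49.QP d F) W →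
    QNd (Cfsg.Agent.H49.QP d F) W' →
    (∀ u ∈ W, ∀ v ∈ R, QuadraticMap.polar (Cfsg.quadFormPlus d F) u v = 0) →
    (∀ u ∈ W', ∀ v ∈ R, QuadraticMap.polar (Cfsg.quadFormPlus d F) u v = 0) →
    Module.finrank F W = Module.finrank F W' →
    QPlus (Cfsg.Agent.H49.QP d F) W → QPlus (Cfsg.Agent.H49.QP d F) W' →
    ∃ g : Matrix.GeneralLinearGroup (Fin d ⊕ Fin d) F,
      g ∈ Cfsg.isometryGroup F (Cfsg.quadFormPlus d F) ∧
      (∀ v ∈ R, Matrix.toLin' (g : Matrix (Fin d ⊕ Fin d) (Fin d ⊕ Fin d) F) v = v) ∧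
      W.map (Matrix.toLin' (g : Matrix (Fin d ⊕ Fin d) (Fin d ⊕ Fin d) F)) = W'

/-! ## `r = 2` -/

/-- The statement of EP-TWO for a given field. -/
def TwoBody (F : Type u) [Field F] [Fintype F] (d m : ℕ) : Prop :=
  ((∀ x : Matrix.GeneralLinearGroup (Fin d ⊕ Fin d) F,
      x ∈ Cfsg.Geo.omegaGL (Cfsg.quadFormPlus d F) →
      (∃ z : F, ((x ^ 2 : Matrix.GeneralLinearGroup (Fin d ⊕ Fin d) F) :
        Matrix (Fin d ⊕ Fin d) (Fin d ⊕ Fin d) F) =
          z • (1 : Matrix (Fin d ⊕ Fin d) (Fin d ⊕ Fin d) F)) →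
      (∀ z : F, (x : Matrix (Fin d ⊕ Fin d) (Fin d ⊕ Fin d) F) ≠
        z • (1 : Matrix (Fin d ⊕ Fin d) (Fin d ⊕ Fin d) F)) →
      FixP F d m x) ↔
    ((2 * d) % 4 = 2 ∨ m % 4 = 0 ∨ Fintype.card F % 4 = 1))

/-- EP-TWOODD: `StTwo` in odd characteristic. -/
def StTwoOdd : Prop :=
  ∀ (F : Type u) [Field F] [Fintype F] (d m : ℕ), (2 : F) ≠ 0 → 4 ≤ d → 2 ≤ m → Even m →
    m < d → TwoBody F d m

/-- EP-TWOEVEN: `StTwo` in characteristic `2`. -/
def StTwoEven : Prop :=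
  ∀ (F : Type u) [Field F] [Fintype F] (d m : ℕ), (2 : F) = 0 → 4 ≤ d → 2 ≤ m → Even m →
    m < d → TwoBody F d m

theorem two_of (hO : StTwoOdd.{u}) (hE : StTwoEven.{u}) : StTwo.{u} := by
  intro F _ _ d m hd hm hme hmd
  by_cases h2 : (2 : F) = 0
  · exact hE F d m h2 hd hm hme hmd
  · exact hO F d m h2 hd hm hme hmd

/-- EP-TWOINV (odd characteristic): every isometry with `x * x = 1` fixes a nondegenerate
plus-type `m`-space. -/
def StTwoInv : Prop :=
  ∀ (F : Type u) [Field F] [Fintype F] (d m : ℕ), (2 : F) ≠ 0 → 2 ≤ m → Even m → m < d →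
    ∀ x : Matrix.GeneralLinearGroup (Fin d ⊕ Fin d) F,
    x ∈ Cfsg.isometryGroup F (Cfsg.quadFormPlus d F) →
    (x : Matrix (Fin d ⊕ Fin d) (Fin d ⊕ Fin d) F) *
      (x : Matrix (Fin d ⊕ Fin d) (Fin d ⊕ Fin d) F) = 1 → FixP F d m x

/-- EP-JND (odd characteristic, generic): for an isometry `T` with `T * T = -1` of a
nondegenerate symmetric bilinear space, an invariant nondegenerate subspace has even dimension
`2 t` and is of plus type iff `(-1) ^ t` is a square; such subspaces exist for all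
`2 t ≤ dim V`. -/
def StJNd : Prop :=
  ∀ (F : Type u) [Field F] [Fintype F] (V : Type v) [AddCommGroup V] [Module F V]
    [FiniteDimensional F V] (B : V →ₗ[F] V →ₗ[F] F) (T : Module.End F V), (2 : F) ≠ 0 →
    (∀ x y, B x y = B y x) → (∀ x, (∀ y, B x y = 0) → x = 0) →
    (∀ x y, B (T x) (T y) = B x y) → T * T = -1 →
    (∀ W : Submodule F V, W ∈ T.invtSubmodule → W ⊓ perp B W = ⊥ →
      ∃ t : ℕ, Module.finrank F W = 2 * t ∧
        (Cfsg.Agent.H95.Oh.Plus B W ↔ IsSquare ((-1 : F) ^ t))) ∧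
    (∀ t : ℕ, 2 * t ≤ Module.finrank F V →
      ∃ W : Submodule F V, W ∈ T.invtSubmodule ∧ W ⊓ perp B W = ⊥ ∧
        Module.finrank F W = 2 * t)

/-- EP-TWONEG (odd characteristic): an isometry with `x * x = -1` fixes a nondegenerate
plus-type `m`-space iff `-1` is a square or `4 ∣ m`. -/
def StTwoNeg : Prop :=
  ∀ (F : Type u) [Field F] [Fintype F] (d m : ℕ), (2 : F) ≠ 0 → 2 ≤ m → Even m → m < d →
    ∀ x : Matrix.GeneralLinearGroup (Fin d ⊕ Fin d) F,
    x ∈ Cfsg.isometryGroup F (Cfsg.quadFormPlus d F) →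
    (x : Matrix (Fin d ⊕ Fin d) (Fin d ⊕ Fin d) F) *
      (x : Matrix (Fin d ⊕ Fin d) (Fin d ⊕ Fin d) F) = -1 →
    (FixP F d m x ↔ (IsSquare (-1 : F) ∨ m % 4 = 0))

end Cfsg.Agent.H48.Ep
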