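import Cfsg.Agent.H48.NilClass2

set_option autoImplicit false

/-!
Helper lemmas (helper48): kernel dimensions of powers of block-diagonal matrices, of the
standard unipotent matrix of a given Jordan type, and of reindexed matrices.
-/

namespace Cfsg.Agent.H48

open Module Matrix

section BlockDiag

variable {F : Type*} [Field F] {o : Type*} [Fintype o] [DecidableEq o] {n : o → Type*}
  [∀ i, Fintype (n i)] [∀ i, DecidableEq (n i)]

theorem blockDiagonal'_mulVec_apply (M : ∀ i, Matrix (n i) (n i) F) (v : ((i : o) × n i) → F)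
    (i : o) (a : n i) :
    (blockDiagonal' M *ᵥ v) ⟨i, a⟩ = (M i *ᵥ fun b => v ⟨i, b⟩) a := by
  rw [Matrix.mulVec, dotProduct, Fintype.sum_sigma, Finset.sum_eq_single i]
  · rw [Matrix.mulVec, dotProduct]
    refine Finset.sum_congr rfl fun b _ => ?_
    rw [blockDiagonal'_apply_eq]
  · intro i' _ hi'
    apply Finset.sum_eq_zero
    intro b _
    rw [blockDiagonal'_apply_ne _ _ _ (Ne.symm hi'), zero_mul]
  · intro h; exact absurd (Finset.mem_univ i) h

theorem finrank_ker_blockDiagonal' (M : ∀ i, Matrix (n i) (n i) F) :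
    finrank F (LinearMap.ker (Matrix.toLin' (blockDiagonal' M)))
      = ∑ i, finrank F (LinearMap.ker (Matrix.toLin' (M i))) := by
  let ι' : (∀ i, ↥(LinearMap.ker (Matrix.toLin' (M i)))) →ₗ[F] (((i : o) × n i) → F) :=
    { toFun := fun w x => (w x.1 : n x.1 → F) x.2
      map_add' := fun w w' => by funext x; rfl
      map_smul' := fun c w => by funext x; rfl }
  have hι' : ∀ w x, ι' w x = (w x.1 : n x.1 → F) x.2 := fun w x => rfl
  have hinj : Function.Injective ι' := by
    intro w w' h
    funext i
    apply Subtype.ext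
    funext a
    exact congrFun h ⟨i, a⟩
  have hrange : LinearMap.range ι' = LinearMap.ker (Matrix.toLin' (blockDiagonal' M)) := by
    ext v
    rw [LinearMap.mem_ker, Matrix.toLin'_apply]
    constructor
    · rintro ⟨w, rfl⟩
      funext ⟨i, a⟩
      rw [blockDiagonal'_mulVec_apply]
      have := (w i).2
      rw [LinearMap.mem_ker, Matrix.toLin'_apply] at this
      exact congrFun this a
    · intro hv
      refine ⟨fun i => ⟨fun b => v ⟨i, b⟩, ?_⟩, ?_⟩
      · rw [LinearMap.mem_ker, Matrix.toLin'_apply]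
        funext a
        rw [← blockDiagonal'_mulVec_apply, hv]; rfl
      · funext ⟨i, a⟩; rfl
  rw [← hrange, LinearMap.finrank_range_of_inj hinj, Module.finrank_pi_fintype]

end BlockDiag

section JType

variable {F : Type*} [Field F]

/-- Kernel dimensions of the powers of the nilpotent part of the standard matrix of Jordan
type `d`. -/
theorem finrank_ker_jordanType_pow {t : ℕ} (d : Fin t → ℕ) (k : ℕ) :
    finrank F (LinearMap.ker ((Matrix.toLin' (Cfsg.jordanTypeMatrix d F - 1)) ^ k))
      = ∑ i, min k (d i) := by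
  have e : (Cfsg.jordanTypeMatrix d F - 1) ^ k
      = blockDiagonal' (fun i => (Cfsg.jordanBlock (d i) F - 1) ^ k) := by
    unfold Cfsg.jordanTypeMatrix
    rw [← blockDiagonal'_one, ← blockDiagonal'_sub, ← blockDiagonal'_pow]
    rfl
  rw [← toLin'_pow', e, finrank_ker_blockDiagonal']
  refine Finset.sum_congr rfl fun i _ => ?_
  rw [toLin'_pow']
  exact finrank_ker_shiftLin_pow (d i) k

theorem finrank_ker_reindex_pow {ι ι' : Type*} [Fintype ι] [DecidableEq ι] [Fintype ι']
    [DecidableEq ι'] (e : ι ≃ ι') (M : Matrix ι ι F) (k : ℕ) :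
    finrank F (LinearMap.ker ((Matrix.toLin' (Matrix.reindex e e M)) ^ k))
      = finrank F (LinearMap.ker ((Matrix.toLin' M) ^ k)) := by
  symm
  apply finrank_ker_pow_of_equiv (Matrix.toLin' M) (Matrix.toLin' (Matrix.reindex e e M))
    (LinearEquiv.funCongrLeft F F e.symm)
  intro x
  show (Matrix.toLin' M x) ∘ e.symm = Matrix.toLin' (Matrix.reindex e e M) (x ∘ e.symm)
  rw [Matrix.toLin'_apply, Matrix.toLin'_apply, Matrix.reindex_apply, Matrix.submatrix_mulVec_equiv]
  simp [Function.comp_assoc]

theorem kap_map_univ {t : ℕ} (d : Fin t → ℕ) (k : ℕ) :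
    kap (Finset.univ.val.map d) k = ∑ i, min k (d i) := by
  unfold kap
  rw [Multiset.map_map]
  rfl

theorem count_map_univ {t : ℕ} (d : Fin t → ℕ) (j : ℕ) :
    (Finset.univ.val.map d).count j = (Finset.univ.filter (fun k : Fin t => d k = j)).card := by
  rw [Multiset.count_map, Finset.card_def, Finset.filter_val]
  congr 1
  apply Multiset.filter_congr
  intro x _
  exact eq_comm

theorem isNilpotent_of_kap {ι : Type*} [Fintype ι] [DecidableEq ι] (N : Matrix ι ι F)
    (μ : Multiset ℕ) (h : ∀ k, finrank F (LinearMap.ker ((Matrix.toLin' N) ^ k)) = kap μ k)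
    (hsum : μ.sum = Fintype.card ι) : IsNilpotent N := by
  refine ⟨μ.sum, ?_⟩
  rw [matrix_pow_eq_zero_iff, h, kap_eq_sum_of_le _ _ (fun a ha => Multiset.le_sum_of_mem ha), hsum]

theorem finrank_ker_pow_of_isRegNil {ι : Type*} [Fintype ι] [DecidableEq ι] (M : Matrix ι ι F)
    (h : IsRegNil M) (k : ℕ) :
    finrank F (LinearMap.ker ((Matrix.toLin' M) ^ k)) = min k (Fintype.card ι) := by
  have hd : finrank F (ι → F) = Fintype.card ι := Module.finrank_fintype_fun_eq_card F
  have hnil := toLin'_pow_finrank_eq_zero M h.1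
  have hN1 := finrank_ker_toLin'_le_one M h.2
  rcases le_or_gt k (Fintype.card ι) with hk | hk
  · rw [finrank_ker_pow_eq _ hN1 hnil k (by rw [hd]; exact hk), min_eq_left hk]
  · have h0 : (Matrix.toLin' M) ^ k = 0 := by
      have e : k = (k - Fintype.card ι) + Fintype.card ι := by omega
      rw [hd] at hnil
      rw [e, pow_add, hnil, mul_zero]
    rw [h0, LinearMap.ker_zero, finrank_top, hd, min_eq_right hk.le]

end JType

end Cfsg.Agent.H48
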