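import Mathlib
import Cfsg.Agent.H95.OhDefs
import Cfsg.Agent.H49.NDTrans
import Cfsg.Agent.H7.OmegaCenter

/-!
# S5992 / S5993, piece S5992-ORBTRANS: two nondegenerate subspaces of the same even dimension
and type, both orthogonal to a nondegenerate subspace `R`, are conjugate under an isometry
fixing `R` pointwise (Witt)
-/

set_option autoImplicit false

namespace Cfsg.Agent.H48.Oh

open Cfsg.Agent.H45 Cfsg.Agent.H42.Spd Cfsg.Agent.H42.Ti Cfsg.Agent.H14.Ot Cfsg.Agent.H95.Oh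
  Module

universe u

/-- S5992-ORBTRANS. -/
theorem orbTrans (hBr : StBridge.{u}) (hIso : StIso.{u, u}) : StOrbTrans.{u} := by
  intro F _ _ d h2 R W W' hR hW hW' hWR hW'R hdim heven htype
  classical
  obtain ⟨B, hBpol, hBsymm, hBnd, hBQ, hBndOn, hBplus, hBiso⟩ := hBr F d h2
  have hRnd : R ⊓ perp B R = ⊥ := (hBndOn R).mp hR
  have hWnd : W ⊓ perp B W = ⊥ := (hBndOn W).mp hW
  have hW'nd : W' ⊓ perp B W' = ⊥ := (hBndOn W').mp hW'
  have htype' : Plus B W ↔ Plus B W' := by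
    rw [← hBplus, ← hBplus]
    exact htype
  obtain ⟨e₀, he₀⟩ :=
    hIso F (Unit ⊕ (Fin d ⊕ Fin d) → F) B h2 hBsymm W W' hWnd hW'nd hdim heven htype'
  -- the quadratic form
  have hQcoe : ⇑(Cfsg.Agent.H7.qOdd d F) = Cfsg.quadFormOdd d F := Cfsg.Agent.H7.qOdd_coe d
  have hQfun : ∀ y, Cfsg.Agent.H7.qOdd d F y = Cfsg.quadFormOdd d F y := by
    intro y
    rw [← hQcoe]
  have hQe₀ : ∀ w : W, Cfsg.quadFormOdd d F ((e₀ w : W') : Unit ⊕ (Fin d ⊕ Fin d) → F) =
      Cfsg.quadFormOdd d F (w : Unit ⊕ (Fin d ⊕ Fin d) → F) := by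
    intro w
    have h1 := he₀ w w
    rw [hBQ, hBQ] at h1
    exact mul_left_cancel₀ h2 h1
  -- the linear map: `e₀` on `W`, identity on `perp B W ⊇ R`
  have hcompl : IsCompl W (perp B W) := isCompl_perp B W hWnd
  let π : (Unit ⊕ (Fin d ⊕ Fin d) → F) →ₗ[F] W := Submodule.linearProjOfIsCompl W (perp B W) hcompl
  let e : (Unit ⊕ (Fin d ⊕ Fin d) → F) →ₗ[F] (Unit ⊕ (Fin d ⊕ Fin d) → F) :=
    W'.subtype ∘ₗ e₀.toLinearMap ∘ₗ π + (LinearMap.id - W.subtype ∘ₗ π)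
  have hRperp : R ≤ perp B W := by
    intro x hx u hu
    rw [hBpol]
    exact hWR u hu x hx
  have heW : ∀ w : W, e (w : Unit ⊕ (Fin d ⊕ Fin d) → F) = (e₀ w : W') := by
    intro w
    have h1 : π (w : Unit ⊕ (Fin d ⊕ Fin d) → F) = w :=
      Submodule.linearProjOfIsCompl_apply_left hcompl w
    simp only [e, LinearMap.add_apply, LinearMap.comp_apply, LinearMap.sub_apply,
      LinearMap.id_apply, Submodule.subtype_apply, LinearEquiv.coe_coe]
    rw [h1, sub_self, add_zero]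
  have heR : ∀ x ∈ R, e x = x := by
    intro x hx
    have h1 : π x = 0 := Submodule.linearProjOfIsCompl_apply_right' hcompl (hRperp hx)
    simp only [e, LinearMap.add_apply, LinearMap.comp_apply, LinearMap.sub_apply,
      LinearMap.id_apply, Submodule.subtype_apply, LinearEquiv.coe_coe]
    rw [h1, map_zero]
    simp
  -- `W ⊔ R` is nondegenerate
  have hU : (W ⊔ R) ⊓ LinearMap.BilinForm.orthogonal
      (QuadraticMap.polarBilin (Cfsg.Agent.H7.qOdd d F)) (W ⊔ R) = ⊥ := by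
    rw [eq_bot_iff]
    rintro x ⟨hx1, hx2⟩
    rw [Submodule.mem_bot]
    have hx2' : ∀ n ∈ W ⊔ R, B n x = 0 := by
      intro n hn
      have h1 : (QuadraticMap.polarBilin (Cfsg.Agent.H7.qOdd d F)) n x = 0 :=
        (LinearMap.BilinForm.mem_orthogonal_iff.mp hx2) n hn
      rw [QuadraticMap.polarBilin_apply_apply, hQcoe] at h1
      rw [hBpol]
      exact h1
    obtain ⟨w, hw, r, hr, rfl⟩ := Submodule.mem_sup.mp hx1
    have hw0 : w = 0 := by
      have h1 : w ∈ W ⊓ perp B W := by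
        refine ⟨hw, fun u hu => ?_⟩
        have h3 := hx2' u (Submodule.mem_sup_left hu)
        rw [map_add, hRperp hr u hu, add_zero] at h3
        exact h3
      rw [hWnd] at h1
      exact (Submodule.mem_bot F).mp h1
    have hr0 : r = 0 := by
      have h1 : r ∈ R ⊓ perp B R := by
        refine ⟨hr, fun u hu => ?_⟩
        have h3 := hx2' u (Submodule.mem_sup_right hu)
        rw [map_add, hBsymm u w, hRperp hu w hw, zero_add] at h3
        exact h3
      rw [hRnd] at h1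
      exact (Submodule.mem_bot F).mp h1
    rw [hw0, hr0, add_zero]
  have he : ∀ u ∈ W ⊔ R, Cfsg.Agent.H7.qOdd d F (e u) = Cfsg.Agent.H7.qOdd d F u := by
    intro u hu
    obtain ⟨w, hw, r, hr, rfl⟩ := Submodule.mem_sup.mp hu
    rw [map_add, heW ⟨w, hw⟩, heR r hr]
    rw [hQfun, hQfun]
    have h1 : QuadraticMap.polar (Cfsg.quadFormOdd d F)
        ((e₀ ⟨w, hw⟩ : W') : Unit ⊕ (Fin d ⊕ Fin d) → F) r = 0 :=
      hW'R _ (e₀ ⟨w, hw⟩).2 r hr
    have h3 : QuadraticMap.polar (Cfsg.quadFormOdd d F) w r = 0 := hWR w hw r hr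
    rw [QuadraticMap.polar] at h1 h3
    have h4 := hQe₀ ⟨w, hw⟩
    simp only at h4
    linear_combination h1 - h3 + h4
  have hex : Fintype.card F ≠ 2 ∨ finrank F (Unit ⊕ (Fin d ⊕ Fin d) → F) ≠ 4 := by
    right
    rw [Module.finrank_fintype_fun_eq_card]
    simp only [Fintype.card_sum, Fintype.card_unique, Fintype.card_fin]
    omega
  obtain ⟨g, hg⟩ := Cfsg.Agent.H49.witt_nondeg (Cfsg.Agent.H7.qOdd d F)
    (Cfsg.Agent.H7.qOdd_nondeg d h2) hex (W ⊔ R) hU e he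
  refine ⟨(g : Matrix.GeneralLinearGroup (Unit ⊕ (Fin d ⊕ Fin d)) F), ?_, ?_, ?_⟩
  · rw [Cfsg.Agent.H49.mem_isometryGroup_iff]
    intro u
    have h1 := (Cfsg.Agent.H49.mem_isometryGroup_iff.mp g.2) u
    rw [← hQfun, ← hQfun]
    exact h1
  · intro v hv
    rw [Matrix.toLin'_apply, hg v (Submodule.mem_sup_right hv), heR v hv]
  · apply le_antisymm
    · rintro y ⟨w, hw, rfl⟩
      rw [Matrix.toLin'_apply, hg w (Submodule.mem_sup_left hw), heW ⟨w, hw⟩]
      exact (e₀ ⟨w, hw⟩).2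
    · intro y hy
      refine ⟨(e₀.symm ⟨y, hy⟩ : W), (e₀.symm ⟨y, hy⟩).2, ?_⟩
      rw [Matrix.toLin'_apply, hg _ (Submodule.mem_sup_left (e₀.symm ⟨y, hy⟩).2),
        heW (e₀.symm ⟨y, hy⟩), LinearEquiv.apply_symm_apply]

example (hBr : Cfsg.Agent.H95.Oh.StBridge.{u}) (hIso : Cfsg.Agent.H95.Oh.StIso.{u, u}) :
    Cfsg.Agent.H95.Oh.StOrbTrans.{u} := orbTrans hBr hIso

end Cfsg.Agent.H48.Oh
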