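import Mathlib
import Cfsg.Agent.H95.OhDefs
import Cfsg.Agent.H60.OtCommon
import Cfsg.Agent.H18.UPCount

/-!
# S5992 / S5993, piece S5992-TYPEEVEN: for `i` even, a space of dimension `i j` with a
fixed-point-free isometry of order `r` is of plus type iff `j` is even
-/

set_option autoImplicit false

namespace Cfsg.Agent.H48.Oh

open Cfsg.Agent.H45 Cfsg.Agent.H42.Spd Cfsg.Agent.H42.Ti Cfsg.Agent.H14.Ot Cfsg.Agent.H95.Oh
  Module

universe u v

/-- S5992-TYPEEVEN. -/
theorem typeEven (hZ : StZeros.{u, v}) : StTypeEven.{u, v} := by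
  intro F _ _ V _ _ _ r B T hctx hker hev j hdim
  classical
  have hr := hctx.prime
  haveI : Fact r.Prime := ⟨hr⟩
  have hipos : 0 < ii F r := Cfsg.Agent.H60.Ot.ot_ii_pos r hr hctx.cast_ne
  rcases Nat.eq_zero_or_pos j with hj0 | hjpos
  · subst hj0
    constructor
    · intro _
      exact ⟨0, rfl⟩
    · intro _
      refine ⟨⊥, bot_le, ?_, ?_⟩
      · intro u hu v _
        rw [(Submodule.mem_bot F).mp hu, map_zero, LinearMap.zero_apply]
      · rw [finrank_bot, finrank_top, hdim]
        simp
  · obtain ⟨η, hη⟩ := hev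
    have hηpos : 0 < η := by omega
    have htpos : 1 ≤ η * j := Nat.mul_pos hηpos hjpos
    obtain ⟨t', ht'⟩ : ∃ t', η * j = t' + 1 := ⟨η * j - 1, by omega⟩
    have hdim2 : finrank F V = 2 * (t' + 1) := by
      rw [hdim, hη, ← ht']
      ring
    obtain ⟨hP, hN⟩ := hZ F V B hctx.two_ne hctx.symm hctx.nondeg (t' + 1) (by omega) hdim2
    have hfinV : Finite V := Module.finite_of_finite F
    -- the number of singular vectors is `1` modulo `r`
    have hcount : Nat.card {x : V // B x x = 0} ≡ 1 [MOD r] := by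
      let τ : {x : V // B x x = 0} → {x : V // B x x = 0} :=
        fun x => ⟨T x.1, by rw [hctx.isom]; exact x.2⟩
      have hτ : ∀ v, τ^[r] v = v := by
        intro v
        apply Subtype.ext
        have h1 : ∀ k : ℕ, ((τ^[k] v : {x : V // B x x = 0}) : V) = (T ^ k) v.1 := by
          intro k
          induction k with
          | zero => simp
          | succ k ih =>
            rw [Function.iterate_succ_apply', pow_succ', Module.End.mul_apply, ← ih]
        rw [h1, hctx.pow]
        rfl
      have h2 := Cfsg.Agent.H18.UP.card_modEq_fix τ r hr hτ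
      have h3 : Nat.card {v : {x : V // B x x = 0} // τ v = v} = 1 := by
        rw [Nat.card_eq_one_iff_unique]
        refine ⟨⟨?_⟩, ⟨⟨⟨0, by simp⟩, ?_⟩⟩⟩
        · rintro ⟨⟨a, ha⟩, ha'⟩ ⟨⟨b, hb⟩, hb'⟩
          have hfix : ∀ (c : V) (hc : B c c = 0), τ ⟨c, hc⟩ = ⟨c, hc⟩ → c = 0 := by
            intro c hc hc'
            have h4 : T c = c := congrArg Subtype.val hc'
            have h5 : c ∈ LinearMap.ker (T - 1) := by
              rw [LinearMap.mem_ker, LinearMap.sub_apply, h4, Module.End.one_apply, sub_self]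
            rw [hker] at h5
            exact (Submodule.mem_bot F).mp h5
          have ha0 := hfix a ha ha'
          have hb0 := hfix b hb hb'
          subst ha0
          subst hb0
          rfl
        · apply Subtype.ext
          show T 0 = 0
          exact map_zero T
      rw [h3] at h2
      exact h2
    have hcountZ : ((Nat.card {x : V // B x x = 0} : ℕ) : ZMod r) = 1 := by
      have := (ZMod.natCast_eq_natCast_iff _ _ _).mpr hcount
      rw [this, Nat.cast_one]
    -- arithmetic in `ZMod r`
    obtain ⟨Q, hQ⟩ : ∃ Q : ZMod r, Q = ((Fintype.card F : ℕ) : ZMod r) := ⟨_, rfl⟩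
    have hord : orderOf Q = η + η := by
      rw [hQ, ← hη]
      rfl
    have hQη : Q ^ η = -1 := by
      have hsq : Q ^ η * Q ^ η = 1 := by
        rw [← pow_add, ← hord, pow_orderOf_eq_one]
      rcases mul_self_eq_one_iff.mp hsq with h1 | h1
      · exfalso
        have h2 := orderOf_dvd_of_pow_eq_one h1
        rw [hord] at h2
        have h3 := Nat.le_of_dvd hηpos h2
        omega
      · exact h1
    have hQt : Q ^ (t' + 1) = (-1) ^ j := by
      rw [← ht', pow_mul, hQη]
    have hQ1 : Q ≠ 1 := by
      intro h1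
      rw [h1, orderOf_one] at hord
      omega
    have h2ne : (2 : ZMod r) ≠ 0 := by
      intro h2
      have h3 : ((2 : ℕ) : ZMod r) = 0 := by
        rw [Nat.cast_ofNat]
        exact h2
      rw [ZMod.natCast_eq_zero_iff] at h3
      exact hctx.ne_two ((Nat.prime_dvd_prime_iff_eq hr Nat.prime_two).mp h3)
    have e1 : t' + 1 - 1 = t' := by omega
    have e2 : 2 * (t' + 1) - 1 = 2 * t' + 1 := by omega
    rw [e1, e2] at hP hN
    constructor
    · intro hPl
      by_contra hodd
      rw [Nat.not_even_iff_odd] at hodd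
      have h1 := hP hPl
      have h2 : (1 : ZMod r) + Q ^ t' = Q ^ (2 * t' + 1) + Q ^ (t' + 1) := by
        have h2' := congrArg (fun n : ℕ => (n : ZMod r)) h1
        simp only [Nat.cast_add, Nat.cast_pow] at h2'
        rw [← hcountZ, hQ]
        exact h2'
      have hA : Q ^ (t' + 1) = -1 := by rw [hQt, hodd.neg_one_pow]
      apply hQ1
      have h5 : (2 : ZMod r) * (Q - 1) = 0 := by
        linear_combination Q * h2 + (Q ^ (t' + 1) + Q - 2) * hA
      rcases mul_eq_zero.mp h5 with h6 | h6
      · exact absurd h6 h2ne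
      · exact sub_eq_zero.mp h6
    · intro hev
      by_contra hnP
      have h1 := hN hnP
      have h2 : (1 : ZMod r) + Q ^ (t' + 1) = Q ^ (2 * t' + 1) + Q ^ t' := by
        have h2' := congrArg (fun n : ℕ => (n : ZMod r)) h1
        simp only [Nat.cast_add, Nat.cast_pow] at h2'
        rw [← hcountZ, hQ]
        exact h2'
      have hA : Q ^ (t' + 1) = 1 := by rw [hQt, hev.neg_one_pow]
      apply hQ1
      have h5 : (2 : ZMod r) * (Q - 1) = 0 := by
        linear_combination Q * h2 - (Q - Q ^ (t' + 1) - 2) * hA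
      rcases mul_eq_zero.mp h5 with h6 | h6
      · exact absurd h6 h2ne
      · exact sub_eq_zero.mp h6

example (hZ : Cfsg.Agent.H95.Oh.StZeros.{u, v}) : Cfsg.Agent.H95.Oh.StTypeEven.{u, v} :=
  typeEven hZ

end Cfsg.Agent.H48.Oh
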