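import Mathlib

/-!
helper48: piece EL-EX2 for helper42 (S5949): a semisimple element of order `r` of `SL_n(q)` whose
fixed space has dimension `n % i`, `i` the order of `q` modulo `r`.
-/

set_option autoImplicit false

namespace Cfsg.Agent.H48.El

/-- the fixed space of the matrix of an endomorphism -/
theorem finrank_ker_toMatrix_sub_one {F : Type*} [Field F] {V : Type*} [AddCommGroup V]
    [Module F V] [FiniteDimensional F V] {n : ℕ} (b : Module.Basis (Fin n) F V)
    (f : V →ₗ[F] V) :
    Module.finrank F (LinearMap.ker (Matrix.toLin' (LinearMap.toMatrix b b f) - 1))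
      = Module.finrank F (LinearMap.ker (f - 1)) := by
  have h1 : Matrix.toLin' (LinearMap.toMatrix b b f) - 1
      = Matrix.toLin' (LinearMap.toMatrix b b (f - 1)) := by
    rw [map_sub, LinearMap.toMatrix_one, map_sub, Matrix.toLin'_one]
    rfl
  rw [h1]
  have h2 := LinearMap.finrank_range_add_finrank_ker
    (Matrix.toLin' (LinearMap.toMatrix b b (f - 1)))
  have h3 := LinearMap.finrank_range_add_finrank_ker (f - 1)
  have h4 : Module.finrank F (LinearMap.range (Matrix.toLin' (LinearMap.toMatrix b b (f - 1))))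
      = Module.finrank F (LinearMap.range (f - 1)) := by
    rw [Matrix.toLin'_apply']
    have h5 := Matrix.rank_eq_finrank_range_toLin (LinearMap.toMatrix b b (f - 1)) b b
    rw [Matrix.toLin_toMatrix] at h5
    exact h5
  have h6 : Module.finrank F (Fin n → F) = Module.finrank F V := by
    rw [Module.finrank_fin_fun, Module.finrank_eq_card_basis b, Fintype.card_fin]
  omega

/-- the construction from an element `ζ ≠ 1`, `ζ ^ r = 1` of an extension field -/
theorem exists_semisimple_of_ext {F : Type*} [Field F] [Fintype F] {E : Type*} [Field E]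
    [Algebra F E] [FiniteDimensional F E] (r : ℕ) (hr : r.Prime)
    (hndvd : ¬ r ∣ Fintype.card F - 1) (ζ : E) (hζ : ζ ^ r = 1) (hζ1 : ζ ≠ 1) (n k m : ℕ)
    (hn : k * Module.finrank F E + m = n) (hk : 0 < k) :
    ∃ x : Matrix.SpecialLinearGroup (Fin n) F, x ^ r = 1 ∧ x ≠ 1 ∧
      Module.finrank F (LinearMap.ker (Matrix.toLin' (x : Matrix (Fin n) (Fin n) F) - 1))
        = m := by
  classical
  obtain ⟨f, hf⟩ : ∃ f : ((Fin k → E) × (Fin m → F)) →ₗ[F] ((Fin k → E) × (Fin m → F)),
      ∀ v, f v = (ζ • v.1, v.2) :=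
    ⟨{ toFun := fun v => (ζ • v.1, v.2)
       map_add' := fun v w => Prod.ext (smul_add ζ v.1 w.1) rfl
       map_smul' := fun c v => Prod.ext (smul_comm ζ c v.1) rfl }, fun v => rfl⟩
  have hfpow : ∀ (j : ℕ) (v : (Fin k → E) × (Fin m → F)), (f ^ j) v = (ζ ^ j • v.1, v.2) := by
    intro j
    induction j with
    | zero => intro v; simp
    | succ j ih =>
      intro v
      rw [pow_succ, Module.End.mul_apply, ih, hf, smul_smul, ← pow_succ]
  have hfr : f ^ r = 1 := by
    apply LinearMap.ext
    intro v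
    rw [hfpow, hζ, one_smul]
    rfl
  have hfinV : Module.finrank F ((Fin k → E) × (Fin m → F)) = n := by
    rw [Module.finrank_prod, Module.finrank_pi_fintype, Module.finrank_fin_fun, Finset.sum_const,
      Finset.card_univ, Fintype.card_fin, smul_eq_mul]
    exact hn
  obtain ⟨b⟩ : Nonempty (Module.Basis (Fin n) F ((Fin k → E) × (Fin m → F))) :=
    ⟨Module.finBasisOfFinrankEq F _ hfinV⟩
  have hpow : ∀ j : ℕ, (LinearMap.toMatrix b b f) ^ j = LinearMap.toMatrix b b (f ^ j) := by
    intro j
    induction j with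
    | zero => rw [pow_zero, pow_zero, LinearMap.toMatrix_one]
    | succ j ih => rw [pow_succ, pow_succ, LinearMap.toMatrix_mul, ih]
  have hxpow : (LinearMap.toMatrix b b f) ^ r = 1 := by
    rw [hpow, hfr, LinearMap.toMatrix_one]
  have hdet : (LinearMap.toMatrix b b f).det = 1 := by
    have h1 : (LinearMap.toMatrix b b f).det ^ r = 1 := by
      rw [← Matrix.det_pow, hxpow, Matrix.det_one]
    have h0 : (LinearMap.toMatrix b b f).det ≠ 0 := by
      intro h
      rw [h, zero_pow hr.ne_zero] at h1
      exact zero_ne_one h1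
    have h2 : (LinearMap.toMatrix b b f).det ^ (Fintype.card F - 1) = 1 :=
      FiniteField.pow_card_sub_one_eq_one _ h0
    have h3 : orderOf (LinearMap.toMatrix b b f).det ∣ r := orderOf_dvd_of_pow_eq_one h1
    have h4 : orderOf (LinearMap.toMatrix b b f).det ∣ Fintype.card F - 1 :=
      orderOf_dvd_of_pow_eq_one h2
    rcases (Nat.dvd_prime hr).mp h3 with h5 | h5
    · exact orderOf_eq_one_iff.mp h5
    · rw [h5] at h4
      exact absurd h4 hndvd
  have hker : Module.finrank F (LinearMap.ker (f - 1)) = m := by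
    have h1 : LinearMap.ker (f - 1) = LinearMap.ker (LinearMap.fst F (Fin k → E) (Fin m → F)) := by
      ext v
      rw [LinearMap.mem_ker, LinearMap.mem_ker, LinearMap.sub_apply, sub_eq_zero, hf]
      constructor
      · intro h
        have h1 : ζ • v.1 = v.1 := congrArg Prod.fst h
        have h2 : (ζ - 1) • v.1 = 0 := by rw [sub_smul, one_smul, h1, sub_self]
        rcases smul_eq_zero.mp h2 with h3 | h3
        · exact absurd (sub_eq_zero.mp h3) hζ1
        · exact h3
      · intro h
        have h1 : v.1 = 0 := h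
        rw [h1, smul_zero]
        exact Prod.ext h1.symm rfl
    rw [h1, LinearMap.ker_fst, LinearMap.finrank_range_of_inj LinearMap.inr_injective,
      Module.finrank_fin_fun]
  have hfix := (finrank_ker_toMatrix_sub_one b f).trans hker
  obtain ⟨xs, hxs⟩ : ∃ xs : Matrix.SpecialLinearGroup (Fin n) F,
      (xs : Matrix (Fin n) (Fin n) F) = LinearMap.toMatrix b b f := ⟨⟨_, hdet⟩, rfl⟩
  refine ⟨xs, ?_, ?_, ?_⟩
  · apply Subtype.ext
    rw [Matrix.SpecialLinearGroup.coe_pow, hxs, hxpow]
    rfl
  · intro h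
    rw [← hxs, h] at hfix
    have h2 : Matrix.toLin' ((1 : Matrix.SpecialLinearGroup (Fin n) F) : Matrix (Fin n) (Fin n) F)
        - 1 = 0 := by
      rw [Matrix.SpecialLinearGroup.coe_one, Matrix.toLin'_one]
      exact sub_self _
    rw [h2, LinearMap.ker_zero, finrank_top, Module.finrank_fin_fun] at hfix
    have h3 : 0 < Module.finrank F E := Module.finrank_pos
    have h4 : 0 < k * Module.finrank F E := Nat.mul_pos hk h3
    omega
  · rw [hxs]
    exact hfix

/-- **EL-EX2** -/
theorem exists_semisimple_SL {F : Type*} [Field F] [Fintype F] (r : ℕ) (hr : r.Prime)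
    (hrF : (r : F) ≠ 0) (n : ℕ) (hi : 2 ≤ orderOf (Fintype.card F : ZMod r))
    (hin : orderOf (Fintype.card F : ZMod r) ≤ n) :
    ∃ x : Matrix.SpecialLinearGroup (Fin n) F, x ^ r = 1 ∧ x ≠ 1 ∧
      Module.finrank F (LinearMap.ker (Matrix.toLin' (x : Matrix (Fin n) (Fin n) F) - 1))
        = n % orderOf (Fintype.card F : ZMod r) := by
  classical
  have hrf : Fact r.Prime := ⟨hr⟩
  obtain ⟨i, hidef⟩ : ∃ i, i = orderOf (Fintype.card F : ZMod r) := ⟨_, rfl⟩
  rw [← hidef] at hi hin ⊢
  have hi0 : NeZero i := ⟨by omega⟩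
  obtain ⟨p, hp⟩ := CharP.exists F
  have hpp : Fact p.Prime := ⟨CharP.char_is_prime F p⟩
  have hqi : (Fintype.card F : ZMod r) ^ i = 1 := by rw [hidef]; exact pow_orderOf_eq_one _
  have hq1 : 1 ≤ Fintype.card F ^ i := Nat.one_le_pow _ _ Fintype.card_pos
  have hdvd : r ∣ Fintype.card F ^ i - 1 := by
    rw [← ZMod.natCast_eq_zero_iff, Nat.cast_sub hq1, Nat.cast_pow, hqi, Nat.cast_one, sub_self]
  have hndvd : ¬ r ∣ Fintype.card F - 1 := by
    intro h
    have h1 : ((Fintype.card F - 1 : ℕ) : ZMod r) = 0 := (ZMod.natCast_eq_zero_iff _ _).mpr h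
    rw [Nat.cast_sub Fintype.card_pos, Nat.cast_one, sub_eq_zero] at h1
    rw [h1, orderOf_one] at hidef
    omega
  obtain ⟨u, hu⟩ := exists_prime_orderOf_dvd_card' (G := (FiniteField.Extension F p i)ˣ) r (by
    rw [Nat.card_units, FiniteField.natCard_extension, Nat.card_eq_fintype_card]
    exact hdvd)
  have hζ : ((u : FiniteField.Extension F p i)) ^ r = 1 := by
    rw [← Units.val_pow_eq_pow_val, ← hu, pow_orderOf_eq_one, Units.val_one]
  have hζ1 : ((u : FiniteField.Extension F p i)) ≠ 1 := by
    intro h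
    have h1 : u = 1 := Units.ext h
    rw [h1, orderOf_one] at hu
    exact hr.one_lt.ne hu
  have hk : 0 < n / i := Nat.div_pos hin (by omega)
  exact exists_semisimple_of_ext (E := FiniteField.Extension F p i) r hr hndvd _ hζ hζ1 n (n / i)
    (n % i) (by rw [FiniteField.finrank_extension]; exact Nat.div_add_mod' n i) hk

end Cfsg.Agent.H48.El
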