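import Mathlib

set_option autoImplicit false

/-!
Helper lemmas (helper48): counting the conjugacy classes of a normal subgroup `S = ker δ` inside
one conjugacy class of the big group.
-/

namespace Cfsg.Agent.H48

/-- If `θ : A → X` is surjective with fibres the left cosets of `H`, then `|X| = [A : H]`. -/
theorem card_eq_index_of_surj {A X : Type*} [Group A] (H : Subgroup A) (θ : A → X)
    (hs : Function.Surjective θ) (hf : ∀ a b, θ a = θ b ↔ a⁻¹ * b ∈ H) :
    Nat.card X = H.index := by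
  symm
  unfold Subgroup.index
  refine Nat.card_congr (Equiv.ofBijective
    (Quotient.lift θ (fun a b hab => (hf a b).mpr (QuotientGroup.leftRel_apply.mp hab))) ⟨?_, ?_⟩)
  · intro x y
    induction x using Quotient.inductionOn with
    | _ a =>
      induction y using Quotient.inductionOn with
      | _ b =>
        intro h
        exact Quotient.sound (QuotientGroup.leftRel_apply.mpr ((hf a b).mp h))
  · intro x
    obtain ⟨a, rfl⟩ := hs x
    exact ⟨Quotient.mk _ a, rfl⟩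

/-- Classes of `S = ker δ` inside a `G`-class. -/
theorem card_classes_eq_index {G S A : Type*} [Group G] [Group S] [CommGroup A]
    (δ : G →* A) (hδ : Function.Surjective δ) (ι : S →* G) (hι : Function.Injective ι)
    (hker : ∀ x : G, δ x = 1 → ∃ s : S, ι s = x) (hδι : ∀ s : S, δ (ι s) = 1)
    (P : G → Prop) (hP : ∀ g x, P x → P (g * x * g⁻¹))
    (u₀ : S) (hu₀ : P (ι u₀)) (htrans : ∀ x, P x → ∃ g : G, g * ι u₀ * g⁻¹ = x)
    (D : Subgroup A) (hD1 : ∀ k : G, k * ι u₀ = ι u₀ * k → δ k ∈ D)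
    (hD2 : ∀ d ∈ D, ∃ k : G, k * ι u₀ = ι u₀ * k ∧ δ k = d) :
    Nat.card {C : ConjClasses S // ∃ u : S, ConjClasses.mk u = C ∧ P (ι u)} = D.index := by
  choose gA hgA using hδ
  have hsA : ∀ a, ∃ s : S, ι s = gA a * ι u₀ * (gA a)⁻¹ := fun a => hker _ (by
    rw [map_mul, map_mul, map_inv, hδι, mul_one, mul_inv_cancel])
  choose sA hsA using hsA
  let θ : A → {C : ConjClasses S // ∃ u : S, ConjClasses.mk u = C ∧ P (ι u)} :=
    fun a => ⟨ConjClasses.mk (sA a), sA a, rfl, by rw [hsA]; exact hP _ _ hu₀⟩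
  apply card_eq_index_of_surj D θ
  · rintro ⟨C, u, rfl, hu⟩
    obtain ⟨g, hg⟩ := htrans _ hu
    refine ⟨δ g, ?_⟩
    apply Subtype.ext
    show ConjClasses.mk (sA (δ g)) = ConjClasses.mk u
    rw [ConjClasses.mk_eq_mk_iff_isConj, isConj_iff]
    obtain ⟨h, hh⟩ := hker (g * (gA (δ g))⁻¹) (by rw [map_mul, map_inv, hgA, mul_inv_cancel])
    refine ⟨h, hι ?_⟩
    rw [map_mul, map_mul, map_inv, hh, hsA, ← hg]
    group
  · intro a b
    have e1 : θ a = θ b ↔ IsConj (sA a) (sA b) := by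
      rw [← ConjClasses.mk_eq_mk_iff_isConj]
      constructor
      · intro h; exact congrArg Subtype.val h
      · intro h; exact Subtype.ext h
    rw [e1, isConj_iff]
    constructor
    · rintro ⟨h, hh⟩
      have heq : ι h * (gA a * ι u₀ * (gA a)⁻¹) * (ι h)⁻¹ = gA b * ι u₀ * (gA b)⁻¹ := by
        rw [← hsA, ← hsA, ← hh, map_mul, map_mul, map_inv]
      have hk : ((gA b)⁻¹ * ι h * gA a) * ι u₀ * ((gA b)⁻¹ * ι h * gA a)⁻¹ = ι u₀ := by
        calc ((gA b)⁻¹ * ι h * gA a) * ι u₀ * ((gA b)⁻¹ * ι h * gA a)⁻¹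
            = (gA b)⁻¹ * (ι h * (gA a * ι u₀ * (gA a)⁻¹) * (ι h)⁻¹) * gA b := by group
          _ = (gA b)⁻¹ * (gA b * ι u₀ * (gA b)⁻¹) * gA b := by rw [heq]
          _ = ι u₀ := by group
      have hk' := hD1 _ (mul_inv_eq_iff_eq_mul.mp hk)
      rw [map_mul, map_mul, map_inv, hδι, hgA, hgA, mul_one] at hk'
      have := D.inv_mem hk'
      rwa [mul_inv_rev, inv_inv] at this
    · intro hab
      have hab' : b⁻¹ * a ∈ D := by
        have := D.inv_mem hab
        rwa [mul_inv_rev, inv_inv] at this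
      obtain ⟨k, hk, hkd⟩ := hD2 _ hab'
      obtain ⟨h, hh⟩ := hker (gA b * k * (gA a)⁻¹) (by
        rw [map_mul, map_mul, map_inv, hgA, hgA, hkd, mul_inv_cancel_left, mul_inv_cancel])
      refine ⟨h, hι ?_⟩
      rw [map_mul, map_mul, map_inv, hh, hsA, hsA]
      have hk2 : k * ι u₀ * k⁻¹ = ι u₀ := mul_inv_eq_iff_eq_mul.mpr hk
      calc gA b * k * (gA a)⁻¹ * (gA a * ι u₀ * (gA a)⁻¹) * (gA b * k * (gA a)⁻¹)⁻¹
          = gA b * (k * ι u₀ * k⁻¹) * (gA b)⁻¹ := by group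
        _ = gA b * ι u₀ * (gA b)⁻¹ := by rw [hk2]

end Cfsg.Agent.H48
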