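import Mathlib

set_option autoImplicit false

/-!
Helper lemmas (helper48): `n`-th powers in finite cyclic groups and in finite fields.
-/

namespace Cfsg.Agent.H48

theorem mul_div_comm_aux (N n g : ℕ) (h1 : g ∣ N) (h2 : g ∣ n) : n * (N / g) = N * (n / g) := by
  rcases Nat.eq_zero_or_pos g with h0 | hpos
  · subst h0
    simp at h1 h2
    subst h1 h2
    simp
  · obtain ⟨a, rfl⟩ := h1
    obtain ⟨b, rfl⟩ := h2
    rw [Nat.mul_div_cancel_left _ hpos, Nat.mul_div_cancel_left _ hpos]
    ring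

/-- In a finite cyclic group of order `N`, `x` is an `n`-th power iff `x^(N / gcd(N, n)) = 1`. -/
theorem exists_pow_eq_iff {G : Type*} [CommGroup G] [IsCyclic G] [Finite G] (n : ℕ) (x : G) :
    (∃ y : G, y ^ n = x) ↔ x ^ (Nat.card G / (Nat.card G).gcd n) = 1 := by
  have hg1 : (Nat.card G).gcd n ∣ Nat.card G := Nat.gcd_dvd_left _ _
  have hg2 : (Nat.card G).gcd n ∣ n := Nat.gcd_dvd_right _ _
  have hle : (powMonoidHom n : G →* G).range ≤
      (powMonoidHom (Nat.card G / (Nat.card G).gcd n) : G →* G).ker := by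
    rintro _ ⟨y, rfl⟩
    rw [MonoidHom.mem_ker]
    simp only [powMonoidHom_apply]
    rw [← pow_mul]
    have : n * (Nat.card G / (Nat.card G).gcd n) = Nat.card G * (n / (Nat.card G).gcd n) :=
      mul_div_comm_aux _ _ _ hg1 hg2
    rw [this, pow_mul, pow_card_eq_one', one_pow]
  have hcard : Nat.card (powMonoidHom (Nat.card G / (Nat.card G).gcd n) : G →* G).ker
      ≤ Nat.card (powMonoidHom n : G →* G).range := by
    rw [IsCyclic.card_powMonoidHom_range, IsCyclic.card_powMonoidHom_ker]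
    exact Nat.le_of_dvd (Nat.div_pos (Nat.le_of_dvd Nat.card_pos hg1)
      (Nat.pos_of_dvd_of_pos hg1 Nat.card_pos)) (Nat.gcd_dvd_right _ _)
  have heq := Subgroup.eq_of_le_of_card_ge hle hcard
  constructor
  · rintro ⟨y, rfl⟩
    have : y ^ n ∈ (powMonoidHom (Nat.card G / (Nat.card G).gcd n) : G →* G).ker :=
      hle ⟨y, rfl⟩
    exact this
  · intro hx
    have : x ∈ (powMonoidHom n : G →* G).range := by
      rw [heq]; exact hx
    obtain ⟨y, hy⟩ := this
    exact ⟨y, hy⟩

/-- In a finite field with `q` elements, a non-zero `x` is an `n`-th power iff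
`x^((q-1) / gcd(q-1, n)) = 1`. -/
theorem exists_pow_eq_iff_field {F : Type*} [Field F] [Fintype F] (n : ℕ) (x : F) (hx : x ≠ 0) :
    (∃ c : F, c ≠ 0 ∧ c ^ n = x) ↔
      x ^ ((Fintype.card F - 1) / (Fintype.card F - 1).gcd n) = 1 := by
  classical
  have hcard : Nat.card Fˣ = Fintype.card F - 1 := by
    rw [Nat.card_eq_fintype_card, Fintype.card_units]
  have h := exists_pow_eq_iff (G := Fˣ) n (Units.mk0 x hx)
  rw [hcard] at h
  constructor
  · rintro ⟨c, hc, hcx⟩
    have h1 := h.mp ⟨Units.mk0 c hc, by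
      apply Units.ext
      simp [hcx]⟩
    have := congrArg (fun u : Fˣ => (u : F)) h1
    simpa using this
  · intro hx1
    obtain ⟨y, hy⟩ := h.mpr (by
      apply Units.ext
      simp [hx1])
    refine ⟨(y : F), y.ne_zero, ?_⟩
    have := congrArg (fun u : Fˣ => (u : F)) hy
    simpa using this

end Cfsg.Agent.H48
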