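import Mathlib

set_option autoImplicit false

/-!
Helper lemmas (helper48): dilations `1 + (a - 1) v wᵀ`.
-/

namespace Cfsg.Agent.H48

open Matrix

/-- The dilation `1 + (a-1) v wᵀ` with `w ⬝ v = 1` has determinant `a`. -/
theorem det_dilation {ι : Type*} [Fintype ι] [DecidableEq ι] {F : Type*} [Field F]
    (v w : ι → F) (hvw : w ⬝ᵥ v = 1) (a : F) :
    (1 + Matrix.vecMulVec ((a - 1) • v) w).det = a := by
  rw [Matrix.vecMulVec_eq Unit, Matrix.det_one_add_replicateCol_mul_replicateRow,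
    dotProduct_smul, hvw]
  simp

theorem dilation_mulVec {ι : Type*} [Fintype ι] [DecidableEq ι] {F : Type*} [Field F]
    (v w : ι → F) (a : F) (x : ι → F) :
    (1 + Matrix.vecMulVec ((a - 1) • v) w).mulVec x = x + ((a - 1) * (w ⬝ᵥ x)) • v := by
  rw [Matrix.add_mulVec, Matrix.one_mulVec, Matrix.vecMulVec_mulVec]
  congr 1
  funext i
  simp
  ring

end Cfsg.Agent.H48
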