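import Mathlib
import Cfsg.Agent.H48.EpDefs2

/-!
# S5974: assembly from the piece statements of `EpDefs` / `EpDefs2`
-/

set_option autoImplicit false

namespace Cfsg.Agent.H48.Ep

open Cfsg.Agent.H45 Cfsg.Agent.H42.Spd Cfsg.Agent.H42.Ti Module

universe u

section Main

variable {F : Type u} [Field F] [Fintype F]

theorem ep_toLin_pow {d : ℕ} (x : Matrix.GeneralLinearGroup (Fin d ⊕ Fin d) F) (r : ℕ)
    (h : x ^ r = 1) :
    (Matrix.toLin' (x : Matrix (Fin d ⊕ Fin d) (Fin d ⊕ Fin d) F)) ^ r = 1 := by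
  rw [← Matrix.toLin'_pow, ← Units.val_pow_eq_pow_val, h]
  simp [Matrix.toLin'_one]
  rfl

theorem ep_omega_le {d : ℕ} {x : Matrix.GeneralLinearGroup (Fin d ⊕ Fin d) F}
    (hx : x ∈ Cfsg.Geo.omegaGL (Cfsg.quadFormPlus d F)) :
    x ∈ Cfsg.isometryGroup F (Cfsg.quadFormPlus d F) := by
  obtain ⟨y, _, rfl⟩ := hx
  exact y.2

theorem ep_cast_ne {p : ℕ} [Fact p.Prime] [CharP F p] {r : ℕ} (hr : r.Prime) (hrp : r ≠ p) :
    (r : F) ≠ 0 := by
  rw [Ne, CharP.cast_eq_zero_iff F p]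
  intro h
  exact hrp ((Nat.prime_dvd_prime_iff_eq Fact.out hr).mp h).symm

theorem ep_ii_pos {p : ℕ} [Fact p.Prime] [CharP F p] {r : ℕ} (hr : r.Prime) (hrp : r ≠ p) :
    0 < ii F r := by
  unfold ii
  obtain ⟨n, hp, hcard⟩ := FiniteField.card F p
  have hcop : (Fintype.card F).Coprime r := by
    rw [hcard]
    exact Nat.Coprime.pow_left _ ((Nat.coprime_primes hp hr).mpr (Ne.symm hrp))
  have h1 : ((ZMod.unitOfCoprime _ hcop : (ZMod r)ˣ) : ZMod r) = (Fintype.card F : ZMod r) :=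
    ZMod.coe_unitOfCoprime _ hcop
  rw [← h1, orderOf_units]
  haveI : Fact r.Prime := ⟨hr⟩
  exact orderOf_pos _

theorem ep_cc_eq (r : ℕ) : cc F r = if Even (ii F r) then ii F r else 2 * ii F r := rfl

theorem ep_kk_top {V : Type*} [AddCommGroup V] [Module F V] (T : Module.End F V) :
    kk T ⊤ = Module.finrank F ↥(LinearMap.ker (T - 1)) := by
  unfold kk
  rw [top_inf_eq]

theorem ep_kk_ker {V : Type*} [AddCommGroup V] [Module F V] (T : Module.End F V) :
    kk T (LinearMap.ker (T - 1)) = Module.finrank F ↥(LinearMap.ker (T - 1)) := by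
  unfold kk
  rw [inf_idem]

theorem ep_ker_invt {V : Type*} [AddCommGroup V] [Module F V] (T : Module.End F V) :
    LinearMap.ker (T - 1) ∈ T.invtSubmodule := by
  rw [Module.End.mem_invtSubmodule]
  intro v hv
  rw [Submodule.mem_comap]
  rw [LinearMap.mem_ker, LinearMap.sub_apply, Module.End.one_apply, sub_eq_zero] at hv
  rw [hv]
  rw [LinearMap.mem_ker, LinearMap.sub_apply, Module.End.one_apply, sub_eq_zero]
  exact hv

theorem ep_map_le {d : ℕ} (T : Module.End F (Fin d ⊕ Fin d → F))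
    (W : Submodule F (Fin d ⊕ Fin d → F)) :
    W ∈ T.invtSubmodule ↔ W.map T ≤ W := by
  rw [Module.End.mem_invtSubmodule, Submodule.map_le_iff_le_comap]

/-- The odd-`r` part of S5974, from the pieces. -/
theorem ep_odd (hS : StStruct.{u, u}) (hBr : StBridge.{u}) (hSign : StSign.{u})
    (hEx : StExist4.{u}) (hCA : StCntA.{u}) (hCB : StCntB.{u}) (hAB : StArBack) (hAF : StArFwd)
    {p : ℕ} [Fact p.Prime] [CharP F p]
    (d m : ℕ) (hd : 4 ≤ d) (hm : 2 ≤ m) (hme : Even m) (hmd : m < d)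
    (r : ℕ) (hrp : r.Prime) (hr2 : r ≠ 2) (hrne : r ≠ p)
    (hrΩ : r ∣ Nat.card {W : Submodule F (Fin d ⊕ Fin d → F) // IsPW F d m W})
    (i c : ℕ) (hii : ii F r = i) (hc : c = if Even i then i else 2 * i) :
    (∀ x : Matrix.GeneralLinearGroup (Fin d ⊕ Fin d) F,
      x ∈ Cfsg.Geo.omegaGL (Cfsg.quadFormPlus d F) →
      (∃ z : F, ((x ^ r : Matrix.GeneralLinearGroup (Fin d ⊕ Fin d) F) :
        Matrix (Fin d ⊕ Fin d) (Fin d ⊕ Fin d) F) =
          z • (1 : Matrix (Fin d ⊕ Fin d) (Fin d ⊕ Fin d) F)) →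
      (∀ z : F, (x : Matrix (Fin d ⊕ Fin d) (Fin d ⊕ Fin d) F) ≠
        z • (1 : Matrix (Fin d ⊕ Fin d) (Fin d ⊕ Fin d) F)) →
      FixP F d m x) ↔ RhsOdd d m i c := by
  have hcc : cc F r = c := by rw [hc, ep_cc_eq, hii]
  have hipos : 0 < i := by rw [← hii]; exact ep_ii_pos (F := F) hrp hrne
  have hcpos : 0 < c := by rw [hc]; split_ifs <;> omega
  have hrF : (r : F) ≠ 0 := ep_cast_ne hrp hrne
  have hrodd : Odd r := hrp.odd_of_ne_two hr2
  obtain ⟨hQtop, hPtop, hfr, hPW, hIso⟩ := hBr F d m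
  have hevV : Even (Module.finrank F (Fin d ⊕ Fin d → F)) := by rw [hfr]; exact even_two_mul d
  constructor
  swap
  · -- (←)
    intro hR x hxΩ hz hns
    obtain ⟨z, hz⟩ := hz
    have hxiso := ep_omega_le hxΩ
    obtain ⟨y, hyiso, hyr, hyW, hy1⟩ := hSign F d x r z (by omega) hrodd hxiso hz
    have hyne : y ≠ 1 := hy1 hns
    have hT := (hIso y).mp hyiso
    have hTr := ep_toLin_pow y r hyr
    obtain ⟨hK, A, hA, hA0, hExW, hConv⟩ := hS F (Fin d ⊕ Fin d → F) (Cfsg.Agent.H49.QP d F)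
      (Matrix.toLin' (y : Matrix (Fin d ⊕ Fin d) (Fin d ⊕ Fin d) F)) r True hrp hr2 hrF hQtop hT
      hTr hevV (iff_of_true hPtop trivial)
    rw [hfr, hcc] at hA
    rw [hii] at hA0
    have hA1 : 1 ≤ A := by
      by_contra hA1
      have hA0' : A = 0 := by omega
      apply hyne
      rw [hA0', Nat.mul_zero, Nat.add_zero, ep_kk_top] at hA
      have hker : LinearMap.ker (Matrix.toLin' (y : Matrix (Fin d ⊕ Fin d) (Fin d ⊕ Fin d) F) - 1)
          = ⊤ := by
        apply Submodule.eq_top_of_finrank_eq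
        rw [← hA, hfr]
      have hT1 : Matrix.toLin' (y : Matrix (Fin d ⊕ Fin d) (Fin d ⊕ Fin d) F) = 1 := by
        rw [LinearMap.ker_eq_top] at hker
        exact sub_eq_zero.mp hker
      apply Units.ext
      have h2 : Matrix.toLin' (y : Matrix (Fin d ⊕ Fin d) (Fin d ⊕ Fin d) F) =
          Matrix.toLin' (1 : Matrix (Fin d ⊕ Fin d) (Fin d ⊕ Fin d) F) := by
        rw [hT1, Matrix.toLin'_one]; rfl
      exact Matrix.toLin'.injective h2
    have hcA : c * A ≤ 2 * d := by omega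
    have hAt : c * A = 2 * d → (Odd i ∨ Even A) := by
      intro h
      exact (hA0 (by omega)).mp trivial
    obtain ⟨j, e, h1, h2, h3, h4, h5, h6⟩ := hAB d m i c A hipos hc hme hm hmd hR hA1 hcA hAt
    rw [hii, hcc] at hExW
    obtain ⟨W, hWinv, hWnd, hWdim, hWpl⟩ := hExW j e True h1 (by omega) h3
      (fun h0 => iff_of_true trivial (h5 h0))
      (fun hek hne => iff_of_true trivial (iff_of_true trivial (h6 (by omega) hne)))
    refine ⟨W, (hPW W).mpr ⟨by rw [hWdim]; exact h4, hWnd, hWpl.mpr trivial⟩, ?_⟩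
    exact hyW W ((ep_map_le _ W).mp hWinv)
  · -- (→)
    intro hL
    by_contra hR
    rcases hAF d m i c hipos hc hme hm hmd hd hR with ⟨A, hA1, hcA, hAt, hno⟩ | ⟨hmc, h⟩
    · -- some admissible `A` admits no shape
      rw [← hcc] at hcA hAt
      rw [← hii] at hAt
      obtain ⟨x, hxΩ, hxr, hxk, hns⟩ := hEx F p r hrp hr2 hrne d A hd hA1 hcA
        (fun h => hAt h)
      obtain ⟨W, hWPW, hWmap⟩ := hL x hxΩ ⟨1, by rw [hxr, one_smul]; rfl⟩ hns
      obtain ⟨hWm, hWnd, hWpl⟩ := (hPW W).mp hWPW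
      have hxiso := ep_omega_le hxΩ
      have hT := (hIso x).mp hxiso
      have hTr := ep_toLin_pow x r hxr
      obtain ⟨hK, A', hA', hA0, hExW, hConv⟩ := hS F (Fin d ⊕ Fin d → F) (Cfsg.Agent.H49.QP d F)
        (Matrix.toLin' (x : Matrix (Fin d ⊕ Fin d) (Fin d ⊕ Fin d) F)) r True hrp hr2 hrF hQtop hT
        hTr hevV (iff_of_true hPtop trivial)
      rw [hfr, ep_kk_top] at hA'
      rw [hcc] at hA' hxk
      have hAA : A' = A := by
        have : c * A' = c * A := by omega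
        exact Nat.eq_of_mul_eq_mul_left hcpos this
      subst hAA
      obtain ⟨j, hj, hWd, hkW, hk0, hkk⟩ := hConv W True ((ep_map_le _ W).mpr hWmap) hWnd
        (by rw [hWm]; exact hme) (iff_of_true hWpl trivial)
      rw [hcc, hWm] at hWd
      rw [ep_kk_top] at hkW hkk
      rw [hii] at hk0 hkk
      exact hno j (kk (Matrix.toLin' (x : Matrix (Fin d ⊕ Fin d) (Fin d ⊕ Fin d) F)) W) hj
        (by omega) hWd.symm (fun h0 => (hk0 h0).mp trivial)
        (fun hek hne => ((hkk (by omega) hne).mp trivial).mp trivial)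
    · rcases h with h2dc | ⟨A, hA1, hcA, hAt, hk0c, hmk⟩
      · -- `2 d < c`: the identity
        have h1iso : (1 : Matrix.GeneralLinearGroup (Fin d ⊕ Fin d) F) ∈
            Cfsg.isometryGroup F (Cfsg.quadFormPlus d F) := one_mem _
        have hker : Module.finrank F ↥(LinearMap.ker (Matrix.toLin'
            ((1 : Matrix.GeneralLinearGroup (Fin d ⊕ Fin d) F) :
              Matrix (Fin d ⊕ Fin d) (Fin d ⊕ Fin d) F) - 1)) = 2 * d := by
          have h0 : Matrix.toLin' ((1 : Matrix.GeneralLinearGroup (Fin d ⊕ Fin d) F) :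
              Matrix (Fin d ⊕ Fin d) (Fin d ⊕ Fin d) F) - 1 = 0 := by
            rw [Units.val_one, Matrix.toLin'_one]
            exact sub_self _
          rw [h0, LinearMap.ker_zero, finrank_top, hfr]
        refine hCA F p r hrp hr2 hrne d m hd hme hm (by rw [hcc]; exact hmc) 1 h1iso (one_pow r)
          (by rw [hker]; omega) (by rw [hker, hcc]; exact h2dc) hrΩ
      · rw [← hcc] at hcA hAt
        rw [← hii] at hAt
        obtain ⟨x, hxΩ, hxr, hxk, hns⟩ := hEx F p r hrp hr2 hrne d A hd hA1 hcA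
          (fun h => hAt h)
        have hxiso := ep_omega_le hxΩ
        rw [hcc] at hxk hcA
        rcases hmk with hmk | ⟨hmk, hty⟩
        · exact hCA F p r hrp hr2 hrne d m hd hme hm (by rw [hcc]; exact hmc) x hxiso hxr
            (by omega) (by rw [hcc]; omega) hrΩ
        · have hT := (hIso x).mp hxiso
          have hTr := ep_toLin_pow x r hxr
          obtain ⟨hK, A', hA', hA0, hExW, hConv⟩ := hS F (Fin d ⊕ Fin d → F)
            (Cfsg.Agent.H49.QP d F)
            (Matrix.toLin' (x : Matrix (Fin d ⊕ Fin d) (Fin d ⊕ Fin d) F)) r True hrp hr2 hrF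
            hQtop hT hTr hevV (iff_of_true hPtop trivial)
          rw [hfr, ep_kk_top] at hA'
          rw [hcc] at hA'
          have hAA : A' = A := by
            have : c * A' = c * A := by omega
            exact Nat.eq_of_mul_eq_mul_left hcpos this
          subst hAA
          have hkm : Module.finrank F ↥(LinearMap.ker (Matrix.toLin'
              (x : Matrix (Fin d ⊕ Fin d) (Fin d ⊕ Fin d) F) - 1)) = m := by omega
          obtain ⟨j, hj, hWd, hkW, hk0, hkk⟩ := hConv _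
            (QPlus (Cfsg.Agent.H49.QP d F) (LinearMap.ker (Matrix.toLin'
              (x : Matrix (Fin d ⊕ Fin d) (Fin d ⊕ Fin d) F) - 1)))
            (ep_ker_invt _) hK (by rw [hkm]; exact hme) Iff.rfl
          rw [ep_kk_ker, hcc, hkm] at hWd
          rw [ep_kk_ker, ep_kk_top, hkm] at hkk
          rw [hii] at hkk
          have hj0 : j = 0 := by
            have : c * j = 0 := by omega
            rcases Nat.mul_eq_zero.mp this with h | h
            · omega
            · exact h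
          subst hj0
          have hpl : QPlus (Cfsg.Agent.H49.QP d F) (LinearMap.ker (Matrix.toLin'
              (x : Matrix (Fin d ⊕ Fin d) (Fin d ⊕ Fin d) F) - 1)) :=
            (hkk rfl (by omega)).mpr (iff_of_true trivial (by rw [Nat.sub_zero]; exact hty))
          exact hCB F p r hrp hr2 hrne d m hme hm (by rw [hcc]; exact hmc) x hxiso hxr hkm hpl
            hrΩ

/-- S5974, from the pieces. -/
theorem ep_main (hS : StStruct.{u, u}) (hBr : StBridge.{u}) (hSign : StSign.{u})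
    (hEx : StExist4.{u}) (hCA : StCntA.{u}) (hCB : StCntB.{u}) (hTwo : StTwo.{u})
    (hAB : StArBack) (hAF : StArFwd)
    {p : ℕ} [Fact p.Prime] [CharP F p] {q : ℕ} (hq : Fintype.card F = q)
    (d m : ℕ) (hd : 4 ≤ d) (hm : 2 ≤ m) (hme : Even m) (hmd : m < d)
    (r : ℕ) [Fact r.Prime] (hr : r = 2 ∨ r ≠ p)
    (hrΩ : r ∣ Nat.card {W : Submodule F (Fin d ⊕ Fin d → F) // IsPW F d m W})
    (i c : ℕ) (hi : i = orderOf (q : ZMod r)) (hc : c = if Even i then i else 2 * i) :
    (∀ x : Matrix.GeneralLinearGroup (Fin d ⊕ Fin d) F,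
      x ∈ Cfsg.Geo.omegaGL (Cfsg.quadFormPlus d F) →
      (∃ z : F, ((x ^ r : Matrix.GeneralLinearGroup (Fin d ⊕ Fin d) F) :
        Matrix (Fin d ⊕ Fin d) (Fin d ⊕ Fin d) F) =
          z • (1 : Matrix (Fin d ⊕ Fin d) (Fin d ⊕ Fin d) F)) →
      (∀ z : F, (x : Matrix (Fin d ⊕ Fin d) (Fin d ⊕ Fin d) F) ≠
        z • (1 : Matrix (Fin d ⊕ Fin d) (Fin d ⊕ Fin d) F)) →
      FixP F d m x) ↔
    ((r = 2 ∧ ((2 * d) % 4 = 2 ∨ m % 4 = 0 ∨ q % 4 = 1)) ∨
     (r ≠ p ∧ 2 < r ∧ Odd i ∧ c ≤ m ∧ m % c ≤ (2 * d) % c) ∨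
     (r ≠ p ∧ 2 < r ∧ Even i ∧
       (((2 * d) % c = 0 ∧ (Odd ((2 * d) / i) ∨ (m % c = 0 ∧ Even (m / i)))) ∨
        (i ≤ m ∧ ((m % c < (2 * d) % c ∧ 0 < m % c) ∨
                  ((2 * d) % c = m % c ∧ 0 < m % c ∧
                    Even ((2 * d + m - 2 * ((2 * d) % c)) / i)) ∨
                  (0 < (2 * d) % c ∧ m % c = 0 ∧ Even (m / i))))))) := by
  subst hq
  have hrp : r.Prime := Fact.out
  by_cases hr2 : r = 2
  · subst hr2
    have h := hTwo F d m hd hm hme hmd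
    rw [h]
    constructor
    · intro h'
      exact Or.inl ⟨rfl, h'⟩
    · rintro (⟨-, h'⟩ | ⟨-, h2, -⟩ | ⟨-, h2, -⟩)
      · exact h'
      · omega
      · omega
  · have hrne : r ≠ p := by
      rcases hr with h | h
      · exact absurd h hr2
      · exact h
    have h2r : 2 < r := lt_of_le_of_ne hrp.two_le (Ne.symm hr2)
    have core := ep_odd hS hBr hSign hEx hCA hCB hAB hAF d m hd hm hme hmd r hrp hr2 hrne hrΩ
      i c hi.symm hc
    rw [core]
    unfold RhsOdd
    constructor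
    · rintro (h | h)
      · exact Or.inr (Or.inl ⟨hrne, h2r, h⟩)
      · exact Or.inr (Or.inr ⟨hrne, h2r, h⟩)
    · rintro (⟨h, -⟩ | ⟨-, -, h⟩ | ⟨-, -, h⟩)
      · exact absurd h hr2
      · exact Or.inl h
      · exact Or.inr h

end Main

end Cfsg.Agent.H48.Ep
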