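import Mathlib
import Cfsg.Agent.H48.EpMain
import Cfsg.Agent.H99.EmDefs
import Cfsg.Agent.H72.EeWit2
import Cfsg.Agent.H49.RankParity
import Cfsg.Agent.H98.EpBridge
import Cfsg.Agent.H27.EpSign

/-!
# S5974, piece EP-TWOEVEN: the case `r = 2 = p`

From helper99's generic positive statement `StI2Pos` (characteristic `2` involutions with
`rank (T - 1)` even), helper72's witness `two_wit_plus` and helper49's rank parity criterion.
-/

set_option autoImplicit false

namespace Cfsg.Agent.H48.Ep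

open Cfsg.Agent.H45 Cfsg.Agent.H42.Spd Cfsg.Agent.H42.Ti Module

universe u

section

variable {F : Type u} [Field F] [Fintype F]

theorem ep_rank_even (h2 : (2 : F) = 0) {d : ℕ} (hd : 4 ≤ d)
    {x : Matrix.GeneralLinearGroup (Fin d ⊕ Fin d) F}
    (hx : x ∈ Cfsg.Geo.omegaGL (Cfsg.quadFormPlus d F)) :
    Even (Module.finrank F ↥(LinearMap.range
      (Matrix.toLin' (x : Matrix (Fin d ⊕ Fin d) (Fin d ⊕ Fin d) F) - 1))) := by
  obtain ⟨y, hy, rfl⟩ := hx
  have hV : Module.finrank F (Fin d ⊕ Fin d → F) = 2 * d := by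
    rw [Module.finrank_fintype_fun_eq_card]
    simp
    omega
  have h := (Cfsg.Agent.H49.mem_commutator_iff_even_rank_two (Cfsg.Agent.H49.QP d F) h2
    (Cfsg.Agent.H49.QP_nondeg d F) hV (Or.inr (by omega)) (by omega) y).mp hy
  rw [Matrix.rank] at h
  have e : Matrix.toLin' (((Cfsg.isometryGroup F (Cfsg.quadFormPlus d F)).subtype y :
        Matrix.GeneralLinearGroup (Fin d ⊕ Fin d) F) :
        Matrix (Fin d ⊕ Fin d) (Fin d ⊕ Fin d) F) - 1 =
      Matrix.mulVecLin (((y : Matrix.GeneralLinearGroup (Fin d ⊕ Fin d) F) :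
        Matrix (Fin d ⊕ Fin d) (Fin d ⊕ Fin d) F) - 1) := by
    apply LinearMap.ext
    intro v
    simp
  rw [e]
  exact h

/-- EP-TWOEVEN. -/
theorem twoEven (hPos : Cfsg.Agent.H99.Em.StI2Pos.{u, u}) : StTwoEven.{u} := by
  intro F _ _ d m h2 hd hm hme hmd
  classical
  have : CharP F 2 := CharTwo.of_one_ne_zero_of_two_eq_zero one_ne_zero h2
  obtain ⟨hQtop, hPtop, hfr, hPW, hIso⟩ := Cfsg.Agent.H98.Ep.bridge F d m
  have hcard : Fintype.card F % 2 = 0 := FiniteField.even_card_of_char_two (ringChar.eq F 2)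
  unfold TwoBody
  constructor
  · intro hL
    by_contra hR
    rw [not_or, not_or] at hR
    obtain ⟨hR1, hR2, hR3⟩ := hR
    have hde : Even d := by rw [Nat.even_iff]; omega
    have hm4 : m % 4 = 2 := by obtain ⟨t, ht⟩ := hme; omega
    obtain ⟨x, hxΩ, hx2, hxs, hxF⟩ :=
      Cfsg.Agent.H72.Ee.two_wit_plus (F := F) d m (by omega) hde hm4
    exact hxF (hL x hxΩ ⟨1, by rw [hx2, one_smul]; rfl⟩ hxs)
  · intro hR x hxΩ hz hns
    obtain ⟨z, hz⟩ := hz
    have hxiso := ep_omega_le hxΩ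
    have hT := (hIso x).mp hxiso
    have hrank := ep_rank_even h2 hd hxΩ
    obtain ⟨v, hv⟩ := Cfsg.Agent.H27.Ep.sign_quad_one (F := F) d (by omega)
    have hmul : (x : Matrix (Fin d ⊕ Fin d) (Fin d ⊕ Fin d) F) *
        (x : Matrix (Fin d ⊕ Fin d) (Fin d ⊕ Fin d) F) =
        z • (1 : Matrix (Fin d ⊕ Fin d) (Fin d ⊕ Fin d) F) := by
      rw [← hz, pow_two, Units.val_mul]
    have hz1 : z = 1 := by
      have h1 : Matrix.toLin' (x : Matrix (Fin d ⊕ Fin d) (Fin d ⊕ Fin d) F)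
          (Matrix.toLin' (x : Matrix (Fin d ⊕ Fin d) (Fin d ⊕ Fin d) F) v) = z • v := by
        rw [← Matrix.toLin'_mul_apply, hmul]
        simp [Matrix.toLin'_apply, Matrix.smul_mulVec]
      have h3 : Cfsg.quadFormPlus d F (z • v) = Cfsg.quadFormPlus d F v := by
        rw [← h1]
        have e1 := hT (Matrix.toLin' (x : Matrix (Fin d ⊕ Fin d) (Fin d ⊕ Fin d) F) v)
        have e2 := hT v
        exact e1.trans e2
      rw [Cfsg.Agent.H27.Ep.sign_quad_smul, hv, mul_one] at h3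
      have h4 : (z - 1) * (z - 1) = 0 := by
        have h5 : (z - 1) * (z - 1) = z * z - 2 * z + 1 := by ring
        rw [h5, h3, h2]
        have h6 : (1 : F) + 1 = 0 := by rw [one_add_one_eq_two]; exact h2
        linear_combination h6
      exact sub_eq_zero.mp (mul_self_eq_zero.mp h4)
    subst hz1
    have hTT : Matrix.toLin' (x : Matrix (Fin d ⊕ Fin d) (Fin d ⊕ Fin d) F) *
        Matrix.toLin' (x : Matrix (Fin d ⊕ Fin d) (Fin d ⊕ Fin d) F) = 1 := by
      rw [Module.End.mul_eq_comp, ← Matrix.toLin'_mul, hmul, one_smul, Matrix.toLin'_one]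
      rfl
    obtain ⟨W, hWinv, hWnd, hWm, hWpl⟩ := hPos F (Fin d ⊕ Fin d → F) (Cfsg.Agent.H49.QP d F)
      (Matrix.toLin' (x : Matrix (Fin d ⊕ Fin d) (Fin d ⊕ Fin d) F)) True m h2 hQtop hT hTT hrank
      (iff_of_true hPtop trivial) hme hm (by rw [hfr]; omega)
      (by
        rcases hR with h | h | h
        · exact Or.inr (Or.inl ⟨trivial, by rw [hfr]; exact h⟩)
        · exact Or.inl h
        · exfalso
          omega)
    exact ⟨W, (hPW W).mpr ⟨hWm, hWnd, hWpl⟩, (ep_map_le _ W).mp hWinv⟩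

end

end Cfsg.Agent.H48.Ep
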