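import Cfsg.Agent.H48.EpMain
import Cfsg.Agent.H48.EpTwoEven
import Cfsg.Agent.H95.EpStructEven
import Cfsg.Agent.H95.EpStructOdd2
import Cfsg.Agent.H70.EpType0
import Cfsg.Agent.H70.EpQSum
import Cfsg.Agent.H8.EpExist
import Cfsg.Agent.H53.EpCntA
import Cfsg.Agent.H40.EpOrbP
import Cfsg.Agent.H27.EpTwoOdd
import Cfsg.Agent.H84.EpTwoNeg
import Cfsg.Agent.H86.Ev2Fin
import Cfsg.Agent.H98.EpCntB
import Cfsg.Agent.H98.EpBridge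
import Cfsg.Agent.H20.EpArFwd
import Cfsg.Agent.H20.EpArBack
import Cfsg.Agent.H27.EpSign
import Cfsg.Agent.H40.EpQBoth2
import Cfsg.Agent.H53.EpTwoInv
import Cfsg.Agent.H32.I2Pos
import Cfsg.Agent.H79.I2Plane
import Cfsg.Agent.H8.I2Perp
import Cfsg.Agent.H19.I2X4
import Cfsg.Agent.H28.I2AType
import Cfsg.Agent.H79.I2Block
import Cfsg.Agent.H57.I2All
import Cfsg.Agent.H8.TmXAll
import Cfsg.Agent.H63.TmXBlockEx
import Cfsg.Agent.H27.TmXBlockOne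
import Cfsg.Agent.H79.TmXPowers
import Cfsg.Agent.H79.TmXSum
import Cfsg.Agent.H49.PtExTransP
import Cfsg.Agent.H84.PtExProdFix
import Cfsg.Agent.H84.PtExTsProd
import Cfsg.Agent.H84.PtExNonScal
import Cfsg.Agent.H19.PtExMinusProd
import Cfsg.Agent.H11.TmQStruct
import Cfsg.Agent.H8.TmQTrick
import Cfsg.Agent.H18.TmComplPlus
import Cfsg.Agent.H28.TmTypeU
import Cfsg.Agent.H28.TmBlockMinus
import Cfsg.Agent.H3.TmMinusSum
import Cfsg.Agent.H19.TmAnisoStd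
import Cfsg.Agent.H19.TmAnisoIso
import Cfsg.Agent.H15.PtExOdd
import Cfsg.Agent.H85.PtExEven
import Cfsg.Agent.H85.PtExBridge
import Cfsg.Agent.H28.TmOddMem
import Cfsg.Agent.H19.PtExAnisoEx
import Cfsg.Agent.Helper55.PtExToMat
import Cfsg.Agent.H86.OtSplit
import Cfsg.Agent.H16.SpdBlock
import Cfsg.Agent.H67.SpdRel
import Cfsg.Agent.H77.SpdHyp
import Cfsg.Agent.H77.SpdFix
import Cfsg.Agent.H77.SpdCompl
import Cfsg.Agent.H18.SpdSum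
import Cfsg.Agent.H24.SpdModc
import Cfsg.Agent.H24.SpdSub
import Cfsg.Agent.H51.SpdDecomp
import Cfsg.Agent.H3.TiPrim
import Cfsg.Agent.H3.TiCompDvd
import Cfsg.Agent.H3.TiIrrSub
import Cfsg.Agent.H3.TiCycSet
import Cfsg.Agent.H3.TiPair
import Cfsg.Agent.H3.TiStepEven
import Cfsg.Agent.H3.TiUpper
import Cfsg.Agent.H72.TiHalf
import Cfsg.Agent.H72.TiPeel
import Cfsg.Agent.H32.TiAnti
import Cfsg.Agent.H14.TiStepOdd
import Cfsg.Agent.H14.TiBuild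
import Cfsg.Agent.H16.TiHypClose
import Cfsg.Agent.H16.TiCompNd
import Cfsg.Agent.H60.TiUpperEven

/-!
# S5974: the closed forms of the pieces (wiring)
-/

set_option autoImplicit false

namespace Cfsg.Agent.H48.Ep

open Cfsg.Agent.H45 Cfsg.Agent.H42.Spd Cfsg.Agent.H42.Ti Module

universe u v

theorem fin_modc : Cfsg.Agent.H42.Spd.StModc.{u, v} :=
  Cfsg.Agent.H24.Spd.modc (Cfsg.Agent.H67.Spd.blockRel Cfsg.Agent.H16.Spd.block)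
    Cfsg.Agent.H77.Spd.fix Cfsg.Agent.H77.Spd.compl

theorem fin_sub : Cfsg.Agent.H42.Spd.StSub.{u, v} :=
  Cfsg.Agent.H24.Spd.sub (Cfsg.Agent.H67.Spd.blockRel Cfsg.Agent.H16.Spd.block)
    Cfsg.Agent.H77.Spd.hyp Cfsg.Agent.H77.Spd.fix Cfsg.Agent.H77.Spd.compl Cfsg.Agent.H18.Spd.sum

theorem fin_decomp : Cfsg.Agent.H42.Spd.StDecomp.{u, v} :=
  Cfsg.Agent.H51.Spd.decomp fin_sub fin_modc Cfsg.Agent.H77.Spd.compl

theorem fin_qtrick : Cfsg.Agent.H77.Tm.StQTrick.{u, v} := Cfsg.Agent.H8.Tm.qTrick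

theorem fin_qstruct : Cfsg.Agent.H77.Tm.StQStruct.{u, v} := by
  have hPrim := Cfsg.Agent.H3.Ti.tiPrim Cfsg.Agent.H3.Ti.cycSet
  have hUpper := Cfsg.Agent.H3.Ti.tiUpper Cfsg.Agent.H72.Ti.tiHalf
  have hUpperEven := Cfsg.Agent.H60.Ti.tiUpperEven Cfsg.Agent.H3.Ti.cycSet hPrim
    Cfsg.Agent.H3.Ti.tiCompDvd Cfsg.Agent.H16.Ti.tiCompNd Cfsg.Agent.H72.Ti.tiHalf
  have hHypClose := Cfsg.Agent.H16.Ti.tiHypClose Cfsg.Agent.H3.Ti.tiCompDvd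
    Cfsg.Agent.H3.Ti.tiIrrSub
  have hPair := Cfsg.Agent.H3.Ti.tiPair Cfsg.Agent.H3.Ti.tiCompDvd Cfsg.Agent.H3.Ti.tiIrrSub
    hHypClose Cfsg.Agent.H32.Ti.tiAnti
  have hStepEven := Cfsg.Agent.H3.Ti.tiStepEven Cfsg.Agent.H3.Ti.cycSet hPrim
    Cfsg.Agent.H3.Ti.tiCompDvd Cfsg.Agent.H16.Ti.tiCompNd hPair
  have hBuild := Cfsg.Agent.H14.Ti.tiBuild Cfsg.Agent.H72.Ti.tiPeel Cfsg.Agent.H14.Ti.tiStepOdd
    hStepEven
  exact Cfsg.Agent.H11.Tm.qStruct fin_qtrick Cfsg.Agent.H86.Ot.oSplit fin_modc hUpper hUpperEven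
    Cfsg.Agent.H72.Ti.tiHalf hBuild

theorem fin_complPlus : Cfsg.Agent.H77.Tm.StComplPlus.{u, v} := Cfsg.Agent.H18.Tm.complPlus

theorem fin_minusSum : Cfsg.Agent.H77.Tm.StMinusSum.{u, v} :=
  Cfsg.Agent.H3.Tm.minusSum Cfsg.Agent.H19.Tm.anisoStd Cfsg.Agent.H19.Tm.anisoIso

theorem fin_typeU : Cfsg.Agent.H77.Tm.StTypeU.{u, v} :=
  Cfsg.Agent.H28.Tm.typeU fin_qtrick fin_decomp Cfsg.Agent.H28.Tm.blockMinus' fin_minusSum
    fin_complPlus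

theorem fin_type0 : StType0.{u, v} := Cfsg.Agent.H70.Ep.type0 fin_qstruct fin_typeU

theorem fin_qSum : StQSum.{u, v} := Cfsg.Agent.H70.Ep.qSum fin_minusSum fin_complPlus

theorem fin_exEven : Cfsg.Agent.H49.Pt.StExEven.{u} := by
  have hModAll := Cfsg.Agent.H8.Tm.modAll
    (Cfsg.Agent.H63.Tm.blockEx Cfsg.Agent.H27.Tm.blockOne Cfsg.Agent.H79.Tm.powers)
    Cfsg.Agent.H79.Tm.modSum
  exact Cfsg.Agent.H85.PtEx.exEven_of Cfsg.Agent.H3.Ti.cycSet hModAll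
    Cfsg.Agent.H19.PtEx.anisoEx
    Cfsg.Agent.H49.PtEx.transP Cfsg.Agent.H84.PtEx.prodFix Cfsg.Agent.H84.PtEx.tsProd
    (Cfsg.Agent.H19.PtEx.minusProd fin_minusSum) Cfsg.Agent.Helper55.PtEx.toMat
    Cfsg.Agent.H84.PtEx.nonScal fin_typeU Cfsg.Agent.H28.Tm.oddMemAll

theorem fin_exist : StExist4.{u} := Cfsg.Agent.H8.Ep.exist Cfsg.Agent.H15.Pt.exOdd fin_exEven

theorem fin_bridge : StBridge.{u} := Cfsg.Agent.H98.Ep.bridge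

theorem fin_sign : StSign.{u} := Cfsg.Agent.H27.Ep.sign

theorem fin_arBack : StArBack := Cfsg.Agent.H20.Ep.arBack

theorem fin_arFwd : StArFwd := Cfsg.Agent.H20.Ep.arFwd

theorem fin_orbP : StOrbP.{u} := Cfsg.Agent.H40.Ep.orbP

theorem fin_twoNeg : StTwoNeg.{u} := Cfsg.Agent.H84.Ep.twoNeg0

theorem fin_qBoth2 : StQBoth2.{u, v} := Cfsg.Agent.H40.Ep.qBoth2 fin_qSum

/-- EP-STRUCT, closed. -/
theorem fin_struct : StStruct.{u, v} :=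
  struct_of Cfsg.Agent.H95.Ep.structOdd'
    (Cfsg.Agent.H95.Ep.structEven fin_type0 fin_qSum fin_qBoth2)

theorem fin_cntA : StCntA.{u} := Cfsg.Agent.H53.Ep.cntA fin_struct fin_bridge fin_orbP

theorem fin_cntB : StCntB.{u} := Cfsg.Agent.H98.Ep.cntB fin_struct fin_bridge

theorem fin_i2AType : Cfsg.Agent.H99.I2.StI2AType.{u, v} :=
  Cfsg.Agent.H28.I2.aType Cfsg.Agent.H79.I2.block Cfsg.Agent.H8.I2.perpI fin_qSum fin_qBoth2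

theorem fin_i2All : Cfsg.Agent.H99.I2.StI2All.{u, v} :=
  Cfsg.Agent.H57.I2.all Cfsg.Agent.H79.I2.plane Cfsg.Agent.H8.I2.perpI fin_i2AType fin_qSum

/-- I2-POS, closed. -/
theorem fin_i2Pos : Cfsg.Agent.H99.Em.StI2Pos.{u, v} :=
  Cfsg.Agent.H32.I2.pos Cfsg.Agent.H79.I2.plane Cfsg.Agent.H8.I2.perpI Cfsg.Agent.H19.I2.x4
    fin_i2AType fin_i2All fin_qSum

/-- EP-TWO, closed. -/
theorem fin_two : StTwo.{u} :=
  two_of (Cfsg.Agent.H27.Ep.twoOdd Cfsg.Agent.H53.Ep.twoInv fin_twoNeg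
    Cfsg.Agent.H86.Ev2.fin_noPlus Cfsg.Agent.H86.Ev2.fin_exJPlus Cfsg.Agent.H86.Ev2.fin_jSpin)
    (twoEven fin_i2Pos)

end Cfsg.Agent.H48.Ep
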