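import Cfsg.Agent.H48.JordanType

set_option autoImplicit false

/-!
Helper lemmas (helper48): ranks and kernel dimensions are invariant under extension of the
base field; the unipotent matrix with `m` Jordan blocks of size two and its centraliser.
-/

namespace Cfsg.Agent.H48

open Module Matrix

section Ext

variable {K L : Type*} [Field K] [Field L] (φ : K →+* L) {n : Type*} [Fintype n] [DecidableEq n]

theorem rank_map_field (M : Matrix n n K) : (M.map φ).rank = M.rank := by
  classical
  obtain ⟨L₁, L₂, D, h⟩ := Matrix.Pivot.exists_list_transvec_mul_mul_list_transvec_eq_diagonal M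
  have hP : ((L₁.map TransvectionStruct.toMatrix).prod).det = 1 :=
    TransvectionStruct.det_toMatrix_prod L₁
  have hQ : ((L₂.map TransvectionStruct.toMatrix).prod).det = 1 :=
    TransvectionStruct.det_toMatrix_prod L₂
  have h1 : M.rank = (Matrix.diagonal D).rank := by
    rw [← h, Matrix.rank_mul_eq_left_of_isUnit_det _ _ (by rw [hQ]; exact isUnit_one),
      Matrix.rank_mul_eq_right_of_isUnit_det _ _ (by rw [hP]; exact isUnit_one)]
  have hP' : (((L₁.map TransvectionStruct.toMatrix).prod).map φ).det = 1 := by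
    rw [← RingHom.mapMatrix_apply, ← RingHom.map_det, hP, map_one]
  have hQ' : (((L₂.map TransvectionStruct.toMatrix).prod).map φ).det = 1 := by
    rw [← RingHom.mapMatrix_apply, ← RingHom.map_det, hQ, map_one]
  have h' : ((L₁.map TransvectionStruct.toMatrix).prod).map φ * M.map φ
      * ((L₂.map TransvectionStruct.toMatrix).prod).map φ
      = Matrix.diagonal (fun i => φ (D i)) := by
    rw [← Matrix.map_mul, ← Matrix.map_mul, h, Matrix.diagonal_map (map_zero φ)]
  have h2 : (M.map φ).rank = (Matrix.diagonal (fun i => φ (D i))).rank := by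
    rw [← h', Matrix.rank_mul_eq_left_of_isUnit_det _ _ (by rw [hQ']; exact isUnit_one),
      Matrix.rank_mul_eq_right_of_isUnit_det _ _ (by rw [hP']; exact isUnit_one)]
  rw [h1, h2, Matrix.rank_diagonal, Matrix.rank_diagonal]
  apply Fintype.card_congr
  exact Equiv.subtypeEquivRight (fun i => by rw [Ne, Ne, map_eq_zero])

theorem finrank_ker_pow_map (N : Matrix n n K) (k : ℕ) :
    finrank L (LinearMap.ker ((Matrix.toLin' (N.map φ)) ^ k))
      = finrank K (LinearMap.ker ((Matrix.toLin' N) ^ k)) := by
  have e : (N.map φ) ^ k = (N ^ k).map φ := by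
    rw [← RingHom.mapMatrix_apply, ← RingHom.mapMatrix_apply, map_pow]
  rw [← toLin'_pow', ← toLin'_pow', Matrix.toLin'_apply', Matrix.toLin'_apply',
    finrank_ker_mulVecLin', finrank_ker_mulVecLin', e, rank_map_field]

end Ext

section Two

variable {F : Type*} [Field F]

/-- The nilpotent matrix with `m` Jordan blocks of size two. -/
def N2 (m : ℕ) (R : Type*) [Ring R] : Matrix (Fin m ⊕ Fin m) (Fin m ⊕ Fin m) R :=
  fromBlocks 0 0 1 0

theorem N2_mul_self (m : ℕ) (R : Type*) [Ring R] : N2 m R * N2 m R = 0 := by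
  unfold N2
  rw [fromBlocks_multiply]
  simp [fromBlocks_zero]

theorem N2_map (m : ℕ) {R S : Type*} [Ring R] [Ring S] (φ : R →+* S) :
    (N2 m R).map φ = N2 m S := by
  unfold N2
  rw [fromBlocks_map]
  simp [Matrix.map_zero, Matrix.map_one]

theorem rank_N2 (m : ℕ) : (N2 m F).rank = m := by
  classical
  have hsw : IsUnit (fromBlocks (0 : Matrix (Fin m) (Fin m) F) (1 : Matrix (Fin m) (Fin m) F)
      (1 : Matrix (Fin m) (Fin m) F) (0 : Matrix (Fin m) (Fin m) F)).det := by
    apply Matrix.isUnit_det_of_right_inverse (B := fromBlocks 0 1 1 0)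
    rw [fromBlocks_multiply]
    simp [fromBlocks_one]
  have e : N2 m F * fromBlocks (0 : Matrix (Fin m) (Fin m) F) (1 : Matrix (Fin m) (Fin m) F)
      (1 : Matrix (Fin m) (Fin m) F) (0 : Matrix (Fin m) (Fin m) F)
      = Matrix.diagonal (Sum.elim (fun _ => (0 : F)) (fun _ => (1 : F))) := by
    unfold N2
    rw [fromBlocks_multiply]
    ext i j
    rcases i with i | i <;> rcases j with j | j <;>
      simp [Matrix.diagonal_apply, Matrix.one_apply]
  rw [← Matrix.rank_mul_eq_left_of_isUnit_det _ _ hsw, e, Matrix.rank_diagonal]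
  rw [Fintype.card_subtype]
  have : (Finset.univ.filter (fun i : Fin m ⊕ Fin m =>
      Sum.elim (fun _ => (0 : F)) (fun _ => (1 : F)) i ≠ 0))
      = Finset.univ.map ⟨Sum.inr, Sum.inr_injective⟩ := by
    ext i
    rcases i with i | i <;> simp
  rw [this, Finset.card_map, Finset.card_univ, Fintype.card_fin]

theorem finrank_ker_N2_pow (m : ℕ) (k : ℕ) :
    finrank F (LinearMap.ker ((Matrix.toLin' (N2 m F)) ^ k)) = if k = 0 then 0 else
      if k = 1 then m else 2 * m := by
  rw [← toLin'_pow', Matrix.toLin'_apply', finrank_ker_mulVecLin', Fintype.card_sum,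
    Fintype.card_fin]
  rcases k with _ | _ | k
  · rw [pow_zero, Matrix.rank_one, Fintype.card_sum, Fintype.card_fin]
    simp
  · rw [zero_add, pow_one, rank_N2]
    simp
  · have : N2 m F ^ (k + 1 + 1) = 0 := by
      rw [pow_succ, pow_succ, mul_assoc, N2_mul_self, mul_zero]
    rw [this, Matrix.rank_zero]
    simp
    omega

/-- The determinant of a matrix commuting with `N2` is a square. -/
theorem det_isSquare_of_commute_N2 (m : ℕ) (c : Matrix (Fin m ⊕ Fin m) (Fin m ⊕ Fin m) F)
    (hc : c * N2 m F = N2 m F * c) : ∃ a : F, c.det = a * a := by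
  rw [← Matrix.fromBlocks_toBlocks c] at hc ⊢
  unfold N2 at hc
  rw [fromBlocks_multiply, fromBlocks_multiply] at hc
  simp only [Matrix.mul_zero, Matrix.mul_one, Matrix.zero_mul, Matrix.one_mul, add_zero,
    zero_add] at hc
  have h12 : c.toBlocks₁₂ = 0 := by
    have := congrArg Matrix.toBlocks₁₁ hc
    simpa using this
  have h22 : c.toBlocks₂₂ = c.toBlocks₁₁ := by
    have := congrArg Matrix.toBlocks₂₁ hc
    simpa using this
  rw [h12, h22, det_fromBlocks_zero₁₂]
  exact ⟨_, rfl⟩

end Two

end Cfsg.Agent.H48
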