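import Mathlib
import Cfsg.Agent.H48.GUCDefs
import Cfsg.Agent.H97.Herm2

/-!
Assembly of S2646 from the exact piece statements of `Cfsg.Agent.H48.GUCDefs`.
-/

set_option autoImplicit false

namespace Cfsg.Agent.H48.GUC

open Finset Cfsg.Agent.H61 Cfsg.Agent.H97.Herm

universe u

theorem hermInv_card_pos {K : Type u} [Field K] [Fintype K] (σ : K →+* K) (ι : Type) [Fintype ι]
    [DecidableEq ι] : 0 < Nat.card (HermInv σ ι) := by
  have hne : Nonempty (HermInv σ ι) := by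
    refine ⟨⟨1, ?_, ?_⟩⟩
    · ext i j
      rw [Matrix.transpose_apply, Matrix.map_apply, Matrix.one_apply, Matrix.one_apply]
      by_cases hij : i = j
      · subst hij
        simp
      · rw [if_neg hij, if_neg (Ne.symm hij), map_zero]
    · rw [Matrix.det_one]
      exact one_ne_zero
  exact Nat.card_pos

/-- The order of the centraliser, as a natural number, in terms of `card (ZR d)` and the
orders of the groups `GU_{a_i}(q)`. -/
theorem main_nat (hZR : ZRFixStmt.{u}) (hHerm : HermStmt.{u}) (hCay : CayStmt.{u})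
    (hConj : ConjStmt.{u}) (hOrb : OrbStmt.{u}) (hSAPar : SAParStmt.{u})
    (hParCnt : ParCntStmt.{u}) (hReidx : ReidxStmt.{u}) (hUnf : UnfStmt.{u})
    {K : Type u} [Field K] [Fintype K] {q n t : ℕ} (hK : Fintype.card K = q ^ 2)
    (d : Fin t → ℕ) (hd : ∀ k, 1 ≤ d k) (e : ((k : Fin t) × Fin (d k)) ≃ Fin n)
    (u : ↥(Cfsg.GU n K q))
    (hu : IsConj (Matrix.reindex e e (Cfsg.jordanTypeMatrix d K))
      ((u : GL (Fin n) K) : Matrix (Fin n) (Fin n) K)) :
    Nat.card ↥(Subgroup.centralizer ({u} : Set ↥(Cfsg.GU n K q))) =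
      q ^ Fintype.card (ZR d) * ∏ i : Fin (univ.sup d + 1),
        Nat.card ↥(Cfsg.GU (univ.filter (fun k : Fin t => d k = i.val)).card K q) := by
  classical
  obtain ⟨hq0, σ, hσ, hσσ, ω₀, hω₀⟩ := exists_sigma hK
  obtain ⟨hadj, hunf⟩ := hUnf hq0 σ hσ u
  obtain ⟨⟨m, hm⟩, hconj⟩ := hConj d e _ hu
  obtain ⟨s, hs1, hs2, hs3⟩ := hCay σ hσσ ω₀ hω₀ _ hadj m hm
  obtain ⟨P, hP⟩ := hconj s hs3
  obtain ⟨eU⟩ := hunf s hs2
  have horb := hOrb σ hσσ ω₀ hω₀ s _ hs1 P hP
  obtain ⟨⟨eΩ⟩, ⟨eX⟩⟩ := hReidx (n := n) σ d e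
  obtain ⟨e1⟩ := hSAPar σ hσσ d hd
  obtain ⟨e2⟩ := hParCnt σ hσσ d hd
  have hfix := hZR hK σ hσσ ω₀ hω₀ d
  have h1 : Nat.card ↥(Subgroup.centralizer ({u} : Set ↥(Cfsg.GU n K q))) *
      Nat.card (OmegaSA σ d) =
      Nat.card {g : GL (JI d) K // (g : Matrix (JI d) (JI d) K) * Cfsg.jordanTypeMatrix d K =
        Cfsg.jordanTypeMatrix d K * (g : Matrix (JI d) (JI d) K)} := by
    rw [Nat.card_congr eU, ← Nat.card_congr eΩ, ← Nat.card_congr eX]
    exact horb
  have h2 : Nat.card (OmegaSA σ d) = q ^ Fintype.card (ZR d) *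
      ∏ i : Fin (univ.sup d + 1), Nat.card (HermInv σ {k : Fin t // d k = i.val}) := by
    rw [Nat.card_congr (e1.trans e2), Nat.card_prod, Nat.card_pi, hfix, mul_comm]
  have h3 : Nat.card {g : GL (JI d) K // (g : Matrix (JI d) (JI d) K) *
        Cfsg.jordanTypeMatrix d K = Cfsg.jordanTypeMatrix d K * (g : Matrix (JI d) (JI d) K)} =
      (∏ i : Fin (univ.sup d + 1),
        Nat.card {m : Matrix {k : Fin t // d k = i.val} {k : Fin t // d k = i.val} K //
          m.det ≠ 0}) * (q ^ 2) ^ Fintype.card (ZR d) := by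
    rw [Nat.card_congr (((centEquiv1).trans (centEquiv2 hd)).trans (centEquiv3 hd)),
      Nat.card_prod, Nat.card_pi, Nat.card_fun, Nat.card_eq_fintype_card (α := K), hK,
      Nat.card_eq_fintype_card (α := ZR d)]
  have h4 : ∀ i : Fin (univ.sup d + 1),
      Nat.card {m : Matrix {k : Fin t // d k = i.val} {k : Fin t // d k = i.val} K //
          m.det ≠ 0} =
        Nat.card ↥(Cfsg.GU (univ.filter (fun k : Fin t => d k = i.val)).card K q) *
          Nat.card (HermInv σ {k : Fin t // d k = i.val}) := fun i =>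
    (hHerm hK hq0 σ hσ hσσ ω₀ hω₀ {k : Fin t // d k = i.val} _ (Fintype.card_subtype _)).symm
  rw [h2, h3] at h1
  simp only [h4, Finset.prod_mul_distrib] at h1
  have hpos1 : 0 < q ^ Fintype.card (ZR d) := pow_pos (Nat.pos_of_ne_zero hq0) _
  have hpos2 : 0 < ∏ i : Fin (univ.sup d + 1), Nat.card (HermInv σ {k : Fin t // d k = i.val}) :=
    Finset.prod_pos (fun i _ => hermInv_card_pos σ _)
  apply Nat.eq_of_mul_eq_mul_right (Nat.mul_pos hpos1 hpos2)
  rw [h1, ← pow_mul, mul_comm 2, pow_mul, sq]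
  ring

/-- The statement of S2646 from the pieces. -/
theorem main (hZR : ZRFixStmt.{u}) (hHerm : HermStmt.{u}) (hOrd : GUOrdStmt.{u})
    (hCay : CayStmt.{u}) (hConj : ConjStmt.{u}) (hOrb : OrbStmt.{u}) (hSAPar : SAParStmt.{u})
    (hParCnt : ParCntStmt.{u}) (hReidx : ReidxStmt.{u}) (hUnf : UnfStmt.{u})
    {K : Type u} [Field K] [Fintype K] {q n t : ℕ} (hK : Fintype.card K = q ^ 2)
    (d : Fin t → ℕ) (hd : ∀ k, 1 ≤ d k) (e : ((k : Fin t) × Fin (d k)) ≃ Fin n)
    (u : ↥(Cfsg.GU n K q))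
    (hu : IsConj (Matrix.reindex e e (Cfsg.jordanTypeMatrix d K))
      ((u : GL (Fin n) K) : Matrix (Fin n) (Fin n) K)) :
    (Nat.card ↥(Subgroup.centralizer ({u} : Set ↥(Cfsg.GU n K q))) : ℤ) = (q : ℤ) ^ (2 * (∑ i ∈ Finset.range (Finset.univ.sup d + 1), ∑ j ∈ Finset.range (Finset.univ.sup d + 1), if i < j then i * (Finset.univ.filter (fun k : Fin t => d k = i)).card * (Finset.univ.filter (fun k : Fin t => d k = j)).card else 0) + ∑ i ∈ Finset.range (Finset.univ.sup d + 1), (i - 1) * (Finset.univ.filter (fun k : Fin t => d k = i)).card ^ 2) * ∏ i ∈ Finset.range (Finset.univ.sup d + 1), ((q : ℤ) ^ ((Finset.univ.filter (fun k : Fin t => d k = i)).card * ((Finset.univ.filter (fun k : Fin t => d k = i)).card - 1) / 2) * ∏ j : Fin (Finset.univ.filter (fun k : Fin t => d k = i)).card, ((q : ℤ) ^ ((j : ℕ) + 1) - (-1) ^ ((j : ℕ) + 1))) := by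
  rw [main_nat hZR hHerm hCay hConj hOrb hSAPar hParCnt hReidx hUnf hK d hd e u hu]
  rw [card_ZR_aux (fun i => (univ.filter (fun k : Fin t => d k = i)).card) (fun i => rfl)]
  push_cast
  congr 1
  rw [← Fin.prod_univ_eq_prod_range (fun i => ((q : ℤ) ^ ((Finset.univ.filter (fun k : Fin t => d k = i)).card * ((Finset.univ.filter (fun k : Fin t => d k = i)).card - 1) / 2) * ∏ j : Fin (Finset.univ.filter (fun k : Fin t => d k = i)).card, ((q : ℤ) ^ ((j : ℕ) + 1) - (-1) ^ ((j : ℕ) + 1)))) (univ.sup d + 1)]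
  apply Finset.prod_congr rfl
  intro i _
  exact hOrd hK _

end Cfsg.Agent.H48.GUC
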