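import Mathlib
import Cfsg.Agent.H48.GUCDefs

/-!
GUC-PARCNT: `ParSA` splits into invertible hermitian diagonal blocks and `σ`-symmetric free
parameters (restriction of `Cfsg.Agent.H61.centEquiv3`).
-/

set_option autoImplicit false

namespace Cfsg.Agent.H48.GUC

open Finset Cfsg.Agent.H61 Cfsg.Agent.H97.Herm

universe u

section parcnt

variable {K : Type u} [Field K] {t : ℕ} (σ : K →+* K) (d : Fin t → ℕ) (hd : ∀ k, 1 ≤ d k)

/-- Diagonal blocks of a symmetric parameter function are hermitian. -/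
theorem paramBlock_herm (f : JI d × Fin t → K)
    (hS : ∀ (k l : Fin t) (s : ℕ) (hk : s < d k) (hl : s < d l),
      f ((⟨l, ⟨d l - 1 - s, by omega⟩⟩ : JI d), k) =
        σ (f ((⟨k, ⟨d k - 1 - s, by omega⟩⟩ : JI d), l)))
    (i : ℕ) : ((paramBlock hd f i).map σ).transpose = paramBlock hd f i := by
  ext k l
  obtain ⟨k, hk⟩ := k
  obtain ⟨l, hl⟩ := l
  rw [Matrix.transpose_apply, Matrix.map_apply]
  simp only [paramBlock, Matrix.of_apply]
  have h1 := hd k
  have h2 := hd l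
  have h := hS l k (i - 1) (by omega) (by omega)
  have e1 : ((⟨k, ⟨d k - 1 - (i - 1), by omega⟩⟩ : JI d)) = jtop hd k := by
    rw [JI_ext_iff]
    refine ⟨rfl, ?_⟩
    simp only [jtop_snd]
    omega
  have e2 : ((⟨l, ⟨d l - 1 - (i - 1), by omega⟩⟩ : JI d)) = jtop hd l := by
    rw [JI_ext_iff]
    refine ⟨rfl, ?_⟩
    simp only [jtop_snd]
    omega
  rw [e1, e2] at h
  exact h.symm

/-- The free parameters of a symmetric parameter function are `tauZR`-symmetric. -/
theorem free_symm (f : JI d × Fin t → K)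
    (hS : ∀ (k l : Fin t) (s : ℕ) (hk : s < d k) (hl : s < d l),
      f ((⟨l, ⟨d l - 1 - s, by omega⟩⟩ : JI d), k) =
        σ (f ((⟨k, ⟨d k - 1 - s, by omega⟩⟩ : JI d), l)))
    (z : ZR d) : f (tauZR d z).1 = σ (f z.1) := by
  obtain ⟨⟨⟨k, r⟩, l⟩, h1, h2⟩ := z
  simp only at h1 h2
  have hr := r.2
  have h := hS k l (d k - 1 - r.val) (by omega) (by omega)
  have e1 : (((⟨l, ⟨d l - 1 - (d k - 1 - r.val), by omega⟩⟩ : JI d), k) : JI d × Fin t) =
      (tauZR d ⟨((⟨k, r⟩ : JI d), l), h1, h2⟩).1 := by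
    refine Prod.ext ?_ rfl
    rw [JI_ext_iff]
    refine ⟨rfl, ?_⟩
    simp only [tauZR]
    omega
  have e2 : (((⟨k, ⟨d k - 1 - (d k - 1 - r.val), by omega⟩⟩ : JI d), l) : JI d × Fin t) =
      ((⟨k, r⟩ : JI d), l) := by
    refine Prod.ext ?_ rfl
    rw [JI_ext_iff]
    refine ⟨rfl, ?_⟩
    simp only
    omega
  rw [e1, e2] at h
  exact h

include hd in
/-- The reconstructed parameter function is symmetric. -/
theorem reconParam_symm (m : GLfam d K) (h : ZR d → K)
    (hm : ∀ i, (((m i).1).map σ).transpose = (m i).1)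
    (hh : ∀ z, h (tauZR d z) = σ (h z))
    (k l : Fin t) (s : ℕ) (hk : s < d k) (hl : s < d l) :
    reconParam m h ((⟨l, ⟨d l - 1 - s, by omega⟩⟩ : JI d), k) =
      σ (reconParam m h ((⟨k, ⟨d k - 1 - s, by omega⟩⟩ : JI d), l)) := by
  by_cases hR : d k - 1 - s = 0 ∧ d k = d l
  · -- diagonal block entries
    obtain ⟨hR1, hR2⟩ := hR
    have hi : d k < univ.sup d + 1 := Nat.lt_succ_of_le (Finset.le_sup (Finset.mem_univ k))
    have hb := reconParam_block hd m h ⟨d k, hi⟩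
    have hb1 := congrFun (congrFun hb ⟨l, hR2.symm⟩) ⟨k, rfl⟩
    have hb2 := congrFun (congrFun hb ⟨k, rfl⟩) ⟨l, hR2.symm⟩
    simp only [paramBlock, Matrix.of_apply] at hb1 hb2
    have e1 : (((⟨l, ⟨d l - 1 - s, by omega⟩⟩ : JI d), k) : JI d × Fin t) = (jtop hd l, k) := by
      refine Prod.ext ?_ rfl
      rw [JI_ext_iff]
      refine ⟨rfl, ?_⟩
      simp only [jtop_snd]
      omega
    have e2 : (((⟨k, ⟨d k - 1 - s, by omega⟩⟩ : JI d), l) : JI d × Fin t) = (jtop hd k, l) := by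
      refine Prod.ext ?_ rfl
      rw [JI_ext_iff]
      refine ⟨rfl, ?_⟩
      simp only [jtop_snd]
      omega
    rw [e1, e2, hb1, hb2]
    have h3 := congrFun (congrFun (hm ⟨d k, hi⟩) ⟨l, hR2.symm⟩) ⟨k, rfl⟩
    rw [Matrix.transpose_apply, Matrix.map_apply] at h3
    exact h3.symm
  · -- free parameters
    have hZ2 : ¬ (d k - 1 - s < d k - d l) := by omega
    have hR2 : ¬ (d k - 1 - s = 0 ∧ d k = d l) := hR
    have hZ1 : ¬ (d l - 1 - s < d l - d k) := by omega
    have hR1 : ¬ (d l - 1 - s = 0 ∧ d l = d k) := by omega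
    have v1 : reconParam m h ((⟨l, ⟨d l - 1 - s, by omega⟩⟩ : JI d), k) =
        h ⟨((⟨l, ⟨d l - 1 - s, by omega⟩⟩ : JI d), k), hZ1, hR1⟩ := by
      unfold reconParam
      rw [dif_neg hR1, dif_neg hZ1]
    have v2 : reconParam m h ((⟨k, ⟨d k - 1 - s, by omega⟩⟩ : JI d), l) =
        h ⟨((⟨k, ⟨d k - 1 - s, by omega⟩⟩ : JI d), l), hZ2, hR2⟩ := by
      unfold reconParam
      rw [dif_neg hR2, dif_neg hZ2]
    rw [v1, v2, ← hh]
    congr 1
    apply Subtype.ext
    refine Prod.ext ?_ rfl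
    rw [JI_ext_iff]
    refine ⟨rfl, ?_⟩
    simp only [tauZR]
    omega

end parcnt

/-- GUC-PARCNT. -/
theorem parcnt : ParCntStmt.{u} := by
  intro K _ t σ hσ d hd
  classical
  refine ⟨{
    toFun := fun f => (fun i => ⟨paramBlock hd f.1 i.val,
        paramBlock_herm σ d hd f.1 f.2.2.1 i.val, f.2.2.2 i⟩,
      ⟨fun z => f.1 z.1, free_symm σ d f.1 f.2.2.1⟩)
    invFun := fun mh => ⟨reconParam (fun i => ⟨(mh.1 i).1, (mh.1 i).2.2⟩) mh.2.1,
      reconParam_zero _ _,
      reconParam_symm σ d hd _ _ (fun i => (mh.1 i).2.1) mh.2.2,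
      fun i => by
        rw [reconParam_block]
        exact (mh.1 i).2.2⟩
    left_inv := fun f => by
      apply Subtype.ext
      exact congrArg (fun x => x.1.1) ((centEquiv3 hd).left_inv ⟨⟨f.1, f.2.1⟩, f.2.2.2⟩)
    right_inv := fun mh => by
      have h0 := (centEquiv3 hd).right_inv (fun i => ⟨(mh.1 i).1, (mh.1 i).2.2⟩, mh.2.1)
      refine Prod.ext ?_ ?_
      · funext i
        apply Subtype.ext
        have h1 := congrArg Subtype.val (congrFun (congrArg Prod.fst h0) i)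
        exact h1
      · apply Subtype.ext
        have h2 := congrArg Prod.snd h0
        exact h2 }⟩

example : ParCntStmt.{u} := parcnt

end Cfsg.Agent.H48.GUC
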