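import Cfsg.Agent.H48.JordanSp

set_option autoImplicit false

/-!
Helper lemmas (helper48): parity of kernel dimensions for isometries of general alternating
forms, Gram matrices of polar forms, and the parity bookkeeping for Jordan types.
-/

namespace Cfsg.Agent.H48

open Module Matrix

section AltGen

variable {F : Type*} [Field F] {ι : Type*} [Fintype ι] [DecidableEq ι]

theorem dot_transpose_mul_mul (G M : Matrix ι ι F) (x y : ι → F) :
    x ⬝ᵥ (Mᵀ * G * M) *ᵥ y = (M *ᵥ x) ⬝ᵥ G *ᵥ (M *ᵥ y) := by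
  rw [← Matrix.mulVec_mulVec, ← Matrix.mulVec_mulVec, Matrix.dotProduct_mulVec,
    Matrix.vecMul_transpose]

/-- If `Aᵀ G A = G` and `A B = 1` then `((A-1)^i)ᵀ G = G ((-B)^i (A-1)^i)`. -/
theorem transpose_sub_one_pow_mul (G A B : Matrix ι ι F) (hA : Aᵀ * G * A = G)
    (hAB : A * B = 1) (i : ℕ) :
    ((A - 1) ^ i)ᵀ * G = G * ((-B) ^ i * (A - 1) ^ i) := by
  have hBA : B * A = 1 := mul_eq_one_comm.mp hAB
  have h1 : Aᵀ * G = G * B := by
    calc Aᵀ * G = Aᵀ * G * (A * B) := by rw [hAB, mul_one]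
      _ = (Aᵀ * G * A) * B := by simp only [mul_assoc]
      _ = G * B := by rw [hA]
  have h2 : (A - 1)ᵀ * G = G * ((-B) * (A - 1)) := by
    rw [transpose_sub, transpose_one, sub_mul, one_mul, h1, neg_mul, mul_sub, hBA, mul_one,
      neg_sub, mul_sub, mul_one]
  have hcomm : Commute (-B) (A - 1) := by
    have : Commute B A := by
      show B * A = A * B
      rw [hAB, hBA]
    exact (this.sub_right (Commute.one_right _)).neg_left
  rw [← hcomm.mul_pow]
  induction i with
  | zero => simp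
  | succ i ih =>
    rw [pow_succ, transpose_mul, mul_assoc, ih, ← mul_assoc, h2, mul_assoc, ← pow_succ']

theorem isUnit_det_of_transpose_mul_mul (G A : Matrix ι ι F) (hG : IsUnit G.det)
    (hA : Aᵀ * G * A = G) : IsUnit A.det := by
  have h := congrArg Matrix.det hA
  rw [det_mul, det_mul, det_transpose] at h
  have hG0 : G.det ≠ 0 := hG.ne_zero
  have h2 : A.det * A.det = 1 := by
    apply mul_right_cancel₀ hG0
    linear_combination h
  exact IsUnit.of_mul_eq_one _ h2

/-- For an isometry `A` of a nondegenerate alternating form, the rank of `(A - 1)^(2i)` is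
even. -/
theorem even_rank_sub_one_pow_of_alt (G A : Matrix ι ι F) (halt : ∀ x, x ⬝ᵥ G *ᵥ x = 0)
    (hG : IsUnit G.det) (hA : Aᵀ * G * A = G) (i : ℕ) : Even ((A - 1) ^ (2 * i)).rank := by
  have hdet : IsUnit A.det := isUnit_det_of_transpose_mul_mul G A hG hA
  have hAB : A * A⁻¹ = 1 := Matrix.mul_nonsing_inv A hdet
  have hC := transpose_sub_one_pow_mul G A A⁻¹ hA hAB i
  have halt' : ∀ x : ι → F, x ⬝ᵥ (((A - 1) ^ i)ᵀ * G * (A - 1) ^ i) *ᵥ x = 0 := by
    intro x
    rw [dot_transpose_mul_mul]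
    exact halt _
  have hCeq : ((A - 1) ^ i)ᵀ * G * (A - 1) ^ i = (G * (-A⁻¹) ^ i) * (A - 1) ^ (2 * i) := by
    rw [hC, two_mul, pow_add]
    simp only [mul_assoc]
  have hunit : IsUnit (G * (-A⁻¹) ^ i).det := by
    rw [det_mul, det_pow]
    apply IsUnit.mul hG
    apply IsUnit.pow
    apply Matrix.isUnit_det_of_right_inverse (B := -A)
    rw [neg_mul_neg, Matrix.nonsing_inv_mul A hdet]
  have := Cfsg.Agent.H42.even_rank_of_alt _ halt'
  rwa [hCeq, rank_mul_eq_right_of_isUnit_det _ _ hunit] at this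

theorem even_card_of_alt (G : Matrix ι ι F) (halt : ∀ x, x ⬝ᵥ G *ᵥ x = 0)
    (hG : IsUnit G.det) : Even (Fintype.card ι) := by
  have := Cfsg.Agent.H42.even_rank_of_alt G halt
  rwa [Matrix.rank_of_isUnit G ((Matrix.isUnit_iff_isUnit_det G).mpr hG)] at this

theorem even_finrank_ker_pow_of_alt (G A : Matrix ι ι F) (halt : ∀ x, x ⬝ᵥ G *ᵥ x = 0)
    (hG : IsUnit G.det) (hA : Aᵀ * G * A = G) (i : ℕ) :
    Even (finrank F (LinearMap.ker ((Matrix.toLin' (A - 1)) ^ (2 * i)))) := by
  rw [← toLin'_pow', Matrix.toLin'_apply', finrank_ker_mulVecLin']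
  have h1 := even_rank_sub_one_pow_of_alt G A halt hG hA i
  have h2 := Matrix.rank_le_card_width ((A - 1) ^ (2 * i))
  rw [Nat.even_sub h2]
  have h3 : Even (Fintype.card ι) := even_card_of_alt G halt hG
  exact ⟨fun _ => h1, fun _ => h3⟩

/-- A matrix preserving the bilinear form with Gram matrix `G` satisfies `Aᵀ G A = G`. -/
theorem gram_invariant (G A : Matrix ι ι F)
    (hinv : ∀ x y : ι → F, (A *ᵥ x) ⬝ᵥ G *ᵥ (A *ᵥ y) = x ⬝ᵥ G *ᵥ y) : Aᵀ * G * A = G := by
  apply Matrix.toBilin'.injective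
  refine LinearMap.ext₂ fun x y => ?_
  rw [Matrix.toBilin'_apply', Matrix.toBilin'_apply', dot_transpose_mul_mul]
  exact hinv x y

/-- The Gram matrix of the polar form of a quadratic form on `F^ι`. -/
theorem exists_gram (Q : QuadraticForm F (ι → F)) :
    ∃ G : Matrix ι ι F, (∀ x y, QuadraticMap.polar Q x y = x ⬝ᵥ G *ᵥ y) ∧
      ((QuadraticMap.polarBilin Q).Nondegenerate → IsUnit G.det) := by
  refine ⟨LinearMap.BilinForm.toMatrix' (QuadraticMap.polarBilin Q), ?_, ?_⟩
  · intro x y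
    rw [← Matrix.toBilin'_apply', Matrix.toBilin'_toMatrix']
    rfl
  · intro h
    rw [isUnit_iff_ne_zero]
    rw [← Matrix.toBilin'_toMatrix' (QuadraticMap.polarBilin Q)] at h
    exact LinearMap.BilinForm.nondegenerate_toBilin'_iff_det_ne_zero.mp h

end AltGen

/-- Parity bookkeeping: if all `K (2i)` are even, where `K k = ∑ min k (d i)`, then every
odd part has even multiplicity. -/
theorem even_card_filter_of_even_ker {t : ℕ} (d : Fin t → ℕ) (K : ℕ → ℕ)
    (hK : ∀ k, K k = ∑ i, min k (d i)) (hE : ∀ i, Even (K (2 * i))) (j : ℕ) (hj : Odd j) :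
    Even (Finset.univ.filter (fun k : Fin t => d k = j)).card := by
  obtain ⟨i, rfl⟩ := hj
  have h1 := hE i
  have h2 := hE (i + 1)
  rw [hK] at h1 h2
  have hid : (Finset.univ.filter (fun k : Fin t => d k = 2 * i + 1)).card
      + ∑ k, min (2 * i) (d k) + ∑ k, min (2 * (i + 1)) (d k)
      = 2 * ∑ k, min (2 * i + 1) (d k) := by
    rw [Finset.card_filter, ← Finset.sum_add_distrib, ← Finset.sum_add_distrib, Finset.mul_sum]
    refine Finset.sum_congr rfl fun k _ => ?_
    split_ifs <;> omega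
  obtain ⟨a, ha⟩ := h1
  obtain ⟨b, hb⟩ := h2
  rw [Nat.even_iff]
  omega

end Cfsg.Agent.H48
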