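import Cfsg.Agent.H48.JordanOrth

set_option autoImplicit false

/-!
Helper lemmas (helper48): unipotent isometries of nondegenerate symmetric bilinear forms
in odd characteristic: parity of ranks, and existence for every admissible Jordan type.
-/

namespace Cfsg.Agent.H48

open Module Matrix

section SymGen

variable {F : Type*} [Field F] {ι : Type*} [Fintype ι] [DecidableEq ι]

/-- `A - A⁻¹` is skew-adjoint for a form preserved by `A`. -/
theorem transpose_sub_inv_pow_mul (G A B : Matrix ι ι F) (hA : Aᵀ * G * A = G)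
    (hAB : A * B = 1) (k : ℕ) :
    ((A - B) ^ k)ᵀ * G = (-1 : F) ^ k • (G * (A - B) ^ k) := by
  have hBA : B * A = 1 := mul_eq_one_comm.mp hAB
  have h1 : Aᵀ * G = G * B := by
    calc Aᵀ * G = Aᵀ * G * (A * B) := by rw [hAB, mul_one]
      _ = (Aᵀ * G * A) * B := by simp only [mul_assoc]
      _ = G * B := by rw [hA]
  have h1' : Bᵀ * G = G * A := by
    calc Bᵀ * G = Bᵀ * (Aᵀ * G * A) := by rw [hA]
      _ = (A * B)ᵀ * G * A := by rw [transpose_mul]; simp only [mul_assoc]
      _ = G * A := by rw [hAB, transpose_one, one_mul]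
  have h2 : (A - B)ᵀ * G = -(G * (A - B)) := by
    rw [transpose_sub, sub_mul, h1, h1', mul_sub, neg_sub]
  induction k with
  | zero => simp
  | succ k ih =>
    calc ((A - B) ^ (k + 1))ᵀ * G = (A - B)ᵀ * (((A - B) ^ k)ᵀ * G) := by
          rw [pow_succ, transpose_mul, mul_assoc]
      _ = (-1 : F) ^ k • (((A - B)ᵀ * G) * (A - B) ^ k) := by
          rw [ih, Matrix.mul_smul, mul_assoc]
      _ = (-1 : F) ^ (k + 1) • (G * (A - B) ^ (k + 1)) := by
          rw [h2, pow_succ' (A - B), pow_succ (-1 : F), neg_mul, smul_neg, mul_assoc,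
            mul_neg_one, neg_smul]

theorem even_rank_of_skew (h2 : (2 : F) ≠ 0) (C : Matrix ι ι F) (hC : Cᵀ = -C) :
    Even C.rank := by
  apply Cfsg.Agent.H42.even_rank_of_alt
  intro x
  have h : x ⬝ᵥ C *ᵥ x = -(x ⬝ᵥ C *ᵥ x) := by
    calc x ⬝ᵥ C *ᵥ x = (C *ᵥ x) ⬝ᵥ x := dotProduct_comm _ _
      _ = x ⬝ᵥ Cᵀ *ᵥ x := by rw [Matrix.dotProduct_mulVec, Matrix.vecMul_transpose]
      _ = -(x ⬝ᵥ C *ᵥ x) := by rw [hC, Matrix.neg_mulVec, dotProduct_neg]
  have h' : (2 : F) * (x ⬝ᵥ C *ᵥ x) = 0 := by linear_combination h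
  exact (mul_eq_zero.mp h').resolve_left h2

theorem isUnit_two_matrix (h2 : (2 : F) ≠ 0) : IsUnit (2 : Matrix ι ι F) := by
  have := (IsUnit.mk0 (2 : F) h2).map (algebraMap F (Matrix ι ι F))
  rwa [map_ofNat] at this

/-- For a unipotent isometry `A` of a nondegenerate symmetric form in odd characteristic,
the rank of `(A - 1)^k` is even for odd `k`. -/
theorem even_rank_sub_one_pow_of_sym (h2 : (2 : F) ≠ 0) (G A : Matrix ι ι F) (hsym : Gᵀ = G)
    (hG : IsUnit G.det) (hA : Aᵀ * G * A = G) (hnil : IsNilpotent (A - 1)) (k : ℕ)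
    (hk : Odd k) : Even ((A - 1) ^ k).rank := by
  have hdet : IsUnit A.det := isUnit_det_of_transpose_mul_mul G A hG hA
  have hAB : A * A⁻¹ = 1 := Matrix.mul_nonsing_inv A hdet
  have hBA : A⁻¹ * A = 1 := Matrix.nonsing_inv_mul A hdet
  have hX := transpose_sub_inv_pow_mul G A A⁻¹ hA hAB k
  rw [hk.neg_one_pow, neg_one_smul] at hX
  have hskew : (G * (A - A⁻¹) ^ k)ᵀ = -(G * (A - A⁻¹) ^ k) := by
    rw [transpose_mul, hsym, hX]
  have hev := even_rank_of_skew h2 _ hskew
  have hY : A - A⁻¹ = (A⁻¹ * (A + 1)) * (A - 1) := by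
    have e : (A + 1) * (A - 1) = A * A - 1 := by noncomm_ring
    rw [mul_assoc, e, mul_sub, ← mul_assoc, hBA, one_mul, mul_one]
  have hUS : Commute A⁻¹ A := by
    show A⁻¹ * A = A * A⁻¹
    rw [hAB, hBA]
  have hSN : Commute A⁻¹ (A - 1) := hUS.sub_right (Commute.one_right _)
  have hU1N : Commute (A + 1) (A - 1) :=
    ((Commute.refl A).add_left (Commute.one_left A)).sub_right (Commute.one_right _)
  have hWN : Commute (A⁻¹ * (A + 1)) (A - 1) := hSN.mul_left hU1N
  have hU1 : IsUnit (A + 1) := by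
    have e : A + 1 = 2 + (A - 1) := by
      rw [← one_add_one_eq_two]; abel
    rw [e]
    exact IsNilpotent.isUnit_add_left_of_commute hnil (isUnit_two_matrix h2)
      (Commute.ofNat_right _ _)
  have hdetW : IsUnit (G * (A⁻¹ * (A + 1)) ^ k).det := by
    rw [Matrix.det_mul, Matrix.det_pow, Matrix.det_mul]
    apply hG.mul
    apply IsUnit.pow
    apply IsUnit.mul
    · apply Matrix.isUnit_det_of_right_inverse (B := A)
      exact hBA
    · exact (Matrix.isUnit_iff_isUnit_det _).mp hU1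
  rw [hY, hWN.mul_pow, ← mul_assoc, rank_mul_eq_right_of_isUnit_det _ _ hdetW] at hev
  exact hev

theorem gram_symm (G : Matrix ι ι F) (h : ∀ x y : ι → F, x ⬝ᵥ G *ᵥ y = y ⬝ᵥ G *ᵥ x) :
    Gᵀ = G := by
  apply Matrix.toBilin'.injective
  refine LinearMap.ext₂ fun x y => ?_
  rw [Matrix.toBilin'_apply', Matrix.toBilin'_apply', h x y, Matrix.dotProduct_mulVec,
    Matrix.vecMul_transpose, dotProduct_comm]

end SymGen

/-- Parity bookkeeping: if `K k ≡ n (mod 2)` for all odd `k`, where `K k = ∑ min k (d i)`,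
then every positive even part has even multiplicity. -/
theorem even_card_filter_of_odd_ker {t : ℕ} (d : Fin t → ℕ) (K : ℕ → ℕ) (n : ℕ)
    (hK : ∀ k, K k = ∑ i, min k (d i)) (hE : ∀ k, Odd k → Even (n + K k)) (j : ℕ)
    (hj : Even j) (hj0 : 0 < j) :
    Even (Finset.univ.filter (fun k : Fin t => d k = j)).card := by
  obtain ⟨i, rfl⟩ := hj
  have h1 := hE (i + i - 1) ⟨i - 1, by omega⟩
  have h2 := hE (i + i + 1) ⟨i, by omega⟩
  rw [hK] at h1 h2
  have hid : (Finset.univ.filter (fun k : Fin t => d k = i + i)).card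
      + ∑ k, min (i + i - 1) (d k) + ∑ k, min (i + i + 1) (d k)
      = 2 * ∑ k, min (i + i) (d k) := by
    rw [Finset.card_filter, ← Finset.sum_add_distrib, ← Finset.sum_add_distrib, Finset.mul_sum]
    refine Finset.sum_congr rfl fun k _ => ?_
    split_ifs <;> omega
  obtain ⟨a, ha⟩ := h1
  obtain ⟨b, hb⟩ := h2
  rw [Nat.even_iff]
  omega

end Cfsg.Agent.H48
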