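import Cfsg.Agent.H48.JordanOrth2

set_option autoImplicit false

/-!
Helper lemmas (helper48): existence of unipotent isometries of nondegenerate symmetric
bilinear forms of every admissible Jordan type (odd characteristic).
-/

namespace Cfsg.Agent.H48

open Module Matrix

/-- Realisability of a unipotent type by an isometry of a nondegenerate symmetric form. -/
def OrthReal (F : Type*) [Field F] (μ : Multiset ℕ) : Prop :=
  ∃ (ι : Type) (_ : Fintype ι) (_ : DecidableEq ι) (G A : Matrix ι ι F),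
    Fintype.card ι = μ.sum ∧ Gᵀ = G ∧ IsUnit G.det ∧ Aᵀ * G * A = G ∧
    ∀ k, finrank F (LinearMap.ker ((Matrix.toLin' (A - 1)) ^ k)) = kap μ k

section Real

variable {F : Type*} [Field F]

theorem kap_add (μ ν : Multiset ℕ) (k : ℕ) : kap (μ + ν) k = kap μ k + kap ν k := by
  unfold kap
  rw [Multiset.map_add, Multiset.sum_add]

theorem orthReal_zero : OrthReal F 0 := by
  refine ⟨Fin 0, inferInstance, inferInstance, 1, 1, by simp, by simp, by simp, by simp,
    fun k => ?_⟩
  have : finrank F (LinearMap.ker ((Matrix.toLin'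
      ((1 : Matrix (Fin 0) (Fin 0) F) - 1)) ^ k))
      ≤ finrank F (Fin 0 → F) := Submodule.finrank_le _
  have h0 : finrank F (Fin 0 → F) = 0 := by simp
  rw [kap_zero]
  omega

theorem fromBlocks_diag_sub_one {a b : Type*} [Fintype a] [DecidableEq a] [Fintype b]
    [DecidableEq b] (P : Matrix a a F) (Q : Matrix b b F) :
    fromBlocks P 0 0 Q - 1 = fromBlocks (P - 1) 0 0 (Q - 1) := by
  rw [← fromBlocks_one, sub_eq_add_neg, fromBlocks_neg, fromBlocks_add]
  simp [sub_eq_add_neg]

theorem OrthReal.add {μ ν : Multiset ℕ} (h1 : OrthReal F μ) (h2 : OrthReal F ν) :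
    OrthReal F (μ + ν) := by
  obtain ⟨ι₁, _, _, G₁, A₁, hc₁, hs₁, hd₁, hA₁, hk₁⟩ := h1
  obtain ⟨ι₂, _, _, G₂, A₂, hc₂, hs₂, hd₂, hA₂, hk₂⟩ := h2
  refine ⟨ι₁ ⊕ ι₂, inferInstance, inferInstance, fromBlocks G₁ 0 0 G₂, fromBlocks A₁ 0 0 A₂,
    ?_, ?_, ?_, ?_, fun k => ?_⟩
  · rw [Fintype.card_sum, hc₁, hc₂, Multiset.sum_add]
  · rw [fromBlocks_transpose, hs₁, hs₂, transpose_zero, transpose_zero]
  · rw [det_fromBlocks_zero₁₂]
    exact hd₁.mul hd₂
  · rw [fromBlocks_transpose, fromBlocks_multiply, fromBlocks_multiply]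
    simp [hA₁, hA₂]
  · rw [fromBlocks_diag_sub_one, finrank_ker_fromBlocks_diag_pow, hk₁, hk₂, kap_add]

/-- The hyperbolic pair of blocks `diag(J_a, J_a^{-T})` for the form `[[0, 1], [1, 0]]`. -/
theorem orthReal_pair (a : ℕ) : OrthReal F (a ::ₘ a ::ₘ 0) := by
  have hdet : IsUnit (Cfsg.jordanBlock a F).det := by rw [det_jordanBlock]; exact isUnit_one
  have hAi : Cfsg.jordanBlock a F * (Cfsg.jordanBlock a F)⁻¹ = 1 := Matrix.mul_nonsing_inv _ hdet
  have hiA : (Cfsg.jordanBlock a F)⁻¹ * Cfsg.jordanBlock a F = 1 := Matrix.nonsing_inv_mul _ hdet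
  have hreg : IsRegNil (Cfsg.jordanBlock a F - 1) :=
    ⟨by rw [Fintype.card_fin]; exact jordanBlock_sub_one_pow a F,
     by rw [Fintype.card_fin]; exact rank_jordanBlock_sub_one a F⟩
  have hreg' := isRegNil_inv_transpose _ hdet hreg
  refine ⟨Fin a ⊕ Fin a, inferInstance, inferInstance, fromBlocks 0 1 1 0,
    fromBlocks (Cfsg.jordanBlock a F) 0 0 ((Cfsg.jordanBlock a F)⁻¹)ᵀ, ?_, ?_, ?_, ?_,
    fun k => ?_⟩
  · simp
  · rw [fromBlocks_transpose, transpose_zero, transpose_one]
  · apply Matrix.isUnit_det_of_right_inverse (B := fromBlocks 0 1 1 0)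
    rw [fromBlocks_multiply]
    simp [fromBlocks_one]
  · rw [fromBlocks_transpose, fromBlocks_multiply, fromBlocks_multiply]
    congr 1
    · simp
    · simp [← transpose_mul, hiA]
    · simp [hiA]
    · simp
  · rw [fromBlocks_diag_sub_one, finrank_ker_fromBlocks_diag_pow,
      finrank_ker_pow_of_isRegNil _ hreg, finrank_ker_pow_of_isRegNil _ hreg', Fintype.card_fin,
      kap_cons, kap_cons, kap_zero, add_zero]

/-- The anti-diagonal sign matrix. -/
def antiG (a : ℕ) (F : Type*) [Field F] : Matrix (Fin a) (Fin a) F :=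
  Matrix.of fun i j => if (i : ℕ) + j + 1 = a then (-1 : F) ^ (i : ℕ) else 0

theorem antiG_apply (a : ℕ) (i j : Fin a) :
    antiG a F i j = if (i : ℕ) + j + 1 = a then (-1 : F) ^ (i : ℕ) else 0 := rfl

theorem antiG_transpose (a : ℕ) (ha : Odd a) : (antiG a F)ᵀ = antiG a F := by
  ext i j
  rw [transpose_apply, antiG_apply, antiG_apply]
  by_cases h : (i : ℕ) + j + 1 = a
  · have h' : (j : ℕ) + i + 1 = a := by omega
    rw [if_pos h, if_pos h', neg_one_pow_eq_pow_mod_two, neg_one_pow_eq_pow_mod_two (n := (i : ℕ))]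
    obtain ⟨r, hr⟩ := ha
    have : (j : ℕ) % 2 = (i : ℕ) % 2 := by omega
    rw [this]
  · have h' : ¬ (j : ℕ) + i + 1 = a := by omega
    rw [if_neg h, if_neg h']

theorem antiG_mul_apply (a : ℕ) (M : Matrix (Fin a) (Fin a) F) (i j : Fin a) :
    (antiG a F * M) i j = (-1 : F) ^ (i : ℕ) * M (Fin.rev i) j := by
  rw [Matrix.mul_apply, Finset.sum_eq_single (Fin.rev i)]
  · rw [antiG_apply, if_pos (by rw [Fin.val_rev]; omega)]
  · intro k _ hk
    rw [antiG_apply, if_neg, zero_mul]
    intro h
    apply hk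
    apply Fin.ext
    rw [Fin.val_rev]
    omega
  · intro h; exact absurd (Finset.mem_univ _) h

theorem mul_antiG_apply (a : ℕ) (M : Matrix (Fin a) (Fin a) F) (i j : Fin a) :
    (M * antiG a F) i j = M i (Fin.rev j) * (-1 : F) ^ ((Fin.rev j : Fin a) : ℕ) := by
  rw [Matrix.mul_apply, Finset.sum_eq_single (Fin.rev j)]
  · rw [antiG_apply, if_pos (by rw [Fin.val_rev]; omega)]
  · intro k _ hk
    rw [antiG_apply, if_neg, mul_zero]
    intro h
    apply hk
    apply Fin.ext
    rw [Fin.val_rev]
    omega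
  · intro h; exact absurd (Finset.mem_univ _) h

theorem antiG_mul_self (a : ℕ) (ha : Odd a) : antiG a F * antiG a F = 1 := by
  ext i j
  rw [antiG_mul_apply, antiG_apply, Matrix.one_apply, Fin.val_rev]
  by_cases h : i = j
  · subst h
    rw [if_pos (by omega), if_pos rfl, ← pow_add]
    obtain ⟨r, hr⟩ := ha
    have : (i : ℕ) + (a - ((i : ℕ) + 1)) = 2 * r := by omega
    rw [this, pow_mul]
    simp
  · have h' : (i : ℕ) ≠ j := fun hh => h (Fin.ext hh)
    rw [if_neg (by omega), if_neg h, mul_zero]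

/-- The nilpotent Jordan block is skew-adjoint for the anti-diagonal sign form. -/
theorem jordan_skew_antiG (a : ℕ) :
    (Cfsg.jordanBlock a F - 1)ᵀ * antiG a F = -(antiG a F * (Cfsg.jordanBlock a F - 1)) := by
  ext i j
  rw [Matrix.neg_apply, antiG_mul_apply, mul_antiG_apply, transpose_apply,
    jordanBlock_sub_one_apply, jordanBlock_sub_one_apply, Fin.val_rev, Fin.val_rev]
  by_cases h : (i : ℕ) + j + 2 = a
  · rw [if_pos (by omega), if_pos (by omega), one_mul, mul_one]
    have : a - ((j : ℕ) + 1) = (i : ℕ) + 1 := by omega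
    rw [this, pow_succ]
    ring
  · rw [if_neg (by omega), if_neg (by omega), zero_mul, mul_zero, neg_zero]

/-- Cayley transform: from a skew-adjoint nilpotent `N` to the isometry `(1+N)(1-N)⁻¹`. -/
theorem cayley_isometry {ι : Type*} [Fintype ι] [DecidableEq ι] (G N Mi : Matrix ι ι F)
    (hN : Nᵀ * G = -(G * N)) (hMi : (1 - N) * Mi = 1) :
    ((1 + N) * Mi)ᵀ * G * ((1 + N) * Mi) = G := by
  have hMi' : Mi * (1 - N) = 1 := mul_eq_one_comm.mp hMi
  have hP : (1 + N)ᵀ * G = G * (1 - N) := by
    rw [transpose_add, transpose_one, add_mul, one_mul, hN, mul_sub, mul_one, sub_eq_add_neg]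
  have hM : (1 - N)ᵀ * G = G * (1 + N) := by
    rw [transpose_sub, transpose_one, sub_mul, one_mul, hN, mul_add, mul_one, sub_neg_eq_add]
  have hPM : (1 - N) * (1 + N) = (1 + N) * (1 - N) := by noncomm_ring
  calc ((1 + N) * Mi)ᵀ * G * ((1 + N) * Mi)
      = Miᵀ * ((1 + N)ᵀ * G) * ((1 + N) * Mi) := by rw [transpose_mul]; simp only [mul_assoc]
    _ = Miᵀ * G * (((1 - N) * (1 + N)) * Mi) := by rw [hP]; simp only [mul_assoc]
    _ = Miᵀ * (G * (1 + N)) * ((1 - N) * Mi) := by rw [hPM]; simp only [mul_assoc]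
    _ = Miᵀ * ((1 - N)ᵀ * G) := by rw [hMi, mul_one, hM]
    _ = ((1 - N) * Mi)ᵀ * G := by rw [transpose_mul, mul_assoc]
    _ = G := by rw [hMi, transpose_one, one_mul]

/-- A single Jordan block of odd size is realised in an orthogonal group (odd
characteristic). -/
theorem orthReal_odd (h2 : (2 : F) ≠ 0) (a : ℕ) (ha : Odd a) : OrthReal F (a ::ₘ 0) := by
  set N : Matrix (Fin a) (Fin a) F := Cfsg.jordanBlock a F - 1 with hNdef
  have hreg : IsRegNil N :=
    ⟨by rw [Fintype.card_fin]; exact jordanBlock_sub_one_pow a F,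
     by rw [Fintype.card_fin]; exact rank_jordanBlock_sub_one a F⟩
  have hnil : IsNilpotent N := ⟨_, hreg.1⟩
  have hMu : IsUnit (1 - N) := hnil.isUnit_one_sub
  have hMdet : IsUnit (1 - N).det := (Matrix.isUnit_iff_isUnit_det _).mp hMu
  have hMi : (1 - N) * (1 - N)⁻¹ = 1 := Matrix.mul_nonsing_inv _ hMdet
  have hMi' : (1 - N)⁻¹ * (1 - N) = 1 := Matrix.nonsing_inv_mul _ hMdet
  have hiso := cayley_isometry (antiG a F) N (1 - N)⁻¹ (jordan_skew_antiG a) hMi
  have hcomm : Commute (1 - N)⁻¹ N := by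
    have h1 : Commute (1 - N) N := (Commute.one_left N).sub_left (Commute.refl N)
    show (1 - N)⁻¹ * N = N * (1 - N)⁻¹
    calc (1 - N)⁻¹ * N = (1 - N)⁻¹ * N * ((1 - N) * (1 - N)⁻¹) := by rw [hMi, mul_one]
      _ = (1 - N)⁻¹ * ((1 - N) * N) * (1 - N)⁻¹ := by rw [h1.eq]; simp only [mul_assoc]
      _ = N * (1 - N)⁻¹ := by rw [← mul_assoc, hMi', one_mul]
  have hsub : (1 + N) * (1 - N)⁻¹ - 1 = (2 * (1 - N)⁻¹) * N := by
    have e : (1 + N) = (1 - N) + 2 * N := by
      rw [two_mul]; abel
    rw [e, add_mul, hMi, add_sub_cancel_left, mul_assoc, mul_assoc, hcomm.eq]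
  have hW : Commute (2 * (1 - N)⁻¹) N := (Commute.ofNat_left _ _).mul_left hcomm
  have hWdet : IsUnit (2 * (1 - N)⁻¹).det := by
    rw [Matrix.det_mul]
    apply IsUnit.mul
    · exact (Matrix.isUnit_iff_isUnit_det _).mp (isUnit_two_matrix h2)
    · apply Matrix.isUnit_det_of_right_inverse (B := 1 - N)
      exact hMi'
  have hreg' : IsRegNil ((1 + N) * (1 - N)⁻¹ - 1) := by
    constructor
    · rw [hsub, hW.mul_pow, hreg.1, mul_zero]
    · rw [hsub, Matrix.rank_mul_eq_right_of_isUnit_det _ _ hWdet, hreg.2]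
  refine ⟨Fin a, inferInstance, inferInstance, antiG a F, (1 + N) * (1 - N)⁻¹, by simp,
    antiG_transpose a ha, ?_, hiso, fun k => ?_⟩
  · apply Matrix.isUnit_det_of_right_inverse (B := antiG a F)
    exact antiG_mul_self a ha
  · rw [finrank_ker_pow_of_isRegNil _ hreg', Fintype.card_fin, kap_cons, kap_zero, add_zero]

/-- Every admissible Jordan type (positive even parts with even multiplicity) occurs in an
orthogonal group in odd characteristic. -/
theorem exists_orth_of_type (h2 : (2 : F) ≠ 0) : ∀ (c : ℕ) (μ : Multiset ℕ),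
    Multiset.card μ = c → (∀ a ∈ μ, 1 ≤ a) → (∀ j, Even j → 0 < j → Even (μ.count j)) →
    OrthReal F μ := by
  intro c
  induction c using Nat.strong_induction_on with
  | _ c ih =>
    intro μ hc hpos hpar
    rcases Multiset.empty_or_exists_mem μ with rfl | ⟨a, ha⟩
    · exact orthReal_zero
    · rcases Nat.even_or_odd a with hae | hao
      · have ha0 : 0 < a := hpos a ha
        have hcnt : 2 ≤ μ.count a := by
          have h1 := hpar a hae ha0
          have h2 : 1 ≤ μ.count a := Multiset.one_le_count_iff_mem.mpr ha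
          obtain ⟨r, hr⟩ := h1
          omega
        have ha' : a ∈ μ.erase a := by
          rw [← Multiset.one_le_count_iff_mem, Multiset.count_erase_self]
          omega
        have hμeq : μ = (a ::ₘ a ::ₘ 0) + (μ.erase a).erase a := by
          rw [Multiset.cons_add, Multiset.cons_add, zero_add, Multiset.cons_erase ha',
            Multiset.cons_erase ha]
        have hpos'' : ∀ b ∈ (μ.erase a).erase a, 1 ≤ b := fun b hb =>
          hpos b (Multiset.mem_of_mem_erase (Multiset.mem_of_mem_erase hb))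
        have hpar'' : ∀ j, Even j → 0 < j → Even (((μ.erase a).erase a).count j) := by
          intro j hj hj0
          have := hpar j hj hj0
          by_cases h : j = a
          · subst h
            rw [Multiset.count_erase_self, Multiset.count_erase_self]
            obtain ⟨r, hr⟩ := this
            exact ⟨r - 1, by omega⟩
          · rw [Multiset.count_erase_of_ne h, Multiset.count_erase_of_ne h]
            exact this
        have hcard'' : Multiset.card ((μ.erase a).erase a) < c := by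
          have h1 := Multiset.card_erase_of_mem ha'
          have h2 := Multiset.card_erase_of_mem ha
          rw [Nat.pred_eq_sub_one] at h1 h2
          have h3 : 1 ≤ Multiset.card μ := Multiset.card_pos_iff_exists_mem.mpr ⟨a, ha⟩
          omega
        have hrec := ih _ hcard'' _ rfl hpos'' hpar''
        rw [hμeq]
        exact (orthReal_pair a).add hrec
      · obtain ⟨μ', rfl⟩ := Multiset.exists_cons_of_mem ha
        have hpos' : ∀ b ∈ μ', 1 ≤ b := fun b hb => hpos b (Multiset.mem_cons_of_mem hb)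
        have hpar' : ∀ j, Even j → 0 < j → Even (μ'.count j) := by
          intro j hj hj0
          have := hpar j hj hj0
          rw [Multiset.count_cons_of_ne] at this
          · exact this
          · rintro rfl
            exact (Nat.not_even_iff_odd.mpr hao) hj
        have hrec := ih (Multiset.card μ') (by rw [← hc, Multiset.card_cons]; omega) μ' rfl
          hpos' hpar'
        have e : a ::ₘ μ' = (a ::ₘ 0) + μ' := by
          rw [Multiset.cons_add, zero_add]
        rw [e]
        exact (orthReal_odd h2 a hao).add hrec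

end Real

end Cfsg.Agent.H48
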