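import Cfsg.Agent.H48.JxVne

set_option autoImplicit false

/-!
S2953 (kill of the residual situation): `[S, V] ≤ ⟨z⟩` in two elementwise shapes, for the glue
of the case `V ⊄ Q₁` (hypotheses `hsv`, `hQv` of the abstract core `r1_out`).
-/

open Cfsg

namespace Cfsg.Agent.H48.Jx

open Cfsg.Agent.H64.Jz

universe u

/-- In `RCtx2`, for the involution `z` of `Ω₁Z(S)`: every `s ∈ S` moves `v ∈ V` to `v` or `v z`,
and every `v ∈ V` moves `q ∈ S` to `q` or `q z`; moreover `z ∈ V`, `z ∈ O₂(L')`, `z z = 1`,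
`z` is central in `S`, `V ≤ S`, `V ≤ T'`, and `V` has exponent 2. -/
theorem sv {G : Type u} [Group G] [Finite G] (S : Sylow 2 G) (M K L T' K' L' : Subgroup G)
    (hR : Cfsg.Agent.H64.Jy.RCtx2 S M K L T' K' L') (z : G)
    (hzZ : z ∈ omegaCenterOf (S : Subgroup G)) (hz1 : z ≠ 1) :
    (∀ s ∈ (S : Subgroup G), ∀ v ∈ omegaCenterOf (pCoreOf 2 L),
      s * v * s⁻¹ = v ∨ s * v * s⁻¹ = v * z) ∧
    (∀ v ∈ omegaCenterOf (pCoreOf 2 L), ∀ q ∈ (S : Subgroup G),
      v * q * v⁻¹ = q ∨ v * q * v⁻¹ = q * z) ∧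
    z ∈ omegaCenterOf (pCoreOf 2 L) ∧ z ∈ pCoreOf 2 L' ∧ z * z = 1 ∧
    (∀ s ∈ (S : Subgroup G), s * z = z * s) ∧
    omegaCenterOf (pCoreOf 2 L) ≤ (S : Subgroup G) ∧ omegaCenterOf (pCoreOf 2 L) ≤ T' ∧
    (∀ v ∈ omegaCenterOf (pCoreOf 2 L), v * v = 1) := by
  have hVT := (vne S M K L T' K' L' hR).2
  obtain ⟨hB, hNS, hB', hne⟩ := hR
  obtain ⟨hc4, hexp, hNV, ⟨z0, hzV, hz01, hz0Z, hzQ', hZall, htr⟩, hCent, hTI⟩ :=
    Cfsg.Agent.H48.Jy.vfacts S M K L T' K' L' hB hNS hB' hne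
  have hzz0 : z = z0 := by
    rcases hZall z hzZ with h | h
    · exact absurd h hz1
    · exact h
  subst hzz0
  obtain ⟨-, hSylS⟩ := Cfsg.Agent.H61.Jk.base_facts S M (S : Subgroup G) K L hB
  have hSL : (S : Subgroup G) ≤ L := hSylS.1
  have hQS : pCoreOf 2 L ≤ (S : Subgroup G) :=
    Cfsg.Agent.Helper55.J48.pCoreOf_le_of_sylowIn hSylS
  have hVS : omegaCenterOf (pCoreOf 2 L) ≤ (S : Subgroup G) :=
    (Cfsg.Agent.H12.Jk.omegaCenterOf_le_self _).trans hQS
  have hzS : ∀ s ∈ (S : Subgroup G), s * z = z * s := by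
    intro s hs
    have := (Cfsg.Agent.H48.Jk.omegaCenterOf_le_inf' _ hzZ).2
    exact ((Subgroup.mem_centralizer_iff.mp this) s hs)
  have hzz : z * z = 1 := hexp z hzV
  -- `S` normalizes `V`
  have hSV : ∀ s ∈ (S : Subgroup G), ∀ v ∈ omegaCenterOf (pCoreOf 2 L),
      s * v * s⁻¹ ∈ omegaCenterOf (pCoreOf 2 L) := by
    intro s hs v hv
    have h1 : s ∈ Subgroup.normalizer (omegaCenterOf (pCoreOf 2 L) : Set G) := by
      rw [hNV]; exact hSL hs
    exact (Subgroup.mem_normalizer_iff.mp h1 v).mp hv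
  -- `[S, V] ≤ ⟨z⟩`
  have hkey : ∀ s ∈ (S : Subgroup G), ∀ v ∈ omegaCenterOf (pCoreOf 2 L),
      s * v * s⁻¹ = v ∨ s * v * s⁻¹ = v * z := by
    intro s hs v hv
    by_contra hcon
    push_neg at hcon
    obtain ⟨h1, h2⟩ := hcon
    have hv1 : v ≠ 1 := by
      intro h; apply h1; rw [h]; group
    have hvz : v ≠ z := by
      intro h; apply h1; rw [h]
      rw [hzS s hs]; group
    have hb1 : v * z ≠ 1 := by
      intro h; apply hvz
      calc v = (v * z) * z := by rw [mul_assoc, hzz, mul_one]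
        _ = z := by rw [h, one_mul]
    have hbz : z ≠ v * z := by
      intro h; apply hv1
      calc v = (v * z) * z⁻¹ := by group
        _ = z * z⁻¹ := by rw [← h]
        _ = 1 := by group
    have hbv : v ≠ v * z := by
      intro h; apply hz1
      calc z = v⁻¹ * (v * z) := by group
        _ = v⁻¹ * v := by rw [← h]
        _ = 1 := by group
    have hall := four_all hc4 hzV hv (Subgroup.mul_mem _ hv hzV) hz1 hv1 hb1 (Ne.symm hvz)
      hbz hbv
    rcases hall _ (hSV s hs v hv) with h | h | h | h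
    · apply hv1
      have : v = s⁻¹ * (s * v * s⁻¹) * s := by group
      rw [this, h]; group
    · apply hvz
      have e : v = s⁻¹ * (s * v * s⁻¹) * s := by group
      rw [e, h, hzS s⁻¹ (Subgroup.inv_mem _ hs)]; group
    · exact h1 h
    · exact h2 h
  refine ⟨hkey, ?_, hzV, hzQ', hzz, hzS, hVS, hVT, hexp⟩
  intro v hv q hqS
  have hvz : v * z = z * v := hzS v (hVS hv)
  have e : v * q * v⁻¹ = q * (q⁻¹ * v * q⁻¹⁻¹) * v⁻¹ := by group
  rcases hkey q⁻¹ (Subgroup.inv_mem _ hqS) v hv with h | h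
  · left
    rw [e, h]; group
  · right
    rw [e, h, hvz]; group

end Cfsg.Agent.H48.Jx
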