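import Cfsg.Agent.H48.JxZ

set_option autoImplicit false

/-!
S2953 (kill of the residual situation, case `V ≤ Q₁`): the V-side facts in conjugated form
(hypotheses `hP3`, `hTI` of helper36's core `conj_le_core`):
`C_G(a) ≤ N_G(V^g)` for `1 ≠ a ∈ V^g`, and two conjugates of `V` with a common nontrivial
element coincide.
-/

open Cfsg

namespace Cfsg.Agent.H48.Jx

open Cfsg.Agent.H64.Jz

universe u

theorem mem_map_conj_iff {G : Type u} [Group G] (V : Subgroup G) (g x : G) :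
    x ∈ V.map (MulAut.conj g).toMonoidHom ↔ g⁻¹ * x * g ∈ V := by
  constructor
  · rintro ⟨v, hv, rfl⟩
    have e : g⁻¹ * ((MulAut.conj g).toMonoidHom v) * g = v := by
      show g⁻¹ * (g * v * g⁻¹) * g = v
      group
    rw [e]; exact hv
  · intro h
    refine ⟨g⁻¹ * x * g, h, ?_⟩
    show g * (g⁻¹ * x * g) * g⁻¹ = x
    group

/-- conjugating by an element of the normalizer -/
theorem conj_mem_iff_of_mem_normalizer {G : Type u} [Group G] {V : Subgroup G} {n : G}
    (hn : n ∈ Subgroup.normalizer (V : Set G)) (x : G) : n⁻¹ * x * n ∈ V ↔ x ∈ V := by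
  have h := Subgroup.mem_normalizer_iff.mp hn (n⁻¹ * x * n)
  have e : n * (n⁻¹ * x * n) * n⁻¹ = x := by group
  rw [e] at h
  exact h

theorem vconj {G : Type u} [Group G] [Finite G] (S : Sylow 2 G) (M K L T' K' L' : Subgroup G)
    (hR : Cfsg.Agent.H64.Jy.RCtx2 S M K L T' K' L') :
    (∀ g : G, ∀ a ∈ (omegaCenterOf (pCoreOf 2 L)).map (MulAut.conj g).toMonoidHom, a ≠ 1 →
      Subgroup.centralizer ({a} : Set G) ≤ Subgroup.normalizer
        (((omegaCenterOf (pCoreOf 2 L)).map (MulAut.conj g).toMonoidHom : Subgroup G) : Set G)) ∧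
    (∀ g h : G, (omegaCenterOf (pCoreOf 2 L)).map (MulAut.conj g).toMonoidHom ⊓
        (omegaCenterOf (pCoreOf 2 L)).map (MulAut.conj h).toMonoidHom ≠ ⊥ →
      (omegaCenterOf (pCoreOf 2 L)).map (MulAut.conj g).toMonoidHom =
        (omegaCenterOf (pCoreOf 2 L)).map (MulAut.conj h).toMonoidHom) := by
  obtain ⟨hB, hNS, hB', hne⟩ := hR
  obtain ⟨hc4, hexp, hNV, ⟨z0, hzV, hz01, hz0Z, hzQ', hZall, htr⟩, hCent, hTI⟩ :=
    Cfsg.Agent.H48.Jy.vfacts S M K L T' K' L' hB hNS hB' hne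
  constructor
  · intro g a ha ha1 c hc
    rw [mem_map_conj_iff] at ha
    have hu1 : g⁻¹ * a * g ≠ 1 := by
      intro h
      apply ha1
      have : a = g * (g⁻¹ * a * g) * g⁻¹ := by group
      rw [this, h]; group
    have hac : a * c = c * a := (Subgroup.mem_centralizer_iff.mp hc) a (Set.mem_singleton a)
    have hn : g⁻¹ * c * g ∈ Subgroup.normalizer (omegaCenterOf (pCoreOf 2 L) : Set G) := by
      rw [hNV]
      apply hCent _ ha hu1
      rw [Subgroup.mem_centralizer_iff]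
      intro t ht
      rw [Set.mem_singleton_iff] at ht
      subst ht
      calc g⁻¹ * a * g * (g⁻¹ * c * g) = g⁻¹ * (a * c) * g := by group
        _ = g⁻¹ * (c * a) * g := by rw [hac]
        _ = g⁻¹ * c * g * (g⁻¹ * a * g) := by group
    rw [Subgroup.mem_normalizer_iff]
    intro x
    rw [mem_map_conj_iff, mem_map_conj_iff]
    have h := Subgroup.mem_normalizer_iff.mp hn (g⁻¹ * x * g)
    have e : g⁻¹ * c * g * (g⁻¹ * x * g) * (g⁻¹ * c * g)⁻¹ = g⁻¹ * (c * x * c⁻¹) * g := by group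
    rw [e] at h
    exact h
  · intro g h hgh
    obtain ⟨a, ha1⟩ := (Subgroup.ne_bot_iff_exists_ne_one).mp hgh
    have ha1' : (a : G) ≠ 1 := fun h => ha1 (Subtype.ext h)
    have hag : g⁻¹ * (a : G) * g ∈ omegaCenterOf (pCoreOf 2 L) :=
      (mem_map_conj_iff _ g _).mp a.2.1
    have hah : h⁻¹ * (a : G) * h ∈ omegaCenterOf (pCoreOf 2 L) :=
      (mem_map_conj_iff _ h _).mp a.2.2
    have hu1 : g⁻¹ * (a : G) * g ≠ 1 := by
      intro h'
      apply ha1'
      have : (a : G) = g * (g⁻¹ * (a : G) * g) * g⁻¹ := by group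
      rw [this, h']; group
    -- `g⁻¹ h ∈ L = N(V)`
    have hnL : g⁻¹ * h ∈ L := by
      apply hTI
      intro hb
      apply hu1
      have hmem2 : g⁻¹ * (a : G) * g ∈
          (omegaCenterOf (pCoreOf 2 L)).map (MulAut.conj (g⁻¹ * h)).toMonoidHom := by
        rw [mem_map_conj_iff]
        have e : (g⁻¹ * h)⁻¹ * (g⁻¹ * (a : G) * g) * (g⁻¹ * h) = h⁻¹ * (a : G) * h := by group
        rw [e]; exact hah
      have hmem : g⁻¹ * (a : G) * g ∈ omegaCenterOf (pCoreOf 2 L) ⊓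
          (omegaCenterOf (pCoreOf 2 L)).map (MulAut.conj (g⁻¹ * h)).toMonoidHom :=
        Subgroup.mem_inf.mpr ⟨hag, hmem2⟩
      rw [hb] at hmem
      exact Subgroup.mem_bot.mp hmem
    have hn : g⁻¹ * h ∈ Subgroup.normalizer (omegaCenterOf (pCoreOf 2 L) : Set G) := by
      rw [hNV]; exact hnL
    ext x
    rw [mem_map_conj_iff, mem_map_conj_iff]
    have h1 := conj_mem_iff_of_mem_normalizer hn (g⁻¹ * x * g)
    have e : (g⁻¹ * h)⁻¹ * (g⁻¹ * x * g) * (g⁻¹ * h) = h⁻¹ * x * h := by group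
    rw [e] at h1
    exact h1.symm

end Cfsg.Agent.H48.Jx
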