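import Cfsg.Agent.H48.JxSV

set_option autoImplicit false

/-!
S2953 (kill of the residual situation): the facts on `z` for the glue of the case `V ⊄ Q₁`
(hypotheses `hzQ`, `hkz` of the abstract core `r1_out`): `z ∈ Q₁ = O₂(K' ⊔ T')`, and an element
outside `L` does not centralize `z`.
-/

open Cfsg

namespace Cfsg.Agent.H48.Jx

open Cfsg.Agent.H64.Jz

universe u

theorem zq {G : Type u} [Group G] [Finite G] (S : Sylow 2 G) (M K L T' K' L' : Subgroup G)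
    (hR : Cfsg.Agent.H64.Jy.RCtx2 S M K L T' K' L') (z : G)
    (hzZ : z ∈ omegaCenterOf (S : Subgroup G)) (hz1 : z ≠ 1) :
    z ∈ pCoreOf 2 (K' ⊔ T') ∧ (∀ k : G, k ∉ L → k * z * k⁻¹ ≠ z) ∧
    pCoreOf 2 L' ≤ pCoreOf 2 (K' ⊔ T') ∧ K' ⊔ T' ≤ L' ∧ T' ≤ (S : Subgroup G) ∧
    (S : Subgroup G) ≤ L ∧ ¬ K' ≤ L := by
  obtain ⟨hB, hNS, hB', hne⟩ := hR
  obtain ⟨hc4, hexp, hNV, ⟨z0, hzV, hz01, hz0Z, hzQ', hZall, htr⟩, hCent, hTI⟩ :=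
    Cfsg.Agent.H48.Jy.vfacts S M K L T' K' L' hB hNS hB' hne
  have hzz0 : z = z0 := by
    rcases hZall z hzZ with h | h
    · exact absurd h hz1
    · exact h
  subst hzz0
  obtain ⟨-, hSylT'⟩ := Cfsg.Agent.H61.Jk.base_facts S L T' K' L' hB'
  obtain ⟨-, hSylS⟩ := Cfsg.Agent.H61.Jk.base_facts S M (S : Subgroup G) K L hB
  have hT'S : T' ≤ (S : Subgroup G) := hB'.2.2.2.2.2.1
  have hK'L' : K' ≤ L' := le_sup_left.trans hB'.2.2.2.2.2.2.2.2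
  have hK'nL : ¬ K' ≤ L := hB'.2.2.2.2.2.2.1.2.1
  have hPL' : K' ⊔ T' ≤ L' := sup_le hK'L' hSylT'.1
  have hQ'T : pCoreOf 2 L' ≤ T' := Cfsg.Agent.Helper55.J48.pCoreOf_le_of_sylowIn hSylT'
  have hQQ : pCoreOf 2 L' ≤ pCoreOf 2 (K' ⊔ T') :=
    Cfsg.Agent.H31.X.H54.le_pCoreOf (hQ'T.trans le_sup_right)
      (hPL'.trans (Cfsg.Agent.H31.X.H54.le_normalizer_pCoreOf L'))
      (Cfsg.Agent.H53.pCoreOf_isPGroup 2 L')
  refine ⟨hQQ hzQ', ?_, hQQ, hPL', hT'S, hSylS.1, hK'nL⟩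
  intro k hk h
  apply hk
  apply hCent z hzV hz1
  rw [Subgroup.mem_centralizer_iff]
  intro t ht
  rw [Set.mem_singleton_iff] at ht
  subst ht
  calc t * k = (k * t * k⁻¹) * k := by rw [h]
    _ = k * t := by group

end Cfsg.Agent.H48.Jx
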