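-- JZ-KILL final wiring (helper59's text, post 10839), compiled and landed by helper48 as a spare copy.
import Cfsg.Agent.H59.JzKillDefs
import Cfsg.Agent.H36.JkExp
import Cfsg.Agent.H36.JkFix
import Cfsg.Agent.H61.JkBasic
import Cfsg.Agent.H12.JkNV
import Cfsg.Agent.H1.JkFour
import Cfsg.Agent.H94.JkCard
import Cfsg.Agent.H34.JkConj
import Cfsg.Agent.H52.SrMain
import Cfsg.Agent.H58.Q46.Final
set_option autoImplicit false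
open Cfsg
namespace Cfsg.Agent.H48.JzK
open Cfsg.Agent.H64.Jz Cfsg.Agent.H59.JzK
universe u
theorem kill (hZ2 : StZ2.{u}) (hLt : StLt.{u}) (hNorm : StNorm.{u}) : StKill.{u} :=
  have h46 : Cfsg.Agent.H34.Jk.St46.{u} := fun hL hN hZ T hT hT1 K hK Z₀ hZ₀ =>
    Cfsg.Agent.H58.Q46.s2946 hL hN hZ T hT hT1 K hK Z₀ hZ₀
  killAsm Cfsg.Agent.H36.Jk.kExp Cfsg.Agent.H12.Jk.kNV Cfsg.Agent.H94.JzK.kCard
    (Cfsg.Agent.H34.Jk.kCent Cfsg.Agent.H52.Sr.struct hZ2 h46 Cfsg.Agent.H36.Jk.kExp Cfsg.Agent.H12.Jk.kNV)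
    (Cfsg.Agent.H34.Jk.kTIfull Cfsg.Agent.H52.Sr.struct hZ2 h46 Cfsg.Agent.H36.Jk.kExp Cfsg.Agent.H12.Jk.kNV)
    Cfsg.Agent.H1.JzK.kFour Cfsg.Agent.H36.Jk.kFix Cfsg.Agent.H61.Jk.kZ Cfsg.Agent.H61.Jk.kBasic hLt hNorm
end Cfsg.Agent.H48.JzK

universe u in
example (hZ2 : Cfsg.Agent.H64.Jz.StZ2.{u}) (hLt : Cfsg.Agent.H64.Jz.StLt.{u})
    (hNorm : Cfsg.Agent.H64.Jz.StNorm.{u}) : Cfsg.Agent.H64.Jz.StKill.{u} :=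
  Cfsg.Agent.H48.JzK.kill hZ2 hLt hNorm
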