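import Cfsg.Agent.H48.JzSeTrans
import Cfsg.Agent.Helper55.UqBase

set_option autoImplicit false

/-!
(III.2a) of the JZ project (S2951 / S2952): a member `L` of the family `jOvergroups T`
(`T` Sylow in `L`, `J(T) ≰ O₂(L)`, `C_G(O₂(L)) ≤ O₂(L)`) is never strongly embedded:
a strongly embedded subgroup is transitive on its involutions, `O₂(L) ≠ 1` contains an
involution, so all involutions of `L` lie in `O₂(L)`, hence `J(T) ≤ O₂(L)`.
-/

open Cfsg

namespace Cfsg.Agent.H48.Jz

universe u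

/-- In a strongly embedded subgroup `L`, every normal subgroup `Q` of `L` (given as a subgroup
of `G` normalized by `L`) which contains an involution contains all elements of `L` of
square one. -/
theorem se_sq_mem {G : Type u} [Group G] [Finite G] {L Q : Subgroup G}
    (hse : IsStronglyEmbedded L) (hQL : Q ≤ L)
    (hnorm : L ≤ Subgroup.normalizer (Q : Set G))
    {z : G} (hz : orderOf z = 2) (hzQ : z ∈ Q) {x : G} (hxL : x ∈ L) (hx : x * x = 1) :
    x ∈ Q := by
  by_cases hx1 : x = 1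
  · rw [hx1]; exact Q.one_mem
  · have hxo : orderOf x = 2 := Cfsg.Agent.H26.orderOf_eq_two_of hx hx1
    obtain ⟨d, hd, hdz⟩ := se_trans hse hz (hQL hzQ) hxo hxL
    have hdn := hnorm hd
    rw [Subgroup.mem_normalizer_iff] at hdn
    rw [← hdz]
    exact (hdn z).mp hzQ

/-- **(III.2a)** A member of `jOvergroups T` is not strongly embedded. -/
theorem jOver_not_se {G : Type u} [Group G] [Finite G] (T L : Subgroup G)
    (hLT : L ∈ jOvergroups T) : ¬ IsStronglyEmbedded L := by
  intro hse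
  obtain ⟨⟨hTL, hT2, -⟩, hJ, hC⟩ := hLT
  have hQ2 : IsPGroup 2 ↥(pCoreOf 2 L) := Cfsg.Agent.Helper55.Uq.pCoreOf_isPGroup L
  have hQL : pCoreOf 2 L ≤ L := by
    unfold pCoreOf
    exact Subgroup.map_subtype_le _
  have hnorm : L ≤ Subgroup.normalizer (pCoreOf 2 L : Set G) :=
    Cfsg.Agent.Helper55.Uq.le_normalizer_pCoreOf' L
  -- `O₂(L) ≠ 1`
  have hQne : pCoreOf 2 L ≠ ⊥ := by
    intro hbot
    rw [hbot] at hC
    have htop : (⊤ : Subgroup G) ≤ ⊥ := by
      intro g _
      apply hC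
      rw [Subgroup.mem_centralizer_iff]
      intro y hy
      have hy1 : y = 1 := by simpa using hy
      rw [hy1]; simp
    have hLtop : L = ⊤ := by
      apply eq_top_iff.mpr
      intro g hg
      have : g ∈ (⊥ : Subgroup G) := htop hg
      rw [Subgroup.mem_bot] at this
      rw [this]; exact L.one_mem
    exact hse.1 hLtop
  -- an involution in `O₂(L)`
  obtain ⟨z, hz, hzQ⟩ : ∃ z : G, orderOf z = 2 ∧ z ∈ pCoreOf 2 L := by
    have : Fact (Nat.Prime 2) := ⟨Nat.prime_two⟩
    have hnt : Nontrivial ↥(pCoreOf 2 L) := (Subgroup.nontrivial_iff_ne_bot _).mpr hQne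
    obtain ⟨n, hn⟩ := IsPGroup.iff_card.mp hQ2
    have hn0 : n ≠ 0 := by
      intro h0
      rw [h0, pow_zero] at hn
      have := Finite.one_lt_card (α := ↥(pCoreOf 2 L))
      omega
    have hdvd : 2 ∣ Nat.card ↥(pCoreOf 2 L) := by
      rw [hn]; exact dvd_pow_self 2 hn0
    obtain ⟨y, hy⟩ := exists_prime_orderOf_dvd_card' 2 hdvd
    refine ⟨(y : G), ?_, y.2⟩
    rw [Subgroup.orderOf_coe]; exact hy
  -- every elementary abelian subgroup of `T` lies in `O₂(L)`
  apply hJ
  unfold thompsonSubgroupOf thompsonSubgroup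
  rw [Subgroup.map_le_iff_le_comap]
  apply sSup_le
  intro A hA a haA
  rw [Subgroup.mem_comap]
  have ha2 : (a : ↥T) ^ 2 = 1 := hA.1.2 a haA
  have ha2' : ((a : ↥T) : G) * ((a : ↥T) : G) = 1 := by
    have := congrArg (fun t : ↥T => (t : G)) ha2
    simpa [pow_two] using this
  exact se_sq_mem hse hQL hnorm hz hzQ (hTL a.2) ha2'

end Cfsg.Agent.H48.Jz
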