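import Cfsg.Agent.H48.NilClass2

set_option autoImplicit false

/-!
Helper lemmas (helper48): conjugacy classes of elements of order `p` in `GL_n` in
characteristic `p` correspond to the partitions of `n` with parts at most `p`, other than the
partition into ones.
-/

namespace Cfsg.Agent.H48

open Module

section Count

variable {F : Type*} [Field F]

theorem one_add_pow_char (p : ℕ) [Fact p.Prime] [CharP F p] (n : ℕ)
    (N : Matrix (Fin n) (Fin n) F) : (1 + N) ^ p = 1 + N ^ p := by
  rcases isEmpty_or_nonempty (Fin n) with h | h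
  · exact Subsingleton.elim _ _
  · rw [add_pow_char_of_commute p (Commute.one_left N), one_pow]

theorem orderOf_eq_prime_iff_sub_one (p : ℕ) [Fact p.Prime] [CharP F p] (n : ℕ)
    (g : GL (Fin n) F) :
    orderOf g = p ↔ ((g : Matrix (Fin n) (Fin n) F) - 1) ^ p = 0
      ∧ (g : Matrix (Fin n) (Fin n) F) - 1 ≠ 0 := by
  have hpow : ((g ^ p : GL (Fin n) F) : Matrix (Fin n) (Fin n) F)
      = 1 + ((g : Matrix (Fin n) (Fin n) F) - 1) ^ p := by
    rw [Units.val_pow_eq_pow_val, ← one_add_pow_char]
    congr 1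
    abel
  constructor
  · intro h
    have h1 : g ^ p = 1 := by rw [← h]; exact pow_orderOf_eq_one g
    have h2 : g ≠ 1 := by
      rintro rfl
      rw [orderOf_one] at h
      exact (Fact.out : p.Prime).one_lt.ne h
    constructor
    · have := hpow
      rw [h1, Units.val_one] at this
      exact add_eq_left.mp this.symm
    · intro h0
      apply h2
      apply Units.ext
      rw [Units.val_one]
      exact sub_eq_zero.mp h0
  · rintro ⟨h1, h2⟩
    apply orderOf_eq_prime
    · apply Units.ext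
      rw [hpow, h1, add_zero, Units.val_one]
    · intro h
      apply h2
      rw [h, Units.val_one, sub_self]

/-- The classes of elements of order `p` in `GL_n(F)`, `char F = p`, together with one extra
point, are in bijection with the partitions of `n` with all parts at most `p`. -/
theorem card_classes_order_p (p : ℕ) [Fact p.Prime] [CharP F p] (n : ℕ) :
    Nat.card {C : ConjClasses (GL (Fin n) F) //
        ∃ g : GL (Fin n) F, ConjClasses.mk g = C ∧ orderOf g = p} + 1
      = Nat.card {μ : Nat.Partition n // ∀ a ∈ μ.parts, a ≤ p} := by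
  classical
  let ones : Nat.Partition n := ⟨Multiset.replicate n 1,
    fun {i} hi => by rw [Multiset.eq_of_mem_replicate hi]; exact one_pos, by simp⟩
  have hones : ∀ a ∈ ones.parts, a ≤ p := fun a ha => by
    rw [Multiset.eq_of_mem_replicate ha]; exact (Fact.out : p.Prime).one_lt.le
  let onesP : {μ : Nat.Partition n // ∀ a ∈ μ.parts, a ≤ p} := ⟨ones, hones⟩
  have hex : ∀ μ : Nat.Partition n, ∃ N : Matrix (Fin n) (Fin n) F,
      ∀ k, finrank F (LinearMap.ker ((Matrix.toLin' N) ^ k)) = kap μ.parts k :=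
    fun μ => exists_matrix_of_sum n μ.parts μ.parts_sum
  choose Nm hNm using hex
  have hcard : Fintype.card (Fin n) = n := Fintype.card_fin n
  have hNp : ∀ μ : Nat.Partition n, (∀ a ∈ μ.parts, a ≤ p) → (Nm μ) ^ p = 0 := by
    intro μ hμ
    rw [matrix_pow_eq_zero_iff, hNm, kap_eq_sum_of_le _ _ hμ, μ.parts_sum, hcard]
  have hN0 : ∀ μ : Nat.Partition n, Nm μ = 0 → μ.parts = Multiset.replicate n 1 := by
    intro μ h0
    have h1 : (Nm μ) ^ 1 = 0 := by rw [h0, pow_one]
    rw [matrix_pow_eq_zero_iff, hNm, hcard] at h1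
    have hle := le_of_kap_eq_sum μ.parts 1 (by rw [h1, μ.parts_sum])
    have hall : ∀ b ∈ μ.parts, b = 1 := fun b hb => by
      have := hle b hb
      have := μ.parts_pos hb
      omega
    have hrep := Multiset.eq_replicate_card.mpr hall
    have hc : Multiset.card μ.parts = n := by
      have := μ.parts_sum
      rw [hrep, Multiset.sum_replicate, smul_eq_mul, mul_one] at this
      exact this
    rw [hrep, hc]
  let glOf : ∀ μ : Nat.Partition n, (∀ a ∈ μ.parts, a ≤ p) → GL (Fin n) F :=
    fun μ hμ => (IsNilpotent.isUnit_one_add ⟨p, hNp μ hμ⟩).unit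
  have hglOf : ∀ (μ : Nat.Partition n) (hμ : ∀ a ∈ μ.parts, a ≤ p),
      ((glOf μ hμ : GL (Fin n) F) : Matrix (Fin n) (Fin n) F) = 1 + Nm μ :=
    fun μ hμ => IsUnit.unit_spec _
  have hglsub : ∀ (μ : Nat.Partition n) (hμ : ∀ a ∈ μ.parts, a ≤ p),
      ((glOf μ hμ : GL (Fin n) F) : Matrix (Fin n) (Fin n) F) - 1 = Nm μ := by
    intro μ hμ
    rw [hglOf μ hμ, add_sub_cancel_left]
  let Ψ : {b : {μ : Nat.Partition n // ∀ a ∈ μ.parts, a ≤ p} // b ≠ onesP} →
      {C : ConjClasses (GL (Fin n) F) //
        ∃ g : GL (Fin n) F, ConjClasses.mk g = C ∧ orderOf g = p} :=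
    fun b => ⟨ConjClasses.mk (glOf b.1.1 b.1.2), glOf b.1.1 b.1.2, rfl, by
      rw [orderOf_eq_prime_iff_sub_one, hglsub b.1.1 b.1.2]
      refine ⟨hNp _ b.1.2, fun h0 => b.2 ?_⟩
      exact Subtype.ext (Nat.Partition.ext (hN0 _ h0))⟩
  have hΨ : Function.Bijective Ψ := by
    constructor
    · intro b b' h
      have h1 : ConjClasses.mk (glOf b.1.1 b.1.2) = ConjClasses.mk (glOf b'.1.1 b'.1.2) :=
        congrArg Subtype.val h
      rw [ConjClasses.mk_eq_mk_iff_isConj, isConj_iff] at h1
      obtain ⟨c, hc⟩ := h1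
      rw [mul_inv_eq_iff_eq_mul] at hc
      have hc' : (c : Matrix (Fin n) (Fin n) F) * (1 + Nm b.1.1)
          = (1 + Nm b'.1.1) * (c : Matrix (Fin n) (Fin n) F) := by
        have := congrArg (fun x : GL (Fin n) F => (x : Matrix (Fin n) (Fin n) F)) hc
        simp only [Units.val_mul] at this
        rw [hglOf b.1.1 b.1.2, hglOf b'.1.1 b'.1.2] at this
        exact this
      have hc'' : (c : Matrix (Fin n) (Fin n) F) * Nm b.1.1
          = Nm b'.1.1 * (c : Matrix (Fin n) (Fin n) F) := by
        rw [mul_add, add_mul, mul_one, one_mul] at hc'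
        exact add_left_cancel hc'
      have hk : ∀ k, kap b.1.1.parts k = kap b'.1.1.parts k := by
        intro k
        rw [← hNm, ← hNm]
        exact finrank_ker_pow_of_gl _ _ c hc'' k
      have := eq_of_kap_eq _ _ (fun a ha => b.1.1.parts_pos ha) (fun a ha => b'.1.1.parts_pos ha) hk
      exact Subtype.ext (Subtype.ext (Nat.Partition.ext this))
    · rintro ⟨C, g, rfl, hg⟩
      rw [orderOf_eq_prime_iff_sub_one] at hg
      obtain ⟨hgp, hg0⟩ := hg
      set N := (g : Matrix (Fin n) (Fin n) F) - 1 with hN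
      have hnil : IsNilpotent (Matrix.toLin' N) := ⟨p, by rw [← toLin'_pow', hgp, map_zero]⟩
      obtain ⟨μ₀, hpos₀, hker₀⟩ := exists_type (Matrix.toLin' N) hnil
      have hker : ∀ k, finrank F (LinearMap.ker ((Matrix.toLin' N) ^ k)) = kap μ₀ k := hker₀
      have hsum : μ₀.sum = n := by
        have h1 : N ^ (p + μ₀.sum) = 0 := by rw [pow_add, hgp, zero_mul]
        rw [matrix_pow_eq_zero_iff, hker, hcard,
          kap_eq_sum_of_le _ _ (fun a ha => le_trans (Multiset.le_sum_of_mem ha) (Nat.le_add_left _ _))] at h1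
        exact h1
      let μ : Nat.Partition n := ⟨μ₀, fun {i} hi => hpos₀ i hi, hsum⟩
      have hμp : ∀ a ∈ μ.parts, a ≤ p := by
        apply le_of_kap_eq_sum
        show kap μ₀ p = μ₀.sum
        rw [← hker, hsum]
        exact ((matrix_pow_eq_zero_iff N p).mp hgp).trans hcard
      have hμne : (⟨μ, hμp⟩ : {μ : Nat.Partition n // ∀ a ∈ μ.parts, a ≤ p}) ≠ onesP := by
        intro h
        have hparts : μ₀ = Multiset.replicate n 1 := congrArg (fun x => x.1.parts) h
        apply hg0
        have h1 : N ^ 1 = 0 := by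
          rw [matrix_pow_eq_zero_iff, hker, hcard, kap_eq_sum_of_le _ _ (fun a ha => by
            rw [hparts] at ha
            rw [Multiset.eq_of_mem_replicate ha]), hsum]
        rwa [pow_one] at h1
      refine ⟨⟨⟨μ, hμp⟩, hμne⟩, ?_⟩
      apply Subtype.ext
      show ConjClasses.mk (glOf μ hμp) = ConjClasses.mk g
      rw [ConjClasses.mk_eq_mk_iff_isConj, isConj_iff]
      have hkk : ∀ k, finrank F (LinearMap.ker ((Matrix.toLin' (Nm μ)) ^ k))
          = finrank F (LinearMap.ker ((Matrix.toLin' N) ^ k)) := by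
        intro k
        rw [hNm, hker]
      obtain ⟨c, hc⟩ := exists_gl_conj_of_finrank_ker (Nm μ) N ⟨p, hNp μ hμp⟩ ⟨p, hgp⟩ hkk
      refine ⟨c, ?_⟩
      rw [mul_inv_eq_iff_eq_mul]
      apply Units.ext
      rw [Units.val_mul, Units.val_mul, hglOf μ hμp]
      have hgN : (g : Matrix (Fin n) (Fin n) F) = 1 + N := by rw [hN]; abel
      rw [hgN, mul_add, add_mul, mul_one, one_mul, hc]
  have h1 : Nat.card {C : ConjClasses (GL (Fin n) F) //
        ∃ g : GL (Fin n) F, ConjClasses.mk g = C ∧ orderOf g = p}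
      = Nat.card {b : {μ : Nat.Partition n // ∀ a ∈ μ.parts, a ≤ p} // b ≠ onesP} :=
    (Nat.card_congr (Equiv.ofBijective Ψ hΨ)).symm
  rw [h1, ← Finite.card_option, Nat.card_congr (Equiv.optionSubtypeNe onesP)]

end Count

end Cfsg.Agent.H48
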