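import Mathlib
import Cfsg.Prelude.Def_Classical
import Cfsg.Agent.S0287
import Cfsg.Agent.S0250

set_option autoImplicit false
set_option linter.unusedSimpArgs false

/-!
Helper lemmas (helper48): the structure of `O⁺₄(2)`: the tensor decomposition `2 × 2` matrices
with the determinant as quadratic form.
-/

namespace Cfsg.Agent.H48

open Matrix

section
variable {R : Type*} [CommRing R]

/-- The swap matrix. -/
def swapM (R : Type*) [CommRing R] : Matrix (Fin 2) (Fin 2) R := !![0, 1; 1, 0]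

/-- Left multiplication by `P` on `2 × 2` matrices, in the coordinates `(a, b | d, c)`. -/
def lmM (P : Matrix (Fin 2) (Fin 2) R) : Matrix (Fin 2 ⊕ Fin 2) (Fin 2 ⊕ Fin 2) R :=
  Matrix.fromBlocks (P 0 0 • 1) (P 0 1 • swapM R) (P 1 0 • swapM R) (P 1 1 • 1)

/-- Right multiplication by the transpose of `P` on `2 × 2` matrices. -/
def rmM (P : Matrix (Fin 2) (Fin 2) R) : Matrix (Fin 2 ⊕ Fin 2) (Fin 2 ⊕ Fin 2) R :=
  Matrix.fromBlocks P 0 0 !![P 1 1, P 1 0; P 0 1, P 0 0]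

/-- Transposition of `2 × 2` matrices. -/
def tM (R : Type*) [CommRing R] : Matrix (Fin 2 ⊕ Fin 2) (Fin 2 ⊕ Fin 2) R :=
  Matrix.fromBlocks !![1, 0; 0, 0] !![0, 0; 0, 1] !![0, 0; 0, 1] !![1, 0; 0, 0]

theorem lmM_one : lmM (1 : Matrix (Fin 2) (Fin 2) R) = 1 := by
  ext i j
  rcases i with i | i <;> rcases j with j | j <;> fin_cases i <;> fin_cases j <;>
    simp [lmM, swapM, Matrix.one_apply]

theorem lmM_mul (P P' : Matrix (Fin 2) (Fin 2) R) : lmM (P * P') = lmM P * lmM P' := by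
  ext i j
  rcases i with i | i <;> rcases j with j | j <;> fin_cases i <;> fin_cases j <;>
    simp [lmM, swapM, Matrix.mul_apply, Fintype.sum_sum_type, Fin.sum_univ_two, Matrix.one_apply]

theorem rmM_one : rmM (1 : Matrix (Fin 2) (Fin 2) R) = 1 := by
  ext i j
  rcases i with i | i <;> rcases j with j | j <;> fin_cases i <;> fin_cases j <;>
    simp [rmM, swapM, Matrix.mul_apply, Fin.sum_univ_two, Matrix.one_apply]

theorem rmM_mul (P P' : Matrix (Fin 2) (Fin 2) R) : rmM (P * P') = rmM P * rmM P' := by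
  ext i j
  rcases i with i | i <;> rcases j with j | j <;> fin_cases i <;> fin_cases j <;>
    simp [rmM, swapM, Matrix.mul_apply, Fintype.sum_sum_type, Fin.sum_univ_two, Matrix.one_apply]
      <;> ring

theorem lmM_rmM_comm (P P' : Matrix (Fin 2) (Fin 2) R) : lmM P * rmM P' = rmM P' * lmM P := by
  ext i j
  rcases i with i | i <;> rcases j with j | j <;> fin_cases i <;> fin_cases j <;>
    simp [lmM, rmM, swapM, Matrix.mul_apply, Fintype.sum_sum_type, Fin.sum_univ_two,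
      Matrix.one_apply] <;> ring

theorem tM_mul_self : tM R * tM R = 1 := by
  ext i j
  rcases i with i | i <;> rcases j with j | j <;> fin_cases i <;> fin_cases j <;>
    simp [tM, Matrix.mul_apply, Fintype.sum_sum_type, Fin.sum_univ_two, Matrix.one_apply]

theorem tM_lmM (P : Matrix (Fin 2) (Fin 2) R) : tM R * lmM P = rmM P * tM R := by
  ext i j
  rcases i with i | i <;> rcases j with j | j <;> fin_cases i <;> fin_cases j <;>
    simp [tM, lmM, rmM, swapM, Matrix.mul_apply, Fintype.sum_sum_type, Fin.sum_univ_two,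
      Matrix.one_apply]

theorem lmM_injective : Function.Injective (lmM : Matrix (Fin 2) (Fin 2) R → _) := by
  intro P P' h
  have h1 := Matrix.fromBlocks_inj.mp h
  ext i j
  fin_cases i <;> fin_cases j
  · have := congrFun (congrFun h1.1 0) 0
    simpa using this
  · have := congrFun (congrFun h1.2.1 0) 1
    simpa [swapM] using this
  · have := congrFun (congrFun h1.2.2.1 0) 1
    simpa [swapM] using this
  · have := congrFun (congrFun h1.2.2.2 0) 0
    simpa using this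

theorem rmM_injective : Function.Injective (rmM : Matrix (Fin 2) (Fin 2) R → _) := by
  intro P P' h
  exact (Matrix.fromBlocks_inj.mp h).1

theorem lmM_eq_rmM (P P' : Matrix (Fin 2) (Fin 2) R) (h : lmM P = rmM P') :
    P 0 1 = 0 ∧ P 1 0 = 0 := by
  have h1 := Matrix.fromBlocks_inj.mp h
  constructor
  · have := congrFun (congrFun h1.2.1 0) 1
    simpa [swapM] using this
  · have := congrFun (congrFun h1.2.2.1 0) 1
    simpa [swapM] using this

end

section
variable {F : Type*} [Field F]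

theorem quadFormPlus_two (x : Fin 2 ⊕ Fin 2 → F) :
    Cfsg.quadFormPlus 2 F x = x (Sum.inl 0) * x (Sum.inr 0) + x (Sum.inl 1) * x (Sum.inr 1) := by
  unfold Cfsg.quadFormPlus
  rw [Fin.sum_univ_two]

theorem quad_lmM (h2 : (2 : F) = 0) (P : Matrix (Fin 2) (Fin 2) F) (x : Fin 2 ⊕ Fin 2 → F) :
    Cfsg.quadFormPlus 2 F (lmM P *ᵥ x) = P.det * Cfsg.quadFormPlus 2 F x := by
  rw [quadFormPlus_two, quadFormPlus_two, Matrix.det_fin_two]
  simp [lmM, swapM, Matrix.fromBlocks_mulVec, Matrix.mulVec, dotProduct, Fin.sum_univ_two,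
    Matrix.one_apply]
  linear_combination (P 0 0 * P 1 0 * x (Sum.inl 0) * x (Sum.inl 1) +
    P 0 1 * P 1 1 * x (Sum.inr 1) * x (Sum.inr 0) +
    P 0 1 * P 1 0 * x (Sum.inl 0) * x (Sum.inr 0) +
    P 0 1 * P 1 0 * x (Sum.inl 1) * x (Sum.inr 1)) * h2

theorem quad_rmM (h2 : (2 : F) = 0) (P : Matrix (Fin 2) (Fin 2) F) (x : Fin 2 ⊕ Fin 2 → F) :
    Cfsg.quadFormPlus 2 F (rmM P *ᵥ x) = P.det * Cfsg.quadFormPlus 2 F x := by
  rw [quadFormPlus_two, quadFormPlus_two, Matrix.det_fin_two]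
  simp [rmM, swapM, Matrix.fromBlocks_mulVec, Matrix.mulVec, dotProduct, Fin.sum_univ_two,
    Matrix.one_apply, Matrix.mul_apply]
  linear_combination (P 0 0 * P 1 0 * x (Sum.inl 0) * x (Sum.inr 1) +
    P 0 1 * P 1 1 * x (Sum.inl 1) * x (Sum.inr 0) +
    P 0 1 * P 1 0 * x (Sum.inl 0) * x (Sum.inr 0) +
    P 0 1 * P 1 0 * x (Sum.inl 1) * x (Sum.inr 1)) * h2

theorem quad_tM (x : Fin 2 ⊕ Fin 2 → F) :
    Cfsg.quadFormPlus 2 F (tM F *ᵥ x) = Cfsg.quadFormPlus 2 F x := by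
  rw [quadFormPlus_two, quadFormPlus_two]
  simp [tM, Matrix.fromBlocks_mulVec, Matrix.mulVec, dotProduct, Fin.sum_univ_two]
  ring

end

section group

theorem two_eq_zero_zmod2 : (2 : ZMod 2) = 0 := by decide

/-- Left multiplications as matrices. -/
def lamMat : Matrix.SpecialLinearGroup (Fin 2) (ZMod 2) →*
    Matrix (Fin 2 ⊕ Fin 2) (Fin 2 ⊕ Fin 2) (ZMod 2) where
  toFun P := lmM (P : Matrix (Fin 2) (Fin 2) (ZMod 2))
  map_one' := lmM_one
  map_mul' P P' := by rw [Matrix.SpecialLinearGroup.coe_mul, lmM_mul]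

/-- Right multiplications as matrices. -/
def rhoMat : Matrix.SpecialLinearGroup (Fin 2) (ZMod 2) →*
    Matrix (Fin 2 ⊕ Fin 2) (Fin 2 ⊕ Fin 2) (ZMod 2) where
  toFun P := rmM (P : Matrix (Fin 2) (Fin 2) (ZMod 2))
  map_one' := rmM_one
  map_mul' P P' := by rw [Matrix.SpecialLinearGroup.coe_mul, rmM_mul]

/-- Left multiplications as isometries. -/
noncomputable def lamHom : Matrix.SpecialLinearGroup (Fin 2) (ZMod 2) →*
    ↥(Cfsg.isometryGroup (ZMod 2) (Cfsg.quadFormPlus 2 (ZMod 2))) :=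
  MonoidHom.codRestrict lamMat.toHomUnits _ (by
    intro P u v
    show Cfsg.quadFormPlus 2 (ZMod 2) (lmM (P : Matrix (Fin 2) (Fin 2) (ZMod 2)) *ᵥ u) =
      Cfsg.quadFormPlus 2 (ZMod 2) u
    rw [quad_lmM two_eq_zero_zmod2, P.2, one_mul])

/-- Right multiplications as isometries. -/
noncomputable def rhoHom : Matrix.SpecialLinearGroup (Fin 2) (ZMod 2) →*
    ↥(Cfsg.isometryGroup (ZMod 2) (Cfsg.quadFormPlus 2 (ZMod 2))) :=
  MonoidHom.codRestrict rhoMat.toHomUnits _ (by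
    intro P u v
    show Cfsg.quadFormPlus 2 (ZMod 2) (rmM (P : Matrix (Fin 2) (Fin 2) (ZMod 2)) *ᵥ u) =
      Cfsg.quadFormPlus 2 (ZMod 2) u
    rw [quad_rmM two_eq_zero_zmod2, P.2, one_mul])

theorem lamHom_val (P : Matrix.SpecialLinearGroup (Fin 2) (ZMod 2)) :
    (((lamHom P : ↥(Cfsg.isometryGroup (ZMod 2) (Cfsg.quadFormPlus 2 (ZMod 2)))) :
      GL (Fin 2 ⊕ Fin 2) (ZMod 2)) : Matrix (Fin 2 ⊕ Fin 2) (Fin 2 ⊕ Fin 2) (ZMod 2)) =
      lmM (P : Matrix (Fin 2) (Fin 2) (ZMod 2)) := rfl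

theorem rhoHom_val (P : Matrix.SpecialLinearGroup (Fin 2) (ZMod 2)) :
    (((rhoHom P : ↥(Cfsg.isometryGroup (ZMod 2) (Cfsg.quadFormPlus 2 (ZMod 2)))) :
      GL (Fin 2 ⊕ Fin 2) (ZMod 2)) : Matrix (Fin 2 ⊕ Fin 2) (Fin 2 ⊕ Fin 2) (ZMod 2)) =
      rmM (P : Matrix (Fin 2) (Fin 2) (ZMod 2)) := rfl

/-- `O⁺₄(2)` has order 72 and contains two commuting copies of `Sym 3`, meeting trivially, of
joint index two, swapped by a conjugation. -/
theorem o4plus_structure :
    Nat.card ↥(Cfsg.isometryGroup (ZMod 2) (Cfsg.quadFormPlus 2 (ZMod 2))) = 72 ∧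
    ∃ (A B : Subgroup ↥(Cfsg.isometryGroup (ZMod 2) (Cfsg.quadFormPlus 2 (ZMod 2)))),
      Nonempty (↥A ≃* Equiv.Perm (Fin 3)) ∧ Nonempty (↥B ≃* Equiv.Perm (Fin 3)) ∧ A ⊓ B = ⊥ ∧
      (∀ a ∈ A, ∀ b ∈ B, a * b = b * a) ∧
      (A ⊔ B).index = 2 ∧
      ∃ g : ↥(Cfsg.isometryGroup (ZMod 2) (Cfsg.quadFormPlus 2 (ZMod 2))),
        A.map (MulAut.conj g).toMonoidHom = B := by
  classical
  have hcard : Nat.card ↥(Cfsg.isometryGroup (ZMod 2) (Cfsg.quadFormPlus 2 (ZMod 2))) = 72 := by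
    rw [Cfsg.Agent.S0287.result (F := ZMod 2) (q := 2) rfl 2 (by norm_num)]
    decide
  obtain ⟨ψ⟩ := Cfsg.Agent.S0250.result (F := ZMod 2) rfl
  have hlam_inj : Function.Injective lamHom := by
    intro P P' h
    have h1 : lmM (P : Matrix (Fin 2) (Fin 2) (ZMod 2)) = lmM (P' : Matrix (Fin 2) (Fin 2) (ZMod 2)) := by
      rw [← lamHom_val, ← lamHom_val, h]
    exact Subtype.ext (lmM_injective h1)
  have hrho_inj : Function.Injective rhoHom := by
    intro P P' h
    have h1 : rmM (P : Matrix (Fin 2) (Fin 2) (ZMod 2)) = rmM (P' : Matrix (Fin 2) (Fin 2) (ZMod 2)) := by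
      rw [← rhoHom_val, ← rhoHom_val, h]
    exact Subtype.ext (rmM_injective h1)
  have hcomm : ∀ P P', Commute (lamHom P) (rhoHom P') := by
    intro P P'
    apply Subtype.ext
    apply Units.ext
    exact lmM_rmM_comm _ _
  have hdisj : ∀ P P', lamHom P = rhoHom P' → P = 1 := by
    intro P P' h
    have h1 : lmM (P : Matrix (Fin 2) (Fin 2) (ZMod 2)) = rmM (P' : Matrix (Fin 2) (Fin 2) (ZMod 2)) := by
      rw [← lamHom_val, ← rhoHom_val, h]
    obtain ⟨h01, h10⟩ := lmM_eq_rmM _ _ h1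
    have hdet := P.2
    rw [Matrix.det_fin_two, h01, h10] at hdet
    have key : ∀ a b : ZMod 2, a * b - 0 * 0 = 1 → a = 1 ∧ b = 1 := by decide
    obtain ⟨h00, h11⟩ := key _ _ hdet
    apply Subtype.ext
    ext i j
    fin_cases i <;> fin_cases j
    · exact h00
    · exact h01
    · exact h10
    · exact h11
  let g0 : GL (Fin 2 ⊕ Fin 2) (ZMod 2) := ⟨tM (ZMod 2), tM (ZMod 2), tM_mul_self, tM_mul_self⟩
  have hg0 : g0 ∈ Cfsg.isometryGroup (ZMod 2) (Cfsg.quadFormPlus 2 (ZMod 2)) :=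
    fun u _ => quad_tM u
  let g : ↥(Cfsg.isometryGroup (ZMod 2) (Cfsg.quadFormPlus 2 (ZMod 2))) := ⟨g0, hg0⟩
  have hconj : ∀ P, g * lamHom P * g⁻¹ = rhoHom P := by
    intro P
    rw [mul_inv_eq_iff_eq_mul]
    apply Subtype.ext
    apply Units.ext
    exact tM_lmM _
  have hinf : lamHom.range ⊓ rhoHom.range = ⊥ := by
    rw [eq_bot_iff]
    rintro x ⟨⟨P, rfl⟩, ⟨P', hP'⟩⟩
    have h1 := hdisj P P' hP'.symm
    rw [h1, map_one]
    exact Subgroup.mem_bot.mpr rfl
  refine ⟨hcard, lamHom.range, rhoHom.range,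
    ⟨(MonoidHom.ofInjective hlam_inj).symm.trans ψ⟩,
    ⟨(MonoidHom.ofInjective hrho_inj).symm.trans ψ⟩, hinf, ?_, ?_, g, ?_⟩
  · rintro _ ⟨P, rfl⟩ _ ⟨P', rfl⟩
    exact hcomm P P'
  · have hdisj' : Disjoint lamHom.range rhoHom.range := disjoint_iff.mpr hinf
    have hinj := (MonoidHom.noncommCoprod_injective lamHom rhoHom hcomm).mpr
      ⟨hlam_inj, hrho_inj, hdisj'⟩
    have hrange := MonoidHom.noncommCoprod_range lamHom rhoHom hcomm
    have hc : Nat.card ↥(lamHom.range ⊔ rhoHom.range) = 36 := by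
      rw [← hrange, ← Nat.card_congr (MonoidHom.ofInjective hinj).toEquiv, Nat.card_prod,
        Nat.card_congr ψ.toEquiv, Nat.card_eq_fintype_card, Fintype.card_perm, Fintype.card_fin]
      decide
    have h1 := Subgroup.index_mul_card (lamHom.range ⊔ rhoHom.range)
    rw [hc, hcard] at h1
    omega
  · rw [MonoidHom.map_range]
    congr 1
    ext P : 1
    exact hconj P

end group

end Cfsg.Agent.H48
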