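import Cfsg.Agent.H49.StdBasis
import Cfsg.Agent.H49.Isom
import Cfsg.Agent.H49.MinusForm

/-!
# Anisotropic planes over a finite field are all isometric: normal form with prescribed parameter
-/

set_option autoImplicit false

namespace Cfsg.Agent.H48

open QuadraticMap

section AS

variable {F : Type*} [Field F] [Fintype F]

/-- Two irreducible polynomials `t ^ 2 + t + ζ`, `t ^ 2 + t + ζ₀` over a finite field differ by
the substitution `t ↦ s + u t` up to the factor `u ^ 2`. -/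
theorem exists_adjust (ζ ζ₀ : F) (hζ : ∀ t : F, t ^ 2 + t + ζ ≠ 0)
    (hζ₀ : ∀ t : F, t ^ 2 + t + ζ₀ ≠ 0) :
    ∃ s u : F, 2 * s + u = 1 ∧ s ^ 2 + s * u + ζ₀ * u ^ 2 = ζ := by
  classical
  by_cases h2 : (2 : F) = 0
  · let φ : F →+ F :=
      { toFun := fun t => t ^ 2 + t
        map_zero' := by simp
        map_add' := fun s t => by linear_combination (s * t) * h2 }
    have hφ : ∀ t, φ t = t ^ 2 + t := fun t => rfl
    have hker : Nat.card φ.ker = 2 := by
      rw [Nat.card_eq_two_iff]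
      have h0 : (0 : F) ∈ φ.ker := by
        rw [AddMonoidHom.mem_ker, hφ]
        simp
      have h1 : (1 : F) ∈ φ.ker := by
        rw [AddMonoidHom.mem_ker, hφ]
        linear_combination h2
      refine ⟨⟨0, h0⟩, ⟨1, h1⟩, ?_, ?_⟩
      · intro h
        have := congrArg Subtype.val h
        exact zero_ne_one this
      · ext ⟨t, ht⟩
        simp only [Set.mem_insert_iff, Set.mem_singleton_iff, Set.mem_univ, iff_true,
          Subtype.mk.injEq]
        rw [AddMonoidHom.mem_ker, hφ] at ht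
        have h3 : t * (t + 1) = 0 := by linear_combination ht
        rcases mul_eq_zero.mp h3 with h4 | h4
        · left
          exact h4
        · right
          linear_combination h4 - h2
    have hidx : φ.range.index = 2 := by
      rw [AddSubgroup.index_range, hker]
    have hm1 : ζ ∉ φ.range := by
      rintro ⟨t, ht⟩
      apply hζ t
      rw [hφ] at ht
      linear_combination ht + ζ * h2
    have hm2 : ζ₀ ∉ φ.range := by
      rintro ⟨t, ht⟩
      apply hζ₀ t
      rw [hφ] at ht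
      linear_combination ht + ζ₀ * h2
    have hm3 : ζ + ζ₀ ∈ φ.range :=
      (AddSubgroup.add_mem_iff_of_index_two hidx).mpr (iff_of_false hm1 hm2)
    obtain ⟨s, hs⟩ := hm3
    rw [hφ] at hs
    refine ⟨s, 1, by linear_combination s * h2, ?_⟩
    linear_combination hs + ζ₀ * h2
  · have hD := Cfsg.Agent.H49.not_isSquare_of_no_root h2 hζ
    have hD₀ := Cfsg.Agent.H49.not_isSquare_of_no_root h2 hζ₀
    have hD0 : (1 - 4 * ζ₀) ≠ 0 := by
      intro h
      apply hD₀
      rw [h]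
      exact ⟨0, by ring⟩
    have hDn : (1 - 4 * ζ) ≠ 0 := by
      intro h
      apply hD
      rw [h]
      exact ⟨0, by ring⟩
    have hx0 : (1 - 4 * ζ) / (1 - 4 * ζ₀) ≠ 0 := div_ne_zero hDn hD0
    have hsq : IsSquare ((1 - 4 * ζ) / (1 - 4 * ζ₀)) := by
      by_contra hns
      apply hD
      have h3 := (Cfsg.Agent.H49.isSquare_mul_nonsquare_iff hx0 hD₀).mpr hns
      rw [div_mul_cancel₀ _ hD0] at h3
      exact h3
    obtain ⟨u, hu⟩ := hsq
    have hu' : u * u * (1 - 4 * ζ₀) = 1 - 4 * ζ := by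
      rw [← hu, div_mul_cancel₀ _ hD0]
    refine ⟨(1 - u) / 2, u, ?_, ?_⟩
    · field_simp
      ring
    · field_simp
      linear_combination (-1 : F) * hu'

/-- In an anisotropic plane `z₁² + a z₁ z₂ + c z₂²` over a finite field there are vectors `x`,
`y` with `Q x = 1`, `B(x, y) = 1`, `Q y = ζ` for any prescribed `ζ` with `t² + t + ζ`
irreducible. -/
theorem exists_plane_vectors (a c : F)
    (hac : ∀ z₁ z₂ : F, z₁ ^ 2 + a * z₁ * z₂ + c * z₂ ^ 2 = 0 → z₁ = 0 ∧ z₂ = 0)
    (hd : a ^ 2 - 4 * c ≠ 0) (ζ : F) (hζ : ∀ t : F, t ^ 2 + t + ζ ≠ 0) :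
    ∃ x y : Fin 2 → F, Cfsg.Agent.H49.binQ a c x = 1 ∧ Cfsg.Agent.H49.binQ a c y = ζ ∧
      polar (⇑(Cfsg.Agent.H49.binQ a c)) x y = 1 := by
  classical
  have h5 : ∀ v ∈ (⊤ : Submodule F (Fin 2 → F)), Cfsg.Agent.H49.binQ a c v = 0 → v = 0 := by
    intro v _ hv
    rw [Cfsg.Agent.H49.binQ_apply] at hv
    obtain ⟨h0, h1⟩ := hac _ _ hv
    funext k
    fin_cases k
    · exact h0
    · exact h1
  have hnd := Cfsg.Agent.H49.binQ_nondeg a c hd
  have h6 : ∀ v ∈ (⊤ : Submodule F (Fin 2 → F)),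
      (∀ w ∈ (⊤ : Submodule F (Fin 2 → F)),
        polar (⇑(Cfsg.Agent.H49.binQ a c)) v w = 0) → v = 0 := by
    intro v _ hv
    exact hnd.1 v (fun w => hv w Submodule.mem_top)
  have hW : Module.finrank F (⊤ : Submodule F (Fin 2 → F)) = 2 := by
    rw [finrank_top, Module.finrank_fin_fun]
  obtain ⟨x, -, y₀, -, hx, hxy, hy₀⟩ :=
    Cfsg.Agent.H49.anisotropic_plane (Cfsg.Agent.H49.binQ a c) ⊤ h5 h6 hW
  obtain ⟨s, u, hsu, hsu2⟩ := exists_adjust ζ _ hζ hy₀
  refine ⟨x, s • x + u • y₀, hx, ?_, ?_⟩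
  · rw [Cfsg.Agent.H49.Q_lin2, hx, hxy]
    linear_combination hsu2
  · rw [polar_add_right, polar_smul_right, polar_smul_right, hxy,
      Cfsg.Agent.H49.quad_polar_self, hx, smul_eq_mul, smul_eq_mul]
    linear_combination hsu

end AS

end Cfsg.Agent.H48
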