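import Cfsg.Agent.H48.OrthReal

/-!
# Counting lemmas for the classes of prime order in the orthogonal groups
-/

set_option autoImplicit false

namespace Cfsg.Agent.H48

section OrthCountSec

/-- Pascal's rule in the truncated form used by the class counts. -/
theorem choose_pascal_sub (K c : ℕ) (hK : 1 ≤ K) (hc : 1 ≤ c) :
    (K - 1 + c).choose c - 1 = (K + c).choose c - 1 - (K + c - 1).choose (c - 1) := by
  obtain ⟨K', rfl⟩ := Nat.exists_eq_add_of_le' hK
  obtain ⟨c', rfl⟩ := Nat.exists_eq_add_of_le' hc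
  have h1 : (K' + 1 + (c' + 1)).choose (c' + 1)
      = (K' + 1 + c').choose c' + (K' + 1 + c').choose (c' + 1) := by
    rw [← add_assoc, Nat.choose_succ_succ']
  have e1 : K' + 1 - 1 + (c' + 1) = K' + 1 + c' := by omega
  have e2 : K' + 1 + (c' + 1) - 1 = K' + 1 + c' := by omega
  have e3 : c' + 1 - 1 = c' := by omega
  rw [e1, e2, e3, h1]
  omega

/-- Half the (even) order of `x` gives `-1`. -/
theorem pow_half_order (r : ℕ) [Fact r.Prime] (x : ZMod r) (i : ℕ) (hi : i = orderOf x)
    (hi0 : 0 < i) (hie : Even i) : x ^ (i / 2) = -1 := by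
  obtain ⟨j, hj⟩ := hie
  have hj2 : i / 2 = j := by omega
  rw [hj2]
  have h1 : x ^ j * x ^ j = 1 := by
    rw [← pow_add, ← hj, hi]
    exact pow_orderOf_eq_one x
  rcases mul_self_eq_one_iff.mp h1 with h | h
  · exfalso
    have h2 := orderOf_dvd_of_pow_eq_one h
    rw [← hi] at h2
    have h3 := Nat.le_of_dvd (by omega) h2
    omega
  · exact h

/-- For `x` of even order `i` and `i * K = 2 * m`: `x ^ m = (-1) ^ K`. -/
theorem pow_of_even_order (r : ℕ) [Fact r.Prime] (x : ZMod r) (i : ℕ) (hi : i = orderOf x)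
    (hi0 : 0 < i) (hie : Even i) (m K : ℕ) (hK : i * K = 2 * m) : x ^ m = (-1) ^ K := by
  have h := pow_half_order r x i hi hi0 hie
  obtain ⟨j, hj⟩ := hie
  have hj2 : i / 2 = j := by omega
  rw [hj2] at h
  have hm : m = j * K := by
    have : (j + j) * K = 2 * m := by rw [← hj]; exact hK
    have h3 : 2 * (j * K) = 2 * m := by rw [← this]; ring
    omega
  rw [hm, pow_mul, h]

/-- For `x` of odd order `i`: `x ^ m ≠ -1` (odd prime modulus). -/
theorem pow_ne_neg_one_of_odd_order (r : ℕ) [Fact r.Prime] (hr2 : r ≠ 2) (x : ZMod r) (i : ℕ)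
    (hi : i = orderOf x) (hio : Odd i) (m : ℕ) : x ^ m ≠ -1 := by
  intro h
  have h2 : x ^ (2 * m) = 1 := by
    rw [mul_comm, pow_mul, h]
    simp
  have h3 := orderOf_dvd_of_pow_eq_one h2
  rw [← hi] at h3
  have h4 : i ∣ m := (Nat.Coprime.dvd_of_dvd_mul_left (Nat.coprime_two_right.mpr hio) h3)
  rw [hi] at h4
  have h5 := orderOf_dvd_iff_pow_eq_one.mp h4
  rw [h5] at h
  exact one_ne_neg_one_zmod r Fact.out hr2 h

/-- Counting non-zero tuples of bounded weighted sum, with the tuples filling everything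
excluded when `bad` holds. -/
theorem card_tuples_excl (α : Type*) [Fintype α] [DecidableEq α] (i N : ℕ) (hi : 0 < i)
    (hN : 0 < N) (hα : 0 < Fintype.card α) (bad : Prop) [Decidable bad] :
    Nat.card {a : α → ℕ // a ≠ 0 ∧ i * ∑ x, a x ≤ N ∧ (i * ∑ x, a x = N → ¬ bad)}
      = (N / i + Fintype.card α).choose (Fintype.card α) - 1
        - (if i ∣ N ∧ bad then (N / i + Fintype.card α - 1).choose (Fintype.card α - 1)
            else 0) := by
  by_cases h : i ∣ N ∧ bad
  · rw [if_pos h]
    obtain ⟨⟨K, hK⟩, hb⟩ := h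
    have hK1 : 1 ≤ K := by
      rcases Nat.eq_zero_or_pos K with h0 | h0
      · rw [h0, mul_zero] at hK
        omega
      · exact h0
    have hdiv : N / i = K := by
      rw [hK]
      exact Nat.mul_div_cancel_left K hi
    rw [hdiv, ← choose_pascal_sub K _ hK1 hα, ← card_sum_le_ne_zero α (K - 1)]
    apply Nat.card_congr
    apply Equiv.subtypeEquivRight
    intro a
    constructor
    · rintro ⟨h1, h2, h3⟩
      refine ⟨h1, ?_⟩
      have h4 : i * ∑ x, a x ≠ N := fun h => h3 h hb
      have h5 : i * ∑ x, a x < i * K := by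
        rw [← hK]
        omega
      have h6 := Nat.lt_of_mul_lt_mul_left h5
      omega
    · rintro ⟨h1, h2⟩
      have h5 : i * ∑ x, a x < i * K := by
        apply Nat.mul_lt_mul_of_pos_left _ hi
        omega
      rw [← hK] at h5
      exact ⟨h1, h5.le, fun h6 => absurd h6 h5.ne⟩
  · rw [if_neg h, Nat.sub_zero, ← card_sum_le_ne_zero α (N / i)]
    apply Nat.card_congr
    apply Equiv.subtypeEquivRight
    intro a
    rw [Nat.le_div_iff_mul_le hi]
    constructor
    · rintro ⟨h1, h2, -⟩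
      exact ⟨h1, by rw [mul_comm]; exact h2⟩
    · rintro ⟨h1, h2⟩
      rw [mul_comm] at h2
      exact ⟨h1, h2, fun h3 hb => h ⟨⟨_, h3.symm⟩, hb⟩⟩

end OrthCountSec

end Cfsg.Agent.H48
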