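import Cfsg.Agent.H48.OrthAS
import Cfsg.Agent.H49.SimpleForms

/-!
# Isometric embeddings of standard quadratic spaces: hyperbolic frames
-/

set_option autoImplicit false

namespace Cfsg.Agent.H48

open QuadraticMap

section Frames

variable {F : Type*} [Field F] {V : Type*} [AddCommGroup V] [Module F V]

/-- `n` mutually orthogonal hyperbolic pairs. -/
structure IsFrame (Q : QuadraticForm F V) {n : ℕ} (e f : Fin n → V) : Prop where
  Qe : ∀ j, Q (e j) = 0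
  Qf : ∀ j, Q (f j) = 0
  ef : ∀ j k, polar (⇑Q) (e j) (f k) = if j = k then 1 else 0
  ee : ∀ j k, polar (⇑Q) (e j) (e k) = 0
  ff : ∀ j k, polar (⇑Q) (f j) (f k) = 0

theorem IsFrame.fe {Q : QuadraticForm F V} {n : ℕ} {e f : Fin n → V} (h : IsFrame Q e f)
    (j k : Fin n) : polar (⇑Q) (f j) (e k) = if j = k then 1 else 0 := by
  rw [polar_comm, h.ef]
  simp only [eq_comm]

theorem IsFrame.comp {Q : QuadraticForm F V} {n k : ℕ} {e f : Fin n → V} (h : IsFrame Q e f)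
    (s : Fin k → Fin n) (hs : Function.Injective s) : IsFrame Q (e ∘ s) (f ∘ s) where
  Qe j := h.Qe _
  Qf j := h.Qf _
  ef j l := by
    show polar (⇑Q) (e (s j)) (f (s l)) = _
    rw [h.ef]
    simp only [hs.eq_iff]
  ee j l := h.ee _ _
  ff j l := h.ff _ _

theorem IsFrame.map {V' : Type*} [AddCommGroup V'] [Module F V'] {Q' : QuadraticForm F V'}
    {Q : QuadraticForm F V} (ψ : V' →ₗ[F] V) (hψ : ∀ x, Q (ψ x) = Q' x) {n : ℕ}
    {e f : Fin n → V'} (h : IsFrame Q' e f) : IsFrame Q (ψ ∘ e) (ψ ∘ f) := by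
  have hp : ∀ x y, polar (⇑Q) (ψ x) (ψ y) = polar (⇑Q') x y := by
    intro x y
    simp only [polar, ← map_add, hψ]
  exact ⟨fun j => (hψ _).trans (h.Qe j), fun j => (hψ _).trans (h.Qf j),
    fun j k => (hp _ _).trans (h.ef j k), fun j k => (hp _ _).trans (h.ee j k),
    fun j k => (hp _ _).trans (h.ff j k)⟩

/-- A space with a hyperbolic basis embeds isometrically along a frame. -/
theorem embed_of_plus_basis {V₁ : Type*} [AddCommGroup V₁] [Module F V₁]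
    (Q₁ : QuadraticForm F V₁) (Q : QuadraticForm F V) {M : ℕ}
    (b : Module.Basis (Fin M ⊕ Fin M) F V₁)
    (h1 : ∀ i, Q₁ (b (Sum.inl i)) = 0 ∧ Q₁ (b (Sum.inr i)) = 0)
    (h2 : ∀ i j, polar ⇑Q₁ (b (Sum.inl i)) (b (Sum.inr j)) = if i = j then 1 else 0)
    (h3 : ∀ i j, polar ⇑Q₁ (b (Sum.inl i)) (b (Sum.inl j)) = 0 ∧
      polar ⇑Q₁ (b (Sum.inr i)) (b (Sum.inr j)) = 0)
    (e f : Fin M → V) (hef : IsFrame Q e f) : ∃ φ : V₁ →ₗ[F] V, ∀ x, Q (φ x) = Q₁ x := by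
  classical
  obtain ⟨φ, hφ⟩ : ∃ φ : V₁ →ₗ[F] V, ∀ i, φ (b i) = Sum.elim e f i :=
    ⟨b.constr F (Sum.elim e f), fun i => Module.Basis.constr_basis b F _ i⟩
  refine ⟨φ, ?_⟩
  have hpc : ∀ x y, polar (⇑(Q.comp φ)) x y = polar (⇑Q) (φ x) (φ y) := by
    intro x y
    simp only [polar, QuadraticMap.comp_apply, map_add]
  have key : Q.comp φ = Q₁ := by
    apply Cfsg.Agent.H49.quad_ext_basis b
    · rintro (i | i)
      · rw [QuadraticMap.comp_apply, hφ, Sum.elim_inl, hef.Qe, (h1 i).1]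
      · rw [QuadraticMap.comp_apply, hφ, Sum.elim_inr, hef.Qf, (h1 i).2]
    · rintro (i | i) (j | j)
      · rw [hpc, hφ, hφ, Sum.elim_inl, Sum.elim_inl, hef.ee, (h3 i j).1]
      · rw [hpc, hφ, hφ, Sum.elim_inl, Sum.elim_inr, hef.ef, h2]
      · rw [hpc, hφ, hφ, Sum.elim_inl, Sum.elim_inr, hef.fe, polar_comm, h2]
        simp only [eq_comm]
      · rw [hpc, hφ, hφ, Sum.elim_inr, Sum.elim_inr, hef.ff, (h3 i j).2]
  intro x
  rw [← key]
  rfl

/-- A space with an elliptic standard basis embeds isometrically along a frame together with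
an anisotropic pair of vectors orthogonal to it. -/
theorem embed_of_minus_basis {V₁ : Type*} [AddCommGroup V₁] [Module F V₁]
    (Q₁ : QuadraticForm F V₁) (Q : QuadraticForm F V) {M' : ℕ} (ζ : F)
    (b : Module.Basis ((Fin M' ⊕ Fin M') ⊕ Fin 2) F V₁)
    (h1 : ∀ i, Q₁ (b (Sum.inl (Sum.inl i))) = 0 ∧ Q₁ (b (Sum.inl (Sum.inr i))) = 0)
    (h2 : ∀ i j, polar ⇑Q₁ (b (Sum.inl (Sum.inl i))) (b (Sum.inl (Sum.inr j)))
      = if i = j then 1 else 0)
    (h3 : ∀ i j, polar ⇑Q₁ (b (Sum.inl (Sum.inl i))) (b (Sum.inl (Sum.inl j))) = 0 ∧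
      polar ⇑Q₁ (b (Sum.inl (Sum.inr i))) (b (Sum.inl (Sum.inr j))) = 0)
    (h4 : ∀ i (k : Fin 2), polar ⇑Q₁ (b (Sum.inl (Sum.inl i))) (b (Sum.inr k)) = 0 ∧
      polar ⇑Q₁ (b (Sum.inl (Sum.inr i))) (b (Sum.inr k)) = 0)
    (h5 : Q₁ (b (Sum.inr 0)) = 1) (h6 : polar ⇑Q₁ (b (Sum.inr 0)) (b (Sum.inr 1)) = 1)
    (h7 : Q₁ (b (Sum.inr 1)) = ζ)
    (e f : Fin M' → V) (hef : IsFrame Q e f) (x y : V) (hx : Q x = 1) (hy : Q y = ζ)
    (hxy : polar (⇑Q) x y = 1)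
    (horth : ∀ j, polar (⇑Q) (e j) x = 0 ∧ polar (⇑Q) (f j) x = 0 ∧
      polar (⇑Q) (e j) y = 0 ∧ polar (⇑Q) (f j) y = 0) :
    ∃ φ : V₁ →ₗ[F] V, ∀ v, Q (φ v) = Q₁ v := by
  classical
  obtain ⟨u, hu⟩ : ∃ u : (Fin M' ⊕ Fin M') ⊕ Fin 2 → V,
      u = Sum.elim (Sum.elim e f) (fun k : Fin 2 => if k = 0 then x else y) := ⟨_, rfl⟩
  have hue : ∀ i, u (Sum.inl (Sum.inl i)) = e i := fun i => by rw [hu]; rfl
  have huf : ∀ i, u (Sum.inl (Sum.inr i)) = f i := fun i => by rw [hu]; rfl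
  have hu0 : u (Sum.inr 0) = x := by rw [hu]; rfl
  have hu1 : u (Sum.inr 1) = y := by rw [hu]; rfl
  obtain ⟨φ, hφ⟩ : ∃ φ : V₁ →ₗ[F] V, ∀ i, φ (b i) = u i :=
    ⟨b.constr F u, fun i => Module.Basis.constr_basis b F _ i⟩
  refine ⟨φ, ?_⟩
  have hpc : ∀ x y, polar (⇑(Q.comp φ)) x y = polar (⇑Q) (φ x) (φ y) := by
    intro x y
    simp only [polar, QuadraticMap.comp_apply, map_add]
  have hk : ∀ k : Fin 2, k = 0 ∨ k = 1 := by
    intro k
    fin_cases k
    · left; rfl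
    · right; rfl
  have hself : ∀ (Q' : QuadraticForm F V) (v : V), polar (⇑Q') v v = 2 * Q' v := by
    intro Q' v
    rw [QuadraticMap.polar_self]
    simp [two_smul, two_mul]
  have hself₁ : ∀ (v : V₁), polar (⇑Q₁) v v = 2 * Q₁ v := by
    intro v
    rw [QuadraticMap.polar_self]
    simp [two_smul, two_mul]
  have key : Q.comp φ = Q₁ := by
    apply Cfsg.Agent.H49.quad_ext_basis b
    · rintro ((i | i) | k)
      · rw [QuadraticMap.comp_apply, hφ, hue, hef.Qe, (h1 i).1]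
      · rw [QuadraticMap.comp_apply, hφ, huf, hef.Qf, (h1 i).2]
      · rcases hk k with rfl | rfl
        · rw [QuadraticMap.comp_apply, hφ, hu0, hx, h5]
        · rw [QuadraticMap.comp_apply, hφ, hu1, hy, h7]
    · rintro ((i | i) | k) ((j | j) | l)
      · rw [hpc, hφ, hφ, hue, hue, hef.ee, (h3 i j).1]
      · rw [hpc, hφ, hφ, hue, huf, hef.ef, h2]
      · rcases hk l with rfl | rfl
        · rw [hpc, hφ, hφ, hue, hu0, (horth i).1, (h4 i 0).1]
        · rw [hpc, hφ, hφ, hue, hu1, (horth i).2.2.1, (h4 i 1).1]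
      · rw [hpc, hφ, hφ, huf, hue, hef.fe, polar_comm, h2]
        simp only [eq_comm]
      · rw [hpc, hφ, hφ, huf, huf, hef.ff, (h3 i j).2]
      · rcases hk l with rfl | rfl
        · rw [hpc, hφ, hφ, huf, hu0, (horth i).2.1, (h4 i 0).2]
        · rw [hpc, hφ, hφ, huf, hu1, (horth i).2.2.2, (h4 i 1).2]
      · rcases hk k with rfl | rfl
        · rw [hpc, hφ, hφ, hue, hu0, polar_comm, (horth j).1, polar_comm, (h4 j 0).1]
        · rw [hpc, hφ, hφ, hue, hu1, polar_comm, (horth j).2.2.1, polar_comm, (h4 j 1).1]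
      · rcases hk k with rfl | rfl
        · rw [hpc, hφ, hφ, huf, hu0, polar_comm, (horth j).2.1, polar_comm, (h4 j 0).2]
        · rw [hpc, hφ, hφ, huf, hu1, polar_comm, (horth j).2.2.2, polar_comm, (h4 j 1).2]
      · rcases hk k with rfl | rfl <;> rcases hk l with rfl | rfl
        · rw [hpc, hφ, hu0, hself, hx, hself₁, h5]
        · rw [hpc, hφ, hφ, hu0, hu1, hxy, h6]
        · rw [hpc, hφ, hφ, hu0, hu1, polar_comm, hxy, polar_comm, h6]
        · rw [hpc, hφ, hu1, hself, hy, hself₁, h7]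
  intro v
  rw [← key]
  rfl

/-- Inside two distinct hyperbolic pairs of a frame: an anisotropic pair with prescribed
parameter, orthogonal to the other pairs. -/
theorem IsFrame.minus_vectors {Q : QuadraticForm F V} {n : ℕ} {e f : Fin n → V}
    (h : IsFrame Q e f) (j1 j2 : Fin n) (hne : j1 ≠ j2) (ζ : F) :
    Q (e j1 + f j1) = 1 ∧ Q (e j1 + e j2 + ζ • f j2) = ζ ∧
    polar (⇑Q) (e j1 + f j1) (e j1 + e j2 + ζ • f j2) = 1 ∧
    ∀ j, j ≠ j1 → j ≠ j2 →
      polar (⇑Q) (e j) (e j1 + f j1) = 0 ∧ polar (⇑Q) (f j) (e j1 + f j1) = 0 ∧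
      polar (⇑Q) (e j) (e j1 + e j2 + ζ • f j2) = 0 ∧
      polar (⇑Q) (f j) (e j1 + e j2 + ζ • f j2) = 0 := by
  have hne' : j2 ≠ j1 := hne.symm
  have hadd : ∀ u v : V, Q (u + v) = Q u + Q v + polar (⇑Q) u v :=
    fun u v => QuadraticMap.map_add Q u v
  have hsm : ∀ (a : F) (v : V), Q (a • v) = a * a * Q v := fun a v => by
    rw [QuadraticMap.map_smul, smul_eq_mul]
  refine ⟨?_, ?_, ?_, ?_⟩
  · rw [hadd, h.Qe, h.Qf, h.ef, if_pos rfl]
    ring
  · rw [hadd, hadd, hsm, h.Qe, h.Qe, h.Qf]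
    simp [polar_add_left, polar_smul_right, h.ee, h.ef, hne]
  · simp [polar_add_left, polar_add_right, polar_smul_right, h.ee, h.ef, h.fe, h.ff, hne]
  · intro j hj1 hj2
    refine ⟨?_, ?_, ?_, ?_⟩
    · simp [polar_add_right, h.ee, h.ef, hj1]
    · simp [polar_add_right, h.fe, h.ff, hj1]
    · simp [polar_add_right, polar_smul_right, h.ee, h.ef, hj2]
    · simp [polar_add_right, polar_smul_right, h.fe, h.ff, hj1, hj2]

/-- A vector of norm one orthogonal to a frame, with one hyperbolic pair: an anisotropic pair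
with prescribed parameter (odd characteristic). -/
theorem IsFrame.odd_vectors {Q : QuadraticForm F V} {n : ℕ} {e f : Fin n → V}
    (h : IsFrame Q e f) (h2 : (2 : F) ≠ 0) (x : V) (hx : Q x = 1)
    (hxo : ∀ j, polar (⇑Q) (e j) x = 0 ∧ polar (⇑Q) (f j) x = 0) (j1 : Fin n) (ζ : F) :
    Q ((2⁻¹ : F) • x + e j1 + (ζ - 4⁻¹) • f j1) = ζ ∧
    polar (⇑Q) x ((2⁻¹ : F) • x + e j1 + (ζ - 4⁻¹) • f j1) = 1 ∧
    ∀ j, j ≠ j1 →
      polar (⇑Q) (e j) ((2⁻¹ : F) • x + e j1 + (ζ - 4⁻¹) • f j1) = 0 ∧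
      polar (⇑Q) (f j) ((2⁻¹ : F) • x + e j1 + (ζ - 4⁻¹) • f j1) = 0 := by
  have hxe : ∀ j, polar (⇑Q) x (e j) = 0 := fun j => by rw [polar_comm]; exact (hxo j).1
  have hxf : ∀ j, polar (⇑Q) x (f j) = 0 := fun j => by rw [polar_comm]; exact (hxo j).2
  have hex : ∀ j, polar (⇑Q) (e j) x = 0 := fun j => (hxo j).1
  have hfx : ∀ j, polar (⇑Q) (f j) x = 0 := fun j => (hxo j).2
  have h4 : (4 : F) ≠ 0 := by
    have : (4 : F) = 2 * 2 := by norm_num
    rw [this]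
    exact mul_ne_zero h2 h2
  have hxx : polar (⇑Q) x x = 2 := by
    rw [QuadraticMap.polar_self, hx]
    simp [two_smul]
    norm_num
  have hadd : ∀ u v : V, Q (u + v) = Q u + Q v + polar (⇑Q) u v :=
    fun u v => QuadraticMap.map_add Q u v
  have hsm : ∀ (a : F) (v : V), Q (a • v) = a * a * Q v := fun a v => by
    rw [QuadraticMap.map_smul, smul_eq_mul]
  refine ⟨?_, ?_, ?_⟩
  · rw [hadd, hadd, hsm, hsm, hx, h.Qe, h.Qf]
    simp only [polar_add_left, polar_smul_left, polar_smul_right, hxe, hxf, h.ef, if_true,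
      smul_eq_mul]
    field_simp
    ring
  · simp only [polar_add_right, polar_smul_right, hxx, hxe, hxf, smul_eq_mul]
    field_simp
    ring
  · intro j hj
    refine ⟨?_, ?_⟩
    · simp [polar_add_right, polar_smul_right, hex, h.ee, h.ef, hj]
    · simp [polar_add_right, polar_smul_right, hfx, h.fe, h.ff, hj]

end Frames

end Cfsg.Agent.H48
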