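import Cfsg.Agent.H48.OrthEmbed

/-!
# Isometric embeddings of a non-degenerate even-dimensional quadratic space into the standard
orthogonal spaces
-/

set_option autoImplicit false

namespace Cfsg.Agent.H48

open QuadraticMap

section StdFrames

variable {F : Type*} [Field F]

/-- The standard frame of the hyperbolic space. -/
theorem isFrame_QP (m : ℕ) : IsFrame (Cfsg.Agent.H49.QP m F)
    (fun j : Fin m => (Pi.single (Sum.inl j) (1 : F) : Fin m ⊕ Fin m → F))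
    (fun j : Fin m => (Pi.single (Sum.inr j) (1 : F) : Fin m ⊕ Fin m → F)) where
  Qe j := by
    rw [Cfsg.Agent.H49.QP_apply]
    apply Finset.sum_eq_zero
    intro i _
    simp
  Qf j := by
    rw [Cfsg.Agent.H49.QP_apply]
    apply Finset.sum_eq_zero
    intro i _
    simp
  ef j k := by
    rw [Cfsg.Agent.H49.polar_QP_single_inl, Pi.single_apply]
    simp
  ee j k := by
    rw [Cfsg.Agent.H49.polar_QP_single_inl, Pi.single_apply]
    simp
  ff j k := by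
    rw [Cfsg.Agent.H49.polar_QP_single_inr, Pi.single_apply]
    simp

variable {ι₁ ι₂ : Type} [Fintype ι₁] [DecidableEq ι₁] [Fintype ι₂] [DecidableEq ι₂]

theorem sumQ_extLeft (Q₁ : QuadraticForm F (ι₁ → F)) (Q₂ : QuadraticForm F (ι₂ → F))
    (v : ι₁ → F) : Cfsg.Agent.H49.sumQ Q₁ Q₂ (Cfsg.Agent.H49.extLeft ι₁ ι₂ F v) = Q₁ v := by
  show Cfsg.Agent.H49.sumQ Q₁ Q₂ (Sum.elim v 0) = Q₁ v
  rw [Cfsg.Agent.H49.sumQ_apply, Sum.elim_comp_inl, Sum.elim_comp_inr, QuadraticMap.map_zero,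
    add_zero]

theorem sumQ_extRight (Q₁ : QuadraticForm F (ι₁ → F)) (Q₂ : QuadraticForm F (ι₂ → F))
    (w : ι₂ → F) : Cfsg.Agent.H49.sumQ Q₁ Q₂ (Cfsg.Agent.H49.extRight ι₁ ι₂ F w) = Q₂ w := by
  show Cfsg.Agent.H49.sumQ Q₁ Q₂ (Sum.elim 0 w) = Q₂ w
  rw [Cfsg.Agent.H49.sumQ_apply, Sum.elim_comp_inl, Sum.elim_comp_inr, QuadraticMap.map_zero,
    zero_add]

theorem polar_sumQ_left_right (Q₁ : QuadraticForm F (ι₁ → F)) (Q₂ : QuadraticForm F (ι₂ → F))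
    (v : ι₁ → F) (w : ι₂ → F) :
    polar (⇑(Cfsg.Agent.H49.sumQ Q₁ Q₂)) (Cfsg.Agent.H49.extLeft ι₁ ι₂ F v)
      (Cfsg.Agent.H49.extRight ι₁ ι₂ F w) = 0 := by
  show polar (⇑(Cfsg.Agent.H49.sumQ Q₁ Q₂)) (Sum.elim v 0) (Sum.elim 0 w) = 0
  rw [Cfsg.Agent.H49.polar_sumQ, Sum.elim_comp_inl, Sum.elim_comp_inr, Sum.elim_comp_inl,
    Sum.elim_comp_inr, polar_zero_right, polar_zero_left, add_zero]

theorem polar_sumQ_right_right (Q₁ : QuadraticForm F (ι₁ → F)) (Q₂ : QuadraticForm F (ι₂ → F))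
    (v w : ι₂ → F) :
    polar (⇑(Cfsg.Agent.H49.sumQ Q₁ Q₂)) (Cfsg.Agent.H49.extRight ι₁ ι₂ F v)
      (Cfsg.Agent.H49.extRight ι₁ ι₂ F w) = polar (⇑Q₂) v w := by
  show polar (⇑(Cfsg.Agent.H49.sumQ Q₁ Q₂)) (Sum.elim 0 v) (Sum.elim 0 w) = _
  rw [Cfsg.Agent.H49.polar_sumQ, Sum.elim_comp_inl, Sum.elim_comp_inr, Sum.elim_comp_inl,
    Sum.elim_comp_inr, polar_zero_right, zero_add]

end StdFrames

section Embeds

variable {F : Type*} [Field F] [Fintype F] {V₁ : Type*} [AddCommGroup V₁] [Module F V₁]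
  [FiniteDimensional F V₁]

/-- The binary form `z₁² + z₁ z₂ + ζ z₂²` is anisotropic when `t² + t + ζ` has no root. -/
theorem aniso_of_no_root (ζ : F) (hζ : ∀ t : F, t ^ 2 + t + ζ ≠ 0) :
    ∀ z₁ z₂ : F, z₁ ^ 2 + 1 * z₁ * z₂ + ζ * z₂ ^ 2 = 0 → z₁ = 0 ∧ z₂ = 0 := by
  intro z₁ z₂ h
  by_cases hz : z₂ = 0
  · rw [hz] at h
    simp only [mul_zero, add_zero, ne_eq, OfNat.ofNat_ne_zero, not_false_eq_true, zero_pow] at h
    exact ⟨pow_eq_zero_iff (two_ne_zero) |>.mp h, hz⟩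
  · exfalso
    apply hζ (z₁ / z₂)
    field_simp
    linear_combination h

/-- Embedding into the hyperbolic space `Σ xᵢ yᵢ` of dimension `2m`: possible unless the
dimensions agree and the space is elliptic. -/
theorem exists_embed_plus (Q₁ : QuadraticForm F V₁)
    (hQ₁ : (QuadraticMap.polarBilin Q₁).Nondegenerate) (M : ℕ)
    (hV : Module.finrank F V₁ = 2 * M) (m : ℕ) (hMm : M ≤ m) :
    (∃ φ : V₁ →ₗ[F] (Fin m ⊕ Fin m → F), ∀ x, Cfsg.Agent.H49.QP m F (φ x) = Q₁ x) ∨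
    (M = m ∧ 1 ≤ M ∧ ∃ ζ : F, (∀ t : F, t ^ 2 + t + ζ ≠ 0) ∧
      ∃ φ : V₁ →ₗ[F] ((Fin (M - 1) ⊕ Fin (M - 1)) ⊕ Fin 2 → F),
        ∀ x, Cfsg.Agent.H49.QMin (M - 1) F 1 ζ (φ x) = Q₁ x) := by
  classical
  rcases Cfsg.Agent.H49.even_standard_basis hV Q₁ hQ₁ with
    ⟨b, h1, h2, h3⟩ | ⟨b, ζ, hζ, h1, h2, h3, h4, h5, h6, h7⟩
  · left
    exact embed_of_plus_basis Q₁ (Cfsg.Agent.H49.QP m F) b h1 h2 h3 _ _
      ((isFrame_QP m).comp (Fin.castLE hMm) (Fin.castLE_injective hMm))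
  · have hM1 : 1 ≤ M := by
      have := Module.finrank_eq_card_basis b
      rw [hV] at this
      simp at this
      omega
    by_cases hlt : M < m
    · left
      have hfr := isFrame_QP (F := F) m
      obtain ⟨hx, hy, hxy, horth⟩ := hfr.minus_vectors ⟨M - 1, by omega⟩ ⟨M, hlt⟩
        (by intro h; have := congrArg Fin.val h; simp at this; omega) ζ
      have hle : M - 1 ≤ m := by omega
      refine embed_of_minus_basis Q₁ (Cfsg.Agent.H49.QP m F) ζ b h1 h2 h3 h4 h5 h6 h7 _ _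
        (hfr.comp (Fin.castLE hle) (Fin.castLE_injective hle)) _ _ hx hy hxy ?_
      intro j
      exact horth (Fin.castLE hle j)
        (by intro h; have := congrArg Fin.val h; simp at this; omega)
        (by intro h; have := congrArg Fin.val h; simp at this; omega)
    · right
      refine ⟨by omega, hM1, ζ, hζ, ?_⟩
      have hfr := (isFrame_QP (F := F) (M - 1)).map
        (Cfsg.Agent.H49.extLeft (Fin (M - 1) ⊕ Fin (M - 1)) (Fin 2) F)
        (Q := Cfsg.Agent.H49.QMin (M - 1) F 1 ζ)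
        (fun v => sumQ_extLeft _ _ v)
      refine embed_of_minus_basis Q₁ (Cfsg.Agent.H49.QMin (M - 1) F 1 ζ) ζ b h1 h2 h3 h4 h5 h6 h7
        _ _ hfr
        (Cfsg.Agent.H49.extRight (Fin (M - 1) ⊕ Fin (M - 1)) (Fin 2) F ![1, 0])
        (Cfsg.Agent.H49.extRight (Fin (M - 1) ⊕ Fin (M - 1)) (Fin 2) F ![0, 1]) ?_ ?_ ?_ ?_
      · show Cfsg.Agent.H49.sumQ _ _ _ = 1
        rw [sumQ_extRight, Cfsg.Agent.H49.binQ_apply]
        simp
      · show Cfsg.Agent.H49.sumQ _ _ _ = ζ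
        rw [sumQ_extRight, Cfsg.Agent.H49.binQ_apply]
        simp
      · show polar (⇑(Cfsg.Agent.H49.sumQ _ _)) _ _ = 1
        rw [polar_sumQ_right_right, Cfsg.Agent.H49.polar_binQ]
        simp
      · intro j
        exact ⟨polar_sumQ_left_right _ _ _ _, polar_sumQ_left_right _ _ _ _,
          polar_sumQ_left_right _ _ _ _, polar_sumQ_left_right _ _ _ _⟩

/-- Embedding into the elliptic space of dimension `2(k+1)`: possible unless the dimensions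
agree and the space is hyperbolic. -/
theorem exists_embed_minus (Q₁ : QuadraticForm F V₁)
    (hQ₁ : (QuadraticMap.polarBilin Q₁).Nondegenerate) (M : ℕ)
    (hV : Module.finrank F V₁ = 2 * M) (k : ℕ) (a c : F)
    (hac : ∀ z₁ z₂ : F, z₁ ^ 2 + a * z₁ * z₂ + c * z₂ ^ 2 = 0 → z₁ = 0 ∧ z₂ = 0)
    (hMk : M ≤ k + 1) :
    (∃ φ : V₁ →ₗ[F] ((Fin k ⊕ Fin k) ⊕ Fin 2 → F),
      ∀ x, Cfsg.Agent.H49.QMin k F a c (φ x) = Q₁ x) ∨
    (M = k + 1 ∧ ∃ φ : V₁ →ₗ[F] (Fin M ⊕ Fin M → F),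
      ∀ x, Cfsg.Agent.H49.QP M F (φ x) = Q₁ x) := by
  classical
  have hfr := (isFrame_QP (F := F) k).map
    (Cfsg.Agent.H49.extLeft (Fin k ⊕ Fin k) (Fin 2) F)
    (Q := Cfsg.Agent.H49.QMin k F a c) (fun v => sumQ_extLeft _ _ v)
  rcases Cfsg.Agent.H49.even_standard_basis hV Q₁ hQ₁ with
    ⟨b, h1, h2, h3⟩ | ⟨b, ζ, hζ, h1, h2, h3, h4, h5, h6, h7⟩
  · by_cases hle : M ≤ k
    · left
      exact embed_of_plus_basis Q₁ (Cfsg.Agent.H49.QMin k F a c) b h1 h2 h3 _ _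
        (hfr.comp (Fin.castLE hle) (Fin.castLE_injective hle))
    · right
      exact ⟨by omega, embed_of_plus_basis Q₁ (Cfsg.Agent.H49.QP M F) b h1 h2 h3 _ _
        (isFrame_QP M)⟩
  · left
    have hM1 : 1 ≤ M := by
      have := Module.finrank_eq_card_basis b
      rw [hV] at this
      simp at this
      omega
    have hle : M - 1 ≤ k := by omega
    obtain ⟨zx, zy, hzx, hzy, hzxy⟩ := exists_plane_vectors a c hac
      (Cfsg.Agent.H49.disc_ne_zero_of_aniso a c hac) ζ hζ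
    refine embed_of_minus_basis Q₁ (Cfsg.Agent.H49.QMin k F a c) ζ b h1 h2 h3 h4 h5 h6 h7
      _ _ (hfr.comp (Fin.castLE hle) (Fin.castLE_injective hle))
      (Cfsg.Agent.H49.extRight (Fin k ⊕ Fin k) (Fin 2) F zx)
      (Cfsg.Agent.H49.extRight (Fin k ⊕ Fin k) (Fin 2) F zy) ?_ ?_ ?_ ?_
    · show Cfsg.Agent.H49.sumQ _ _ _ = 1
      rw [sumQ_extRight, hzx]
    · show Cfsg.Agent.H49.sumQ _ _ _ = ζ
      rw [sumQ_extRight, hzy]
    · show polar (⇑(Cfsg.Agent.H49.sumQ _ _)) _ _ = 1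
      rw [polar_sumQ_right_right, hzxy]
    · intro j
      exact ⟨polar_sumQ_left_right _ _ _ _, polar_sumQ_left_right _ _ _ _,
        polar_sumQ_left_right _ _ _ _, polar_sumQ_left_right _ _ _ _⟩

/-- Embedding into the odd-dimensional space `x₀² + Σ xᵢ yᵢ` (odd characteristic). -/
theorem exists_embed_odd (h2 : (2 : F) ≠ 0) (Q₁ : QuadraticForm F V₁)
    (hQ₁ : (QuadraticMap.polarBilin Q₁).Nondegenerate) (M : ℕ)
    (hV : Module.finrank F V₁ = 2 * M) (m : ℕ) (hMm : M ≤ m) :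
    ∃ φ : V₁ →ₗ[F] (Unit ⊕ (Fin m ⊕ Fin m) → F), ∀ x, Cfsg.Agent.H49.QOdd m F (φ x) = Q₁ x := by
  classical
  have hfr := (isFrame_QP (F := F) m).map
    (Cfsg.Agent.H49.extRight Unit (Fin m ⊕ Fin m) F)
    (Q := Cfsg.Agent.H49.QOdd m F) (fun v => sumQ_extRight _ _ v)
  rcases Cfsg.Agent.H49.even_standard_basis hV Q₁ hQ₁ with
    ⟨b, h1, h2', h3⟩ | ⟨b, ζ, hζ, h1, h2', h3, h4, h5, h6, h7⟩
  · exact embed_of_plus_basis Q₁ (Cfsg.Agent.H49.QOdd m F) b h1 h2' h3 _ _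
      (hfr.comp (Fin.castLE hMm) (Fin.castLE_injective hMm))
  · have hM1 : 1 ≤ M := by
      have := Module.finrank_eq_card_basis b
      rw [hV] at this
      simp at this
      omega
    have hle : M - 1 ≤ m := by omega
    obtain ⟨x, hxdef⟩ : ∃ x : Unit ⊕ (Fin m ⊕ Fin m) → F,
        x = Cfsg.Agent.H49.extLeft Unit (Fin m ⊕ Fin m) F (fun _ => 1) := ⟨_, rfl⟩
    have hx : Cfsg.Agent.H49.QOdd m F x = 1 := by
      rw [hxdef]
      show Cfsg.Agent.H49.sumQ _ _ _ = 1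
      rw [sumQ_extLeft, Cfsg.Agent.H49.sqQ_apply]
      simp
    have hxo : ∀ j : Fin m,
        polar (⇑(Cfsg.Agent.H49.QOdd m F))
          ((Cfsg.Agent.H49.extRight Unit (Fin m ⊕ Fin m) F ∘
            fun j : Fin m => (Pi.single (Sum.inl j) (1 : F) : Fin m ⊕ Fin m → F)) j) x = 0 ∧
        polar (⇑(Cfsg.Agent.H49.QOdd m F))
          ((Cfsg.Agent.H49.extRight Unit (Fin m ⊕ Fin m) F ∘
            fun j : Fin m => (Pi.single (Sum.inr j) (1 : F) : Fin m ⊕ Fin m → F)) j) x = 0 := by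
      intro j
      rw [hxdef]
      constructor
      · rw [polar_comm]
        exact polar_sumQ_left_right _ _ _ _
      · rw [polar_comm]
        exact polar_sumQ_left_right _ _ _ _
    obtain ⟨hy, hxy, horth⟩ := hfr.odd_vectors h2 x hx hxo ⟨M - 1, by omega⟩ ζ
    refine embed_of_minus_basis Q₁ (Cfsg.Agent.H49.QOdd m F) ζ b h1 h2' h3 h4 h5 h6 h7
      _ _ (hfr.comp (Fin.castLE hle) (Fin.castLE_injective hle)) x _ hx hy hxy ?_
    intro j
    have hj : Fin.castLE hle j ≠ ⟨M - 1, by omega⟩ := by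
      intro h
      have := congrArg Fin.val h
      simp at this
      omega
    exact ⟨(hxo _).1, (hxo _).2, (horth _ hj).1, (horth _ hj).2⟩

end Embeds

end Cfsg.Agent.H48
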