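import Cfsg.Agent.H48.OrthPrime

/-!
# Isometries of odd prime order: free action, extension from a subspace, symplectic models
-/

set_option autoImplicit false

namespace Cfsg.Agent.H48

open Polynomial Matrix

section OrthModel

variable {F : Type*} [Field F] {ι : Type} [Fintype ι] [DecidableEq ι]

/-- An isometry of prime order `r` without non-zero fixed vectors permutes the vectors of each
non-zero norm freely, so `r` divides their number. -/
theorem dvd_card_norm_eq [Fintype F] (Q : QuadraticForm F (ι → F))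
    (g : ↥(Cfsg.isometryGroup F ⇑Q)) (r : ℕ) (hr : r.Prime) (hg : isoMat g ^ r = 1)
    (hfix : ∀ v, isoMat g *ᵥ v = v → v = 0) (c : F) (hc : c ≠ 0) :
    r ∣ Nat.card {v : ι → F // Q v = c} := by
  classical
  haveI : Fact r.Prime := ⟨hr⟩
  let f : Function.End {v : ι → F // Q v = c} :=
    fun v => ⟨isoMat g *ᵥ v.1, (isoMat_preserves g v.1).trans v.2⟩
  have hpow : ∀ (k : ℕ) (v : {v : ι → F // Q v = c}),
      ((f ^ k) v).1 = (isoMat g ^ k) *ᵥ v.1 := by
    intro k
    induction k with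
    | zero =>
      intro v
      rw [pow_zero, pow_zero, Matrix.one_mulVec]
      rfl
    | succ k ih =>
      intro v
      rw [pow_succ, pow_succ]
      show ((f ^ k) (f v)).1 = _
      rw [ih, ← Matrix.mulVec_mulVec]
  have hf : f ^ r ^ 1 = 1 := by
    rw [pow_one]
    funext v
    apply Subtype.ext
    rw [hpow, hg, Matrix.one_mulVec]
    rfl
  have h := Equiv.Perm.card_fixedPoints_modEq (f := f) (p := r) (n := 1) hf
  have hfp : Fintype.card (Function.fixedPoints f) = 0 := by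
    rw [Fintype.card_eq_zero_iff]
    constructor
    rintro ⟨v, hv⟩
    have h1 : isoMat g *ᵥ v.1 = v.1 := congrArg Subtype.val hv
    have h2 := hfix _ h1
    have h3 := v.2
    rw [h2, map_zero] at h3
    exact hc h3.symm
  rw [hfp] at h
  rw [Nat.card_eq_fintype_card]
  exact (Nat.modEq_zero_iff_dvd).mp h

/-- No fixed vectors when `1` is not a root of the characteristic polynomial. -/
theorem no_fixed_of_eval_one (A : Matrix ι ι F) (h1 : A.charpoly.eval 1 ≠ 0) (v : ι → F)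
    (hv : A *ᵥ v = v) : v = 0 := by
  by_contra hne
  apply h1
  rw [Matrix.eval_charpoly]
  apply Matrix.exists_mulVec_eq_zero_iff.mp
  refine ⟨v, hne, ?_⟩
  rw [Matrix.sub_mulVec, hv]
  simp

/-- An isometry of a non-degenerate quadratic space which embeds isometrically extends, by the
identity on the orthogonal complement, to an isometry of the big space. -/
theorem exists_iso_of_embedding {κ : Type} [Fintype κ] [DecidableEq κ]
    (Q₁ : QuadraticForm F (κ → F)) (hQ₁ : (QuadraticMap.polarBilin Q₁).Nondegenerate)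
    (Q : QuadraticForm F (ι → F)) (hQ : (QuadraticMap.polarBilin Q).Nondegenerate)
    (A₁ : Matrix κ κ F) (hA₁ : ∀ v, Q₁ (A₁ *ᵥ v) = Q₁ v)
    (φ : (κ → F) →ₗ[F] (ι → F)) (hφ : ∀ x, Q (φ x) = Q₁ x) :
    ∃ g : ↥(Cfsg.isometryGroup F ⇑Q),
      (isoMat g).charpoly = A₁.charpoly * (X - 1) ^ (Fintype.card ι - Fintype.card κ) ∧
      ∀ k : ℕ, A₁ ^ k = 1 → isoMat g ^ k = 1 := by
  classical
  have hpolφ : ∀ x y, QuadraticMap.polar (⇑Q) (φ x) (φ y) = QuadraticMap.polar (⇑Q₁) x y := by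
    intro x y
    simp only [QuadraticMap.polar, ← map_add, hφ]
  have hinj : Function.Injective φ := by
    rw [← LinearMap.ker_eq_bot, LinearMap.ker_eq_bot']
    intro x hx
    apply hQ₁.1 x
    intro y
    show QuadraticMap.polar (⇑Q₁) x y = 0
    rw [← hpolφ, hx]
    simp [QuadraticMap.polar]
  obtain ⟨W, hWdef⟩ : ∃ W : Submodule F (ι → F), W = LinearMap.range φ := ⟨_, rfl⟩
  obtain ⟨W', hW'def⟩ : ∃ W' : Submodule F (ι → F),
      W' = LinearMap.BilinForm.orthogonal (QuadraticMap.polarBilin Q) W := ⟨_, rfl⟩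
  have hW'mem : ∀ w ∈ W', ∀ x, QuadraticMap.polar (⇑Q) (φ x) w = 0 := by
    intro w hw x
    rw [hW'def, LinearMap.BilinForm.mem_orthogonal_iff] at hw
    exact hw (φ x) (by rw [hWdef]; exact LinearMap.mem_range_self φ x)
  have hdisj : W ⊓ W' = ⊥ := by
    rw [eq_bot_iff]
    rintro w ⟨hw1, hw2⟩
    rw [hWdef] at hw1
    obtain ⟨x, rfl⟩ := hw1
    have hx : x = 0 := by
      apply hQ₁.1 x
      intro y
      show QuadraticMap.polar (⇑Q₁) x y = 0
      rw [← hpolφ, QuadraticMap.polar_comm]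
      exact hW'mem _ hw2 y
    rw [hx, map_zero]
    exact Submodule.zero_mem _
  have hc : IsCompl W W' := by
    rw [hW'def]
    have hrefl : (QuadraticMap.polarBilin Q).IsRefl := by
      intro x y h
      show QuadraticMap.polar (⇑Q) y x = 0
      rw [QuadraticMap.polar_comm]
      exact h
    exact (LinearMap.BilinForm.isCompl_orthogonal_iff_disjoint hrefl).mpr
      (disjoint_iff.mpr (by rw [← hW'def]; exact hdisj))
  -- the equivalence
  obtain ⟨Ψ, hΨ⟩ : ∃ Ψ : ((κ → F) × W') ≃ₗ[F] (ι → F),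
      ∀ (x : κ → F) (w : W'), Ψ (x, w) = φ x + (w : ι → F) := by
    let e₁ : (κ → F) ≃ₗ[F] W := (LinearEquiv.ofInjective φ hinj).trans
      (LinearEquiv.ofEq _ _ hWdef.symm)
    refine ⟨(LinearEquiv.prodCongr e₁ (LinearEquiv.refl F W')).trans
      (Submodule.prodEquivOfIsCompl W W' hc), ?_⟩
    intro x w
    show (Submodule.prodEquivOfIsCompl W W' hc) (e₁ x, w) = _
    rw [Submodule.coe_prodEquivOfIsCompl']
    rfl
  obtain ⟨T, hTdef⟩ : ∃ T : Module.End F ((κ → F) × W'),
      T = (Matrix.toLin' A₁).prodMap (1 : Module.End F W') := ⟨_, rfl⟩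
  have hT : ∀ (x : κ → F) (w : W'), T (x, w) = (A₁ *ᵥ x, w) := by
    intro x w
    rw [hTdef]
    rfl
  obtain ⟨gL, hgLdef⟩ : ∃ gL : Module.End F (ι → F), gL = Ψ.conj T := ⟨_, rfl⟩
  have hgL : ∀ (x : κ → F) (w : W'), gL (Ψ (x, w)) = Ψ (A₁ *ᵥ x, w) := by
    intro x w
    rw [hgLdef, LinearEquiv.conj_apply_apply, LinearEquiv.symm_apply_apply, hT]
  have hcp : gL.charpoly = A₁.charpoly * (X - 1) ^ (Fintype.card ι - Fintype.card κ) := by
    rw [hgLdef, LinearEquiv.charpoly_conj, hTdef, LinearMap.charpoly_prodMap,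
      Matrix.charpoly_toLin', LinearMap.charpoly_one]
    have h2 := Submodule.finrank_add_eq_of_isCompl hc
    have h3 : Module.finrank F W = Fintype.card κ := by
      rw [hWdef, LinearMap.finrank_range_of_inj hinj, Module.finrank_fintype_fun_eq_card]
    rw [h3, Module.finrank_fintype_fun_eq_card] at h2
    have h4 : Module.finrank F W' = Fintype.card ι - Fintype.card κ := by omega
    rw [h4]
  have hQΨ : ∀ (x : κ → F) (w : W'), Q (Ψ (x, w)) = Q₁ x + Q (w : ι → F) := by
    intro x w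
    rw [hΨ]
    have h1 : Q (φ x + (w : ι → F)) = Q (φ x) + Q (w : ι → F)
        + QuadraticMap.polar (⇑Q) (φ x) (w : ι → F) := by
      simp only [QuadraticMap.polar]
      ring
    rw [h1, hW'mem _ w.2 x, add_zero, hφ]
  have hgLQ : ∀ v, Q (gL v) = Q v := by
    intro v
    obtain ⟨⟨x, w⟩, rfl⟩ := Ψ.surjective v
    rw [hgL, hQΨ, hQΨ, hA₁]
  have hgLpow : ∀ (k : ℕ) (x : κ → F) (w : W'), (gL ^ k) (Ψ (x, w)) = Ψ ((A₁ ^ k) *ᵥ x, w) := by
    intro k
    induction k with
    | zero =>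
      intro x w
      rw [pow_zero, pow_zero, Matrix.one_mulVec, Module.End.one_apply]
    | succ k ih =>
      intro x w
      rw [pow_succ, pow_succ, Module.End.mul_apply, hgL, ih, Matrix.mulVec_mulVec]
  obtain ⟨M, hMdef⟩ : ∃ M : Matrix ι ι F, M = LinearMap.toMatrix' gL := ⟨_, rfl⟩
  have hMlin : Matrix.toLin' M = gL := by rw [hMdef, Matrix.toLin'_toMatrix']
  have hMv : ∀ v, M *ᵥ v = gL v := by
    intro v
    rw [← Matrix.toLin'_apply, hMlin]
  have hMQ : ∀ v, Q (M *ᵥ v) = Q v := by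
    intro v
    rw [hMv, hgLQ]
  have hMdet : M.det ≠ 0 := by
    intro h0
    obtain ⟨v, hv, hMv0⟩ := Matrix.exists_mulVec_eq_zero_iff.mpr h0
    apply hv
    apply hQ.1 v
    intro u
    show QuadraticMap.polar (⇑Q) v u = 0
    have h1 : QuadraticMap.polar (⇑Q) (M *ᵥ v) (M *ᵥ u) = QuadraticMap.polar (⇑Q) v u := by
      simp only [QuadraticMap.polar, ← Matrix.mulVec_add, hMQ]
    rw [← h1, hMv0]
    simp [QuadraticMap.polar]
  obtain ⟨g, hgM⟩ := exists_iso_of_matrix (Qf := ⇑Q) M hMdet hMQ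
  refine ⟨g, ?_, ?_⟩
  · rw [hgM, ← Matrix.charpoly_toLin', hMlin, hcp]
  · intro k hk
    rw [hgM]
    apply Matrix.toLin'.injective
    rw [Matrix.toLin'_pow, hMlin, Matrix.toLin'_one]
    apply LinearMap.ext
    intro v
    obtain ⟨⟨x, w⟩, rfl⟩ := Ψ.surjective v
    rw [hgLpow, hk, Matrix.one_mulVec]
    rfl

/-- A matrix `A` of odd order preserving a non-degenerate alternating form `J`, without the
eigenvalue `1`, preserves the quadratic form `x ↦ (A x) · J x`, whose polar form is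
non-degenerate. -/
theorem exists_model_form {κ : Type} [Fintype κ] [DecidableEq κ] (J A : Matrix κ κ F)
    (hJ : Jᵀ = -J) (hJdet : J.det ≠ 0) (hA : Aᵀ * J * A = J) (r : ℕ) (hr : Odd r)
    (hAr : A ^ r = 1) (h1 : A.charpoly.eval 1 ≠ 0) :
    ∃ Q : QuadraticForm F (κ → F), (QuadraticMap.polarBilin Q).Nondegenerate ∧
      ∀ v, Q (A *ᵥ v) = Q v := by
  classical
  obtain ⟨M, hM⟩ : ∃ M : Matrix κ κ F, M = Aᵀ * J := ⟨_, rfl⟩
  obtain ⟨Q, hQdef⟩ : ∃ Q : QuadraticForm F (κ → F),
      Q = LinearMap.BilinMap.toQuadraticMap (Matrix.toLinearMap₂' F M) := ⟨_, rfl⟩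
  have hQapp : ∀ x, Q x = x ⬝ᵥ (M *ᵥ x) := by
    intro x
    rw [hQdef, LinearMap.BilinMap.toQuadraticMap_apply, Matrix.toLinearMap₂'_apply']
  have hpol : ∀ x y, QuadraticMap.polar (⇑Q) x y = x ⬝ᵥ ((M + Mᵀ) *ᵥ y) := by
    intro x y
    have h2 : y ⬝ᵥ (M *ᵥ x) = x ⬝ᵥ (Mᵀ *ᵥ y) := by
      rw [Matrix.dotProduct_mulVec x, Matrix.vecMul_transpose, dotProduct_comm]
    rw [hQdef, LinearMap.BilinMap.polar_toQuadraticMap, Matrix.toLinearMap₂'_apply',
      Matrix.toLinearMap₂'_apply', Matrix.add_mulVec, dotProduct_add, h2]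
  have hG : M + Mᵀ = Aᵀ * J * (1 - A * A) := by
    rw [hM, Matrix.transpose_mul, Matrix.transpose_transpose, hJ, Matrix.mul_sub, Matrix.mul_one,
      ← Matrix.mul_assoc, hA, Matrix.neg_mul, sub_eq_add_neg]
  have hAdet : A.det ≠ 0 := by
    intro h0
    have h2 := congrArg Matrix.det hA
    rw [Matrix.det_mul, Matrix.det_mul, h0, mul_zero] at h2
    exact hJdet h2.symm
  have hsq : (1 - A * A).det ≠ 0 := by
    intro h0
    obtain ⟨v, hv, hv0⟩ := Matrix.exists_mulVec_eq_zero_iff.mpr h0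
    apply hv
    have h2 : (A * A) *ᵥ v = v := by
      rw [Matrix.sub_mulVec, Matrix.one_mulVec, sub_eq_zero] at hv0
      exact hv0.symm
    have h3 : ∀ j : ℕ, ((A * A) ^ j) *ᵥ v = v := by
      intro j
      induction j with
      | zero => rw [pow_zero, Matrix.one_mulVec]
      | succ j ih => rw [pow_succ, ← Matrix.mulVec_mulVec, h2, ih]
    obtain ⟨k, hk⟩ := hr
    have h4 : (A * A) ^ (k + 1) = A := by
      rw [← pow_two, ← pow_mul]
      have h5 : 2 * (k + 1) = r + 1 := by omega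
      rw [h5, pow_succ, hAr, one_mul]
    have h5 := h3 (k + 1)
    rw [h4] at h5
    exact no_fixed_of_eval_one A h1 v h5
  have hGdet : (M + Mᵀ).det ≠ 0 := by
    rw [hG, Matrix.det_mul, Matrix.det_mul, Matrix.det_transpose]
    exact mul_ne_zero (mul_ne_zero hAdet hJdet) hsq
  have key : ∀ x : κ → F, (∀ y, QuadraticMap.polar (⇑Q) x y = 0) → x = 0 := by
    intro x hx
    by_contra hne
    apply hGdet
    apply Matrix.exists_vecMul_eq_zero_iff.mp
    refine ⟨x, hne, ?_⟩
    funext j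
    have h2 := hx (Pi.single j 1)
    rw [hpol, Matrix.dotProduct_mulVec] at h2
    simpa using h2
  refine ⟨Q, ⟨fun x hx => key x hx, fun y hy => key y (fun x => by
    rw [QuadraticMap.polar_comm]; exact hy x)⟩, ?_⟩
  intro v
  rw [hQapp, hQapp, Matrix.mulVec_mulVec, hM, hA, ← Matrix.mulVec_mulVec,
    Matrix.dotProduct_mulVec v, Matrix.vecMul_transpose]

end OrthModel

end Cfsg.Agent.H48
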