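import Cfsg.Agent.H48.OrthModel

/-!
# Symplectic models for isometries of odd prime order
-/

set_option autoImplicit false

namespace Cfsg.Agent.H48

open Polynomial Matrix

section SpModel

variable {F : Type*} [Field F] [Fintype F]

/-- A symplectic matrix of order dividing `r` with prescribed characteristic polynomial
`∏ P ^ a P` (`a` reciprocal-invariant, filling the whole space). -/
theorem exists_sp_prime_order (p : ℕ) [Fact p.Prime] [CharP F p] (m r i : ℕ)
    (hr : r.Prime) (hrp : r ≠ p) (Φ : Finset F[X]) (hΦ : ∀ P ∈ Φ, Irreducible P ∧ P.Monic)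
    (hdeg : ∀ P ∈ Φ, P.natDegree = i) (hLΦ : (X - 1 : F[X]) ∉ Φ)
    (hprod : (X - 1) * ∏ P ∈ Φ, P = (X ^ r - 1 : F[X])) (hi : 0 < i)
    (star : Φ → Φ) (hstar : ∀ P : Φ, RevRel (P : F[X]) (star P : F[X]))
    (hinv : Function.Involutive star) (a : Φ → ℕ) (hainv : ∀ P, a (star P) = a P)
    (ha : a ≠ 0) (hle : i * ∑ P, a P = 2 * m) :
    ∃ A : Matrix (Fin m ⊕ Fin m) (Fin m ⊕ Fin m) F, A ∈ Matrix.symplecticGroup (Fin m) F ∧
      A ^ r = 1 ∧ A.charpoly = facPoly (X - 1) Φ 0 a ∧ A.charpoly.eval 1 ≠ 0 := by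
  classical
  have hp : p.Prime := Fact.out
  have hL : Irreducible (X - 1 : F[X]) := by simpa using irreducible_X_sub_C (1 : F)
  have hLm : (X - 1 : F[X]).Monic := by simpa using monic_X_sub_C (1 : F)
  have hLd : (X - 1 : F[X]).natDegree = 1 := by simpa using natDegree_X_sub_C (1 : F)
  have hΦm : ∀ P ∈ Φ, P.Monic := fun P hP => (hΦ P hP).2
  have h1P : ∀ P ∈ Φ, P.eval 1 ≠ 0 := by
    intro P hP h
    have hd : (X - C (1 : F)) ∣ P := dvd_iff_isRoot.mpr h
    have h2 := eq_of_monic_of_associated (monic_X_sub_C 1) (hΦ P hP).2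
      ((irreducible_X_sub_C 1).associated_of_dvd (hΦ P hP).1 hd)
    apply hLΦ
    rw [← h2] at hP
    simpa using hP
  obtain ⟨f, hf⟩ : ∃ f : F[X], f = facPoly (X - 1) Φ 0 a := ⟨_, rfl⟩
  have hle1 : ∀ P : Φ, a P ≤ i * ∑ Q, a Q := by
    intro P
    calc a P ≤ ∑ Q, a Q := Finset.single_le_sum (fun _ _ => Nat.zero_le _) (Finset.mem_univ P)
      _ ≤ i * ∑ Q, a Q := Nat.le_mul_of_pos_left _ hi
  have hfm : f.Monic := by
    rw [hf]
    exact facPoly_monic _ _ hΦm hLm _ _
  have hfd : f.natDegree = 2 * m := by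
    rw [hf, natDegree_facPoly _ _ hΦm hLm i hdeg, hLd, mul_one]
    omega
  have hdiv : f ∣ (X ^ r - 1) ^ (2 * m) := by
    rw [← hprod, hf]
    apply facPoly_dvd
    · exact Nat.zero_le _
    · intro P
      exact (hle1 P).trans hle.le
  have hf0 : f.coeff 0 ≠ 0 := by
    intro h0
    have hX : (X : F[X]) ∣ f := X_dvd_iff.mpr h0
    have h1 := prime_X.dvd_of_dvd_pow (hX.trans hdiv)
    rw [X_dvd_iff] at h1
    have hr0 : ¬ (0 = r) := fun h => hr.ne_zero h.symm
    simp [coeff_X_pow, hr0, coeff_one] at h1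
  have hstara : (fun P => a (star P)) = a := funext hainv
  have hrev : RevRel f f := by
    have h1 := reverse_facPoly Φ star hstar hinv 0 a
    rw [hstara] at h1
    rw [hf]
    exact h1
  have hassoc : Associated f (Cfsg.Agent.H45.dualPoly (RingHom.id F) f) := by
    obtain ⟨u, hu, e⟩ := hrev
    exact Cfsg.Agent.H45.associated_dualPoly_of_eq (RingHom.id F) f u hu
      (by rw [Cfsg.Agent.H45.dualPoly_id]; exact e)
  have e1 : f.eval 1 ≠ 0 := by
    rw [hf]
    unfold facPoly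
    rw [pow_zero, one_mul, eval_prod]
    apply Finset.prod_ne_zero_iff.mpr
    intro P _
    rw [eval_pow]
    exact pow_ne_zero _ (h1P P P.2)
  have hc0 : f.coeff 0 = 1 := by
    obtain ⟨u, hu, e⟩ := hrev
    have e0 : u * f.coeff 0 = 1 := by
      have h1 := congrArg (fun f => f.coeff 0) e
      simp only [coeff_zero_reverse, coeff_C_mul] at h1
      rw [hfm.leadingCoeff] at h1
      exact h1.symm
    have e2 : u = 1 := by
      have h1 := congrArg (eval 1) e
      rw [Cfsg.Agent.H45.eval_one_reverse, eval_mul, eval_C] at h1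
      have h3 : (u - 1) * f.eval 1 = 0 := by linear_combination -h1
      rcases mul_eq_zero.mp h3 with h | h
      · linear_combination h
      · exact absurd h e1
    rw [e2, one_mul] at e0
    exact e0
  have hreal := Cfsg.Agent.H45.exists_realizable (σ := RingHom.id F) p (fun _ => rfl) (-1)
    (by simp) (fun _ => rfl) (2 * m) f hfd hfm hf0 hassoc
    (fun _ => ⟨hc0, by rw [hfd]; exact even_two_mul m⟩)
  obtain ⟨A, hAmem, hA, k, hk, hAk⟩ :=
    Cfsg.Agent.H45.exists_sp_of_realizable p m f hreal hfd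
  have hn0 : 2 * m ≠ 0 := by
    intro h0
    apply ha
    funext P
    have h1 := (hle1 P).trans hle.le
    rw [h0] at h1
    simpa using h1
  have hsq : Squarefree (minpoly F A) := by
    have hsep : (X ^ k - C (1 : F)).Separable :=
      separable_X_pow_sub_C' p k (1 : F) hk one_ne_zero
    apply hsep.squarefree.squarefree_of_dvd
    apply minpoly.dvd
    simp [hAk]
  have hmin : minpoly F A ∣ X ^ r - 1 := by
    rw [← hsq.dvd_pow_iff_dvd hn0]
    exact (Matrix.minpoly_dvd_charpoly A).trans (hA ▸ hdiv)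
  have hAr : A ^ r = 1 := by
    obtain ⟨w, hw⟩ := hmin
    have h1 := congrArg (aeval A) hw
    rw [map_mul, minpoly.aeval, zero_mul] at h1
    simpa [sub_eq_zero] using h1
  exact ⟨A, hAmem, hAr, hA.trans hf, by rw [hA]; exact e1⟩

/-- The orthogonal model: a quadratic form with non-degenerate polar form on `F^(2M)` with an
isometry of order dividing `r` and characteristic polynomial `∏ P ^ a P`. -/
theorem exists_orth_model (p : ℕ) [Fact p.Prime] [CharP F p] (m r i : ℕ)
    (hr : r.Prime) (hr2 : r ≠ 2) (hrp : r ≠ p) (Φ : Finset F[X])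
    (hΦ : ∀ P ∈ Φ, Irreducible P ∧ P.Monic)
    (hdeg : ∀ P ∈ Φ, P.natDegree = i) (hLΦ : (X - 1 : F[X]) ∉ Φ)
    (hprod : (X - 1) * ∏ P ∈ Φ, P = (X ^ r - 1 : F[X])) (hi : 0 < i)
    (star : Φ → Φ) (hstar : ∀ P : Φ, RevRel (P : F[X]) (star P : F[X]))
    (hinv : Function.Involutive star) (a : Φ → ℕ) (hainv : ∀ P, a (star P) = a P)
    (ha : a ≠ 0) (hle : i * ∑ P, a P = 2 * m) :
    ∃ (Q₁ : QuadraticForm F (Fin m ⊕ Fin m → F))
      (A₁ : Matrix (Fin m ⊕ Fin m) (Fin m ⊕ Fin m) F),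
      (QuadraticMap.polarBilin Q₁).Nondegenerate ∧ (∀ v, Q₁ (A₁ *ᵥ v) = Q₁ v) ∧ A₁ ^ r = 1 ∧
      A₁.charpoly = facPoly (X - 1) Φ 0 a ∧ A₁.charpoly.eval 1 ≠ 0 := by
  classical
  obtain ⟨A, hAmem, hAr, hAc, hA1⟩ := exists_sp_prime_order p m r i hr hrp Φ hΦ hdeg hLΦ hprod hi
    star hstar hinv a hainv ha hle
  have hAT : Aᵀ * Matrix.J (Fin m) F * A = Matrix.J (Fin m) F := by
    have h1 := (SymplecticGroup.mem_iff).mp (SymplecticGroup.transpose_mem hAmem)
    rw [Matrix.transpose_transpose] at h1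
    exact h1
  have hrodd : Odd r := hr.eq_two_or_odd'.resolve_left hr2
  obtain ⟨Q, hQ, hQA⟩ := exists_model_form (Matrix.J (Fin m) F) A (Matrix.J_transpose _ _)
    (Matrix.isUnit_det_J (Fin m) F).ne_zero hAT r hrodd hAr hA1
  exact ⟨Q, A, hQ, hQA, hAr, hAc, hA1⟩

end SpModel

end Cfsg.Agent.H48
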