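import Cfsg.Agent.H48.PrimeOrd
import Cfsg.Agent.H45.IsoStd

/-!
# Classes of elements of odd prime order `r ≠ p` in `Sp_2m(q)`

Reciprocal-polynomial bookkeeping for the irreducible factors of the `r`-th cyclotomic
polynomial over a finite field, and the reduction of the class count to a count of tuples.
-/

set_option autoImplicit false

namespace Cfsg.Agent.H48

open Polynomial UniqueFactorizationMonoid

section Invol

variable {α : Type*} [Fintype α] [DecidableEq α]

/-- Tuples invariant under a fixed-point-free involution. -/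
theorem card_invariant_tuples (s : α → α) (hs : Function.Involutive s) (hfp : ∀ x, s x ≠ x)
    (i M : ℕ) (hi : 0 < i) :
    Even (Fintype.card α) ∧
    (∀ a : α → ℕ, (∀ x, a (s x) = a x) → Even (∑ x, a x)) ∧
    Nat.card {a : α → ℕ // (∀ x, a (s x) = a x) ∧ a ≠ 0 ∧ i * ∑ x, a x ≤ 2 * M}
      = (M / i + Fintype.card α / 2).choose (Fintype.card α / 2) - 1 := by
  classical
  obtain ⟨lt, hltdef⟩ : ∃ lt : α → Prop,
      lt = fun x => Fintype.equivFin α x < Fintype.equivFin α (s x) := ⟨_, rfl⟩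
  have hlt : ∀ x, lt (s x) ↔ ¬ lt x := by
    intro x
    have hne : Fintype.equivFin α x ≠ Fintype.equivFin α (s x) := by
      intro h
      exact hfp x ((Fintype.equivFin α).injective h).symm
    rw [hltdef]
    simp only [hs x]
    constructor
    · intro h h'
      exact absurd (lt_trans h h') (lt_irrefl _)
    · intro h
      exact lt_of_le_of_ne (not_lt.mp h) (Ne.symm hne)
  -- the key sum identity
  have hsum : ∀ f : α → ℕ, ∑ x, f x = ∑ y : {x // lt x}, (f y.1 + f (s y.1)) := by
    intro f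
    rw [← Finset.sum_filter_add_sum_filter_not Finset.univ lt f, Finset.sum_add_distrib]
    congr 1
    · exact Finset.sum_subtype _ (fun x => by simp) f
    · rw [← Finset.sum_subtype (Finset.univ.filter lt) (fun x => by simp) (fun x => f (s x))]
      apply Finset.sum_nbij' s s
      · intro x hx
        rw [Finset.mem_filter] at hx ⊢
        exact ⟨Finset.mem_univ _, (hlt x).mpr hx.2⟩
      · intro x hx
        rw [Finset.mem_filter] at hx ⊢
        exact ⟨Finset.mem_univ _, fun h => ((hlt x).mp h) hx.2⟩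
      · intro x _
        exact hs x
      · intro x _
        exact hs x
      · intro x _
        rw [hs x]
  have hcard : Fintype.card α = 2 * Fintype.card {x // lt x} := by
    have h1 := hsum (fun _ => 1)
    simp only [Finset.sum_const, Finset.card_univ, smul_eq_mul, mul_one] at h1
    rw [h1]
    ring
  have hsuminv : ∀ a : α → ℕ, (∀ x, a (s x) = a x) →
      ∑ x, a x = 2 * ∑ y : {x // lt x}, a y.1 := by
    intro a ha
    rw [hsum a, Finset.mul_sum]
    apply Finset.sum_congr rfl
    intro y _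
    rw [ha]
    ring
  refine ⟨⟨Fintype.card {x // lt x}, by rw [hcard]; ring⟩, ?_, ?_⟩
  · intro a ha
    exact ⟨∑ y : {x // lt x}, a y.1, by rw [hsuminv a ha]; ring⟩
  · have hhalf : Fintype.card α / 2 = Fintype.card {x // lt x} := by
      rw [hcard]
      simp
    rw [hhalf, ← card_sum_le_ne_zero {x // lt x} (M / i)]
    apply Nat.card_congr
    refine
      { toFun := fun a => ⟨fun y => a.1 y.1, ?_, ?_⟩
        invFun := fun b => ⟨fun x => if h : lt x then b.1 ⟨x, h⟩ else b.1 ⟨s x, (hlt x).mpr h⟩,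
          ?_, ?_, ?_⟩
        left_inv := ?_
        right_inv := ?_ }
    · intro h0
      apply a.2.2.1
      funext x
      by_cases h : lt x
      · exact congrFun h0 ⟨x, h⟩
      · have h1 := congrFun h0 ⟨s x, (hlt x).mpr h⟩
        rw [← a.2.1 x]
        exact h1
    · have h1 := a.2.2.2
      rw [hsuminv a.1 a.2.1] at h1
      show ∑ y : {x // lt x}, a.1 y.1 ≤ M / i
      rw [Nat.le_div_iff_mul_le hi]
      have h2 : i * (2 * ∑ y : {x // lt x}, a.1 y.1) = 2 * ((∑ y : {x // lt x}, a.1 y.1) * i) := by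
        ring
      omega
    · intro x
      beta_reduce
      by_cases h : lt x
      · have h' : ¬ lt (s x) := fun h2 => ((hlt x).mp h2) h
        rw [dif_neg h', dif_pos h]
        exact congrArg b.1 (Subtype.ext (hs x))
      · have h' : lt (s x) := (hlt x).mpr h
        rw [dif_pos h', dif_neg h]
    · intro h0
      apply b.2.1
      funext y
      have h1 := congrFun h0 y.1
      rw [dif_pos y.2] at h1
      exact h1
    · have hinv' : ∀ x, (fun x => if h : lt x then b.1 ⟨x, h⟩ else b.1 ⟨s x, (hlt x).mpr h⟩) (s x)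
          = (fun x => if h : lt x then b.1 ⟨x, h⟩ else b.1 ⟨s x, (hlt x).mpr h⟩) x := by
        intro x
        by_cases h : lt x
        · have h' : ¬ lt (s x) := fun h2 => ((hlt x).mp h2) h
          simp only [dif_neg h', dif_pos h]
          exact congrArg b.1 (Subtype.ext (hs x))
        · have h' : lt (s x) := (hlt x).mpr h
          simp only [dif_pos h', dif_neg h]
      rw [hsuminv _ hinv']
      have h1 : ∑ y : {x // lt x}, (if h : lt y.1 then b.1 ⟨y.1, h⟩ else b.1 ⟨s y.1, (hlt y.1).mpr h⟩)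
          = ∑ y : {x // lt x}, b.1 y := by
        apply Finset.sum_congr rfl
        intro y _
        rw [dif_pos y.2]
      rw [h1]
      have h2 := (Nat.le_div_iff_mul_le hi).mp b.2.2
      have h3 : i * (2 * ∑ y : {x // lt x}, b.1 y) = 2 * ((∑ y : {x // lt x}, b.1 y) * i) := by
        ring
      omega
    · intro a
      apply Subtype.ext
      funext x
      by_cases h : lt x
      · simp only [dif_pos h]
      · simp only [dif_neg h]
        exact a.2.1 x
    · intro b
      apply Subtype.ext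
      funext y
      simp only [dif_pos y.2]

end Invol

section Rev

variable {F : Type*} [Field F]

/-- `g` is the reciprocal polynomial of `f` up to a non-zero constant. -/
def RevRel (f g : F[X]) : Prop := ∃ u : F, u ≠ 0 ∧ f.reverse = C u * g

theorem RevRel.mul {f₁ f₂ g₁ g₂ : F[X]} (h₁ : RevRel f₁ g₁) (h₂ : RevRel f₂ g₂) :
    RevRel (f₁ * f₂) (g₁ * g₂) := by
  obtain ⟨u, hu, e₁⟩ := h₁
  obtain ⟨v, hv, e₂⟩ := h₂
  refine ⟨u * v, mul_ne_zero hu hv, ?_⟩
  rw [reverse_mul_of_domain, e₁, e₂, C_mul]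
  ring

theorem reverse_one' : (1 : F[X]).reverse = 1 := by
  have h := reverse_C (1 : F)
  rw [C_1] at h
  exact h

theorem RevRel.one : RevRel (1 : F[X]) 1 :=
  ⟨1, one_ne_zero, by rw [C_1, one_mul, reverse_one']⟩

theorem RevRel.pow {f g : F[X]} (h : RevRel f g) (k : ℕ) : RevRel (f ^ k) (g ^ k) := by
  induction k with
  | zero => simpa using (RevRel.one : RevRel (1 : F[X]) 1)
  | succ k ih =>
    rw [pow_succ, pow_succ]
    exact ih.mul h

theorem RevRel.prod {ι : Type*} (s : Finset ι) (f g : ι → F[X])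
    (h : ∀ j ∈ s, RevRel (f j) (g j)) : RevRel (∏ j ∈ s, f j) (∏ j ∈ s, g j) := by
  classical
  induction s using Finset.induction_on with
  | empty => simpa using (RevRel.one : RevRel (1 : F[X]) 1)
  | insert a s ha ih =>
    rw [Finset.prod_insert ha, Finset.prod_insert ha]
    exact (h a (Finset.mem_insert_self a s)).mul
      (ih (fun j hj => h j (Finset.mem_insert_of_mem hj)))

theorem reverse_X_pow_sub_one (k : ℕ) (hk : 0 < k) :
    (X ^ k - 1 : F[X]).reverse = 1 - X ^ k := by
  have h1 : (X ^ k - 1 : F[X]) = X ^ k + C (-1) := by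
    rw [C_neg, C_1]
    ring
  have h2 : (X ^ k : F[X]).reverse = 1 := by
    have := reverse_mul_X_pow (1 : F[X]) k
    rw [one_mul] at this
    rw [this, reverse_one']
  rw [h1, reverse_add_C, h2, natDegree_X_pow, C_neg, C_1]
  ring

theorem revRel_X_sub_one : RevRel (X - 1 : F[X]) (X - 1) := by
  refine ⟨-1, by simp, ?_⟩
  have h := reverse_X_pow_sub_one (F := F) 1 one_pos
  rw [pow_one] at h
  rw [h, C_neg, C_1]
  ring

theorem reverse_reverse_of_coeff_zero (f : F[X]) (hf0 : f.coeff 0 ≠ 0) :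
    f.reverse.reverse = f := by
  have h := Cfsg.Agent.H45.dualPoly_dualPoly (σ := RingHom.id F) (fun a => rfl) f hf0
  rw [Cfsg.Agent.H45.dualPoly_id, Cfsg.Agent.H45.dualPoly_id] at h
  exact h

theorem reverse_natDegree_of_coeff_zero (f : F[X]) (hf0 : f.coeff 0 ≠ 0) :
    f.reverse.natDegree = f.natDegree := by
  have h := Cfsg.Agent.H45.dualPoly_natDegree (RingHom.id F) f hf0
  rw [Cfsg.Agent.H45.dualPoly_id] at h
  exact h

theorem reverse_leadingCoeff_of_coeff_zero (f : F[X]) (hf0 : f.coeff 0 ≠ 0) :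
    f.reverse.leadingCoeff = f.coeff 0 := by
  have h := Cfsg.Agent.H45.dualPoly_leadingCoeff (RingHom.id F) f hf0
  rw [Cfsg.Agent.H45.dualPoly_id] at h
  exact h

theorem reverse_facPoly (Φ : Finset F[X]) (star : Φ → Φ)
    (hstar : ∀ P : Φ, RevRel (P : F[X]) (star P : F[X])) (hinv : Function.Involutive star)
    (c : ℕ) (a : Φ → ℕ) :
    RevRel (facPoly (X - 1) Φ c a) (facPoly (X - 1) Φ c (fun P => a (star P))) := by
  unfold facPoly
  apply RevRel.mul (revRel_X_sub_one.pow c)
  have h1 : ∏ P : Φ, (P : F[X]) ^ a (star P) = ∏ P : Φ, (star P : F[X]) ^ a P := by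
    rw [← Equiv.prod_comp (hinv.toPerm star) (fun P : Φ => (P : F[X]) ^ a (star P))]
    apply Finset.prod_congr rfl
    intro P _
    simp [hinv P]
  rw [h1]
  exact RevRel.prod _ _ _ (fun P _ => (hstar P).pow _)

end Rev

section Cyclo

variable {F : Type*} [Field F]

theorem cyclotomic_prime_reverse (r : ℕ) (hr : r.Prime) :
    (cyclotomic r F).reverse = cyclotomic r F := by
  have : Fact r.Prime := ⟨hr⟩
  have h := cyclotomic_prime_mul_X_sub_one F r
  have h1 := congrArg reverse h
  rw [reverse_mul_of_domain, reverse_X_pow_sub_one r hr.pos] at h1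
  have h2 := reverse_X_pow_sub_one (F := F) 1 one_pos
  rw [pow_one] at h2
  rw [h2] at h1
  have h3 : (1 - X : F[X]) ≠ 0 := by
    intro h0
    have := congrArg (fun f => f.coeff 0) h0
    simp at this
  apply mul_right_cancel₀ h3
  rw [h1]
  linear_combination h

variable [Fintype F]

/-- The irreducible factors of the `r`-th cyclotomic polynomial over a finite field. -/
theorem exists_cyclo_factors {p q : ℕ} [Fact p.Prime] [CharP F p] (hF : Fintype.card F = q)
    (r i t : ℕ) (hr : r.Prime) (hrp : r ≠ p) (hi : i = orderOf (q : ZMod r))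
    (ht : t * i = r - 1) :
    ∃ Φ : Finset F[X], Φ.card = t ∧ (∀ P ∈ Φ, Irreducible P ∧ P.Monic) ∧
      (∀ P ∈ Φ, P.natDegree = i) ∧ (X - 1 : F[X]) ∉ Φ ∧
      (X - 1) * ∏ P ∈ Φ, P = (X ^ r - 1 : F[X]) ∧ 0 < i ∧
      (∀ P ∈ Φ, P ∣ cyclotomic r F) ∧
      (∀ Q : F[X], Q.Monic → Q ∣ cyclotomic r F → Q.natDegree = i → Q ∈ Φ) := by
  classical
  have hp : p.Prime := Fact.out
  have : Fact r.Prime := ⟨hr⟩
  obtain ⟨k, -, hk⟩ := FiniteField.card F p
  have hcop : p.Coprime r := (Nat.coprime_primes hp hr).mpr (Ne.symm hrp)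
  have hrF : NeZero (r : F) := ⟨by
    intro h
    rw [CharP.cast_eq_zero_iff F p] at h
    exact hrp ((Nat.prime_dvd_prime_iff_eq hp hr).mp h).symm⟩
  have hcard := Polynomial.normalizedFactors_cyclotomic_card (K := F) (n := r) hk hcop
  obtain ⟨Φ, hΦdef⟩ : ∃ Φ : Finset F[X], Φ = (normalizedFactors (cyclotomic r F)).toFinset :=
    ⟨_, rfl⟩
  rw [← hΦdef] at hcard
  have hmem : ∀ P ∈ Φ, Irreducible P ∧ P.Monic ∧ P ∣ cyclotomic r F := by
    intro P hP
    rw [hΦdef, Multiset.mem_toFinset] at hP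
    have h1 := irreducible_of_normalized_factor P hP
    have h2 := normalize_normalized_factor P hP
    refine ⟨h1, ?_, dvd_of_mem_normalizedFactors hP⟩
    rw [← h2]
    exact monic_normalize h1.ne_zero
  have hord : orderOf (ZMod.unitOfCoprime (p ^ (k : ℕ)) (hcop.pow_left k)) = i := by
    rw [hi, ← orderOf_units, ZMod.coe_unitOfCoprime, ← hF, hk]
  rw [hord, Nat.totient_prime hr, ← ht] at hcard
  have hi0 : 0 < i := by
    rcases Nat.eq_zero_or_pos i with h | h
    · rw [h, mul_zero] at ht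
      have := hr.two_le
      omega
    · exact h
  rw [Nat.mul_div_cancel _ hi0] at hcard
  have hdeg : ∀ P ∈ Φ, P.natDegree = i := by
    intro P hP
    rw [← hord]
    exact Polynomial.natDegree_of_dvd_cyclotomic_of_irreducible hk hcop (hmem P hP).2.2
      (hmem P hP).1
  have hL : (X - 1 : F[X]) ∉ Φ := by
    intro h
    have h1 := (hmem _ h).2.2
    have h2 : (cyclotomic r F).eval 1 = 0 := by
      obtain ⟨w, hw⟩ := h1
      rw [hw]
      simp
    rw [eval_one_cyclotomic_prime] at h2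
    exact hrF.out h2
  have hprod : (X - 1) * ∏ P ∈ Φ, P = (X ^ r - 1 : F[X]) := by
    rw [← cyclotomic_prime_mul_X_sub_one F r, mul_comm]
    congr 1
    have hnodup : (normalizedFactors (cyclotomic r F)).Nodup :=
      (squarefree_iff_nodup_normalizedFactors (cyclotomic_ne_zero r F)).mp
        (squarefree_cyclotomic r F)
    have h1 : ∏ P ∈ Φ, P = (normalizedFactors (cyclotomic r F)).prod := by
      rw [Finset.prod_multiset_count, ← hΦdef]
      apply Finset.prod_congr rfl
      intro P hP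
      rw [hΦdef] at hP
      rw [Multiset.count_eq_one_of_mem hnodup (Multiset.mem_toFinset.mp hP), pow_one]
    apply eq_of_monic_of_associated (monic_prod_of_monic _ _ (fun P hP => (hmem P hP).2.1))
      (cyclotomic.monic r F)
    rw [h1]
    exact prod_normalizedFactors (cyclotomic_ne_zero r F)
  refine ⟨Φ, hcard, fun P hP => ⟨(hmem P hP).1, (hmem P hP).2.1⟩, hdeg, hL, hprod, hi0,
    fun P hP => (hmem P hP).2.2, ?_⟩
  intro Q hQm hQd hQdeg
  rw [hΦdef, Multiset.mem_toFinset, mem_normalizedFactors_iff' (cyclotomic_ne_zero r F)]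
  refine ⟨?_, hQm.normalize_eq_self, hQd⟩
  exact Polynomial.irreducible_of_dvd_cyclotomic_of_natDegree hk hcop hQd (by rw [hQdeg, hord])

/-- If `q ^ (i / 2) ≡ -1` modulo `r`, every irreducible factor of `X ^ r - 1` divides its own
reciprocal polynomial. -/
theorem dvd_reverse_of_even {q : ℕ} (hF : Fintype.card F = q) (r i : ℕ) (P : F[X])
    (hP : Irreducible P) (hPd : P ∣ X ^ r - 1) (hqi : (q : ZMod r) ^ (i / 2) = -1) :
    P ∣ P.reverse := by
  have hfact : Fact (Irreducible P) := ⟨hP⟩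
  have h0 : aeval (AdjoinRoot.root P) P = 0 := by
    rw [AdjoinRoot.aeval_eq, AdjoinRoot.mk_self]
  have hxr : (AdjoinRoot.root P) ^ r = 1 := by
    have h1 : aeval (AdjoinRoot.root P) (X ^ r - 1 : F[X]) = 0 := by
      rw [AdjoinRoot.aeval_eq, AdjoinRoot.mk_eq_zero]
      exact hPd
    simpa [sub_eq_zero] using h1
  have hfrob : ∀ y : AdjoinRoot P, aeval y P = 0 → aeval (y ^ q) P = 0 := by
    intro y hy
    rw [← expand_aeval, ← hF, FiniteField.expand_card, map_pow, hy, zero_pow]
    exact Fintype.card_ne_zero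
  have hpow : ∀ j : ℕ, aeval ((AdjoinRoot.root P) ^ (q ^ j)) P = 0 := by
    intro j
    induction j with
    | zero => simpa using h0
    | succ j ih =>
      rw [pow_succ, pow_mul]
      exact hfrob _ ih
  have hdvd : r ∣ q ^ (i / 2) + 1 := by
    rw [← ZMod.natCast_eq_zero_iff]
    push_cast
    rw [hqi]
    ring
  obtain ⟨k, hk⟩ := hdvd
  have hinv : (AdjoinRoot.root P) ^ (q ^ (i / 2)) * AdjoinRoot.root P = 1 := by
    rw [← pow_succ, hk, pow_mul, hxr, one_pow]
  letI : Invertible ((AdjoinRoot.root P) ^ (q ^ (i / 2))) :=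
    ⟨AdjoinRoot.root P, by rw [mul_comm]; exact hinv, hinv⟩
  have h1 := (eval₂_reverse_eq_zero_iff (algebraMap F (AdjoinRoot P))
    ((AdjoinRoot.root P) ^ (q ^ (i / 2))) P).mpr (by rw [← aeval_def]; exact hpow _)
  have h2 : aeval (AdjoinRoot.root P) P.reverse = 0 := h1
  rw [AdjoinRoot.aeval_eq, AdjoinRoot.mk_eq_zero] at h2
  exact h2

/-- The reciprocal-polynomial involution on the irreducible factors of the `r`-th cyclotomic
polynomial: trivial when the order `i` of `q` modulo `r` is even, fixed-point-free when it is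
odd. -/
theorem exists_star_cyclo {q : ℕ} (hF : Fintype.card F = q) (r i : ℕ)
    (hr : r.Prime) (hr2 : r ≠ 2) (hi : i = orderOf (q : ZMod r)) (hi0 : 0 < i)
    (Φ : Finset F[X]) (hΦ : ∀ P ∈ Φ, Irreducible P ∧ P.Monic) (hdeg : ∀ P ∈ Φ, P.natDegree = i)
    (hLΦ : (X - 1 : F[X]) ∉ Φ) (hdvd : ∀ P ∈ Φ, P ∣ cyclotomic r F)
    (hmem : ∀ Q : F[X], Q.Monic → Q ∣ cyclotomic r F → Q.natDegree = i → Q ∈ Φ) :
    ∃ star : Φ → Φ, (∀ P : Φ, RevRel (P : F[X]) (star P : F[X])) ∧ Function.Involutive star ∧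
      (Even i → ∀ P, star P = P) ∧ (Odd i → ∀ P, star P ≠ P) := by
  classical
  have : Fact r.Prime := ⟨hr⟩
  have hcx : ∀ P ∈ Φ, P ∣ X ^ r - 1 := fun P hP =>
    (hdvd P hP).trans ⟨X - 1, (cyclotomic_prime_mul_X_sub_one F r).symm⟩
  have h0 : ∀ P ∈ Φ, P.coeff 0 ≠ 0 := by
    intro P hP h0
    have hX : (X : F[X]) ∣ P := X_dvd_iff.mpr h0
    have h1 := hX.trans (hcx P hP)
    rw [X_dvd_iff] at h1
    have hr0 : ¬ (0 = r) := fun h => hr.ne_zero h.symm
    simp [coeff_X_pow, hr0, coeff_one] at h1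
  have h1P : ∀ P ∈ Φ, P.eval 1 ≠ 0 := by
    intro P hP h
    have hd : (X - C (1 : F)) ∣ P := dvd_iff_isRoot.mpr h
    have h2 := eq_of_monic_of_associated (monic_X_sub_C 1) (hΦ P hP).2
      ((irreducible_X_sub_C 1).associated_of_dvd (hΦ P hP).1 hd)
    apply hLΦ
    rw [← h2] at hP
    simpa using hP
  have hQ : ∀ P : Φ, C ((P : F[X]).coeff 0)⁻¹ * (P : F[X]).reverse ∈ Φ := by
    intro P
    have hc := h0 P P.2
    apply hmem
    · rw [Monic, leadingCoeff_mul, leadingCoeff_C, reverse_leadingCoeff_of_coeff_zero _ hc,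
        inv_mul_cancel₀ hc]
    · rw [(isUnit_C.mpr (IsUnit.mk0 _ (inv_ne_zero hc))).mul_left_dvd]
      obtain ⟨W, hW⟩ := hdvd P P.2
      have h2 := congrArg reverse hW
      rw [cyclotomic_prime_reverse r hr, reverse_mul_of_domain] at h2
      exact ⟨_, h2⟩
    · rw [natDegree_C_mul (inv_ne_zero hc), reverse_natDegree_of_coeff_zero _ hc, hdeg P P.2]
  obtain ⟨star, hstardef⟩ : ∃ star : Φ → Φ, star = fun P => ⟨_, hQ P⟩ := ⟨_, rfl⟩
  have hstar : ∀ P : Φ, RevRel (P : F[X]) (star P : F[X]) := by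
    intro P
    refine ⟨(P : F[X]).coeff 0, h0 P P.2, ?_⟩
    rw [hstardef]
    show _ = C _ * (C _ * _)
    rw [← mul_assoc, ← C_mul, mul_inv_cancel₀ (h0 P P.2), C_1, one_mul]
  have hinv : Function.Involutive star := by
    intro P
    obtain ⟨u, hu, e1⟩ := hstar P
    obtain ⟨v, hv, e2⟩ := hstar (star P)
    have h3 : C (u * v) * (star (star P) : F[X]) = (P : F[X]) := by
      rw [← reverse_reverse_of_coeff_zero (P : F[X]) (h0 P P.2), e1, reverse_mul_of_domain,
        reverse_C, e2, C_mul]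
      ring
    have h4 : Associated (C (u * v) * (star (star P) : F[X])) (star (star P) : F[X]) :=
      associated_unit_mul_left _ _ (isUnit_C.mpr (IsUnit.mk0 _ (mul_ne_zero hu hv)))
    rw [h3] at h4
    apply Subtype.ext
    exact (eq_of_monic_of_associated (hΦ P P.2).2 (hΦ _ (star (star P)).2).2 h4).symm
  refine ⟨star, hstar, hinv, ?_, ?_⟩
  · intro hev P
    obtain ⟨u, hu, e1⟩ := hstar P
    have hqi : (q : ZMod r) ^ (i / 2) = -1 := by
      have hsq : (q : ZMod r) ^ (i / 2) * (q : ZMod r) ^ (i / 2) = 1 := by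
        rw [← pow_add]
        have h2 : i / 2 + i / 2 = i := by
          obtain ⟨k, hk⟩ := hev
          omega
        rw [h2, hi, pow_orderOf_eq_one]
      rcases mul_self_eq_one_iff.mp hsq with h | h
      · exfalso
        have h2 := orderOf_dvd_of_pow_eq_one h
        rw [← hi] at h2
        have h3 := Nat.le_of_dvd (by obtain ⟨k, hk⟩ := hev; omega) h2
        omega
      · exact h
    have hd := dvd_reverse_of_even hF r i (P : F[X]) (hΦ P P.2).1 (hcx P P.2) hqi
    rw [e1, (isUnit_C.mpr (IsUnit.mk0 _ hu)).dvd_mul_left] at hd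
    apply Subtype.ext
    exact (eq_of_monic_of_associated (hΦ P P.2).2 (hΦ _ (star P).2).2
      ((hΦ P P.2).1.associated_of_dvd (hΦ _ (star P).2).1 hd)).symm
  · intro hodd P hPeq
    obtain ⟨u, hu, e1⟩ := hstar P
    rw [hPeq] at e1
    have hPm := (hΦ P P.2).2
    have hc := h0 P P.2
    have hdegP := hdeg P P.2
    have hu1 : u * (P : F[X]).coeff 0 = 1 := by
      have h2 := congrArg (fun f => f.coeff 0) e1
      simp only [coeff_zero_reverse, coeff_C_mul] at h2
      rw [hPm.leadingCoeff] at h2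
      exact h2.symm
    have hu2 : (P : F[X]).coeff 0 = u := by
      have h2 := congrArg leadingCoeff e1
      rw [reverse_leadingCoeff_of_coeff_zero _ hc, leadingCoeff_mul, leadingCoeff_C,
        hPm.leadingCoeff, mul_one] at h2
      exact h2
    rw [hu2] at hu1
    have hoddP : Odd (P : F[X]).natDegree := by
      rw [hdegP]
      exact hodd
    have hrodd : Odd r := hr.eq_two_or_odd'.resolve_left hr2
    rcases mul_self_eq_one_iff.mp hu1 with h | h
    · have h2 := Cfsg.Agent.H45.eval_eq_zero_of_reverse (P : F[X]) u (-1) e1 hoddP (by ring)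
        (by rw [h, hoddP.neg_one_pow]; ring)
      obtain ⟨W, hW⟩ := hcx P P.2
      have h3 := congrArg (eval (-1)) hW
      rw [eval_mul, h2, zero_mul] at h3
      simp only [eval_sub, eval_pow, eval_X, eval_one] at h3
      rw [hrodd.neg_one_pow] at h3
      have h4 : (-1 : F) = 1 := by linear_combination h3
      rw [h4] at h2
      exact h1P P P.2 h2
    · have h2 := Cfsg.Agent.H45.eval_eq_zero_of_reverse (P : F[X]) u 1 e1 hoddP (by ring)
        (by rw [h, one_pow]; ring)
      exact h1P P P.2 h2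

end Cyclo

section SpPart

variable {F : Type*} [Field F] [Fintype F]

/-- Classes of elements of prime order `r ≠ p` in `Sp_2m(q)` correspond to the non-zero
reciprocal-invariant multiplicity tuples on the irreducible factors of the `r`-th cyclotomic
polynomial. -/
theorem card_sp_classes_prime_order (p : ℕ) [Fact p.Prime] [CharP F p] (m r i : ℕ)
    (hr : r.Prime) (hrp : r ≠ p) (Φ : Finset F[X]) (hΦ : ∀ P ∈ Φ, Irreducible P ∧ P.Monic)
    (hdeg : ∀ P ∈ Φ, P.natDegree = i) (hLΦ : (X - 1 : F[X]) ∉ Φ)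
    (hprod : (X - 1) * ∏ P ∈ Φ, P = (X ^ r - 1 : F[X])) (hi : 0 < i)
    (star : Φ → Φ) (hstar : ∀ P : Φ, RevRel (P : F[X]) (star P : F[X]))
    (hinv : Function.Involutive star)
    (hpar : ∀ a : Φ → ℕ, (∀ P, a (star P) = a P) → Even (i * ∑ P, a P)) :
    Nat.card {C : ConjClasses ↥(Matrix.symplecticGroup (Fin m) F) //
        ∃ g : Matrix.symplecticGroup (Fin m) F, ConjClasses.mk g = C ∧ orderOf g = r}
      = Nat.card {a : Φ → ℕ // (∀ P, a (star P) = a P) ∧ a ≠ 0 ∧ i * ∑ P, a P ≤ 2 * m} := by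
  classical
  have hp : p.Prime := Fact.out
  have hL : Irreducible (X - 1 : F[X]) := by simpa using irreducible_X_sub_C (1 : F)
  have hLm : (X - 1 : F[X]).Monic := by simpa using monic_X_sub_C (1 : F)
  have hLd : (X - 1 : F[X]).natDegree = 1 := by simpa using natDegree_X_sub_C (1 : F)
  have hΦm : ∀ P ∈ Φ, P.Monic := fun P hP => (hΦ P hP).2
  have hpr : ¬ p ∣ r := fun h => hrp ((Nat.prime_dvd_prime_iff_eq hp hr).mp h).symm
  have hp1 : ¬ p ∣ 1 := fun h => hp.one_lt.ne' (Nat.dvd_one.mp h)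
  have hcard : Fintype.card (Fin m ⊕ Fin m) = 2 * m := by
    rw [Fintype.card_sum, Fintype.card_fin]
    ring
  have h1P : ∀ P ∈ Φ, P.eval 1 ≠ 0 := by
    intro P hP h
    have hd : (X - C (1 : F)) ∣ P := dvd_iff_isRoot.mpr h
    have h2 := eq_of_monic_of_associated (monic_X_sub_C 1) (hΦ P hP).2
      ((irreducible_X_sub_C 1).associated_of_dvd (hΦ P hP).1 hd)
    apply hLΦ
    rw [← h2] at hP
    simpa using hP
  obtain ⟨f, hf⟩ : ∃ f : (Φ → ℕ) → F[X],
      f = fun a => facPoly (X - 1) Φ (2 * m - i * ∑ P, a P) a := ⟨_, rfl⟩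
  have hle1 : ∀ (a : Φ → ℕ) (P : Φ), a P ≤ i * ∑ Q, a Q := by
    intro a P
    calc a P ≤ ∑ Q, a Q := Finset.single_le_sum (fun _ _ => Nat.zero_le _) (Finset.mem_univ P)
      _ ≤ i * ∑ Q, a Q := Nat.le_mul_of_pos_left _ hi
  have hgpow : ∀ g : Matrix.symplecticGroup (Fin m) F, orderOf g = r →
      (g : Matrix (Fin m ⊕ Fin m) (Fin m ⊕ Fin m) F) ^ r = 1 := by
    intro g hg
    have h1 := pow_orderOf_eq_one g
    rw [hg] at h1
    have h2 := congrArg Subtype.val h1
    exact h2
  have hone : (1 : Matrix (Fin m ⊕ Fin m) (Fin m ⊕ Fin m) F) ∈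
      Matrix.symplecticGroup (Fin m) F := one_mem _
  -- existence
  have hex : ∀ a : Φ → ℕ, (∀ P, a (star P) = a P) → a ≠ 0 → i * ∑ P, a P ≤ 2 * m →
      ∃ g : Matrix.symplecticGroup (Fin m) F, orderOf g = r ∧
        (g : Matrix (Fin m ⊕ Fin m) (Fin m ⊕ Fin m) F).charpoly = f a := by
    intro a hainv ha hle
    have hfm : (f a).Monic := by
      rw [hf]
      exact facPoly_monic _ _ hΦm hLm _ _
    have hfd : (f a).natDegree = 2 * m := by
      rw [hf]
      simp only
      rw [natDegree_facPoly _ _ hΦm hLm i hdeg, hLd, mul_one]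
      omega
    have hdiv : f a ∣ (X ^ r - 1) ^ (2 * m) := by
      rw [← hprod, hf]
      apply facPoly_dvd
      · exact Nat.sub_le _ _
      · intro P
        exact (hle1 a P).trans hle
    have hf0 : (f a).coeff 0 ≠ 0 := by
      intro h0
      have hX : (X : F[X]) ∣ f a := X_dvd_iff.mpr h0
      have h1 := prime_X.dvd_of_dvd_pow (hX.trans hdiv)
      rw [X_dvd_iff] at h1
      have hr0 : ¬ (0 = r) := fun h => hr.ne_zero h.symm
      simp [coeff_X_pow, hr0, coeff_one] at h1
    have hstara : (fun P => a (star P)) = a := funext hainv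
    have hrev : RevRel (f a) (f a) := by
      have h1 := reverse_facPoly Φ star hstar hinv (2 * m - i * ∑ P, a P) a
      rw [hstara] at h1
      rw [hf]
      exact h1
    have hassoc : Associated (f a) (Cfsg.Agent.H45.dualPoly (RingHom.id F) (f a)) := by
      obtain ⟨u, hu, e⟩ := hrev
      exact Cfsg.Agent.H45.associated_dualPoly_of_eq (RingHom.id F) (f a) u hu
        (by rw [Cfsg.Agent.H45.dualPoly_id]; exact e)
    have hc0 : (f a).coeff 0 = 1 := by
      have hg : RevRel (facPoly (X - 1) Φ 0 a) (facPoly (X - 1) Φ 0 a) := by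
        have h1 := reverse_facPoly Φ star hstar hinv 0 a
        rw [hstara] at h1
        exact h1
      obtain ⟨u, hu, e⟩ := hg
      have hgm : (facPoly (X - 1) Φ 0 a).Monic := facPoly_monic _ _ hΦm hLm _ _
      have e0 : u * (facPoly (X - 1) Φ 0 a).coeff 0 = 1 := by
        have h1 := congrArg (fun f => f.coeff 0) e
        simp only [coeff_zero_reverse, coeff_C_mul] at h1
        rw [hgm.leadingCoeff] at h1
        exact h1.symm
      have e1 : (facPoly (X - 1) Φ 0 a).eval 1 ≠ 0 := by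
        unfold facPoly
        rw [pow_zero, one_mul, eval_prod]
        apply Finset.prod_ne_zero_iff.mpr
        intro P _
        rw [eval_pow]
        exact pow_ne_zero _ (h1P P P.2)
      have e2 : u = 1 := by
        have h1 := congrArg (eval 1) e
        rw [Cfsg.Agent.H45.eval_one_reverse, eval_mul, eval_C] at h1
        have h3 : (u - 1) * (facPoly (X - 1) Φ 0 a).eval 1 = 0 := by linear_combination -h1
        rcases mul_eq_zero.mp h3 with h | h
        · linear_combination h
        · exact absurd h e1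
      rw [e2, one_mul] at e0
      have hsplit : f a = (X - 1) ^ (2 * m - i * ∑ P, a P) * facPoly (X - 1) Φ 0 a := by
        rw [hf]
        unfold facPoly
        rw [pow_zero, one_mul]
      have hev : Even (2 * m - i * ∑ P, a P) := by
        rw [Nat.even_sub hle]
        exact iff_of_true (even_two_mul m) (hpar a hainv)
      rw [hsplit, mul_coeff_zero, e0, mul_one, coeff_zero_eq_eval_zero, eval_pow, eval_sub,
        eval_X, eval_one, zero_sub, hev.neg_one_pow]
    have hreal := Cfsg.Agent.H45.exists_realizable (σ := RingHom.id F) p (fun _ => rfl) (-1)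
      (by simp) (fun _ => rfl) (2 * m) (f a) hfd hfm hf0 hassoc
      (fun _ => ⟨hc0, by rw [hfd]; exact even_two_mul m⟩)
    obtain ⟨A, hAmem, hA, k, hk, hAk⟩ :=
      Cfsg.Agent.H45.exists_sp_of_realizable p m (f a) hreal hfd
    have hn0 : 2 * m ≠ 0 := by
      intro h0
      apply ha
      funext P
      have h1 := (hle1 a P).trans hle
      rw [h0] at h1
      simpa using h1
    have hsq : Squarefree (minpoly F A) := by
      have hsep : (X ^ k - C (1 : F)).Separable :=
        separable_X_pow_sub_C' p k (1 : F) hk one_ne_zero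
      apply hsep.squarefree.squarefree_of_dvd
      apply minpoly.dvd
      simp [hAk]
    have hmin : minpoly F A ∣ X ^ r - 1 := by
      rw [← hsq.dvd_pow_iff_dvd hn0]
      exact (Matrix.minpoly_dvd_charpoly A).trans (hA ▸ hdiv)
    have hAr : A ^ r = 1 := by
      obtain ⟨w, hw⟩ := hmin
      have h1 := congrArg (aeval A) hw
      rw [map_mul, minpoly.aeval, zero_mul] at h1
      simpa [sub_eq_zero] using h1
    have hA1 : A ≠ 1 := by
      rintro rfl
      rw [Matrix.charpoly_one, hcard] at hA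
      have h0 : (X - 1 : F[X]) ^ (2 * m) = facPoly (X - 1) Φ (2 * m) 0 := by
        unfold facPoly
        simp
      rw [h0, hf] at hA
      exact ha (facPoly_inj _ _ hΦ hL hLm hLΦ _ _ _ _ hA).symm
    refine ⟨⟨A, hAmem⟩, ?_, hA⟩
    have : Fact r.Prime := ⟨hr⟩
    apply orderOf_eq_prime
    · apply Subtype.ext
      exact hAr
    · intro h
      exact hA1 (congrArg Subtype.val h)
  -- structure
  have hstr : ∀ g : Matrix.symplecticGroup (Fin m) F, orderOf g = r →
      ∃ a : Φ → ℕ, (∀ P, a (star P) = a P) ∧ a ≠ 0 ∧ i * ∑ P, a P ≤ 2 * m ∧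
        (g : Matrix (Fin m ⊕ Fin m) (Fin m ⊕ Fin m) F).charpoly = f a := by
    intro g hg
    have hgr := hgpow g hg
    have hdiv := charpoly_dvd_of_pow_eq_one (g : Matrix (Fin m ⊕ Fin m) (Fin m ⊕ Fin m) F) r hgr
    rw [hcard, ← hprod] at hdiv
    obtain ⟨c, a, hca⟩ := exists_facPoly (X - 1) Φ hΦ hL hLm hLΦ _ (Matrix.charpoly_monic _)
      (2 * m) hdiv
    have hd := Matrix.charpoly_natDegree_eq_dim (g : Matrix (Fin m ⊕ Fin m) (Fin m ⊕ Fin m) F)
    rw [hca, natDegree_facPoly _ _ hΦm hLm i hdeg, hLd, mul_one, hcard] at hd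
    have hc : c = 2 * m - i * ∑ P, a P := by omega
    have hainv : ∀ P, a (star P) = a P := by
      have hrev := Cfsg.Agent.H45.sp_charpoly_reverse m _ g.2
      rw [hca] at hrev
      obtain ⟨u, hu, e⟩ := reverse_facPoly Φ star hstar hinv c a
      rw [hrev] at e
      have hu1 : u = 1 := by
        have h1 := congrArg leadingCoeff e
        rw [leadingCoeff_mul, leadingCoeff_C, (facPoly_monic _ _ hΦm hLm _ _).leadingCoeff,
          (facPoly_monic _ _ hΦm hLm _ _).leadingCoeff, mul_one] at h1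
        exact h1.symm
      rw [hu1, C_1, one_mul] at e
      have h2 := facPoly_inj _ _ hΦ hL hLm hLΦ _ _ _ _ e
      intro P
      exact (congrFun h2 P).symm
    refine ⟨a, hainv, ?_, by omega, ?_⟩
    · intro ha0
      have h1 : (g : Matrix (Fin m ⊕ Fin m) (Fin m ⊕ Fin m) F).charpoly
          = (1 : Matrix (Fin m ⊕ Fin m) (Fin m ⊕ Fin m) F).charpoly := by
        rw [hca, Matrix.charpoly_one, hcard, ha0]
        rw [ha0] at hd
        unfold facPoly
        simp only [Pi.zero_apply, Finset.sum_const_zero, mul_zero, add_zero] at hd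
        simp [hd]
      obtain ⟨P, hP, hPA⟩ := Cfsg.Agent.H45.sp_conj p _ _ g.2 hone r 1 hpr hgr hp1 (pow_one 1) h1
      have hkg : (⟨P, hP⟩ : Matrix.symplecticGroup (Fin m) F) * g = ⟨P, hP⟩ * 1 := by
        apply Subtype.ext
        rw [mul_one]
        simpa using hPA
      have hg1 : g = 1 := mul_left_cancel hkg
      rw [hg1, orderOf_one] at hg
      exact hr.one_lt.ne hg
    · rw [hca, hc, hf]
  choose G hG1 hG2 using hex
  let φ : {a : Φ → ℕ // (∀ P, a (star P) = a P) ∧ a ≠ 0 ∧ i * ∑ P, a P ≤ 2 * m} →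
      {C : ConjClasses ↥(Matrix.symplecticGroup (Fin m) F) //
        ∃ g : Matrix.symplecticGroup (Fin m) F, ConjClasses.mk g = C ∧ orderOf g = r} :=
    fun a => ⟨ConjClasses.mk (G a.1 a.2.1 a.2.2.1 a.2.2.2), _, rfl, hG1 _ _ _ _⟩
  have hφ : Function.Bijective φ := by
    constructor
    · intro a b hab
      have h1 : ConjClasses.mk (G a.1 a.2.1 a.2.2.1 a.2.2.2)
          = ConjClasses.mk (G b.1 b.2.1 b.2.2.1 b.2.2.2) := congrArg Subtype.val hab
      rw [ConjClasses.mk_eq_mk_iff_isConj, isConj_iff] at h1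
      obtain ⟨c, hc⟩ := h1
      rw [mul_inv_eq_iff_eq_mul] at hc
      have hc' : (c : Matrix (Fin m ⊕ Fin m) (Fin m ⊕ Fin m) F)
          * (G a.1 a.2.1 a.2.2.1 a.2.2.2 : Matrix (Fin m ⊕ Fin m) (Fin m ⊕ Fin m) F)
          = (G b.1 b.2.1 b.2.2.1 b.2.2.2 : Matrix (Fin m ⊕ Fin m) (Fin m ⊕ Fin m) F)
            * (c : Matrix (Fin m ⊕ Fin m) (Fin m ⊕ Fin m) F) := congrArg Subtype.val hc
      have h2 := Cfsg.Agent.H45.charpoly_eq_of_conj _ _ _
        (SymplecticGroup.symplectic_det c.2) hc'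
      rw [hG2, hG2, hf] at h2
      exact Subtype.ext (facPoly_inj _ _ hΦ hL hLm hLΦ _ _ _ _ h2)
    · rintro ⟨C, g, rfl, hg⟩
      obtain ⟨a, hainv, ha0, hale, hach⟩ := hstr g hg
      refine ⟨⟨a, hainv, ha0, hale⟩, ?_⟩
      apply Subtype.ext
      show ConjClasses.mk (G a hainv ha0 hale) = ConjClasses.mk g
      rw [ConjClasses.mk_eq_mk_iff_isConj, isConj_iff]
      obtain ⟨P, hP, hPA⟩ := Cfsg.Agent.H45.sp_conj p _ _ (G a hainv ha0 hale).2 g.2 r r hpr
        (hgpow _ (hG1 a hainv ha0 hale)) hpr (hgpow g hg) ((hG2 a hainv ha0 hale).trans hach.symm)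
      refine ⟨⟨P, hP⟩, ?_⟩
      rw [mul_inv_eq_iff_eq_mul]
      exact Subtype.ext hPA
  exact (Nat.card_congr (Equiv.ofBijective φ hφ)).symm

end SpPart

end Cfsg.Agent.H48
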