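import Cfsg.Agent.H48.OrthSS
import Cfsg.Agent.H48.PrimeOrdSp
import Cfsg.Agent.H48.NilClass2
import Cfsg.Agent.H49.NegOne

/-!
# Classes of elements of odd prime order `r ≠ p` in an orthogonal group: generic reduction

For a quadratic form with non-degenerate polar form on `F^ι`, the classes of elements of order `r`
of its isometry group correspond to the reciprocal-invariant multiplicity tuples which are
realised by an isometry.
-/

set_option autoImplicit false

namespace Cfsg.Agent.H48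

open Polynomial Matrix

section OrthPart

variable {F : Type*} [Field F] {ι : Type} [Fintype ι] [DecidableEq ι]

/-- The matrix of an isometry. -/
def isoMat {Qf : (ι → F) → F} (x : ↥(Cfsg.isometryGroup F Qf)) : Matrix ι ι F :=
  ((x : GL ι F) : Matrix ι ι F)

theorem isoMat_mul {Qf : (ι → F) → F} (x y : ↥(Cfsg.isometryGroup F Qf)) :
    isoMat (x * y) = isoMat x * isoMat y := rfl

theorem isoMat_one {Qf : (ι → F) → F} : isoMat (1 : ↥(Cfsg.isometryGroup F Qf)) = 1 := rfl

theorem isoMat_pow {Qf : (ι → F) → F} (x : ↥(Cfsg.isometryGroup F Qf)) (k : ℕ) :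
    isoMat (x ^ k) = isoMat x ^ k := by
  induction k with
  | zero => rfl
  | succ k ih => rw [pow_succ, pow_succ, isoMat_mul, ih]

theorem isoMat_inj {Qf : (ι → F) → F} (x y : ↥(Cfsg.isometryGroup F Qf))
    (h : isoMat x = isoMat y) : x = y :=
  Subtype.ext (Units.ext h)

theorem isoMat_mul_inv {Qf : (ι → F) → F} (x : ↥(Cfsg.isometryGroup F Qf)) :
    isoMat x * isoMat x⁻¹ = 1 := by
  rw [← isoMat_mul, mul_inv_cancel, isoMat_one]

theorem isoMat_inv_mul {Qf : (ι → F) → F} (x : ↥(Cfsg.isometryGroup F Qf)) :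
    isoMat x⁻¹ * isoMat x = 1 := by
  rw [← isoMat_mul, inv_mul_cancel, isoMat_one]

theorem isoMat_preserves {Qf : (ι → F) → F} (x : ↥(Cfsg.isometryGroup F Qf)) (v : ι → F) :
    Qf (isoMat x *ᵥ v) = Qf v :=
  x.2 v v

theorem isoMat_det_ne_zero {Qf : (ι → F) → F} (x : ↥(Cfsg.isometryGroup F Qf)) :
    (isoMat x).det ≠ 0 := by
  have h3 := congrArg Matrix.det (isoMat_mul_inv x)
  rw [Matrix.det_mul, Matrix.det_one] at h3
  exact left_ne_zero_of_mul_eq_one h3

/-- An invertible matrix preserving `Qf` gives an isometry. -/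
theorem exists_iso_of_matrix {Qf : (ι → F) → F} (M : Matrix ι ι F) (hM : M.det ≠ 0)
    (h : ∀ v, Qf (M *ᵥ v) = Qf v) : ∃ x : ↥(Cfsg.isometryGroup F Qf), isoMat x = M := by
  have hu : IsUnit M.det := IsUnit.mk0 _ hM
  let g : GL ι F := ⟨M, M⁻¹, Matrix.mul_nonsing_inv M hu, Matrix.nonsing_inv_mul M hu⟩
  have hg : g ∈ Cfsg.isometryGroup F Qf := by
    intro x y
    show Qf (M *ᵥ x) = Qf x
    exact h x
  exact ⟨⟨g, hg⟩, rfl⟩

/-- Isometries (of odd order prime to `p`) conjugate in `GL` are conjugate in the isometry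
group. -/
theorem orth_isConj_of_matrix_conj [Finite F] (p : ℕ) [Fact p.Prime] [CharP F p]
    (Q : QuadraticForm F (ι → F)) (hQ : (QuadraticMap.polarBilin Q).Nondegenerate)
    (A B : ↥(Cfsg.isometryGroup F ⇑Q)) (m : ℕ) (hm : Odd m) (hmp : ¬ p ∣ m)
    (hAm : isoMat A ^ m = 1) (u : GL ι F)
    (hu : (u : Matrix ι ι F) * isoMat A = isoMat B * (u : Matrix ι ι F)) : IsConj A B := by
  classical
  have ham : (Matrix.toLin' (isoMat A)) ^ m = 1 := by
    rw [← Matrix.toLin'_pow, hAm, Matrix.toLin'_one]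
    rfl
  let g : (ι → F) ≃ₗ[F] (ι → F) :=
    LinearEquiv.ofLinearMap (Matrix.toLin' (u : Matrix ι ι F))
      (Matrix.toLin' ((u⁻¹ : (Matrix ι ι F)ˣ) : Matrix ι ι F))
      (by rw [← Matrix.toLin'_mul, Units.mul_inv, Matrix.toLin'_one])
      (by rw [← Matrix.toLin'_mul, Units.inv_mul, Matrix.toLin'_one])
  obtain ⟨h, hhQ, hh⟩ := orth_conj_of_linear_conj p Q hQ
    (Matrix.toLin' (isoMat A)) (Matrix.toLin' (isoMat B))
    (fun v => by rw [Matrix.toLin'_apply]; exact isoMat_preserves A v)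
    (fun v => by rw [Matrix.toLin'_apply]; exact isoMat_preserves B v)
    m hm hmp ham g (fun v => by
      show Matrix.toLin' (u : Matrix ι ι F) (Matrix.toLin' _ v)
        = Matrix.toLin' _ (Matrix.toLin' (u : Matrix ι ι F) v)
      rw [← Matrix.toLin'_mul_apply, ← Matrix.toLin'_mul_apply, hu])
  have he1 : (h : (ι → F) →ₗ[F] (ι → F)) ∘ₗ (h.symm : (ι → F) →ₗ[F] (ι → F))
      = LinearMap.id := LinearMap.ext fun x => h.apply_symm_apply x
  have he2 : (h.symm : (ι → F) →ₗ[F] (ι → F)) ∘ₗ (h : (ι → F) →ₗ[F] (ι → F))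
      = LinearMap.id := LinearMap.ext fun x => h.symm_apply_apply x
  let P : GL ι F := ⟨LinearMap.toMatrix' (h : (ι → F) →ₗ[F] (ι → F)),
    LinearMap.toMatrix' (h.symm : (ι → F) →ₗ[F] (ι → F)),
    by rw [← LinearMap.toMatrix'_comp, he1, LinearMap.toMatrix'_id],
    by rw [← LinearMap.toMatrix'_comp, he2, LinearMap.toMatrix'_id]⟩
  have hPv : ∀ v, (P : Matrix ι ι F) *ᵥ v = h v := by
    intro v
    show LinearMap.toMatrix' (h : (ι → F) →ₗ[F] (ι → F)) *ᵥ v = h v
    rw [← Matrix.toLin'_apply, Matrix.toLin'_toMatrix']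
    rfl
  have hPmem : P ∈ Cfsg.isometryGroup F ⇑Q := by
    intro x y
    show Q ((P : Matrix ι ι F) *ᵥ x) = Q x
    rw [hPv, hhQ]
  rw [isConj_iff]
  refine ⟨⟨P, hPmem⟩, ?_⟩
  rw [mul_inv_eq_iff_eq_mul]
  apply isoMat_inj
  show (P : Matrix ι ι F) * isoMat A = isoMat B * (P : Matrix ι ι F)
  apply Matrix.toLin'.injective
  apply LinearMap.ext
  intro v
  rw [Matrix.toLin'_mul_apply, Matrix.toLin'_mul_apply,
    Matrix.toLin'_apply (P : Matrix ι ι F), hPv, hh v,
    Matrix.toLin'_apply (P : Matrix ι ι F), hPv]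

/-- The characteristic polynomial of an isometry of a non-degenerate quadratic form is
self-reciprocal up to a constant. -/
theorem orth_charpoly_revRel (Q : QuadraticForm F (ι → F))
    (hQ : (QuadraticMap.polarBilin Q).Nondegenerate) (A : ↥(Cfsg.isometryGroup F ⇑Q)) :
    RevRel (isoMat A).charpoly (isoMat A).charpoly := by
  classical
  obtain ⟨G, hGdef⟩ : ∃ G : Matrix ι ι F, G = Cfsg.Agent.H49.stdGram Q := ⟨_, rfl⟩
  have hpol : ∀ u w : ι → F, QuadraticMap.polar (⇑Q) u w = u ⬝ᵥ (G *ᵥ w) := by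
    intro u w
    rw [hGdef]
    exact Cfsg.Agent.H49.polar_eq_dot_stdGram Q u w
  have hGdet : G.det ≠ 0 := by
    intro h0
    obtain ⟨v, hv, hGv⟩ := Matrix.exists_mulVec_eq_zero_iff.mpr h0
    apply hv
    apply hQ.1 v
    intro w
    show QuadraticMap.polar (⇑Q) v w = 0
    rw [QuadraticMap.polar_comm, hpol, hGv, dotProduct_zero]
  have hGu : IsUnit G.det := IsUnit.mk0 _ hGdet
  have hAGA : (isoMat A)ᵀ * G * isoMat A = G := by
    have key : ∀ u w : ι → F, u ⬝ᵥ (((isoMat A)ᵀ * G * isoMat A) *ᵥ w) = u ⬝ᵥ (G *ᵥ w) := by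
      intro u w
      rw [← hpol, ← Cfsg.Agent.H49.isometry_polar Q A u w, hpol]
      show u ⬝ᵥ (((isoMat A)ᵀ * G * isoMat A) *ᵥ w) = (isoMat A *ᵥ u) ⬝ᵥ (G *ᵥ (isoMat A *ᵥ w))
      rw [← Matrix.mulVec_mulVec, ← Matrix.mulVec_mulVec, Matrix.dotProduct_mulVec,
        Matrix.vecMul_transpose]
    ext i j
    have h1 := key (Pi.single i 1) (Pi.single j 1)
    simpa [Matrix.mulVec_single_one] using h1
  have hinv : (isoMat A)⁻¹ = G⁻¹ * (isoMat A)ᵀ * G := by
    apply Matrix.inv_eq_left_inv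
    rw [Matrix.mul_assoc, Matrix.mul_assoc, ← Matrix.mul_assoc (isoMat A)ᵀ, hAGA,
      Matrix.nonsing_inv_mul G hGu]
  let U : (Matrix ι ι F)ˣ := ⟨G, G⁻¹, Matrix.mul_nonsing_inv G hGu, Matrix.nonsing_inv_mul G hGu⟩
  have h1 : (isoMat A)⁻¹.charpoly = (isoMat A).charpoly := by
    rw [hinv]
    have h0 := Matrix.charpoly_units_conj' U (isoMat A)ᵀ
    rw [Matrix.charpoly_transpose] at h0
    exact h0
  have hdet := isoMat_det_ne_zero A
  have h2 := Cfsg.Agent.H45.charpoly_inv_eq (isoMat A) hdet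
  rw [h1] at h2
  have hc0 : (isoMat A).charpoly.coeff 0 ≠ 0 := by
    intro h0
    rw [h0, _root_.inv_zero, C_0, zero_mul] at h2
    exact (Matrix.charpoly_monic (isoMat A)).ne_zero h2
  refine ⟨(isoMat A).charpoly.coeff 0, hc0, ?_⟩
  have h3 : (isoMat A).charpoly.reverse = C ((isoMat A).charpoly.coeff 0)
      * (C ((isoMat A).charpoly.coeff 0)⁻¹ * (isoMat A).charpoly.reverse) := by
    rw [← mul_assoc, ← C_mul, mul_inv_cancel₀ hc0, C_1, one_mul]
  rw [← h2] at h3
  exact h3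

/-- The tuple `a` is realised by an isometry of `Qf` of order dividing `r`. -/
def OrthReal (Qf : (ι → F) → F) (r : ℕ) (Φ : Finset F[X]) (i : ℕ) (a : Φ → ℕ) : Prop :=
  ∃ g : ↥(Cfsg.isometryGroup F Qf), isoMat g ^ r = 1 ∧
    (isoMat g).charpoly = facPoly (X - 1) Φ (Fintype.card ι - i * ∑ P, a P) a

/-- Classes of elements of odd prime order `r ≠ p` in the isometry group of a quadratic form with
non-degenerate polar form correspond to the realisable reciprocal-invariant multiplicity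
tuples. -/
theorem card_orth_classes_prime_order [Fintype F] (p : ℕ) [Fact p.Prime] [CharP F p]
    (Q : QuadraticForm F (ι → F)) (hQ : (QuadraticMap.polarBilin Q).Nondegenerate)
    (r i : ℕ) (hr : r.Prime) (hr2 : r ≠ 2) (hrp : r ≠ p) (Φ : Finset F[X])
    (hΦ : ∀ P ∈ Φ, Irreducible P ∧ P.Monic)
    (hdeg : ∀ P ∈ Φ, P.natDegree = i) (hLΦ : (X - 1 : F[X]) ∉ Φ)
    (hprod : (X - 1) * ∏ P ∈ Φ, P = (X ^ r - 1 : F[X])) (hi : 0 < i)
    (star : Φ → Φ) (hstar : ∀ P : Φ, RevRel (P : F[X]) (star P : F[X]))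
    (hinv : Function.Involutive star) :
    Nat.card {C : ConjClasses ↥(Cfsg.isometryGroup F ⇑Q) //
        ∃ g : ↥(Cfsg.isometryGroup F ⇑Q), ConjClasses.mk g = C ∧ orderOf g = r}
      = Nat.card {a : Φ → ℕ // (∀ P, a (star P) = a P) ∧ a ≠ 0 ∧
          i * ∑ P, a P ≤ Fintype.card ι ∧ OrthReal (⇑Q) r Φ i a} := by
  classical
  have hp : p.Prime := Fact.out
  have hL : Irreducible (X - 1 : F[X]) := by simpa using irreducible_X_sub_C (1 : F)
  have hLm : (X - 1 : F[X]).Monic := by simpa using monic_X_sub_C (1 : F)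
  have hLd : (X - 1 : F[X]).natDegree = 1 := by simpa using natDegree_X_sub_C (1 : F)
  have hΦm : ∀ P ∈ Φ, P.Monic := fun P hP => (hΦ P hP).2
  have hpr : ¬ p ∣ r := fun h => hrp ((Nat.prime_dvd_prime_iff_eq hp hr).mp h).symm
  have hrodd : Odd r := hr.eq_two_or_odd'.resolve_left hr2
  have hss : ∀ g : Matrix ι ι F, g ^ r = 1 → Module.End.IsSemisimple (Matrix.toLin' g) := by
    intro g hg
    apply Cfsg.Agent.H45.isSemisimple_of_pow_eq_one p _ r hpr
    rw [← Matrix.toLin'_pow, hg, Matrix.toLin'_one]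
    rfl
  have hconj : ∀ g h : Matrix ι ι F, g ^ r = 1 → h ^ r = 1 → g.charpoly = h.charpoly →
      ∃ c : GL ι F, (c : Matrix ι ι F) * g = h * (c : Matrix ι ι F) := by
    intro g h hg hh hc
    obtain ⟨e, he⟩ := Cfsg.Agent.H45.exists_equiv_of_charpoly_eq (Fintype.card ι)
      (Matrix.toLin' g) (Matrix.toLin' h) (Module.finrank_fintype_fun_eq_card F) (hss g hg)
      (hss h hh) (by rw [Matrix.charpoly_toLin', Matrix.charpoly_toLin', hc])
    exact exists_gl_of_linearEquiv g h e he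
  have hgpow : ∀ g : ↥(Cfsg.isometryGroup F ⇑Q), orderOf g = r → isoMat g ^ r = 1 := by
    intro g hg
    rw [← isoMat_pow, ← hg, pow_orderOf_eq_one, isoMat_one]
  have h0fac : ∀ c : ℕ, (X - 1 : F[X]) ^ c = facPoly (X - 1) Φ c 0 := by
    intro c
    unfold facPoly
    simp
  -- the chosen representatives
  have hex : ∀ a : {a : Φ → ℕ // (∀ P, a (star P) = a P) ∧ a ≠ 0 ∧
      i * ∑ P, a P ≤ Fintype.card ι ∧ OrthReal (⇑Q) r Φ i a},
      ∃ g : ↥(Cfsg.isometryGroup F ⇑Q), orderOf g = r ∧ isoMat g ^ r = 1 ∧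
        (isoMat g).charpoly = facPoly (X - 1) Φ (Fintype.card ι - i * ∑ P, a.1 P) a.1 := by
    rintro ⟨a, -, ha0, -, g, hg, hgc⟩
    refine ⟨g, ?_, hg, hgc⟩
    haveI : Fact r.Prime := ⟨hr⟩
    apply orderOf_eq_prime
    · apply isoMat_inj
      rw [isoMat_pow, hg, isoMat_one]
    · intro h1
      rw [h1, isoMat_one, Matrix.charpoly_one, h0fac] at hgc
      exact ha0 (facPoly_inj _ _ hΦ hL hLm hLΦ _ _ _ _ hgc).symm
  choose G hG1 hG2 hG3 using hex
  let φ : {a : Φ → ℕ // (∀ P, a (star P) = a P) ∧ a ≠ 0 ∧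
      i * ∑ P, a P ≤ Fintype.card ι ∧ OrthReal (⇑Q) r Φ i a} →
      {C : ConjClasses ↥(Cfsg.isometryGroup F ⇑Q) //
        ∃ g : ↥(Cfsg.isometryGroup F ⇑Q), ConjClasses.mk g = C ∧ orderOf g = r} :=
    fun a => ⟨ConjClasses.mk (G a), _, rfl, hG1 a⟩
  have hφ : Function.Bijective φ := by
    constructor
    · intro a b hab
      have h1 : ConjClasses.mk (G a) = ConjClasses.mk (G b) := congrArg Subtype.val hab
      rw [ConjClasses.mk_eq_mk_iff_isConj, isConj_iff] at h1
      obtain ⟨c, hc⟩ := h1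
      rw [mul_inv_eq_iff_eq_mul] at hc
      have hc' : isoMat c * isoMat (G a) = isoMat (G b) * isoMat c := by
        rw [← isoMat_mul, ← isoMat_mul, hc]
      have h2 := Cfsg.Agent.H45.charpoly_eq_of_conj _ _ _
        (IsUnit.mk0 _ (isoMat_det_ne_zero c)) hc'
      rw [hG3, hG3] at h2
      exact Subtype.ext (facPoly_inj _ _ hΦ hL hLm hLΦ _ _ _ _ h2)
    · rintro ⟨C, g, rfl, hg⟩
      have hgr := hgpow g hg
      have hdiv := charpoly_dvd_of_pow_eq_one (isoMat g) r hgr
      rw [← hprod] at hdiv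
      obtain ⟨c, a, hca⟩ := exists_facPoly (X - 1) Φ hΦ hL hLm hLΦ _ (Matrix.charpoly_monic _)
        (Fintype.card ι) hdiv
      have hd := Matrix.charpoly_natDegree_eq_dim (isoMat g)
      rw [hca, natDegree_facPoly _ _ hΦm hLm i hdeg, hLd, mul_one] at hd
      have hc : c = Fintype.card ι - i * ∑ P, a P := by omega
      have hainv : ∀ P, a (star P) = a P := by
        obtain ⟨w, hw, hrev⟩ := orth_charpoly_revRel Q hQ g
        rw [hca] at hrev
        obtain ⟨u, hu, e⟩ := reverse_facPoly Φ star hstar hinv c a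
        rw [hrev] at e
        have hu1 : w = u := by
          have h1 := congrArg leadingCoeff e
          rw [leadingCoeff_mul, leadingCoeff_mul, leadingCoeff_C, leadingCoeff_C,
            (facPoly_monic _ _ hΦm hLm _ _).leadingCoeff,
            (facPoly_monic _ _ hΦm hLm _ _).leadingCoeff, mul_one, mul_one] at h1
          exact h1
        rw [hu1] at e
        have e' := mul_left_cancel₀ (C_ne_zero.mpr hu) e
        have h2 := facPoly_inj _ _ hΦ hL hLm hLΦ _ _ _ _ e'
        intro P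
        exact (congrFun h2 P).symm
      have ha0 : a ≠ 0 := by
        intro ha0
        have h1 : (isoMat g).charpoly = (1 : Matrix ι ι F).charpoly := by
          rw [hca, Matrix.charpoly_one, ha0]
          rw [ha0] at hd
          unfold facPoly
          simp only [Pi.zero_apply, Finset.sum_const_zero, mul_zero, add_zero] at hd
          simp [hd]
        obtain ⟨k, hk⟩ := hconj (isoMat g) 1 hgr (one_pow r) h1
        have hg1 : isoMat g = 1 := by
          have h2 : ((k⁻¹ : GL ι F) : Matrix ι ι F) * ((k : Matrix ι ι F) * isoMat g)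
              = ((k⁻¹ : GL ι F) : Matrix ι ι F) * (1 * (k : Matrix ι ι F)) := by rw [hk]
          rw [← mul_assoc, one_mul, ← Units.val_mul, inv_mul_cancel, Units.val_one, one_mul]
            at h2
          exact h2
        have hg1' : g = 1 := isoMat_inj g 1 (by rw [hg1, isoMat_one])
        rw [hg1', orderOf_one] at hg
        exact hr.one_lt.ne hg
      have hle : i * ∑ P, a P ≤ Fintype.card ι := by omega
      have hreal : OrthReal (⇑Q) r Φ i a := ⟨g, hgr, by rw [hca, hc]⟩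
      refine ⟨⟨a, hainv, ha0, hle, hreal⟩, ?_⟩
      apply Subtype.ext
      show ConjClasses.mk (G ⟨a, hainv, ha0, hle, hreal⟩) = ConjClasses.mk g
      rw [ConjClasses.mk_eq_mk_iff_isConj]
      obtain ⟨k, hk⟩ := hconj (isoMat (G ⟨a, hainv, ha0, hle, hreal⟩)) (isoMat g)
        (hG2 _) hgr (by rw [hG3, hca, hc])
      exact orth_isConj_of_matrix_conj p Q hQ _ _ r hrodd hpr (hG2 _) k hk
  exact (Nat.card_congr (Equiv.ofBijective φ hφ)).symm

end OrthPart

end Cfsg.Agent.H48
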