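import Cfsg.Agent.H48.OrthModel
import Cfsg.Agent.H49.SimpleForms
import Cfsg.Agent.H49.Similar
import Cfsg.Agent.H7.Quad

/-!
# The type of an orthogonal space carrying a fixed-point-free isometry of odd prime order
-/

set_option autoImplicit false

namespace Cfsg.Agent.H48

open Polynomial Matrix

section OrthType

variable {F : Type*} [Field F] [Fintype F]

/-- In even dimension, all non-zero norms are taken equally often. -/
theorem card_norm_one_mul {ι : Type} [Fintype ι] [DecidableEq ι] {m : ℕ}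
    (hV : Fintype.card ι = 2 * m) (Q : QuadraticForm F (ι → F))
    (hQ : (QuadraticMap.polarBilin Q).Nondegenerate) :
    (Fintype.card F - 1) * Nat.card {v : ι → F // Q v = 1} + Nat.card {v : ι → F // Q v = 0}
      = Fintype.card F ^ (2 * m) := by
  classical
  have hfr : Module.finrank F (ι → F) = 2 * m := by
    rw [Module.finrank_fintype_fun_eq_card, hV]
  have hN : ∀ c : F, c ≠ 0 →
      Fintype.card {v : ι → F // Q v = c} = Nat.card {v : ι → F // Q v = 1} := by
    intro c hc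
    obtain ⟨g, hg⟩ := Cfsg.Agent.H49.exists_similarity hfr Q hQ c hc
    rw [← Nat.card_eq_fintype_card]
    apply Nat.card_congr
    symm
    refine g.toEquiv.subtypeEquiv ?_
    intro v
    show Q v = 1 ↔ Q (g v) = c
    rw [hg]
    constructor
    · intro h
      rw [h, mul_one]
    · intro h
      exact mul_left_cancel₀ hc (by rw [h, mul_one])
  have htot : Fintype.card (ι → F) = ∑ c : F, Fintype.card {v : ι → F // Q v = c} := by
    rw [← Fintype.card_sigma]
    exact Fintype.card_congr (Equiv.sigmaFiberEquiv (⇑Q)).symm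
  rw [Fintype.card_fun, hV] at htot
  rw [htot, ← Finset.add_sum_erase Finset.univ _ (Finset.mem_univ (0 : F))]
  have h2 : ∑ c ∈ Finset.univ.erase (0 : F), Fintype.card {v : ι → F // Q v = c}
      = (Fintype.card F - 1) * Nat.card {v : ι → F // Q v = 1} := by
    rw [Finset.sum_congr rfl (fun c hc => hN c (Finset.ne_of_mem_erase hc)), Finset.sum_const,
      Finset.card_erase_of_mem (Finset.mem_univ _), Finset.card_univ, smul_eq_mul]
  rw [h2, add_comm, Nat.card_eq_fintype_card (α := {v : ι → F // Q v = 0})]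

/-- An isometry of prime order `r` of the hyperbolic space of dimension `2m` without fixed
vectors forces `q ^ m ≡ 1` modulo `r`. -/
theorem plus_pow_eq_one (m : ℕ) (g : ↥(Cfsg.isometryGroup F (Cfsg.quadFormPlus m F))) (r : ℕ)
    (hr : r.Prime) (hrq : ¬ r ∣ Fintype.card F) (hg : isoMat g ^ r = 1)
    (hfix : ∀ v, isoMat g *ᵥ v = v → v = 0) :
    ((Fintype.card F : ℕ) : ZMod r) ^ m = 1 := by
  classical
  haveI : Fact r.Prime := ⟨hr⟩
  have h := dvd_card_norm_eq (Cfsg.Agent.H49.QP m F) g r hr hg hfix 1 one_ne_zero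
  have h' : r ∣ Nat.card {v : Fin m ⊕ Fin m → F // Cfsg.quadFormPlus m F v = 1} := h
  have hz := (ZMod.natCast_eq_zero_iff _ _).mpr h'
  have hcast : ((Nat.card {v : Fin m ⊕ Fin m → F // Cfsg.quadFormPlus m F v = 1} : ℕ) : ZMod r)
      = (((Nat.card {v : Fin m ⊕ Fin m → F // Cfsg.quadFormPlus m F v = 1} : ℕ) : ℤ) : ZMod r) := by
    push_cast
    rfl
  rw [hcast, Cfsg.Agent.H7.card_quadFormPlus_eq m (1 : F), if_neg one_ne_zero] at hz
  push_cast at hz
  have hx : ((Fintype.card F : ℕ) : ZMod r) ≠ 0 := by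
    intro h0
    exact hrq ((ZMod.natCast_eq_zero_iff _ _).mp h0)
  have h3 : ((Fintype.card F : ℕ) : ZMod r) ^ (m - 1) * (((Fintype.card F : ℕ) : ZMod r) ^ m - 1)
      = 0 := by linear_combination hz
  rcases mul_eq_zero.mp h3 with h4 | h4
  · exact absurd h4 (pow_ne_zero _ hx)
  · exact sub_eq_zero.mp h4

/-- An isometry of prime order `r` of the elliptic space of dimension `2(k+1)` without fixed
vectors forces `q ^ (k+1) ≡ -1` modulo `r`. -/
theorem minus_pow_eq_neg_one (k : ℕ) (a c : F)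
    (hac : ∀ z₁ z₂ : F, z₁ ^ 2 + a * z₁ * z₂ + c * z₂ ^ 2 = 0 → z₁ = 0 ∧ z₂ = 0)
    (g : ↥(Cfsg.isometryGroup F (Cfsg.quadFormMinus k F a c))) (r : ℕ)
    (hr : r.Prime) (hrq : ¬ r ∣ Fintype.card F) (hg : isoMat g ^ r = 1)
    (hfix : ∀ v, isoMat g *ᵥ v = v → v = 0) :
    ((Fintype.card F : ℕ) : ZMod r) ^ (k + 1) = -1 := by
  classical
  haveI : Fact r.Prime := ⟨hr⟩
  have hq1 : 1 < Fintype.card F := Fintype.one_lt_card
  have hQ := Cfsg.Agent.H49.QMin_nondeg (F := F) k a c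
    (Cfsg.Agent.H49.disc_ne_zero_of_aniso a c hac)
  have h := dvd_card_norm_eq (Cfsg.Agent.H49.QMin k F a c) g r hr hg hfix 1 one_ne_zero
  have hcardι : Fintype.card ((Fin k ⊕ Fin k) ⊕ Fin 2) = 2 * (k + 1) := by
    simp
    ring
  have hT := card_norm_one_mul hcardι (Cfsg.Agent.H49.QMin k F a c) hQ
  have hZ := Cfsg.Agent.H7.card_quadFormMinus_zero k a c hac
  obtain ⟨N1, hN1⟩ : ∃ N1 : ℕ,
      N1 = Nat.card {v : (Fin k ⊕ Fin k) ⊕ Fin 2 → F // Cfsg.Agent.H49.QMin k F a c v = 1} :=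
    ⟨_, rfl⟩
  obtain ⟨Z, hZdef⟩ : ∃ Z : ℕ,
      Z = Nat.card {v : (Fin k ⊕ Fin k) ⊕ Fin 2 → F // Cfsg.quadFormMinus k F a c v = 0} :=
    ⟨_, rfl⟩
  have hT' : (Fintype.card F - 1) * N1 + Z = Fintype.card F ^ (2 * (k + 1)) := by
    rw [hN1, hZdef]
    exact hT
  rw [← hZdef] at hZ
  rw [← hN1] at h
  have hTz : ((Fintype.card F : ℤ) - 1) * (N1 : ℤ) + (Z : ℤ)
      = (Fintype.card F : ℤ) ^ (2 * (k + 1)) := by
    have h1 : (((Fintype.card F - 1) * N1 + Z : ℕ) : ℤ)
        = ((Fintype.card F ^ (2 * (k + 1)) : ℕ) : ℤ) := congrArg (fun n : ℕ => (n : ℤ)) hT'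
    rw [Nat.cast_add, Nat.cast_mul, Nat.cast_sub hq1.le, Nat.cast_pow] at h1
    simpa using h1
  have hq0 : ((Fintype.card F : ℤ) - 1) ≠ 0 := by
    have : (1 : ℤ) < (Fintype.card F : ℤ) := by exact_mod_cast hq1
    omega
  have hN : (N1 : ℤ) = (Fintype.card F : ℤ) ^ k * ((Fintype.card F : ℤ) ^ (k + 1) + 1) := by
    apply mul_left_cancel₀ hq0
    rw [hZ] at hTz
    rcases k with _ | k'
    · simp only [pow_zero, zero_add, Nat.zero_sub] at hTz ⊢
      linear_combination hTz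
    · simp only [Nat.add_sub_cancel] at hTz
      linear_combination hTz
  have hz := (ZMod.natCast_eq_zero_iff _ _).mpr h
  have hcast : ((N1 : ℕ) : ZMod r) = (((N1 : ℕ) : ℤ) : ZMod r) := by
    push_cast
    rfl
  rw [hcast, hN] at hz
  push_cast at hz
  have hx : ((Fintype.card F : ℕ) : ZMod r) ≠ 0 := by
    intro h0
    exact hrq ((ZMod.natCast_eq_zero_iff _ _).mp h0)
  rcases mul_eq_zero.mp hz with h4 | h4
  · exact absurd h4 (pow_ne_zero _ hx)
  · linear_combination h4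

end OrthType

end Cfsg.Agent.H48
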