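import Cfsg.Agent.H48.OrthEmbed2
import Cfsg.Agent.H48.OrthModel2
import Cfsg.Agent.H48.OrthType

/-!
# Realisability of multiplicity tuples in the standard orthogonal groups

Which reciprocal-invariant multiplicity tuples are realised by an isometry of prime order `r` of
the standard hyperbolic, elliptic and odd-dimensional quadratic spaces.
-/

set_option autoImplicit false

namespace Cfsg.Agent.H48

open Polynomial Matrix

section OrthRealSec

variable {F : Type*} [Field F] [Fintype F]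

/-- `∏ P ^ a P` does not vanish at `1`. -/
theorem facPoly_eval_one_ne_zero (Φ : Finset F[X]) (hΦ : ∀ P ∈ Φ, Irreducible P ∧ P.Monic)
    (hLΦ : (X - 1 : F[X]) ∉ Φ) (a : Φ → ℕ) : (facPoly (X - 1) Φ 0 a).eval 1 ≠ 0 := by
  have h1P : ∀ P ∈ Φ, P.eval 1 ≠ 0 := by
    intro P hP h
    have hd : (X - C (1 : F)) ∣ P := dvd_iff_isRoot.mpr h
    have h2 := eq_of_monic_of_associated (monic_X_sub_C 1) (hΦ P hP).2
      ((irreducible_X_sub_C 1).associated_of_dvd (hΦ P hP).1 hd)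
    apply hLΦ
    rw [← h2] at hP
    simpa using hP
  unfold facPoly
  rw [pow_zero, one_mul, eval_prod]
  apply Finset.prod_ne_zero_iff.mpr
  intro P _
  rw [eval_pow]
  exact pow_ne_zero _ (h1P P P.2)

/-- A model embedded isometrically realises its tuple. -/
theorem orthReal_of_embed {ι : Type} [Fintype ι] [DecidableEq ι]
    (Q : QuadraticForm F (ι → F)) (hQ : (QuadraticMap.polarBilin Q).Nondegenerate)
    (r i M : ℕ) (Φ : Finset F[X]) (a : Φ → ℕ) (hM : i * ∑ P, a P = 2 * M)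
    (Q₁ : QuadraticForm F (Fin M ⊕ Fin M → F))
    (hQ₁ : (QuadraticMap.polarBilin Q₁).Nondegenerate)
    (A₁ : Matrix (Fin M ⊕ Fin M) (Fin M ⊕ Fin M) F) (hA₁ : ∀ v, Q₁ (A₁ *ᵥ v) = Q₁ v)
    (hAr : A₁ ^ r = 1) (hAc : A₁.charpoly = facPoly (X - 1) Φ 0 a)
    (φ : (Fin M ⊕ Fin M → F) →ₗ[F] (ι → F)) (hφ : ∀ x, Q (φ x) = Q₁ x) :
    OrthReal (⇑Q) r Φ i a := by
  obtain ⟨g, hg, hgr⟩ := exists_iso_of_embedding Q₁ hQ₁ Q hQ A₁ hA₁ φ hφ
  refine ⟨g, hgr r hAr, ?_⟩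
  have hc : Fintype.card (Fin M ⊕ Fin M) = 2 * M := by
    simp
    ring
  rw [hg, hAc, hM, hc]
  unfold facPoly
  ring

theorem not_dvd_card_of_ne (p : ℕ) [Fact p.Prime] [CharP F p] (r : ℕ) (hr : r.Prime)
    (hrp : r ≠ p) : ¬ r ∣ Fintype.card F := by
  have hp : p.Prime := Fact.out
  obtain ⟨k, -, hk⟩ := FiniteField.card F p
  rw [hk]
  intro h
  exact hrp ((Nat.prime_dvd_prime_iff_eq hr hp).mp (hr.dvd_of_dvd_pow h))

theorem one_ne_neg_one_zmod (r : ℕ) (hr : r.Prime) (hr2 : r ≠ 2) : (1 : ZMod r) ≠ -1 := by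
  haveI : Fact r.Prime := ⟨hr⟩
  intro h
  have h2 : ((2 : ℕ) : ZMod r) = 0 := by
    push_cast
    linear_combination h
  have h3 := (ZMod.natCast_eq_zero_iff _ _).mp h2
  exact hr2 ((Nat.prime_dvd_prime_iff_eq hr Nat.prime_two).mp h3)

/-- Realisability in the hyperbolic space of dimension `2m`. -/
theorem orthReal_plus_iff (p : ℕ) [Fact p.Prime] [CharP F p] (m r i : ℕ)
    (hr : r.Prime) (hr2 : r ≠ 2) (hrp : r ≠ p) (Φ : Finset F[X])
    (hΦ : ∀ P ∈ Φ, Irreducible P ∧ P.Monic)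
    (hdeg : ∀ P ∈ Φ, P.natDegree = i) (hLΦ : (X - 1 : F[X]) ∉ Φ)
    (hprod : (X - 1) * ∏ P ∈ Φ, P = (X ^ r - 1 : F[X])) (hi : 0 < i)
    (star : Φ → Φ) (hstar : ∀ P : Φ, RevRel (P : F[X]) (star P : F[X]))
    (hinv : Function.Involutive star) (a : Φ → ℕ) (hainv : ∀ P, a (star P) = a P)
    (ha : a ≠ 0) (hev : Even (i * ∑ P, a P)) (hle : i * ∑ P, a P ≤ 2 * m) :
    OrthReal (Cfsg.quadFormPlus m F) r Φ i a ↔
      (i * ∑ P, a P = 2 * m → ((Fintype.card F : ℕ) : ZMod r) ^ m = 1) := by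
  classical
  have hrq := not_dvd_card_of_ne (F := F) p r hr hrp
  constructor
  · rintro ⟨g, hgr, hgc⟩ hfull
    have hc : Fintype.card (Fin m ⊕ Fin m) = 2 * m := by
      simp
      ring
    rw [hc, hfull, Nat.sub_self] at hgc
    apply plus_pow_eq_one m g r hr hrq hgr
    intro v hv
    apply no_fixed_of_eval_one _ _ v hv
    rw [hgc]
    exact facPoly_eval_one_ne_zero Φ hΦ hLΦ a
  · intro h
    obtain ⟨M, hM⟩ := hev
    rw [← two_mul] at hM
    obtain ⟨Q₁, A₁, hQ₁, hA₁, hAr, hAc, hA1⟩ := exists_orth_model p M r i hr hr2 hrp Φ hΦ hdeg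
      hLΦ hprod hi star hstar hinv a hainv ha hM
    have hV : Module.finrank F (Fin M ⊕ Fin M → F) = 2 * M := by
      rw [Module.finrank_fintype_fun_eq_card]
      simp
      ring
    have hMm : M ≤ m := by omega
    rcases exists_embed_plus Q₁ hQ₁ M hV m hMm with ⟨φ, hφ⟩ | ⟨hMeq, hM1, ζ, hζ, φ, hφ⟩
    · exact orthReal_of_embed (Cfsg.Agent.H49.QP m F) (Cfsg.Agent.H49.QP_nondeg m F) r i M Φ a hM
        Q₁ hQ₁ A₁ hA₁ hAr hAc φ hφ
    · exfalso
      have hac := aniso_of_no_root ζ hζ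
      obtain ⟨g, hg, hgr⟩ := exists_iso_of_embedding Q₁ hQ₁
        (Cfsg.Agent.H49.QMin (M - 1) F 1 ζ)
        (Cfsg.Agent.H49.QMin_nondeg (M - 1) 1 ζ (Cfsg.Agent.H49.disc_ne_zero_of_aniso 1 ζ hac))
        A₁ hA₁ φ hφ
      have hc : Fintype.card ((Fin (M - 1) ⊕ Fin (M - 1)) ⊕ Fin 2)
          - Fintype.card (Fin M ⊕ Fin M) = 0 := by
        simp
        omega
      rw [hc, pow_zero, mul_one] at hg
      have hA1' : (isoMat g).charpoly.eval 1 ≠ 0 := by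
        rw [hg]
        exact hA1
      have h1 := minus_pow_eq_neg_one (M - 1) 1 ζ hac g r hr hrq (hgr r hAr)
        (fun v hv => no_fixed_of_eval_one _ hA1' v hv)
      have h2 := h (by rw [hM, hMeq])
      have e : M - 1 + 1 = m := by omega
      rw [e, h2] at h1
      exact one_ne_neg_one_zmod r hr hr2 h1

/-- Realisability in the elliptic space of dimension `2(k+1)`. -/
theorem orthReal_minus_iff (p : ℕ) [Fact p.Prime] [CharP F p] (k : ℕ) (a' c : F)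
    (hac : ∀ z₁ z₂ : F, z₁ ^ 2 + a' * z₁ * z₂ + c * z₂ ^ 2 = 0 → z₁ = 0 ∧ z₂ = 0)
    (r i : ℕ)
    (hr : r.Prime) (hr2 : r ≠ 2) (hrp : r ≠ p) (Φ : Finset F[X])
    (hΦ : ∀ P ∈ Φ, Irreducible P ∧ P.Monic)
    (hdeg : ∀ P ∈ Φ, P.natDegree = i) (hLΦ : (X - 1 : F[X]) ∉ Φ)
    (hprod : (X - 1) * ∏ P ∈ Φ, P = (X ^ r - 1 : F[X])) (hi : 0 < i)
    (star : Φ → Φ) (hstar : ∀ P : Φ, RevRel (P : F[X]) (star P : F[X]))
    (hinv : Function.Involutive star) (a : Φ → ℕ) (hainv : ∀ P, a (star P) = a P)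
    (ha : a ≠ 0) (hev : Even (i * ∑ P, a P)) (hle : i * ∑ P, a P ≤ 2 * (k + 1)) :
    OrthReal (Cfsg.quadFormMinus k F a' c) r Φ i a ↔
      (i * ∑ P, a P = 2 * (k + 1) → ((Fintype.card F : ℕ) : ZMod r) ^ (k + 1) = -1) := by
  classical
  have hrq := not_dvd_card_of_ne (F := F) p r hr hrp
  constructor
  · rintro ⟨g, hgr, hgc⟩ hfull
    have hc : Fintype.card ((Fin k ⊕ Fin k) ⊕ Fin 2) = 2 * (k + 1) := by
      simp
      ring
    rw [hc, hfull, Nat.sub_self] at hgc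
    apply minus_pow_eq_neg_one k a' c hac g r hr hrq hgr
    intro v hv
    apply no_fixed_of_eval_one _ _ v hv
    rw [hgc]
    exact facPoly_eval_one_ne_zero Φ hΦ hLΦ a
  · intro h
    obtain ⟨M, hM⟩ := hev
    rw [← two_mul] at hM
    obtain ⟨Q₁, A₁, hQ₁, hA₁, hAr, hAc, hA1⟩ := exists_orth_model p M r i hr hr2 hrp Φ hΦ hdeg
      hLΦ hprod hi star hstar hinv a hainv ha hM
    have hV : Module.finrank F (Fin M ⊕ Fin M → F) = 2 * M := by
      rw [Module.finrank_fintype_fun_eq_card]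
      simp
      ring
    have hMk : M ≤ k + 1 := by omega
    rcases exists_embed_minus Q₁ hQ₁ M hV k a' c hac hMk with ⟨φ, hφ⟩ | ⟨hMeq, φ, hφ⟩
    · exact orthReal_of_embed (Cfsg.Agent.H49.QMin k F a' c)
        (Cfsg.Agent.H49.QMin_nondeg k a' c (Cfsg.Agent.H49.disc_ne_zero_of_aniso a' c hac))
        r i M Φ a hM Q₁ hQ₁ A₁ hA₁ hAr hAc φ hφ
    · exfalso
      obtain ⟨g, hg, hgr⟩ := exists_iso_of_embedding Q₁ hQ₁
        (Cfsg.Agent.H49.QP M F) (Cfsg.Agent.H49.QP_nondeg M F) A₁ hA₁ φ hφ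
      rw [Nat.sub_self, pow_zero, mul_one] at hg
      have hA1' : (isoMat g).charpoly.eval 1 ≠ 0 := by
        rw [hg]
        exact hA1
      have h1 := plus_pow_eq_one M g r hr hrq (hgr r hAr)
        (fun v hv => no_fixed_of_eval_one _ hA1' v hv)
      have h2 := h (by rw [hM, hMeq])
      rw [hMeq, h2] at h1
      exact one_ne_neg_one_zmod r hr hr2 h1.symm

/-- Realisability in the odd-dimensional space of dimension `2m+1` (odd characteristic). -/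
theorem orthReal_odd (h2 : (2 : F) ≠ 0) (p : ℕ) [Fact p.Prime] [CharP F p] (m r i : ℕ)
    (hr : r.Prime) (hr2 : r ≠ 2) (hrp : r ≠ p) (Φ : Finset F[X])
    (hΦ : ∀ P ∈ Φ, Irreducible P ∧ P.Monic)
    (hdeg : ∀ P ∈ Φ, P.natDegree = i) (hLΦ : (X - 1 : F[X]) ∉ Φ)
    (hprod : (X - 1) * ∏ P ∈ Φ, P = (X ^ r - 1 : F[X])) (hi : 0 < i)
    (star : Φ → Φ) (hstar : ∀ P : Φ, RevRel (P : F[X]) (star P : F[X]))
    (hinv : Function.Involutive star) (a : Φ → ℕ) (hainv : ∀ P, a (star P) = a P)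
    (ha : a ≠ 0) (hev : Even (i * ∑ P, a P)) (hle : i * ∑ P, a P ≤ 2 * m + 1) :
    OrthReal (Cfsg.quadFormOdd m F) r Φ i a := by
  classical
  obtain ⟨M, hM⟩ := hev
  rw [← two_mul] at hM
  obtain ⟨Q₁, A₁, hQ₁, hA₁, hAr, hAc, hA1⟩ := exists_orth_model p M r i hr hr2 hrp Φ hΦ hdeg
    hLΦ hprod hi star hstar hinv a hainv ha hM
  have hV : Module.finrank F (Fin M ⊕ Fin M → F) = 2 * M := by
    rw [Module.finrank_fintype_fun_eq_card]
    simp
    ring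
  have hMm : M ≤ m := by omega
  obtain ⟨φ, hφ⟩ := exists_embed_odd h2 Q₁ hQ₁ M hV m hMm
  exact orthReal_of_embed (Cfsg.Agent.H49.QOdd m F) (Cfsg.Agent.H49.QOdd_nondeg m h2) r i M Φ a hM
    Q₁ hQ₁ A₁ hA₁ hAr hAc φ hφ

end OrthRealSec

end Cfsg.Agent.H48
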