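import Cfsg.Agent.H45.IsoConj
import Cfsg.Agent.S0750

/-!
# Semisimple isometries of odd order of a quadratic space

Two semisimple isometries of odd order (prime to the characteristic) of a nondegenerate quadratic
space over a finite field which are linearly conjugate are conjugate by an isometry.
-/

set_option autoImplicit false

namespace Cfsg.Agent.H48

open Module QuadraticMap

section OrthSS

universe u v

variable {F : Type u} [Field F] {V : Type v} [AddCommGroup V] [Module F V]

theorem ker_inf_range_of_isSemisimple [FiniteDimensional F V] (T : Module.End F V)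
    (hT : T.IsSemisimple) : LinearMap.ker T ⊓ LinearMap.range T = ⊥ := by
  have h1 := Cfsg.Agent.H45.ker_sup_range_of_isSemisimple T hT
  have h2 := Submodule.finrank_sup_add_finrank_inf_eq (LinearMap.ker T) (LinearMap.range T)
  have h3 := LinearMap.finrank_range_add_finrank_ker T
  rw [h1, finrank_top] at h2
  apply Submodule.finrank_eq_zero.mp
  omega

theorem quad_sub (Q : QuadraticForm F V) (u w : V) : Q (u - w) = Q u + Q w - polar Q u w := by
  have h := QuadraticMap.map_add Q u (-w)
  rw [QuadraticMap.map_neg, polar_neg_right] at h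
  rw [sub_eq_add_neg, h]
  ring

/-- The form `β((a - a⁻¹) x, y)` on `range (a - 1)`, with `a⁻¹ = a ^ (m - 1)`. -/
noncomputable def altForm (Q : QuadraticForm F V) (a : Module.End F V) (m : ℕ) :
    LinearMap.range (a - 1) →ₗ[F] LinearMap.range (a - 1) →ₗ[F] F :=
  (polarBilin Q).compl₁₂ ((a - a ^ (m - 1)) ∘ₗ (LinearMap.range (a - 1)).subtype)
    (LinearMap.range (a - 1)).subtype

theorem altForm_apply (Q : QuadraticForm F V) (a : Module.End F V) (m : ℕ)
    (x y : LinearMap.range (a - 1)) :
    altForm Q a m x y = polar Q (a (x : V) - (a ^ (m - 1)) (x : V)) (y : V) := rfl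

variable (Q : QuadraticForm F V) (a : Module.End F V) (ha : ∀ v, Q (a v) = Q v)

include ha in
theorem polar_isom (x y : V) : polar Q (a x) (a y) = polar Q x y := by
  simp only [polar, ← map_add, ha]

theorem range_invt : LinearMap.range (a - 1) ∈ a.invtSubmodule := by
  rw [Module.End.mem_invtSubmodule]
  rintro x ⟨z, rfl⟩
  refine ⟨a z, ?_⟩
  simp only [LinearMap.sub_apply, Module.End.one_apply, map_sub]

/-- The restriction of `a` to `range (a - 1)`. -/
noncomputable def restrictRange : Module.End F (LinearMap.range (a - 1)) :=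
  a.restrict (range_invt a)

theorem restrictRange_coe (x : LinearMap.range (a - 1)) :
    ((restrictRange a x : LinearMap.range (a - 1)) : V) = a (x : V) := rfl

theorem pow_mem_range (k : ℕ) (x : V) (hx : x ∈ LinearMap.range (a - 1)) :
    (a ^ k) x ∈ LinearMap.range (a - 1) := by
  obtain ⟨z, rfl⟩ := hx
  refine ⟨(a ^ k) z, ?_⟩
  have h : Commute (a ^ k) (a - 1) := ((Commute.refl a).pow_left k).sub_right (Commute.one_right _)
  have h2 := congrArg (fun f : Module.End F V => f z) h.eq
  simp only [Module.End.mul_apply] at h2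
  exact h2.symm

variable (m : ℕ) (hm : Odd m) (ham : a ^ m = 1)

include hm ham in
theorem apply_pow_pred (y : V) : a ((a ^ (m - 1)) y) = y := by
  rw [← Module.End.mul_apply, ← pow_succ', Nat.sub_add_cancel hm.pos, ham, Module.End.one_apply]

include hm ham in
theorem pow_pred_apply (y : V) : (a ^ (m - 1)) (a y) = y := by
  rw [← Module.End.mul_apply, ← pow_succ, Nat.sub_add_cancel hm.pos, ham, Module.End.one_apply]

include ha hm ham in
theorem polar_adj (x y : V) : polar Q (a x) y = polar Q x ((a ^ (m - 1)) y) := by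
  rw [← polar_isom Q a ha x, apply_pow_pred a m hm ham]

include ha hm ham in
theorem polar_adj' (x y : V) : polar Q ((a ^ (m - 1)) x) y = polar Q x (a y) := by
  rw [← polar_isom Q a ha, apply_pow_pred a m hm ham]

include ha hm ham in
/-- A vector orthogonal to `range (a - 1)` is fixed by `a`. -/
theorem fixed_of_perp (hQ : (polarBilin Q).Nondegenerate) (w : V)
    (hw : ∀ z, polar Q w ((a - 1) z) = 0) : a w = w := by
  have h1 : ∀ z, polarBilin Q ((a ^ (m - 1)) w - w) z = 0 := by
    intro z
    have h2 := hw z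
    rw [LinearMap.sub_apply, Module.End.one_apply, polar_sub_right,
      ← polar_adj' Q a ha m hm ham] at h2
    rw [polarBilin_apply_apply, polar_sub_left]
    exact h2
  have h3 := hQ.1 _ h1
  have h4 : (a ^ (m - 1)) w = w := sub_eq_zero.mp h3
  have h5 := apply_pow_pred a m hm ham w
  rw [h4] at h5
  exact h5

include ha in
/-- A fixed vector of `a` is orthogonal to `range (a - 1)`. -/
theorem perp_of_fixed (w : V) (hw : a w = w) (z : V) : polar Q w ((a - 1) z) = 0 := by
  rw [LinearMap.sub_apply, Module.End.one_apply, polar_sub_right]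
  nth_rewrite 1 [← hw]
  rw [polar_isom Q a ha, sub_self]

include hm ham in
theorem eq_zero_of_sub_pow_pred [FiniteDimensional F V] (has : a.IsSemisimple) (x : V)
    (hx : x ∈ LinearMap.range (a - 1)) (h : a x - (a ^ (m - 1)) x = 0) : x = 0 := by
  have h1 : a (a x) = x := by
    have h2 : a x = (a ^ (m - 1)) x := sub_eq_zero.mp h
    rw [h2, apply_pow_pred a m hm ham]
  have h3 : ∀ k : ℕ, (a ^ (2 * k)) x = x := by
    intro k
    induction k with
    | zero => simp
    | succ k ih =>
      rw [Nat.mul_succ, pow_add, Module.End.mul_apply, pow_two, Module.End.mul_apply, h1, ih]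
  obtain ⟨k, hk⟩ := hm
  have h4 : a x = x := by
    have h5 : (a ^ m) x = a x := by
      rw [hk, pow_succ', Module.End.mul_apply, h3 k]
    rw [← h5, ham, Module.End.one_apply]
  have hss : (a - 1).IsSemisimple := by
    have h6 := (Module.End.isSemisimple_sub_algebraMap_iff (f := a) (μ := (1 : F))).mpr has
    rwa [map_one] at h6
  have h7 : x ∈ LinearMap.ker (a - 1) ⊓ LinearMap.range (a - 1) := by
    refine Submodule.mem_inf.mpr ⟨LinearMap.mem_ker.mpr ?_, hx⟩
    rw [LinearMap.sub_apply, Module.End.one_apply, h4, sub_self]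
  rw [ker_inf_range_of_isSemisimple _ hss] at h7
  exact h7

include ha hm ham in
theorem altForm_good [FiniteDimensional F V] (hQ : (polarBilin Q).Nondegenerate)
    (has : a.IsSemisimple) :
    Cfsg.Agent.H45.Good (RingHom.id F) (-1) (altForm Q a m) (restrictRange a) := by
  refine ⟨?_, ?_, ?_, ?_, has.restrict (range_invt a)⟩
  · intro x y
    rw [altForm_apply, altForm_apply, RingHom.id_apply, polar_sub_left, polar_sub_left,
      polar_adj Q a ha m hm ham (y : V) (x : V), polar_adj' Q a ha m hm ham (y : V) (x : V),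
      polar_comm Q (a (x : V)) (y : V), polar_comm Q ((a ^ (m - 1)) (x : V)) (y : V)]
    ring
  · intro x hx
    have hw1 := pow_mem_range a 1 _ x.2
    rw [pow_one] at hw1
    have hw : a (x : V) - (a ^ (m - 1)) (x : V) ∈ LinearMap.range (a - 1) :=
      Submodule.sub_mem _ hw1 (pow_mem_range a (m - 1) _ x.2)
    have h1 : a (a (x : V) - (a ^ (m - 1)) (x : V)) = a (x : V) - (a ^ (m - 1)) (x : V) := by
      apply fixed_of_perp Q a ha m hm ham hQ
      intro z
      have h2 := hx ⟨(a - 1) z, ⟨z, rfl⟩⟩
      rw [altForm_apply] at h2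
      exact h2
    have hss : (a - 1).IsSemisimple := by
      have h6 := (Module.End.isSemisimple_sub_algebraMap_iff (f := a) (μ := (1 : F))).mpr has
      rwa [map_one] at h6
    have h7 : a (x : V) - (a ^ (m - 1)) (x : V) ∈
        LinearMap.ker (a - 1) ⊓ LinearMap.range (a - 1) := by
      refine Submodule.mem_inf.mpr ⟨LinearMap.mem_ker.mpr ?_, hw⟩
      rw [LinearMap.sub_apply, Module.End.one_apply, h1, sub_self]
    rw [ker_inf_range_of_isSemisimple _ hss] at h7
    exact Subtype.ext (eq_zero_of_sub_pow_pred a m hm ham has _ x.2 h7)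
  · intro _ x
    rw [altForm_apply, polar_sub_left, polar_adj' Q a ha m hm ham, polar_comm Q (x : V) _,
      sub_self]
  · intro x y
    rw [altForm_apply, altForm_apply]
    rw [restrictRange_coe, restrictRange_coe]
    have h3 : a (a (x : V)) - (a ^ (m - 1)) (a (x : V)) = a (a (x : V) - (a ^ (m - 1)) (x : V)) := by
      rw [map_sub, pow_pred_apply a m hm ham, apply_pow_pred a m hm ham]
    rw [h3, polar_isom Q a ha]

end OrthSS

section Main

universe u v

variable {F : Type u} [Field F] [Finite F] {V : Type v} [AddCommGroup V] [Module F V]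
  [FiniteDimensional F V]

/-- Linearly conjugate semisimple isometries of odd order are conjugate by an isometry. -/
theorem orth_conj_of_linear_conj (p : ℕ) [Fact p.Prime] [CharP F p]
    (Q : QuadraticForm F V) (hQ : (polarBilin Q).Nondegenerate)
    (a b : Module.End F V) (ha : ∀ v, Q (a v) = Q v) (hb : ∀ v, Q (b v) = Q v)
    (m : ℕ) (hm : Odd m) (hmp : ¬ p ∣ m) (ham : a ^ m = 1)
    (g : V ≃ₗ[F] V) (hg : ∀ v, g (a v) = b (g v)) :
    ∃ h : V ≃ₗ[F] V, (∀ v, Q (h v) = Q v) ∧ ∀ v, h (a v) = b (h v) := by
  classical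
  have hgk : ∀ (k : ℕ) (v : V), g ((a ^ k) v) = (b ^ k) (g v) := by
    intro k
    induction k with
    | zero =>
      intro v
      simp
    | succ k ih =>
      intro v
      rw [pow_succ', Module.End.mul_apply, hg, ih, pow_succ', Module.End.mul_apply]
  have hbm : b ^ m = 1 := by
    apply LinearMap.ext
    intro w
    have h1 := hgk m (g.symm w)
    rw [ham, Module.End.one_apply, g.apply_symm_apply] at h1
    rw [Module.End.one_apply]
    exact h1.symm
  have has : a.IsSemisimple := Cfsg.Agent.H45.isSemisimple_of_pow_eq_one p a m hmp ham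
  have hbs : b.IsSemisimple := Cfsg.Agent.H45.isSemisimple_of_pow_eq_one p b m hmp hbm
  have hssa : (a - 1).IsSemisimple := by
    have h6 := (Module.End.isSemisimple_sub_algebraMap_iff (f := a) (μ := (1 : F))).mpr has
    rwa [map_one] at h6
  have goodA := altForm_good Q a ha m hm ham hQ has
  have goodB := altForm_good Q b hb m hm hbm hQ hbs
  have hmap : (LinearMap.range (a - 1)).map (g : V →ₗ[F] V) = LinearMap.range (b - 1) := by
    ext y
    constructor
    · rintro ⟨x, ⟨z, rfl⟩, rfl⟩
      refine ⟨g z, ?_⟩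
      simp only [LinearMap.sub_apply, Module.End.one_apply, LinearEquiv.coe_coe, map_sub, hg]
    · rintro ⟨w, rfl⟩
      refine ⟨(a - 1) (g.symm w), ⟨_, rfl⟩, ?_⟩
      simp only [LinearMap.sub_apply, Module.End.one_apply, LinearEquiv.coe_coe, map_sub, hg,
        g.apply_symm_apply]
  obtain ⟨gXY, hgXY⟩ : ∃ gXY : LinearMap.range (a - 1) ≃ₗ[F] LinearMap.range (b - 1),
      ∀ x, ((gXY x : LinearMap.range (b - 1)) : V) = g (x : V) :=
    ⟨g.ofSubmodules _ _ hmap, fun x => rfl⟩
  have hchar : (restrictRange a).charpoly = (restrictRange b).charpoly := by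
    have h1 := LinearEquiv.charpoly_conj gXY (restrictRange a)
    have h2 : gXY.conj (restrictRange a) = restrictRange b := by
      apply LinearMap.ext
      intro y
      apply Subtype.ext
      rw [LinearEquiv.conj_apply_apply, hgXY, restrictRange_coe, restrictRange_coe, hg, ← hgXY,
        gXY.apply_symm_apply]
    rw [← h2, h1]
  obtain ⟨e, he1, he2⟩ := Cfsg.Agent.H45.isoConj_of_charpoly_eq (RingHom.id F) (fun _ => rfl)
    (-1) _ (altForm Q a m) (altForm Q b m) (restrictRange a) (restrictRange b) rfl goodA goodB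
    hchar
  have hek : ∀ (k : ℕ) (x x₂ : LinearMap.range (a - 1)), (x₂ : V) = (a ^ k) (x : V) →
      ((e x₂ : LinearMap.range (b - 1)) : V) = (b ^ k) ((e x : LinearMap.range (b - 1)) : V) := by
    intro k
    induction k with
    | zero =>
      intro x x₂ h
      have h1 : x₂ = x := Subtype.ext (by simpa using h)
      rw [h1]
      simp
    | succ k ih =>
      intro x x₂ h
      have h1 := ih x ⟨(a ^ k) (x : V), pow_mem_range a k _ x.2⟩ rfl
      have h2 : x₂ = restrictRange a ⟨(a ^ k) (x : V), pow_mem_range a k _ x.2⟩ := by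
        apply Subtype.ext
        rw [restrictRange_coe, h, pow_succ', Module.End.mul_apply]
      rw [h2, he1, restrictRange_coe, h1, pow_succ', Module.End.mul_apply]
  have hsurj : ∀ x' : LinearMap.range (a - 1), ∃ x : LinearMap.range (a - 1),
      a (x : V) - (a ^ (m - 1)) (x : V) = (x' : V) := by
    have hT : ∀ x ∈ LinearMap.range (a - 1), (a - a ^ (m - 1)) x ∈ LinearMap.range (a - 1) := by
      intro x hx
      have hw1 := pow_mem_range a 1 _ hx
      rw [pow_one] at hw1
      exact Submodule.sub_mem _ hw1 (pow_mem_range a (m - 1) _ hx)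
    have hinj : Function.Injective ((a - a ^ (m - 1)).restrict hT) := by
      rw [← LinearMap.ker_eq_bot, LinearMap.ker_eq_bot']
      intro x hx
      have h0 : a (x : V) - (a ^ (m - 1)) (x : V) = 0 := congrArg Subtype.val hx
      exact Subtype.ext (eq_zero_of_sub_pow_pred a m hm ham has _ x.2 h0)
    intro x'
    obtain ⟨x, hx⟩ := LinearMap.surjective_of_injective hinj x'
    exact ⟨x, congrArg Subtype.val hx⟩
  have hpol : ∀ x' y : LinearMap.range (a - 1),
      polar Q ((e x' : LinearMap.range (b - 1)) : V) ((e y : LinearMap.range (b - 1)) : V)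
        = polar Q (x' : V) (y : V) := by
    intro x' y
    obtain ⟨x, hx⟩ := hsurj x'
    have h1 := he2 x y
    rw [altForm_apply, altForm_apply, hx] at h1
    rw [← h1]
    congr 1
    have h2 : x' = restrictRange a x
        - ⟨(a ^ (m - 1)) (x : V), pow_mem_range a (m - 1) _ x.2⟩ := by
      apply Subtype.ext
      rw [Submodule.coe_sub, restrictRange_coe]
      exact hx.symm
    rw [h2, map_sub, Submodule.coe_sub, he1, restrictRange_coe,
      hek (m - 1) x ⟨(a ^ (m - 1)) (x : V), pow_mem_range a (m - 1) _ x.2⟩ rfl]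
  have hsurj1 : ∀ x : LinearMap.range (a - 1), ∃ z : LinearMap.range (a - 1),
      a (z : V) - (z : V) = (x : V) := by
    have hT : ∀ x ∈ LinearMap.range (a - 1), (a - 1) x ∈ LinearMap.range (a - 1) :=
      fun x _ => ⟨x, rfl⟩
    have hinj : Function.Injective ((a - 1).restrict hT) := by
      rw [← LinearMap.ker_eq_bot, LinearMap.ker_eq_bot']
      intro x hx
      have h0 : (a - 1) (x : V) = 0 := congrArg Subtype.val hx
      have h7 : (x : V) ∈ LinearMap.ker (a - 1) ⊓ LinearMap.range (a - 1) :=
        Submodule.mem_inf.mpr ⟨LinearMap.mem_ker.mpr h0, x.2⟩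
      rw [ker_inf_range_of_isSemisimple _ hssa] at h7
      exact Subtype.ext h7
    intro x
    obtain ⟨z, hz⟩ := LinearMap.surjective_of_injective hinj x
    exact ⟨z, congrArg Subtype.val hz⟩
  have hQe : ∀ x : LinearMap.range (a - 1),
      Q ((e x : LinearMap.range (b - 1)) : V) = Q (x : V) := by
    intro x
    obtain ⟨z, hz⟩ := hsurj1 x
    have h2 : x = restrictRange a z - z := by
      apply Subtype.ext
      rw [Submodule.coe_sub, restrictRange_coe]
      exact hz.symm
    have h3 : ((e x : LinearMap.range (b - 1)) : V)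
        = b ((e z : LinearMap.range (b - 1)) : V) - ((e z : LinearMap.range (b - 1)) : V) := by
      rw [h2, map_sub, Submodule.coe_sub, he1, restrictRange_coe]
    rw [h3, ← hz, quad_sub, quad_sub, ha, hb]
    have h4 := hpol (restrictRange a z) z
    rw [he1, restrictRange_coe, restrictRange_coe] at h4
    have h5 := hpol z z
    rw [polar_self, polar_self, two_nsmul, two_nsmul] at h5
    rw [h4, h5]
  obtain ⟨h, hhQ, hhX⟩ := Cfsg.Agent.S0750.result Q hQ _ _ e hQe
  refine ⟨h, hhQ, ?_⟩
  have hhpol : ∀ u w, polar Q (h u) (h w) = polar Q u w := by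
    intro u w
    simp only [polar, ← map_add, hhQ]
  intro v
  have hv : v ∈ LinearMap.ker (a - 1) ⊔ LinearMap.range (a - 1) := by
    rw [Cfsg.Agent.H45.ker_sup_range_of_isSemisimple _ hssa]
    trivial
  obtain ⟨k, hk, r, hr, rfl⟩ := Submodule.mem_sup.mp hv
  have hak : a k = k := by
    rw [LinearMap.mem_ker, LinearMap.sub_apply, Module.End.one_apply] at hk
    exact sub_eq_zero.mp hk
  have h1 : h (a r) = b (h r) := by
    have h2 := hhX (restrictRange a ⟨r, hr⟩)
    rw [restrictRange_coe, he1, restrictRange_coe, ← hhX] at h2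
    exact h2
  have h2 : b (h k) = h k := by
    apply fixed_of_perp Q b hb m hm hbm hQ
    intro z
    obtain ⟨x₀, hx₀⟩ := e.surjective ⟨(b - 1) z, ⟨z, rfl⟩⟩
    have h3 : (b - 1) z = h (x₀ : V) := by
      rw [hhX, hx₀]
    rw [h3, hhpol]
    obtain ⟨z₀, hz₀⟩ := x₀.2
    rw [← hz₀]
    exact perp_of_fixed Q a ha k hak z₀
  simp only [map_add, hak, h1, h2]

end Main

end Cfsg.Agent.H48
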