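import Cfsg.Agent.H48.PGUPrime2

/-!
# Elements of prime order `r ∣ q + 1` in `PGU_n(q)`: the two types of classes
-/

set_option autoImplicit false

namespace Cfsg.Agent.H48

open Polynomial Matrix

section Reps

variable {K : Type*} [Field K] [Fintype K] {q n : ℕ}

theorem dvd_card_sub_one_of_dvd_succ (hK : Fintype.card K = q ^ 2) {r : ℕ} (hrq : r ∣ q + 1) :
    r ∣ Fintype.card K - 1 := by
  have hq := Cfsg.Agent.H17.two_le_of_card_sq hK
  have hq2 : q ^ 2 - 1 = (q - 1) * (q + 1) := by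
    obtain ⟨t, rfl⟩ : ∃ t, q = t + 1 := ⟨q - 1, by omega⟩
    have : (t + 1) ^ 2 = t * (t + 1 + 1) + 1 := by ring
    rw [this]
    simp
  rw [hK, hq2]
  exact Dvd.dvd.mul_left hrq _

theorem exists_gu_diag (hK : Fintype.card K = q ^ 2) {r : ℕ} (hrq : r ∣ q + 1) {G : Type*}
    [Group G] [Fintype G] {ev : G → K} (hD : RootData K r G ev) (a : Tup G n) :
    ∃ x : ↥(Cfsg.GU n K q), (guMat x).charpoly = linPoly ev a.1 ∧ guMat x ^ r = 1 := by
  classical
  have hcard : Fintype.card (Σ w : G, Fin (a.1 w)) = n := by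
    rw [Fintype.card_sigma]
    simp only [Fintype.card_fin]
    exact a.2.1
  obtain ⟨e⟩ : Nonempty ((Σ w : G, Fin (a.1 w)) ≃ Fin n) := ⟨Fintype.equivFinOfCardEq hcard⟩
  obtain ⟨d, hd⟩ : ∃ d : Fin n → K, d = fun i => ev (e.symm i).1 := ⟨_, rfl⟩
  have hd1 : ∀ i, d i ^ (q + 1) = 1 := by
    intro i
    obtain ⟨t, ht⟩ := hrq
    rw [hd, ht, pow_mul, hD.root, one_pow]
  obtain ⟨x, hx⟩ := Cfsg.Agent.H17.gu_of_preserves hK n (Matrix.diagonal d)
    (Cfsg.Agent.H17.diag_preserves n d hd1)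
  refine ⟨x, ?_, ?_⟩
  · show (((x : GL (Fin n) K) : Matrix (Fin n) (Fin n) K)).charpoly = _
    rw [hx, Matrix.charpoly_diagonal]
    unfold linPoly
    rw [← Equiv.prod_comp e (fun i => X - C (d i)), Fintype.prod_sigma]
    apply Finset.prod_congr rfl
    intro w _
    rw [hd]
    simp only [Equiv.symm_apply_apply]
    rw [Finset.prod_const, Finset.card_univ, Fintype.card_fin]
  · show (((x : GL (Fin n) K) : Matrix (Fin n) (Fin n) K)) ^ r = 1
    rw [hx, Matrix.diagonal_pow]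
    have : d ^ r = 1 := by
      funext i
      rw [hd]
      exact hD.root _
    rw [this]
    exact Matrix.diagonal_one

theorem exists_gu_typeB (hK : Fintype.card K = q ^ 2) (hn : 1 ≤ n) {r : ℕ} (hr : r.Prime)
    (hrK : r ∣ Fintype.card K - 1) (hrn : r ∣ n) (l : K) (hl1 : l ^ (q + 1) = 1)
    (hl : ∀ b : K, b ^ r ≠ l) :
    ∃ x : ↥(Cfsg.GU n K q), guMat x ^ r = l • 1 := by
  classical
  have hl0 : l ≠ 0 := by
    rintro rfl
    exact hl 0 (zero_pow hr.ne_zero)
  obtain ⟨A, hA⟩ := typeB_exists n r hn hr hrn l hl0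
  obtain ⟨N, hN⟩ : ∃ N : Matrix (Fin n) (Fin n) K,
      N = ((A : Matrix (Fin n) (Fin n) K).map (fun x : K => x ^ q)).transpose := ⟨_, rfl⟩
  have hNr : N ^ r = (l ^ q) • 1 := by
    have h1 : (A : Matrix (Fin n) (Fin n) K).map (fun x : K => x ^ q)
        = (Cfsg.Agent.H17.frobHom hK).mapMatrix (A : Matrix (Fin n) (Fin n) K) := rfl
    rw [hN, h1, ← Matrix.transpose_pow, ← map_pow, hA]
    ext i j
    by_cases hij : i = j
    · subst hij
      simp [Cfsg.Agent.H17.frobHom_apply]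
    · have hji : ¬ j = i := fun h => hij h.symm
      have hq0 : ¬ q = 0 := by
        have := Cfsg.Agent.H17.two_le_of_card_sq hK
        omega
      simp [Cfsg.Agent.H17.frobHom_apply, hij, hji, hq0]
  have hmul : l ^ q * l = 1 := by rw [← pow_succ, hl1]
  have hNinv : N⁻¹ ^ r = l • 1 := by
    rw [Matrix.inv_pow', hNr]
    apply Matrix.inv_eq_right_inv
    rw [Matrix.smul_mul, one_mul, smul_smul, hmul, one_smul]
  obtain ⟨c, hc⟩ := typeB_conj n r hr hrK l (A : Matrix (Fin n) (Fin n) K) N⁻¹ hl hA hNinv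
  have h2 : IsConj (A : Matrix (Fin n) (Fin n) K) N⁻¹ := ⟨c, hc⟩
  rw [hN] at h2
  obtain ⟨B, hB⟩ := (Cfsg.Agent.S2588.result hK A).mpr h2
  rw [isConj_iff] at hB
  obtain ⟨k, hk⟩ := hB
  refine ⟨B, ?_⟩
  show ((B : GL (Fin n) K) : Matrix (Fin n) (Fin n) K) ^ r = l • 1
  rw [← hk, ← Units.val_pow_eq_pow_val, conj_pow, Units.val_mul, Units.val_mul,
    Units.val_pow_eq_pow_val, hA, Matrix.mul_smul, mul_one, Matrix.smul_mul, ← Units.val_mul,
    mul_inv_cancel, Units.val_one]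

end Reps

section Count

variable {K : Type*} [Field K] [Fintype K] {q n : ℕ}

/-- Elements of `PGU_n` with a non-scalar lift of order dividing `r`. -/
def PAU (K : Type*) [Field K] (q n r : ℕ)
    (g : ↥(Cfsg.GU n K q) ⧸ Subgroup.center ↥(Cfsg.GU n K q)) : Prop :=
  ∃ x : ↥(Cfsg.GU n K q), QuotientGroup.mk x = g ∧ guMat x ^ r = 1 ∧ ∀ c : K, guMat x ≠ c • 1

/-- Elements of `PGU_n` with a lift whose `r`-th power is a scalar that is not an `r`-th
power. -/
def PBU (K : Type*) [Field K] (q n r : ℕ)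
    (g : ↥(Cfsg.GU n K q) ⧸ Subgroup.center ↥(Cfsg.GU n K q)) : Prop :=
  ∃ (x : ↥(Cfsg.GU n K q)) (l : K), QuotientGroup.mk x = g ∧ guMat x ^ r = l • 1 ∧
    ∀ b : K, b ^ r ≠ l

theorem card_typeA_gu_aux (hK : Fintype.card K = q ^ 2) (hn : 2 ≤ n) {r : ℕ} (hr : r.Prime)
    (hrq : r ∣ q + 1) (G : Type*) [Group G] [Fintype G] (ev : G → K) (hD : RootData K r G ev) :
    Nat.card {C : ConjClasses (↥(Cfsg.GU n K q) ⧸ Subgroup.center ↥(Cfsg.GU n K q)) //
        ∃ g, ConjClasses.mk g = C ∧ PAU K q n r g}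
      = ((n + r - 1).choose (r - 1) - r - (if r ∣ n then 1 else 0)) / r
        + (if r ∣ n then 1 else 0) := by
  classical
  haveI : Nonempty (Fin n) := ⟨⟨0, by omega⟩⟩
  have hrK := dvd_card_sub_one_of_dvd_succ hK hrq
  have hev1 : ∀ z, ev z ^ (q + 1) = 1 := by
    intro z
    obtain ⟨t, ht⟩ := hrq
    rw [ht, pow_mul, hD.root, one_pow]
  choose RA hRA1 hRA2 using fun a : Tup G n => exists_gu_diag hK hrq hD a
  let ψ : Tup G n → {C : ConjClasses (↥(Cfsg.GU n K q) ⧸ Subgroup.center ↥(Cfsg.GU n K q)) //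
      ∃ g, ConjClasses.mk g = C ∧ PAU K q n r g} :=
    fun a => ⟨ConjClasses.mk (QuotientGroup.mk (RA a)), _, rfl, RA a, rfl, hRA2 a,
      typeA_nonscalar hD (by omega) a _ (hRA1 a) (hRA2 a)⟩
  have hψs : Function.Surjective ψ := by
    rintro ⟨C, g, rfl, x, rfl, hx1, hx2⟩
    obtain ⟨a, ha⟩ := typeA_struct hD hr hrK (guMat x) hx1 hx2
    refine ⟨a, Subtype.ext ?_⟩
    show ConjClasses.mk (QuotientGroup.mk (RA a)) = ConjClasses.mk (QuotientGroup.mk x)
    rw [ConjClasses.mk_eq_mk_iff_isConj, gu_isConj_mk_iff hK hn]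
    obtain ⟨k, hk⟩ := typeA_conj n r hr hrK _ _ (hRA2 a) hx1 ((hRA1 a).trans ha.symm)
    exact ⟨k, 1, one_pow _, by rw [one_smul]; exact hk⟩
  have hψi : ∀ a b, ψ a = ψ b ↔ (MulAction.orbitRel G (Tup G n)) a b := by
    intro a b
    rw [MulAction.orbitRel_apply, MulAction.mem_orbit_iff]
    constructor
    · intro h
      have h1 : ConjClasses.mk
          (QuotientGroup.mk (RA a) : ↥(Cfsg.GU n K q) ⧸ Subgroup.center ↥(Cfsg.GU n K q))
          = ConjClasses.mk (QuotientGroup.mk (RA b)) := congrArg Subtype.val h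
      rw [ConjClasses.mk_eq_mk_iff_isConj, gu_isConj_mk_iff hK hn] at h1
      obtain ⟨k, c, hc, hk⟩ := h1
      obtain ⟨z₀, -, hz⟩ := typeA_orbit hD hr a b _ _ (hRA1 a) (hRA1 b) (hRA2 a) (hRA2 b) k c hk
      exact ⟨z₀, hz⟩
    · rintro ⟨z₀, rfl⟩
      apply Subtype.ext
      show ConjClasses.mk (QuotientGroup.mk (RA (z₀ • b)))
        = ConjClasses.mk (QuotientGroup.mk (RA b))
      rw [ConjClasses.mk_eq_mk_iff_isConj, gu_isConj_mk_iff hK hn]
      have h1 := typeA_smul_charpoly hD hr b z₀ _ (hRA1 b)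
      have h2 : (ev z₀ • guMat (RA b)) ^ r = 1 := by
        rw [_root_.smul_pow, hD.root, hRA2, one_smul]
      obtain ⟨k, hk⟩ := typeA_conj n r hr hrK _ _ (hRA2 (z₀ • b)) h2 ((hRA1 _).trans h1.symm)
      exact ⟨k, ev z₀, hev1 z₀, by rw [hk, Matrix.smul_mul]⟩
  rw [card_quotient_of_surj (MulAction.orbitRel G (Tup G n)) ψ hψs hψi]
  exact Tup.card_orbits G n r hr hD.card (by omega)

theorem card_typeA_gu (hK : Fintype.card K = q ^ 2) (hn : 2 ≤ n) {r : ℕ} (hr : r.Prime)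
    (hrq : r ∣ q + 1) :
    Nat.card {C : ConjClasses (↥(Cfsg.GU n K q) ⧸ Subgroup.center ↥(Cfsg.GU n K q)) //
        ∃ g, ConjClasses.mk g = C ∧ PAU K q n r g}
      = ((n + r - 1).choose (r - 1) - r - (if r ∣ n then 1 else 0)) / r
        + (if r ∣ n then 1 else 0) := by
  classical
  haveI : NeZero r := ⟨hr.ne_zero⟩
  letI : Fintype (rootsOfUnity r K) := Fintype.ofFinite _
  exact card_typeA_gu_aux hK hn hr hrq (rootsOfUnity r K) (fun z => ((z : Kˣ) : K))
    (rootData_rootsOfUnity r hr (dvd_card_sub_one_of_dvd_succ hK hrq))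

theorem card_typeB_gu (hK : Fintype.card K = q ^ 2) (hn : 2 ≤ n) {r : ℕ} (hr : r.Prime)
    (hr2 : r ≠ 2) (hrq : r ∣ q + 1) :
    Nat.card {C : ConjClasses (↥(Cfsg.GU n K q) ⧸ Subgroup.center ↥(Cfsg.GU n K q)) //
        ∃ g, ConjClasses.mk g = C ∧ PBU K q n r g} = if r ∣ n then r - 1 else 0 := by
  classical
  haveI : Nonempty (Fin n) := ⟨⟨0, by omega⟩⟩
  have hrK := dvd_card_sub_one_of_dvd_succ hK hrq
  split_ifs with hrn
  swap
  · rw [Nat.card_eq_zero]
    left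
    constructor
    rintro ⟨C, g, -, x, l, -, hx, hl⟩
    obtain ⟨e, he, -⟩ := charpoly_of_pow_eq_nonpower n r hr _ l hx hl
    exact hrn ⟨e, he⟩
  · obtain ⟨η, hη1, hηgen, hηK⟩ := exists_eta hK r hr hr2 hrq
    have hη1' : ∀ k : ℕ, (η ^ k) ^ (q + 1) = 1 := fun k => by
      rw [← pow_mul, mul_comm, pow_mul, hη1, one_pow]
    have hnp : ∀ j : Fin (r - 1), ∀ b : K, b ^ r ≠ η ^ (j.val + 1) := by
      intro j b hb
      have h1 := hηK _ ⟨b, hb⟩
      have h2 := Nat.le_of_dvd (by omega) h1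
      have := j.2
      omega
    choose RB hRB using fun j : Fin (r - 1) =>
      exists_gu_typeB hK (by omega) hr hrK hrn (η ^ (j.val + 1)) (hη1' _) (hnp j)
    have key := Cfsg.Agent.S2577.card_classes_of_reps (PBU K q n r)
      (fun j : Fin (r - 1) =>
        (QuotientGroup.mk (RB j) : ↥(Cfsg.GU n K q) ⧸ Subgroup.center ↥(Cfsg.GU n K q)))
      ?_ ?_ ?_
    · exact key
    · intro j
      exact ⟨RB j, _, rfl, hRB j, hnp j⟩
    · intro i j hij
      rw [gu_isConj_mk_iff hK hn] at hij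
      obtain ⟨k, c, hc, hk⟩ := hij
      have h1 := pow_scalar_of_pconj k c hk r _ _ (hRB i) (hRB j)
      have hjr : j.val + 1 + (r - (j.val + 1)) = r := by
        have := j.2
        omega
      have h2 : ∃ b : K, b ^ r = η ^ (i.val + 1 + (r - (j.val + 1))) := by
        refine ⟨c * η, ?_⟩
        rw [pow_add, h1, mul_assoc, ← pow_add, hjr, mul_pow]
      obtain ⟨t, ht⟩ := hηK _ h2
      have hi := i.2
      have hj := j.2
      apply Fin.ext
      rcases t with _ | _ | t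
      · rw [mul_zero] at ht
        omega
      · rw [zero_add, mul_one] at ht
        omega
      · have h3 : r * (t + 1 + 1) = r * t + 2 * r := by ring
        rw [h3] at ht
        have h4 : 0 ≤ r * t := Nat.zero_le _
        omega
    · rintro g ⟨x, l, rfl, hx, hl⟩
      have hl1 : l ^ (q + 1) = 1 :=
        gu_scalar_pow (by omega) (x ^ r) l (by rw [guMat_pow, hx])
      obtain ⟨k, hk⟩ := hηgen l hl1
      have hdm := Nat.div_add_mod k r
      have hkr : k % r ≠ 0 := by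
        intro h0
        apply hl (η ^ (k / r))
        rw [← pow_mul, ← hk]
        congr 1
        rw [h0, add_zero] at hdm
        rw [mul_comm]
        exact hdm
      have hkr2 : k % r < r := Nat.mod_lt _ hr.pos
      obtain ⟨j, hj⟩ : ∃ j : Fin (r - 1), j.val + 1 = k % r :=
        ⟨⟨k % r - 1, by omega⟩, by
          show k % r - 1 + 1 = k % r
          omega⟩
      refine ⟨j, ?_⟩
      have hη0 : η ≠ 0 := by
        rintro rfl
        rw [zero_pow (by omega)] at hη1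
        exact zero_ne_one hη1
      have hc0 : η ^ (k / r) ≠ 0 := pow_ne_zero _ hη0
      have hlc : l = (η ^ (k / r)) ^ r * η ^ (j.val + 1) := by
        rw [← hk, ← pow_mul, ← pow_add, hj, mul_comm (k / r) r, hdm]
      have hx' : ((η ^ (k / r))⁻¹ • guMat x) ^ r = η ^ (j.val + 1) • 1 := by
        rw [_root_.smul_pow, hx, smul_smul, hlc, inv_pow, ← mul_assoc,
          inv_mul_cancel₀ (pow_ne_zero _ hc0), one_mul]
      obtain ⟨c, hc⟩ := typeB_conj n r hr hrK _ _ _ (hnp j) (hRB j) hx'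
      rw [gu_isConj_mk_iff hK hn]
      exact ⟨c, (η ^ (k / r))⁻¹, by rw [inv_pow, hη1', inv_one], by rw [hc, Matrix.smul_mul]⟩

end Count

end Cfsg.Agent.H48
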