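import Mathlib
import Cfsg.Agent.H48.Dilation

set_option autoImplicit false

/-!
Helper lemmas (helper48): rank-one square-zero matrices (`t - 1` for a transvection `t`).
-/

namespace Cfsg.Agent.H48

open Matrix Module

/-- A rank-one matrix is `v wᵀ` with `v, w ≠ 0`. -/
theorem exists_vecMulVec_of_rank_one {ι : Type*} [Fintype ι] [DecidableEq ι] {F : Type*} [Field F]
    (T : Matrix ι ι F) (hT : T.rank = 1) :
    ∃ v w : ι → F, v ≠ 0 ∧ w ≠ 0 ∧ T = Matrix.vecMulVec v w := by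
  have h1 : finrank F (LinearMap.range T.mulVecLin) = 1 := hT
  obtain ⟨⟨v, hv⟩, hv0, hspan⟩ := finrank_eq_one_iff'.mp h1
  have hv0' : v ≠ 0 := fun h => hv0 (Subtype.ext h)
  have hcol : ∀ j, ∃ c : F, c • v = T.mulVec (Pi.single j 1) := by
    intro j
    obtain ⟨c, hc⟩ := hspan ⟨T.mulVec (Pi.single j 1), ⟨Pi.single j 1, rfl⟩⟩
    exact ⟨c, congrArg Subtype.val hc⟩
  choose w hw using hcol
  have hTeq : T = Matrix.vecMulVec v w := by
    ext i j
    have := congrFun (hw j) i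
    simp only [Pi.smul_apply, smul_eq_mul, Matrix.mulVec_single_one, Matrix.col_apply] at this
    rw [Matrix.vecMulVec_apply, mul_comm, this]
  refine ⟨v, w, hv0', ?_, hTeq⟩
  rintro rfl
  rw [hTeq] at hT
  simp at hT

/-- If `v wᵀ` squares to zero (with `v, w ≠ 0`) then `w ⬝ v = 0`. -/
theorem dotProduct_eq_zero_of_sq {ι : Type*} [Fintype ι] [DecidableEq ι] {F : Type*} [Field F]
    (v w : ι → F) (hv : v ≠ 0) (hw : w ≠ 0)
    (h : Matrix.vecMulVec v w * Matrix.vecMulVec v w = 0) : w ⬝ᵥ v = 0 := by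
  rw [Matrix.vecMulVec_mul_vecMulVec] at h
  by_contra hne
  obtain ⟨i, hi⟩ : ∃ i, v i ≠ 0 := by
    by_contra hh
    exact hv (funext fun j => by_contra fun hj => hh ⟨j, hj⟩)
  obtain ⟨j, hj⟩ : ∃ j, w j ≠ 0 := by
    by_contra hh
    exact hw (funext fun j => by_contra fun hj => hh ⟨j, hj⟩)
  have := congrFun (congrFun h i) j
  simp [Matrix.vecMulVec_apply, hne, hi, hj] at this

/-- Equal-dimensional spaces: a linear equivalence matching given nonzero vectors. -/
theorem exists_linearEquiv_apply_eq {F V V' : Type*} [Field F] [AddCommGroup V] [Module F V]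
    [AddCommGroup V'] [Module F V'] [FiniteDimensional F V] [FiniteDimensional F V']
    (h : finrank F V = finrank F V') (x : V) (x' : V') (hx : x ≠ 0) (hx' : x' ≠ 0) :
    ∃ e : V ≃ₗ[F] V', e x = x' := by
  obtain ⟨C, hC⟩ := Submodule.exists_isCompl (Submodule.span F {x})
  obtain ⟨C', hC'⟩ := Submodule.exists_isCompl (Submodule.span F {x'})
  have hfr1 := Submodule.finrank_add_eq_of_isCompl hC
  have hfr2 := Submodule.finrank_add_eq_of_isCompl hC'
  rw [finrank_span_singleton hx] at hfr1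
  rw [finrank_span_singleton hx'] at hfr2
  have hCC : finrank F C = finrank F C' := by omega
  let e₁ : Submodule.span F {x} ≃ₗ[F] Submodule.span F {x'} :=
    (LinearEquiv.toSpanNonzeroSingleton F V x hx).symm ≪≫ₗ
      (LinearEquiv.toSpanNonzeroSingleton F V' x' hx')
  let e₂ : C ≃ₗ[F] C' := LinearEquiv.ofFinrankEq _ _ hCC
  let e : V ≃ₗ[F] V' :=
    (Submodule.prodEquivOfIsCompl _ C hC).symm ≪≫ₗ (e₁.prodCongr e₂) ≪≫ₗ
      (Submodule.prodEquivOfIsCompl _ C' hC')
  refine ⟨e, ?_⟩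
  have hxm : x ∈ Submodule.span F {x} := Submodule.mem_span_singleton_self x
  have h1 := Submodule.prodEquivOfIsCompl_symm_apply_left _ C hC ⟨x, hxm⟩
  simp only [e, LinearEquiv.trans_apply]
  rw [show ((Submodule.prodEquivOfIsCompl _ C hC).symm x) = (⟨x, hxm⟩, 0) from h1]
  have h2 : e₁ ⟨x, hxm⟩ = ⟨x', Submodule.mem_span_singleton_self x'⟩ := by
    simp only [e₁, LinearEquiv.trans_apply]
    rw [← LinearEquiv.toSpanNonzeroSingleton_one F V x hx, LinearEquiv.symm_apply_apply,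
      LinearEquiv.toSpanNonzeroSingleton_one]
  simp [h2]

/-- The functional `x ↦ w ⬝ x`. -/
noncomputable def dotL {ι : Type*} [Fintype ι] {F : Type*} [Field F] (w : ι → F) :
    (ι → F) →ₗ[F] F where
  toFun x := w ⬝ᵥ x
  map_add' := dotProduct_add w
  map_smul' c x := by simp [dotProduct_smul]

@[simp] theorem dotL_apply {ι : Type*} [Fintype ι] {F : Type*} [Field F] (w x : ι → F) :
    dotL w x = w ⬝ᵥ x := rfl

theorem exists_dotL_eq_one {ι : Type*} [Fintype ι] [DecidableEq ι] {F : Type*} [Field F]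
    (w : ι → F) (hw : w ≠ 0) : ∃ u : ι → F, dotL w u = 1 := by
  obtain ⟨j, hj⟩ : ∃ j, w j ≠ 0 := by
    by_contra hh
    exact hw (funext fun j => by_contra fun hj => hh ⟨j, hj⟩)
  exact ⟨Pi.single j (w j)⁻¹, by simp [hj]⟩

theorem finrank_ker_dotL {ι : Type*} [Fintype ι] [DecidableEq ι] {F : Type*} [Field F]
    (w : ι → F) (hw : w ≠ 0) :
    finrank F (LinearMap.ker (dotL w)) + 1 = Fintype.card ι := by
  obtain ⟨u, hu⟩ := exists_dotL_eq_one w hw
  have hsurj : LinearMap.range (dotL w) = ⊤ := by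
    rw [LinearMap.range_eq_top]
    intro c
    exact ⟨c • u, by rw [map_smul, hu, smul_eq_mul, mul_one]⟩
  have := LinearMap.finrank_range_add_finrank_ker (dotL w)
  rw [hsurj, finrank_top, finrank_self, finrank_pi] at this
  omega

/-- `GL` is transitive on pairs `(v, w)` with `v, w ≠ 0`, `w ⬝ v = 0`
(acting by `v ↦ g v`, `w ↦ w g⁻¹`). -/
theorem exists_gl_vecMulVec {ι : Type*} [Fintype ι] [DecidableEq ι] {F : Type*} [Field F]
    (v w v' w' : ι → F) (hv : v ≠ 0) (hw : w ≠ 0) (hv' : v' ≠ 0) (hw' : w' ≠ 0)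
    (h : w ⬝ᵥ v = 0) (h' : w' ⬝ᵥ v' = 0) :
    ∃ g : Matrix ι ι F, g.det ≠ 0 ∧ g *ᵥ v = v' ∧ w' ᵥ* g = w := by
  obtain ⟨u, hu⟩ := exists_dotL_eq_one w hw
  obtain ⟨u', hu'⟩ := exists_dotL_eq_one w' hw'
  have hK := finrank_ker_dotL w hw
  have hK' := finrank_ker_dotL w' hw'
  have hKK : finrank F (LinearMap.ker (dotL w)) = finrank F (LinearMap.ker (dotL w')) := by omega
  have hvK : v ∈ LinearMap.ker (dotL w) := by rw [LinearMap.mem_ker]; exact h
  have hvK' : v' ∈ LinearMap.ker (dotL w') := by rw [LinearMap.mem_ker]; exact h'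
  obtain ⟨e, he⟩ := exists_linearEquiv_apply_eq hKK (⟨v, hvK⟩ : LinearMap.ker (dotL w))
    (⟨v', hvK'⟩ : LinearMap.ker (dotL w')) (fun hh => hv (congrArg Subtype.val hh))
    (fun hh => hv' (congrArg Subtype.val hh))
  let P : (ι → F) →ₗ[F] LinearMap.ker (dotL w) :=
    LinearMap.codRestrict _ (LinearMap.id - (dotL w).smulRight u) (by
      intro x
      rw [LinearMap.mem_ker]
      simp only [LinearMap.sub_apply, LinearMap.id_apply, LinearMap.smulRight_apply, map_sub,
        map_smul, hu, smul_eq_mul, mul_one, sub_self])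
  let g : (ι → F) →ₗ[F] (ι → F) :=
    (dotL w).smulRight u' + (LinearMap.ker (dotL w')).subtype ∘ₗ e.toLinearMap ∘ₗ P
  have hg : ∀ x, g x = dotL w x • u' + (e (P x) : ι → F) := fun x => rfl
  have hPv : P v = ⟨v, hvK⟩ := by
    apply Subtype.ext
    show v - dotL w v • u = v
    rw [show dotL w v = 0 from h, zero_smul, sub_zero]
  have hgv : g v = v' := by
    rw [hg, show dotL w v = 0 from h, zero_smul, zero_add, hPv, he]
  have hφ : ∀ x, dotL w' (g x) = dotL w x := by
    intro x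
    rw [hg, map_add, map_smul, hu', smul_eq_mul, mul_one]
    have : dotL w' (e (P x) : ι → F) = 0 := LinearMap.mem_ker.mp (e (P x)).2
    rw [this, add_zero]
  have hinj : Function.Injective g := by
    rw [← LinearMap.ker_eq_bot, LinearMap.ker_eq_bot']
    intro x hx
    have h0 : dotL w x = 0 := by rw [← hφ, hx, map_zero]
    rw [hg, h0, zero_smul, zero_add] at hx
    have h1 : e (P x) = 0 := Subtype.ext hx
    have h2 : P x = 0 := by simpa using h1
    have h3 : (P x : ι → F) = x - dotL w x • u := rfl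
    rw [h2, h0, zero_smul, sub_zero] at h3
    exact h3.symm
  refine ⟨LinearMap.toMatrix' g, ?_, ?_, ?_⟩
  · have hu : IsUnit (LinearMap.toMatrix' g) := by
      rw [← Matrix.mulVec_injective_iff_isUnit]
      intro x y hxy
      apply hinj
      simpa only [LinearMap.toMatrix'_mulVec] using hxy
    exact ((Matrix.isUnit_iff_isUnit_det _).mp hu).ne_zero
  · rw [LinearMap.toMatrix'_mulVec, hgv]
  · funext j
    have h1 := hφ (Pi.single j 1)
    rw [← LinearMap.toMatrix'_mulVec g] at h1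
    simp only [dotL_apply] at h1
    rw [Matrix.dotProduct_mulVec, dotProduct_single_one, dotProduct_single_one] at h1
    exact h1

/-- For `|ι| ≥ 3`: a matrix of any prescribed determinant commuting with `v wᵀ`
(`w ⬝ v = 0`). -/
theorem exists_commute_det {ι : Type*} [Fintype ι] [DecidableEq ι] {F : Type*} [Field F]
    (hcard : 3 ≤ Fintype.card ι) (v w : ι → F) (hv : v ≠ 0) (hw : w ≠ 0) (a : F) :
    ∃ D : Matrix ι ι F, D.det = a ∧
      D * Matrix.vecMulVec v w = Matrix.vecMulVec v w * D := by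
  have hK := finrank_ker_dotL w hw
  obtain ⟨h₀, hh₀K, hh₀⟩ : ∃ h₀, h₀ ∈ LinearMap.ker (dotL w) ∧ h₀ ∉ Submodule.span F {v} := by
    by_contra hcon
    have hle : LinearMap.ker (dotL w) ≤ Submodule.span F {v} := by
      intro x hx
      by_contra hx'
      exact hcon ⟨x, hx, hx'⟩
    have := Submodule.finrank_mono hle
    rw [finrank_span_singleton hv] at this
    omega
  obtain ⟨f, hf0, hfv⟩ := Submodule.exists_dual_map_eq_bot_of_notMem hh₀ inferInstance
  have hfv' : f v = 0 := by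
    have : f v ∈ (Submodule.span F {v}).map f :=
      Submodule.mem_map_of_mem (Submodule.mem_span_singleton_self v)
    rw [hfv] at this
    simpa using this
  let ψ : ι → F := fun i => (f h₀)⁻¹ * f (fun j => if i = j then 1 else 0)
  have hψ : ∀ x, ψ ⬝ᵥ x = (f h₀)⁻¹ * f x := by
    intro x
    rw [LinearMap.pi_apply_eq_sum_univ f x, Finset.mul_sum]
    simp only [dotProduct, ψ]
    apply Finset.sum_congr rfl
    intro i _
    simp only [smul_eq_mul]
    ring
  have hψh : ψ ⬝ᵥ h₀ = 1 := by rw [hψ, inv_mul_cancel₀ hf0]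
  have hψv : ψ ⬝ᵥ v = 0 := by rw [hψ, hfv', mul_zero]
  have hwh : w ⬝ᵥ h₀ = 0 := LinearMap.mem_ker.mp hh₀K
  refine ⟨1 + Matrix.vecMulVec ((a - 1) • h₀) ψ, det_dilation h₀ ψ hψh a, ?_⟩
  rw [add_mul, mul_add, one_mul, mul_one, Matrix.vecMulVec_mul_vecMulVec,
    Matrix.vecMulVec_mul_vecMulVec, hψv, dotProduct_smul, hwh]
  simp

/-- Rank-one square-zero matrices are `GL`-conjugate. -/
theorem exists_gl_conj_of_rank_one_sq_zero {ι : Type*} [Fintype ι] [DecidableEq ι] {F : Type*}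
    [Field F] (T T' : Matrix ι ι F) (hT : T.rank = 1) (hT2 : T * T = 0)
    (hT' : T'.rank = 1) (hT'2 : T' * T' = 0) :
    ∃ g : Matrix ι ι F, g.det ≠ 0 ∧ g * T = T' * g := by
  obtain ⟨v, w, hv, hw, rfl⟩ := exists_vecMulVec_of_rank_one T hT
  obtain ⟨v', w', hv', hw', rfl⟩ := exists_vecMulVec_of_rank_one T' hT'
  have h := dotProduct_eq_zero_of_sq v w hv hw hT2
  have h' := dotProduct_eq_zero_of_sq v' w' hv' hw' hT'2
  obtain ⟨g, hg, hgv, hgw⟩ := exists_gl_vecMulVec v w v' w' hv hw hv' hw' h h'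
  exact ⟨g, hg, by rw [Matrix.mul_vecMulVec, Matrix.vecMulVec_mul, hgv, hgw]⟩

/-- Rank-one square-zero matrices are `SL`-conjugate when `|ι| ≥ 3`. -/
theorem exists_sl_conj_of_rank_one_sq_zero {ι : Type*} [Fintype ι] [DecidableEq ι] {F : Type*}
    [Field F] (hcard : 3 ≤ Fintype.card ι) (T T' : Matrix ι ι F) (hT : T.rank = 1)
    (hT2 : T * T = 0) (hT' : T'.rank = 1) (hT'2 : T' * T' = 0) :
    ∃ g : Matrix ι ι F, g.det = 1 ∧ g * T = T' * g := by
  obtain ⟨g, hg, hgT⟩ := exists_gl_conj_of_rank_one_sq_zero T T' hT hT2 hT' hT'2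
  obtain ⟨v, w, hv, hw, rfl⟩ := exists_vecMulVec_of_rank_one T hT
  obtain ⟨D, hD, hDc⟩ := exists_commute_det hcard v w hv hw g.det⁻¹
  refine ⟨g * D, by rw [Matrix.det_mul, hD, mul_inv_cancel₀ hg], ?_⟩
  rw [mul_assoc, hDc, ← mul_assoc, hgT, mul_assoc]

end Cfsg.Agent.H48
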