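import Mathlib
import Cfsg.Agent.H48.Transvection

set_option autoImplicit false

/-!
Helper lemmas (helper48): `PSL₃(4)` has no element of order 6.
-/

namespace Cfsg.Agent.H48

open Matrix Module

/-- A matrix of rank zero is zero. -/
theorem eq_zero_of_rank_eq_zero {ι : Type*} [Fintype ι] [DecidableEq ι] {F : Type*} [Field F]
    (N : Matrix ι ι F) (h : N.rank = 0) : N = 0 := by
  have h1 : finrank F (LinearMap.range N.mulVecLin) = 0 := h
  have h2 : LinearMap.range N.mulVecLin = ⊥ := Submodule.finrank_eq_zero.mp h1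
  have h3 : N.mulVecLin = 0 := LinearMap.range_eq_bot.mp h2
  ext i j
  have h4 := congrFun (LinearMap.congr_fun h3 (Pi.single j 1)) i
  simpa [Matrix.mulVecLin_apply] using h4

/-- If `g` commutes with `v wᵀ` then `v` is a right and `w` a left eigenvector of `g`, for the
same eigenvalue. -/
theorem commute_vecMulVec_eigen {ι : Type*} [Fintype ι] [DecidableEq ι] {F : Type*} [Field F]
    (v w : ι → F) (hv : v ≠ 0) (hw : w ≠ 0) (g : Matrix ι ι F)
    (hc : g * Matrix.vecMulVec v w = Matrix.vecMulVec v w * g) :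
    ∃ c : F, g *ᵥ v = c • v ∧ w ᵥ* g = c • w := by
  rw [Matrix.mul_vecMulVec, Matrix.vecMulVec_mul] at hc
  obtain ⟨i, hi⟩ : ∃ i, v i ≠ 0 := by
    by_contra hh
    exact hv (funext fun j => by_contra fun hj => hh ⟨j, hj⟩)
  obtain ⟨j, hj⟩ : ∃ j, w j ≠ 0 := by
    by_contra hh
    exact hw (funext fun j => by_contra fun hj => hh ⟨j, hj⟩)
  have hij : ∀ i' j', (g *ᵥ v) i' * w j' = v i' * (w ᵥ* g) j' := by
    intro i' j'
    have := congrFun (congrFun hc i') j'
    simpa [Matrix.vecMulVec_apply] using this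
  set c₀ : F := (w ᵥ* g) j / w j with hc₀
  have hgv : g *ᵥ v = c₀ • v := by
    funext i'
    have := hij i' j
    simp only [Pi.smul_apply, smul_eq_mul, hc₀]
    field_simp
    rw [this, mul_comm]
  refine ⟨c₀, hgv, ?_⟩
  funext j'
  have := hij i j'
  rw [hgv] at this
  simp only [Pi.smul_apply, smul_eq_mul] at this ⊢
  have h2 : v i * (c₀ * w j') = v i * (w ᵥ* g) j' := by rw [← this]; ring
  exact (mul_left_cancel₀ hi h2).symm

theorem tri_sq {K : Type*} [Field K] (h2 : (2 : K) = 0) (c a b d : K) :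
    (!![c, a, b; 0, c, d; 0, 0, c] : Matrix (Fin 3) (Fin 3) K) ^ 2 =
      !![c ^ 2, 0, a * d; 0, c ^ 2, 0; 0, 0, c ^ 2] := by
  rw [pow_two, Matrix.mul_fin_three]
  ext i j
  fin_cases i <;> fin_cases j <;> simp <;>
    first
    | ring1
    | linear_combination (c * a) * h2
    | linear_combination (c * b) * h2
    | linear_combination (c * d) * h2

theorem tri_pow_four {K : Type*} [Field K] (h2 : (2 : K) = 0) (c a b d : K) :
    (!![c, a, b; 0, c, d; 0, 0, c] : Matrix (Fin 3) (Fin 3) K) ^ 4 =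
      (c ^ 4) • (1 : Matrix (Fin 3) (Fin 3) K) := by
  rw [show (4 : ℕ) = 2 * 2 from rfl, pow_mul, tri_sq h2, pow_two, Matrix.mul_fin_three]
  ext i j
  fin_cases i <;> fin_cases j <;> simp <;>
    first
    | ring1
    | linear_combination (c ^ 2 * a * d) * h2

/-- Over the field with four elements: a `3 × 3` matrix of determinant one whose sixth power is
scalar has scalar square or scalar cube. -/
theorem sq_scalar_or_cube_scalar {K : Type*} [Field K] [Fintype K] (hK : Fintype.card K = 4)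
    (g : Matrix (Fin 3) (Fin 3) K) (hdet : g.det = 1) (ζ : K)
    (h6 : g ^ 6 = ζ • (1 : Matrix (Fin 3) (Fin 3) K)) :
    (∃ r : K, g ^ 2 = r • (1 : Matrix (Fin 3) (Fin 3) K)) ∨
      (∃ r : K, g ^ 3 = r • (1 : Matrix (Fin 3) (Fin 3) K)) := by
  classical
  have h4 : (4 : K) = 0 := by
    have := Nat.cast_card_eq_zero K
    rw [hK] at this
    exact_mod_cast this
  have h2 : (2 : K) = 0 := by
    have : (2 : K) * 2 = 0 := by rw [← h4]; norm_num
    exact mul_self_eq_zero.mp this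
  have hfrob : ∀ x : K, x ^ 4 = x := by
    intro x
    rw [← hK]
    exact FiniteField.pow_card x
  set η := ζ ^ 2 with hηdef
  have hη : η ^ 2 = ζ := by rw [hηdef, ← pow_mul]; exact hfrob ζ
  set N := g ^ 3 - η • (1 : Matrix (Fin 3) (Fin 3) K) with hN
  have hN2 : N * N = 0 := by
    have e : N * N = g ^ 6 - (2 * η) • g ^ 3 + (η ^ 2) • (1 : Matrix (Fin 3) (Fin 3) K) := by
      rw [hN, sub_mul, mul_sub, mul_sub, ← pow_add, Matrix.mul_smul, Matrix.smul_mul,
        Matrix.smul_mul, Matrix.mul_smul, mul_one, one_mul, mul_one, smul_smul, two_mul, add_smul,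
        ← pow_two]
      abel
    rw [e, h6, h2, zero_mul, zero_smul, sub_zero, hη, ← add_smul, ← two_mul, h2, zero_mul,
      zero_smul]
  by_cases hN0 : N = 0
  · right
    exact ⟨η, sub_eq_zero.mp hN0⟩
  left
  have hrank : N.rank = 1 := by
    have h1 := Matrix.rank_add_rank_le_card_of_mul_eq_zero hN2
    rw [Fintype.card_fin] at h1
    have h3 : N.rank ≠ 0 := fun h => hN0 (eq_zero_of_rank_eq_zero N h)
    omega
  obtain ⟨v, w, hv, hw, hNvw⟩ := exists_vecMulVec_of_rank_one N hrank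
  have hwv : w ⬝ᵥ v = 0 := dotProduct_eq_zero_of_sq v w hv hw (by rw [← hNvw]; exact hN2)
  have hcomm : g * N = N * g := by
    rw [hN, mul_sub, sub_mul, ← pow_succ, ← pow_succ', Matrix.mul_smul, Matrix.smul_mul, mul_one,
      one_mul]
  rw [hNvw] at hcomm
  obtain ⟨c, hgv, hwg⟩ := commute_vecMulVec_eigen v w hv hw g hcomm
  obtain ⟨P, hP, hPv, hPw⟩ := exists_gl_vecMulVec v w (Pi.single 0 1) (Pi.single 2 1) hv hw
    (by intro h; simpa using congrFun h 0) (by intro h; simpa using congrFun h 2) hwv (by simp)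
  obtain ⟨Pu, rfl⟩ : ∃ Pu : GL (Fin 3) K, (Pu : Matrix (Fin 3) (Fin 3) K) = P :=
    ⟨Matrix.GeneralLinearGroup.mkOfDetNeZero P hP, rfl⟩
  set Q : Matrix (Fin 3) (Fin 3) K := ((Pu⁻¹ : GL (Fin 3) K) : Matrix (Fin 3) (Fin 3) K) with hQ
  have hPQ : (Pu : Matrix (Fin 3) (Fin 3) K) * Q = 1 := by
    rw [hQ, ← Units.val_mul, mul_inv_cancel, Units.val_one]
  have hQP : Q * (Pu : Matrix (Fin 3) (Fin 3) K) = 1 := by
    rw [hQ, ← Units.val_mul, inv_mul_cancel, Units.val_one]
  set g' : Matrix (Fin 3) (Fin 3) K := (Pu : Matrix (Fin 3) (Fin 3) K) * g * Q with hg'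
  have hg'pow : ∀ k : ℕ, g' ^ k = (Pu : Matrix (Fin 3) (Fin 3) K) * g ^ k * Q := by
    intro k
    rw [hg', hQ]
    exact Units.conj_pow Pu g k
  have hQe : Q *ᵥ (Pi.single 0 1) = v := by
    rw [← hPv, Matrix.mulVec_mulVec, hQP, Matrix.one_mulVec]
  have hwQ : w ᵥ* Q = Pi.single 2 1 := by
    rw [← hPw, Matrix.vecMul_vecMul, hPQ, Matrix.vecMul_one]
  have hcol : g' *ᵥ (Pi.single 0 1) = c • (Pi.single 0 1 : Fin 3 → K) := by
    rw [hg', ← Matrix.mulVec_mulVec, hQe, ← Matrix.mulVec_mulVec, hgv, Matrix.mulVec_smul, hPv]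
  have hrow : (Pi.single 2 1 : Fin 3 → K) ᵥ* g' = c • (Pi.single 2 1 : Fin 3 → K) := by
    rw [hg', ← Matrix.vecMul_vecMul, ← Matrix.vecMul_vecMul, hPw, hwg, Matrix.smul_vecMul, hwQ]
  have hc0 : ∀ i, g' i 0 = c * (Pi.single 0 1 : Fin 3 → K) i := by
    intro i
    have := congrFun hcol i
    simpa [Matrix.mulVec_single_one] using this
  have hr2 : ∀ j, g' 2 j = c * (Pi.single 2 1 : Fin 3 → K) j := by
    intro j
    have := congrFun hrow j
    simpa [Matrix.single_one_vecMul] using this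
  have hdet' : g'.det = 1 := by
    rw [hg', Matrix.det_mul, Matrix.det_mul, mul_right_comm, ← Matrix.det_mul, hPQ, Matrix.det_one,
      one_mul, hdet]
  have hform : g' = !![c, g' 0 1, g' 0 2; 0, g' 1 1, g' 1 2; 0, 0, c] := by
    ext i j
    fin_cases i <;> fin_cases j <;> simp [hc0, hr2]
  have hdet2 : c * g' 1 1 * c = 1 := by
    rw [hform, Matrix.det_fin_three] at hdet'
    simp at hdet'
    rw [← hdet']
  have hcne : c ≠ 0 := by
    rintro rfl
    simp at hdet2
  have hc3 : c ^ 3 = 1 := by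
    have := FiniteField.pow_card_sub_one_eq_one c hcne
    rw [hK] at this
    exact this
  have hβ : g' 1 1 = c := by
    have h5 : c ^ 2 * g' 1 1 = c ^ 2 * c := by
      rw [← pow_succ, hc3, ← hdet2]; ring
    exact mul_left_cancel₀ (pow_ne_zero 2 hcne) h5
  rw [hβ] at hform
  have h4' : g' ^ 4 = (c ^ 4) • (1 : Matrix (Fin 3) (Fin 3) K) := by
    rw [hform]
    exact tri_pow_four h2 c _ _ _
  have h6' : g' ^ 6 = ζ • (1 : Matrix (Fin 3) (Fin 3) K) := by
    rw [hg'pow, h6, Matrix.mul_smul, Matrix.smul_mul, mul_one, hPQ]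
  have h2' : g' ^ 2 = (c⁻¹ ^ 4 * ζ) • (1 : Matrix (Fin 3) (Fin 3) K) := by
    have h7 : g' ^ 6 = (c ^ 4) • g' ^ 2 := by
      rw [show (6 : ℕ) = 4 + 2 from rfl, pow_add, h4', Matrix.smul_mul, one_mul]
    rw [h6'] at h7
    have h8 := congrArg (fun M => (c⁻¹ ^ 4) • M) h7
    simp only [smul_smul] at h8
    rw [← mul_pow, inv_mul_cancel₀ hcne, one_pow, one_smul] at h8
    exact h8.symm
  refine ⟨c⁻¹ ^ 4 * ζ, ?_⟩
  have h9 : g ^ 2 = Q * g' ^ 2 * (Pu : Matrix (Fin 3) (Fin 3) K) := by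
    rw [hg'pow, ← mul_assoc, ← mul_assoc, hQP, one_mul, mul_assoc, hQP, mul_one]
  rw [h9, h2', Matrix.mul_smul, Matrix.smul_mul, mul_one, hQP]

/-- A power of an element of `SL₃` which is a scalar matrix is central. -/
theorem sl3_pow_mem_center {K : Type*} [Field K] (g : Matrix.SpecialLinearGroup (Fin 3) K)
    (k : ℕ) (r : K) (h : (g : Matrix (Fin 3) (Fin 3) K) ^ k = r • (1 : Matrix (Fin 3) (Fin 3) K)) :
    g ^ k ∈ Subgroup.center (Matrix.SpecialLinearGroup (Fin 3) K) := by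
  rw [Matrix.SpecialLinearGroup.mem_center_iff]
  refine ⟨r, ?_, ?_⟩
  · have h1 : ((g : Matrix (Fin 3) (Fin 3) K) ^ k).det = 1 := by
      rw [Matrix.det_pow, g.2, one_pow]
    rw [h, Matrix.det_smul, Matrix.det_one, mul_one] at h1
    exact h1
  · rw [Matrix.SpecialLinearGroup.coe_pow, h, Matrix.scalar_apply, Matrix.smul_one_eq_diagonal]

/-- `PSL₃(K)`, `|K| = 4`, has no element of order 6. -/
theorem psl3_four_no_order_six {K : Type*} [Field K] [Fintype K] (hK : Fintype.card K = 4)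
    (x : Matrix.ProjectiveSpecialLinearGroup (Fin 3) K) : orderOf x ≠ 6 := by
  intro hx
  obtain ⟨g, rfl⟩ := QuotientGroup.mk_surjective x
  have h6 : g ^ 6 ∈ Subgroup.center (Matrix.SpecialLinearGroup (Fin 3) K) := by
    rw [← QuotientGroup.eq_one_iff, QuotientGroup.mk_pow, ← hx, pow_orderOf_eq_one]
  obtain ⟨ζ, _, hζ⟩ := Matrix.SpecialLinearGroup.mem_center_iff.mp h6
  have h6' : (g : Matrix (Fin 3) (Fin 3) K) ^ 6 = ζ • (1 : Matrix (Fin 3) (Fin 3) K) := by
    rw [← Matrix.SpecialLinearGroup.coe_pow, ← hζ, Matrix.scalar_apply,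
      Matrix.smul_one_eq_diagonal]
  rcases sq_scalar_or_cube_scalar hK g g.2 ζ h6' with ⟨r, hr⟩ | ⟨r, hr⟩
  · have h2 := sl3_pow_mem_center g 2 r hr
    rw [← QuotientGroup.eq_one_iff, QuotientGroup.mk_pow] at h2
    have := orderOf_dvd_of_pow_eq_one h2
    rw [hx] at this
    omega
  · have h3 := sl3_pow_mem_center g 3 r hr
    rw [← QuotientGroup.eq_one_iff, QuotientGroup.mk_pow] at h3
    have := orderOf_dvd_of_pow_eq_one h3
    rw [hx] at this
    omega

/-- An element of order 6 in `GL₄(2)`. -/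
def a6 : Matrix (Fin 4) (Fin 4) (ZMod 2) := !![0, 1, 0, 0; 1, 1, 0, 0; 0, 0, 1, 1; 0, 0, 0, 1]

theorem a6_pow_six : a6 ^ 6 = 1 := by decide

theorem a6_sq_apply : (a6 ^ 2) 0 1 = 1 := by decide

theorem a6_cube_apply : (a6 ^ 3) 2 3 = 1 := by decide

/-- `PSL₄(F)`, `|F| = 2`, has an element of order 6. -/
theorem psl4_two_exists_order_six {F : Type*} [Field F] [Fintype F] (hF : Fintype.card F = 2) :
    ∃ x : Matrix.ProjectiveSpecialLinearGroup (Fin 4) F, orderOf x = 6 := by
  classical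
  have h2 : (2 : F) = 0 := by
    have := Nat.cast_card_eq_zero F
    rw [hF] at this
    exact_mod_cast this
  have : CharP F 2 := CharTwo.of_one_ne_zero_of_two_eq_zero one_ne_zero h2
  let f : ZMod 2 →+* F := ZMod.castHom (dvd_refl 2) F
  let A : Matrix (Fin 4) (Fin 4) F := f.mapMatrix a6
  have hpow : ∀ k : ℕ, A ^ k = f.mapMatrix (a6 ^ k) := fun k => (map_pow f.mapMatrix a6 k).symm
  have hA6 : A ^ 6 = 1 := by rw [hpow, a6_pow_six, map_one]
  have hdet : A.det = 1 := by
    have h1 : A.det ^ 6 = 1 := by rw [← Matrix.det_pow, hA6, Matrix.det_one]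
    have h3 : A.det ≠ 0 := by
      intro h0
      rw [h0] at h1
      simp at h1
    have h4 := FiniteField.pow_card_sub_one_eq_one A.det h3
    rw [hF] at h4
    simpa using h4
  let g : Matrix.SpecialLinearGroup (Fin 4) F := ⟨A, hdet⟩
  have hg6 : g ^ 6 = 1 := by
    apply Subtype.ext
    rw [Matrix.SpecialLinearGroup.coe_pow]
    exact hA6
  have hns : ∀ (k : ℕ) (i j : Fin 4), i ≠ j → (a6 ^ k) i j = 1 →
      (QuotientGroup.mk g : Matrix.ProjectiveSpecialLinearGroup (Fin 4) F) ^ k ≠ 1 := by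
    intro k i j hij hk hone
    rw [← QuotientGroup.mk_pow, QuotientGroup.eq_one_iff,
      Matrix.SpecialLinearGroup.mem_center_iff] at hone
    obtain ⟨r, _, hr⟩ := hone
    have h5 := congrFun (congrFun hr i) j
    rw [Matrix.SpecialLinearGroup.coe_pow] at h5
    have h6 : (A ^ k) i j = 1 := by
      rw [hpow]
      show f ((a6 ^ k) i j) = 1
      rw [hk, map_one]
    have h7 : (g : Matrix (Fin 4) (Fin 4) F) = A := rfl
    rw [h7, h6, Matrix.scalar_apply, Matrix.diagonal_apply_ne _ hij] at h5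
    exact zero_ne_one h5
  refine ⟨QuotientGroup.mk g, ?_⟩
  apply orderOf_eq_of_pow_and_pow_div_prime (by norm_num)
  · rw [← QuotientGroup.mk_pow, hg6]; rfl
  · intro p hp hpd
    have hp6 : p ≤ 6 := Nat.le_of_dvd (by norm_num) hpd
    interval_cases p
    · exact absurd hp (by norm_num)
    · exact absurd hp (by norm_num)
    · exact hns 3 2 3 (by decide) a6_cube_apply
    · exact hns 2 0 1 (by decide) a6_sq_apply
    · exact absurd hp (by norm_num)
    · exact absurd hpd (by norm_num)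
    · exact absurd hp (by norm_num)

end Cfsg.Agent.H48
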