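import Mathlib
import Cfsg.Prelude.Def_GeometricClasses
import Cfsg.Prelude.Def_LieClassical
import Cfsg.Agent.H95.PairSU2
import Cfsg.Agent.H95.Herm

set_option autoImplicit false
open scoped MatrixGroups

namespace Cfsg.Agent.H48.Pair

open Matrix

variable {F : Type*} [Field F] [Fintype F]

section abstract

variable {m n : ℕ} (φ : F →+* F)

/-- The block matrix `diag(A, (A⁻¹)ᵀ^φ)` attached to `A ∈ GL_m`. -/
noncomputable def blk (A : GL (Fin m) F) : Matrix (Fin m ⊕ Fin m) (Fin m ⊕ Fin m) F :=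
  Matrix.fromBlocks (A : Matrix (Fin m) (Fin m) F) 0 0
    (((A⁻¹ : GL (Fin m) F) : Matrix (Fin m) (Fin m) F)ᵀ.map φ)

lemma map_one_eq (k : ℕ) : (1 : Matrix (Fin k) (Fin k) F).map φ = 1 := by
  ext i j
  by_cases h : i = j
  · subst h; simp
  · simp [Matrix.one_apply, h]

lemma blk_one : blk φ (1 : GL (Fin m) F) = 1 := by
  unfold blk
  rw [inv_one, Units.val_one, Matrix.transpose_one, map_one_eq, Matrix.fromBlocks_one]

lemma blk_mul (A A' : GL (Fin m) F) : blk φ (A * A') = blk φ A * blk φ A' := by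
  unfold blk
  rw [Matrix.fromBlocks_multiply, _root_.mul_inv_rev, Units.val_mul, Units.val_mul, Matrix.transpose_mul,
    Matrix.map_mul]
  simp

lemma blk_unitary (hφφ : ∀ x, φ (φ x) = x) (A : GL (Fin m) F) :
    (blk φ A)ᵀ * Matrix.fromBlocks (0 : Matrix (Fin m) (Fin m) F) 1 1 0 * (blk φ A).map φ
      = Matrix.fromBlocks 0 1 1 0 := by
  have h1 : (A : Matrix (Fin m) (Fin m) F)ᵀ *
      ((((A⁻¹ : GL (Fin m) F) : Matrix (Fin m) (Fin m) F)ᵀ.map φ).map φ) = 1 := by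
    have : ((((A⁻¹ : GL (Fin m) F) : Matrix (Fin m) (Fin m) F)ᵀ.map φ).map φ)
        = ((A⁻¹ : GL (Fin m) F) : Matrix (Fin m) (Fin m) F)ᵀ := by
      ext i j; simp [hφφ]
    rw [this, ← Matrix.transpose_mul, ← Units.val_mul, inv_mul_cancel, Units.val_one,
      Matrix.transpose_one]
  have h2 : ((((A⁻¹ : GL (Fin m) F) : Matrix (Fin m) (Fin m) F)ᵀ.map φ))ᵀ *
      ((A : Matrix (Fin m) (Fin m) F).map φ) = 1 := by
    rw [Matrix.transpose_map, Matrix.transpose_transpose, ← Matrix.map_mul, ← Units.val_mul,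
      inv_mul_cancel, Units.val_one, map_one_eq]
  unfold blk
  rw [Matrix.fromBlocks_transpose, Matrix.fromBlocks_map, Matrix.fromBlocks_multiply,
    Matrix.fromBlocks_multiply]
  simp only [Matrix.transpose_zero, Matrix.mul_zero, Matrix.zero_mul, Matrix.mul_one, add_zero,
    zero_add, Matrix.map_zero _ (map_zero φ)]
  rw [h1, h2]

variable (P : Matrix (Fin n) (Fin m ⊕ Fin m) F) (Q : Matrix (Fin m ⊕ Fin m) (Fin n) F)

/-- The embedding `GL_m → Mat_n`, `A ↦ P * diag(A, (A⁻¹)ᵀ^φ) * Q`. -/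
noncomputable def psi (hPQ : P * Q = 1) (hQP : Q * P = 1) :
    GL (Fin m) F →* Matrix (Fin n) (Fin n) F where
  toFun A := P * blk φ A * Q
  map_one' := by rw [blk_one, Matrix.mul_one, hPQ]
  map_mul' A A' := by
    rw [blk_mul]
    calc P * (blk φ A * blk φ A') * Q
        = P * blk φ A * ((1 : Matrix (Fin m ⊕ Fin m) (Fin m ⊕ Fin m) F) * (blk φ A' * Q)) := by
          rw [Matrix.one_mul]; simp only [Matrix.mul_assoc]
      _ = P * blk φ A * ((Q * P) * (blk φ A' * Q)) := by rw [hQP]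
      _ = P * blk φ A * Q * (P * blk φ A' * Q) := by simp only [Matrix.mul_assoc]

lemma psi_apply (hPQ : P * Q = 1) (hQP : Q * P = 1) (A : GL (Fin m) F) :
    psi φ P Q hPQ hQP A = P * blk φ A * Q := rfl

lemma psi_unitary (hφφ : ∀ x, φ (φ x) = x) (hPQ : P * Q = 1) (hQP : Q * P = 1)
    (hS : Pᵀ * P.map φ = Matrix.fromBlocks 0 1 1 0) (A : GL (Fin m) F) :
    (psi φ P Q hPQ hQP A)ᵀ * (psi φ P Q hPQ hQP A).map φ = 1 := by
  rw [psi_apply, Matrix.transpose_mul, Matrix.transpose_mul, Matrix.map_mul, Matrix.map_mul]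
  calc Qᵀ * ((blk φ A)ᵀ * Pᵀ) * (P.map φ * (blk φ A).map φ * Q.map φ)
      = Qᵀ * ((blk φ A)ᵀ * (Pᵀ * P.map φ) * (blk φ A).map φ) * Q.map φ := by
        simp only [Matrix.mul_assoc]
    _ = Qᵀ * (Pᵀ * P.map φ) * Q.map φ := by rw [hS, blk_unitary φ hφφ]
    _ = (P * Q)ᵀ * (P * Q).map φ := by
        rw [Matrix.transpose_mul, Matrix.map_mul]; simp only [Matrix.mul_assoc]
    _ = 1 := by rw [hPQ, Matrix.transpose_one, map_one_eq, Matrix.one_mul]

lemma herm_of_unitary {q : ℕ} (hφ : ∀ x, φ x = x ^ q) (M : Matrix (Fin n) (Fin n) F)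
    (hM : Mᵀ * M.map φ = 1) (u v : Fin n → F) :
    Cfsg.hermForm n F q (M *ᵥ u) (M *ᵥ v) = Cfsg.hermForm n F q u v := by
  have key : ∀ a b : Fin n → F, Cfsg.hermForm n F q a b = a ⬝ᵥ (fun i => φ (b i)) := by
    intro a b; simp [Cfsg.hermForm, dotProduct, hφ]
  rw [key, key]
  have h1 : (fun i => φ ((M *ᵥ v) i)) = M.map φ *ᵥ (fun i => φ (v i)) := by
    funext i; exact RingHom.map_mulVec φ M v i
  rw [h1]
  calc (M *ᵥ u) ⬝ᵥ (M.map φ *ᵥ fun i => φ (v i))
      = (u ᵥ* Mᵀ) ⬝ᵥ (M.map φ *ᵥ fun i => φ (v i)) := by rw [Matrix.vecMul_transpose]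
    _ = u ⬝ᵥ (Mᵀ *ᵥ (M.map φ *ᵥ fun i => φ (v i))) :=
        (Matrix.dotProduct_mulVec u Mᵀ _).symm
    _ = u ⬝ᵥ (fun i => φ (v i)) := by rw [Matrix.mulVec_mulVec, hM, Matrix.one_mulVec]

end abstract

theorem exists_levi_subgroup {q n : ℕ} (hq : Fintype.card F = q ^ 2)
    (D : Fin 2 → Submodule F (Fin n → F)) (hD : Cfsg.Geo.IsMDecomposition (n / 2) D)
    (hDs : ∀ i, Cfsg.Geo.IsTotallySingularFor (Cfsg.hermForm n F q) (D i)) :
    ∃ K : Subgroup (GL (Fin n) F), K ≤ Cfsg.GU n F q ∧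
      K ≤ Cfsg.Geo.decompositionStabilizer D ∧
      Nat.card K = Nat.card (GL (Fin (n / 2)) F) := by
  classical
  obtain ⟨φ, hφ⟩ := Cfsg.Agent.H95.exists_frob hq
  have hφφ : ∀ x, φ (φ x) = x := fun x => by
    rw [hφ, hφ]; exact Cfsg.Agent.H95.frob_frob hq x
  have hsup : D 0 ⊔ D 1 = ⊤ := by
    rw [← hD.iSup_eq_top]
    exact le_antisymm (sup_le (le_iSup D 0) (le_iSup D 1))
      (iSup_le (Fin.forall_fin_two.mpr ⟨le_sup_left, le_sup_right⟩))
  obtain ⟨e, f, he, hf, hef, hfe, hrep0, hrep1⟩ :=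
    Cfsg.Agent.H95.exists_dual_families_u hq (D 0) (D 1) (hDs 0) (hDs 1) (Fin (n / 2))
      (by simpa using hD.finrank_eq 0) (by simpa using hD.finrank_eq 1) hsup
  -- sums as hermitian products
  have e1 : ∀ a b : Fin n → F, ∑ i, φ (b i) * a i = Cfsg.hermForm n F q a b := by
    intro a b; simp [Cfsg.hermForm, hφ, mul_comm]
  have e2 : ∀ a b : Fin n → F, ∑ i, a i * φ (b i) = Cfsg.hermForm n F q a b := by
    intro a b; simp [Cfsg.hermForm, hφ]
  let P : Matrix (Fin n) (Fin (n / 2) ⊕ Fin (n / 2)) F :=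
    Matrix.of fun i c => Sum.elim (fun j => e j i) (fun j => f j i) c
  let Q : Matrix (Fin (n / 2) ⊕ Fin (n / 2)) (Fin n) F :=
    Matrix.of fun c i => Sum.elim (fun j => φ (f j i)) (fun j => φ (e j i)) c
  have hQl : ∀ (x : Fin n → F) (j : Fin (n / 2)),
      (Q *ᵥ x) (Sum.inl j) = Cfsg.hermForm n F q x (f j) := by
    intro x j
    rw [← e1]; rfl
  have hQr : ∀ (x : Fin n → F) (j : Fin (n / 2)),
      (Q *ᵥ x) (Sum.inr j) = Cfsg.hermForm n F q x (e j) := by
    intro x j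
    rw [← e1]; rfl
  have hPv : ∀ c : Fin (n / 2) ⊕ Fin (n / 2) → F,
      P *ᵥ c = ∑ j, c (Sum.inl j) • e j + ∑ j, c (Sum.inr j) • f j := by
    intro c
    funext i
    simp only [Matrix.mulVec, dotProduct, Fintype.sum_sum_type, Pi.add_apply, Finset.sum_apply,
      Pi.smul_apply, smul_eq_mul]
    congr 1 <;> exact Finset.sum_congr rfl fun j _ => mul_comm _ _
  have hR : ∀ x : Fin n → F, x = ∑ j, Cfsg.hermForm n F q x (f j) • e j
      + ∑ j, Cfsg.hermForm n F q x (e j) • f j := by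
    intro x
    have hx : x ∈ D 0 ⊔ D 1 := by rw [hsup]; exact Submodule.mem_top
    obtain ⟨u, hu, w, hw, rfl⟩ := Submodule.mem_sup.mp hx
    have h1 : ∀ j, Cfsg.hermForm n F q (u + w) (f j) = Cfsg.hermForm n F q u (f j) := by
      intro j
      rw [Cfsg.Agent.H95.hermForm_add_left, hDs 1 w hw (f j) (hf j), add_zero]
    have h2 : ∀ j, Cfsg.hermForm n F q (u + w) (e j) = Cfsg.hermForm n F q w (e j) := by
      intro j
      rw [Cfsg.Agent.H95.hermForm_add_left, hDs 0 u hu (e j) (he j), zero_add]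
    simp only [h1, h2]
    rw [← hrep0 u hu, ← hrep1 w hw]
  have hPQ : P * Q = 1 := by
    have hx : ∀ x : Fin n → F, (P * Q) *ᵥ x = x := fun x => by
      rw [← Matrix.mulVec_mulVec, hPv]
      simp only [hQl, hQr]
      exact (hR x).symm
    apply Matrix.toLin'.injective
    apply LinearMap.ext
    intro x
    rw [Matrix.toLin'_apply, hx, Matrix.toLin'_one, LinearMap.id_apply]
  have hQP : Q * P = 1 := by
    ext c c'
    rw [Matrix.mul_apply]
    rcases c with j | j <;> rcases c' with k | k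
    · show ∑ i, φ (f j i) * e k i = _
      rw [e1, hef k j, Matrix.one_apply]
      simp [eq_comm]
    · show ∑ i, φ (f j i) * f k i = _
      rw [e1, hDs 1 (f k) (hf k) (f j) (hf j), Matrix.one_apply]
      simp
    · show ∑ i, φ (e j i) * e k i = _
      rw [e1, hDs 0 (e k) (he k) (e j) (he j), Matrix.one_apply]
      simp
    · show ∑ i, φ (e j i) * f k i = _
      rw [e1, hfe k j, Matrix.one_apply]
      simp [eq_comm]
  have hS : Pᵀ * P.map φ = Matrix.fromBlocks 0 1 1 0 := by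
    ext c c'
    rw [Matrix.mul_apply]
    rcases c with j | j <;> rcases c' with k | k
    · show ∑ i, e j i * φ (e k i) = _
      rw [e2, hDs 0 (e j) (he j) (e k) (he k)]
      simp
    · show ∑ i, e j i * φ (f k i) = _
      rw [e2, hef j k]
      simp [Matrix.one_apply]
    · show ∑ i, f j i * φ (e k i) = _
      rw [e2, hfe j k]
      simp [Matrix.one_apply]
    · show ∑ i, f j i * φ (f k i) = _
      rw [e2, hDs 1 (f j) (hf j) (f k) (hf k)]
      simp
  have mem0 : ∀ x : Fin n → F, x ∈ D 0 ↔ ∀ j, (Q *ᵥ x) (Sum.inr j) = 0 := by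
    intro x
    constructor
    · intro hx j
      rw [hQr]; exact hDs 0 x hx (e j) (he j)
    · intro h
      rw [hR x]
      have : ∑ j, Cfsg.hermForm n F q x (e j) • f j = 0 :=
        Finset.sum_eq_zero fun j _ => by rw [← hQr, h j, zero_smul]
      rw [this, add_zero]
      exact Submodule.sum_mem _ fun j _ => Submodule.smul_mem _ _ (he j)
  have mem1 : ∀ x : Fin n → F, x ∈ D 1 ↔ ∀ j, (Q *ᵥ x) (Sum.inl j) = 0 := by
    intro x
    constructor
    · intro hx j
      rw [hQl]; exact hDs 1 x hx (f j) (hf j)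
    · intro h
      rw [hR x]
      have : ∑ j, Cfsg.hermForm n F q x (f j) • e j = 0 :=
        Finset.sum_eq_zero fun j _ => by rw [← hQl, h j, zero_smul]
      rw [this, zero_add]
      exact Submodule.sum_mem _ fun j _ => Submodule.smul_mem _ _ (hf j)
  let ψ := psi φ P Q hPQ hQP
  have hQψ : ∀ (A : GL (Fin (n / 2)) F) (x : Fin n → F),
      Q *ᵥ (ψ A *ᵥ x) = blk φ A *ᵥ (Q *ᵥ x) := by
    intro A x
    show Q *ᵥ ((P * blk φ A * Q) *ᵥ x) = _
    rw [Matrix.mulVec_mulVec, Matrix.mulVec_mulVec]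
    congr 1
    calc Q * (P * blk φ A * Q) = (Q * P) * blk φ A * Q := by simp only [Matrix.mul_assoc]
      _ = blk φ A * Q := by rw [hQP, Matrix.one_mul]
  have stab : ∀ (A : GL (Fin (n / 2)) F) (i : Fin 2) (x : Fin n → F), x ∈ D i →
      ψ A *ᵥ x ∈ D i := by
    intro A i x hx
    fin_cases i
    · have h0 := (mem0 x).mp hx
      refine (mem0 _).mpr fun j => ?_
      rw [hQψ]
      unfold blk
      rw [Matrix.fromBlocks_mulVec]
      have hz : (Q *ᵥ x) ∘ Sum.inr = 0 := funext fun j => h0 j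
      simp [hz]
    · have h0 := (mem1 x).mp hx
      refine (mem1 _).mpr fun j => ?_
      rw [hQψ]
      unfold blk
      rw [Matrix.fromBlocks_mulVec]
      have hz : (Q *ᵥ x) ∘ Sum.inl = 0 := funext fun j => h0 j
      simp [hz]
  let Φ : GL (Fin (n / 2)) F →* GL (Fin n) F := ψ.toHomUnits
  have hΦ : ∀ A, ((Φ A : GL (Fin n) F) : Matrix (Fin n) (Fin n) F) = ψ A := fun A => rfl
  have hinj : Function.Injective Φ := by
    intro A A' hAA'
    have h1 : ψ A = ψ A' := by rw [← hΦ, ← hΦ, hAA']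
    have h2 : ∀ B : GL (Fin (n / 2)) F, Q * ψ B * P = blk φ B := by
      intro B
      show Q * (P * blk φ B * Q) * P = _
      calc Q * (P * blk φ B * Q) * P = (Q * P) * blk φ B * (Q * P) := by
            simp only [Matrix.mul_assoc]
        _ = blk φ B := by rw [hQP, Matrix.one_mul, Matrix.mul_one]
    have h3 : blk φ A = blk φ A' := by rw [← h2, ← h2, h1]
    unfold blk at h3
    exact Units.ext (Matrix.fromBlocks_inj.mp h3).1
  refine ⟨Φ.range, ?_, ?_, ?_⟩
  · rintro _ ⟨A, rfl⟩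
    intro u v
    show Cfsg.hermForm n F q (ψ A *ᵥ u) (ψ A *ᵥ v) = Cfsg.hermForm n F q u v
    exact herm_of_unitary φ hφ _ (psi_unitary φ P Q hφφ hPQ hQP hS A) u v
  · rintro _ ⟨A, rfl⟩
    refine ⟨1, fun i => ?_⟩
    rw [Equiv.Perm.coe_one, id]
    apply le_antisymm
    · rintro _ ⟨x, hx, rfl⟩
      rw [Matrix.toLin'_apply]
      exact stab A i x hx
    · intro x hx
      refine ⟨ψ A⁻¹ *ᵥ x, stab A⁻¹ i x hx, ?_⟩
      rw [Matrix.toLin'_apply, hΦ, Matrix.mulVec_mulVec, ← map_mul, mul_inv_cancel, map_one,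
        Matrix.one_mulVec]
  · exact Nat.card_congr (MonoidHom.ofInjective hinj).symm.toEquiv

end Cfsg.Agent.H48.Pair

section check
variable {F : Type*} [Field F] [Fintype F]

example {q n : ℕ} (hq : Fintype.card F = q ^ 2)
    (D : Fin 2 → Submodule F (Fin n → F)) (hD : Cfsg.Geo.IsMDecomposition (n / 2) D)
    (hDs : ∀ i, Cfsg.Geo.IsTotallySingularFor (Cfsg.hermForm n F q) (D i)) :
    ∃ K : Subgroup (GL (Fin n) F), K ≤ Cfsg.GU n F q ∧
      K ≤ Cfsg.Geo.decompositionStabilizer D ∧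
      Nat.card K = Nat.card (GL (Fin (n / 2)) F) :=
  Cfsg.Agent.H48.Pair.exists_levi_subgroup hq D hD hDs

end check
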