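import Mathlib
import Cfsg.Prelude.Def_GeometricClasses
import Cfsg.Prelude.Def_LieClassical
import Cfsg.Agent.H17.GUBlock

set_option autoImplicit false
open scoped MatrixGroups

namespace Cfsg.Agent.H48.Pair

open Matrix Cfsg.Agent.H17

variable {F : Type*} [Field F] [Fintype F]

lemma blockMat_pow' {ι ι₁ ι₂ : Type} [Fintype ι] [DecidableEq ι] [Fintype ι₁] [DecidableEq ι₁]
    [Fintype ι₂] [DecidableEq ι₂] (ε : ι₁ ⊕ ι₂ ≃ ι) (A₁ : Matrix ι₁ ι₁ F) (A₂ : Matrix ι₂ ι₂ F)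
    (k : ℕ) : blockMat ε A₁ A₂ ^ k = blockMat ε (A₁ ^ k) (A₂ ^ k) := by
  induction k with
  | zero => simp [blockMat_one]
  | succ k ih => rw [pow_succ, ih, ← blockMat_mul, ← pow_succ, ← pow_succ]

lemma blockMat_det' {ι ι₁ ι₂ : Type} [Fintype ι] [DecidableEq ι] [Fintype ι₁] [DecidableEq ι₁]
    [Fintype ι₂] [DecidableEq ι₂] (ε : ι₁ ⊕ ι₂ ≃ ι) (A₁ : Matrix ι₁ ι₁ F) (A₂ : Matrix ι₂ ι₂ F) :
    (blockMat ε A₁ A₂).det = A₁.det * A₂.det := by
  unfold blockMat
  rw [Matrix.det_submatrix_equiv_self, Matrix.det_fromBlocks_zero₂₁]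

lemma perm_two_pow_odd (σ : Equiv.Perm (Fin 2)) {r : ℕ} (hr : Odd r) : σ ^ r = σ := by
  have h2 : ∀ τ : Equiv.Perm (Fin 2), τ * τ = 1 := by decide
  obtain ⟨k, rfl⟩ := hr
  rw [pow_succ, pow_mul, sq, h2, one_pow, one_mul]

theorem exists_witness_of_block {q n r e : ℕ} (hq : Fintype.card F = q ^ 2) (he : 1 ≤ e)
    (hen : e < n) (hr : r.Prime) (hr2 : r ≠ 2) (M₀ : Matrix (Fin e) (Fin e) F)
    (hU : ∀ u v : Fin e → F,
      Cfsg.hermForm e F q (M₀.mulVec u) (M₀.mulVec v) = Cfsg.hermForm e F q u v)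
    (hdet : M₀.det = 1) (hM₀r : M₀ ^ r = 1) (hM₀1 : IsUnit (M₀ - 1).det)
    (hirr : ∀ W : Submodule F (Fin e → F), W.map (Matrix.toLin' M₀) ≤ W → W = ⊥ ∨ W = ⊤) :
    ∃ M : Matrix (Fin n) (Fin n) F, M.det = 1 ∧
      (∀ u v : Fin n → F,
        Cfsg.hermForm n F q (M.mulVec u) (M.mulVec v) = Cfsg.hermForm n F q u v) ∧
      M ^ r = 1 ∧ (∀ z : F, M ≠ z • (1 : Matrix (Fin n) (Fin n) F)) ∧
      ¬ ∃ (E : Fin 2 → Submodule F (Fin n → F)) (σ : Equiv.Perm (Fin 2)),
        Cfsg.Geo.IsMDecomposition (n / 2) E ∧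
        (∀ i, Cfsg.Geo.IsTotallySingularFor (Cfsg.hermForm n F q) (E i)) ∧
        ∀ i, (E i).map (Matrix.toLin' M) = E (σ i) := by
  classical
  have hle : e ≤ n := le_of_lt hen
  have hrodd : Odd r := hr.odd_of_ne_two hr2
  let ε := finSplit n e hle
  let M : Matrix (Fin n) (Fin n) F := blockMat ε M₀ 1
  have hc1 : ∀ v : Fin n → F, crd₁ ε (M *ᵥ v) = M₀ *ᵥ crd₁ ε v :=
    fun v => blockMat_crd₁ ε M₀ 1 v
  have hc2 : ∀ v : Fin n → F, crd₂ ε (M *ᵥ v) = crd₂ ε v := fun v => by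
    show crd₂ ε (blockMat ε M₀ 1 *ᵥ v) = _
    rw [blockMat_crd₂, Matrix.one_mulVec]
  have hMr : M ^ r = 1 := by
    show blockMat ε M₀ 1 ^ r = 1
    rw [blockMat_pow', hM₀r, one_pow, blockMat_one]
  have hMdet : M.det = 1 := by
    show (blockMat ε M₀ 1).det = 1
    rw [blockMat_det', hdet, Matrix.det_one, mul_one]
  have hMU : ∀ u v : Fin n → F,
      Cfsg.hermForm n F q (M *ᵥ u) (M *ᵥ v) = Cfsg.hermForm n F q u v := by
    intro u v
    exact blockMat_preserves ε _ _ _ (hermForm_split n e hle) M₀ 1 hU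
      (fun b b' => by rw [Matrix.one_mulVec, Matrix.one_mulVec]) u v
  have hM1 : M ≠ 1 := by
    intro h1
    have h0 : M₀ = 1 := by
      apply Matrix.toLin'.injective
      apply LinearMap.ext
      intro a
      have h := hc1 (emb₁ ε a)
      rw [h1, Matrix.one_mulVec, crd₁_emb₁] at h
      rw [Matrix.toLin'_apply, Matrix.toLin'_one, LinearMap.id_apply]
      exact h.symm
    rw [h0, sub_self] at hM₀1
    haveI : Nonempty (Fin e) := ⟨⟨0, he⟩⟩
    rw [Matrix.det_zero] at hM₀1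
    exact not_isUnit_zero hM₀1
  have hns : ∀ z : F, M ≠ z • (1 : Matrix (Fin n) (Fin n) F) := by
    intro z hz
    have hb : 0 < n - e := by omega
    let b : Fin (n - e) := ⟨0, hb⟩
    have h2 := hc2 (emb₂ ε (Pi.single b (1 : F)))
    rw [hz, Matrix.smul_mulVec, Matrix.one_mulVec] at h2
    have h3 := congrFun h2 b
    have h4 : crd₂ ε (z • emb₂ ε (Pi.single b (1 : F))) b
        = z * crd₂ ε (emb₂ ε (Pi.single b (1 : F))) b := rfl
    rw [h4, crd₂_emb₂, Pi.single_eq_same, mul_one] at h3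
    exact hM1 (by rw [hz, h3, one_smul])
  refine ⟨M, hMdet, hMU, hMr, hns, ?_⟩
  rintro ⟨E, σ, hE, hEs, hmap⟩
  have hpow : ∀ (k : ℕ) (i : Fin 2), (E i).map (Matrix.toLin' (M ^ k)) = E ((σ ^ k) i) := by
    intro k
    induction k with
    | zero => intro i; simp
    | succ k ih =>
      intro i
      rw [pow_succ, Matrix.toLin'_mul, Submodule.map_comp, hmap, ih, pow_succ,
        Equiv.Perm.mul_apply]
  have hEσ : ∀ i, E (σ i) = E i := by
    intro i
    have h := hpow r i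
    rw [hMr, Matrix.toLin'_one, Submodule.map_id, perm_two_pow_odd σ hrodd] at h
    exact h.symm
  have hdisj : Disjoint (E 0) (E 1) := hE.indep.pairwiseDisjoint (by decide)
  have hpos : ∀ i, E i ≠ ⊥ := by
    intro i hi
    have h := hE.finrank_eq i
    rw [hi, finrank_bot] at h
    have := hE.pos
    omega
  have hσ0 : σ 0 = 0 := by
    obtain h0 | h0 : σ 0 = 0 ∨ σ 0 = 1 := by
      generalize σ 0 = t
      fin_cases t <;> simp
    · exact h0
    · exfalso
      have h := hEσ 0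
      rw [h0] at h
      rw [h] at hdisj
      exact hpos 0 (disjoint_self.mp hdisj)
  have hσ1 : σ 1 = 1 := by
    obtain h0 | h0 : σ 1 = 0 ∨ σ 1 = 1 := by
      generalize σ 1 = t
      fin_cases t <;> simp
    · exfalso
      have := σ.injective (h0.trans hσ0.symm)
      exact absurd this (by decide)
    · exact h0
  have hmap' : ∀ i, (E i).map (Matrix.toLin' M) = E i := by
    intro i
    fin_cases i
    · have := hmap 0
      rwa [hσ0] at this
    · have := hmap 1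
      rwa [hσ1] at this
  have hMx : ∀ i, ∀ x ∈ E i, M *ᵥ x ∈ E i := by
    intro i x hx
    have : Matrix.toLin' M x ∈ (E i).map (Matrix.toLin' M) := Submodule.mem_map_of_mem hx
    rw [hmap' i, Matrix.toLin'_apply] at this
    exact this
  -- the key claim
  have hfix : ∀ i, ∀ x ∈ E i, M *ᵥ x = x := by
    intro i
    let c1 : (Fin n → F) →ₗ[F] (Fin e → F) :=
      { toFun := crd₁ ε
        map_add' := fun _ _ => rfl
        map_smul' := fun _ _ => rfl }
    let L : (Fin n → F) →ₗ[F] (Fin e → F) := c1 ∘ₗ (Matrix.toLin' M - LinearMap.id)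
    have hL : ∀ x, L x = crd₁ ε (M *ᵥ x - x) := fun x => by
      show crd₁ ε ((Matrix.toLin' M - LinearMap.id : (Fin n → F) →ₗ[F] (Fin n → F)) x) = _
      rw [LinearMap.sub_apply, Matrix.toLin'_apply, LinearMap.id_apply]
    have hinv : ((E i).map L).map (Matrix.toLin' M₀) ≤ (E i).map L := by
      rintro _ ⟨_, ⟨x, hx, rfl⟩, rfl⟩
      refine ⟨M *ᵥ x, hMx i x hx, ?_⟩
      rw [hL, hL, Matrix.toLin'_apply, ← hc1, Matrix.mulVec_sub]
    have hc2' : ∀ x, crd₂ ε (M *ᵥ x - x) = 0 := by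
      intro x
      have : crd₂ ε (M *ᵥ x - x) = crd₂ ε (M *ᵥ x) - crd₂ ε x := rfl
      rw [this, hc2, sub_self]
    rcases hirr _ hinv with hbot | htop
    · intro x hx
      have h1 : L x ∈ (E i).map L := Submodule.mem_map_of_mem hx
      rw [hbot, Submodule.mem_bot, hL] at h1
      have h2 : M *ᵥ x - x = 0 := eq_of_crd ε _ _ h1 (hc2' x)
      exact sub_eq_zero.mp h2
    · exfalso
      have ha : (Pi.single (⟨0, he⟩ : Fin e) (1 : F) : Fin e → F) ∈ (E i).map L := by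
        rw [htop]; exact Submodule.mem_top
      obtain ⟨x, hx, hxa⟩ := ha
      rw [hL] at hxa
      have hw : M *ᵥ x - x ∈ E i := Submodule.sub_mem _ (hMx i x hx) hx
      have h0 := hEs i _ hw _ hw
      rw [hermForm_split n e hle, hc2' x] at h0
      have hxa' : crd₁ (finSplit n e hle) (M *ᵥ x - x) = Pi.single (⟨0, he⟩ : Fin e) (1 : F) :=
        hxa
      rw [hxa'] at h0
      have h5 : Cfsg.hermForm e F q (Pi.single (⟨0, he⟩ : Fin e) (1 : F))
          (Pi.single (⟨0, he⟩ : Fin e) (1 : F)) = 1 := by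
        unfold Cfsg.hermForm
        rw [Finset.sum_eq_single (⟨0, he⟩ : Fin e)]
        · simp
        · intro j _ hj
          simp [Pi.single_eq_of_ne hj]
        · intro h; exact absurd (Finset.mem_univ _) h
      have h6 : Cfsg.hermForm (n - e) F q (0 : Fin (n - e) → F) 0 = 0 := by
        unfold Cfsg.hermForm
        simp
      rw [h5, h6, add_zero] at h0
      exact one_ne_zero h0
  apply hM1
  apply Matrix.toLin'.injective
  apply LinearMap.ext
  intro x
  have hsup : E 0 ⊔ E 1 = ⊤ := by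
    rw [← hE.iSup_eq_top]
    exact le_antisymm (sup_le (le_iSup E 0) (le_iSup E 1))
      (iSup_le (Fin.forall_fin_two.mpr ⟨le_sup_left, le_sup_right⟩))
  have hx : x ∈ E 0 ⊔ E 1 := by rw [hsup]; exact Submodule.mem_top
  obtain ⟨u, hu, w, hw, rfl⟩ := Submodule.mem_sup.mp hx
  rw [Matrix.toLin'_apply, Matrix.mulVec_add, hfix 0 u hu, hfix 1 w hw, Matrix.toLin'_one,
    LinearMap.id_apply]

end Cfsg.Agent.H48.Pair

section check
variable {F : Type*} [Field F] [Fintype F]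

example {q n r e : ℕ} (hq : Fintype.card F = q ^ 2) (he : 1 ≤ e)
    (hen : e < n) (hr : r.Prime) (hr2 : r ≠ 2) (M₀ : Matrix (Fin e) (Fin e) F)
    (hU : ∀ u v : Fin e → F,
      Cfsg.hermForm e F q (M₀.mulVec u) (M₀.mulVec v) = Cfsg.hermForm e F q u v)
    (hdet : M₀.det = 1) (hM₀r : M₀ ^ r = 1) (hM₀1 : IsUnit (M₀ - 1).det)
    (hirr : ∀ W : Submodule F (Fin e → F), W.map (Matrix.toLin' M₀) ≤ W → W = ⊥ ∨ W = ⊤) :
    ∃ M : Matrix (Fin n) (Fin n) F, M.det = 1 ∧
      (∀ u v : Fin n → F,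
        Cfsg.hermForm n F q (M.mulVec u) (M.mulVec v) = Cfsg.hermForm n F q u v) ∧
      M ^ r = 1 ∧ (∀ z : F, M ≠ z • (1 : Matrix (Fin n) (Fin n) F)) ∧
      ¬ ∃ (E : Fin 2 → Submodule F (Fin n → F)) (σ : Equiv.Perm (Fin 2)),
        Cfsg.Geo.IsMDecomposition (n / 2) E ∧
        (∀ i, Cfsg.Geo.IsTotallySingularFor (Cfsg.hermForm n F q) (E i)) ∧
        ∀ i, (E i).map (Matrix.toLin' M) = E (σ i) :=
  Cfsg.Agent.H48.Pair.exists_witness_of_block hq he hen hr hr2 M₀ hU hdet hM₀r hM₀1 hirr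

end check
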