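import Mathlib

set_option autoImplicit false

/-!
Helper lemmas (helper48): truncated polynomials `p` with `p(T) p(-T) ≡ 1 mod T^(2m)` over a
finite field of odd order: there are `2 q^m` of them.
-/

namespace Cfsg.Agent.H48

open Polynomial

section

variable {F : Type*} [Field F]

/-- The substitution `T ↦ -T`. -/
noncomputable def negSub : F[X] →ₐ[F] F[X] := Polynomial.aeval (-X)

theorem negSub_X : negSub (X : F[X]) = -X := by
  unfold negSub
  rw [Polynomial.aeval_X]

theorem negSub_expand (a : F[X]) : negSub (expand F 2 a) = expand F 2 a := by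
  unfold negSub
  rw [Polynomial.expand_aeval, neg_sq, ← Polynomial.expand_aeval, Polynomial.aeval_X_left_apply]

/-- Even–odd decomposition. -/
theorem expand_contract_add (p : F[X]) :
    expand F 2 (contract 2 p) + X * expand F 2 (contract 2 (divX p)) = p := by
  ext n
  rw [coeff_add]
  rcases Nat.even_or_odd' n with ⟨k, rfl | rfl⟩
  · have e1 : (expand F 2 (contract 2 p)).coeff (2 * k) = p.coeff (2 * k) := by
      rw [mul_comm 2 k, coeff_expand_mul (by norm_num), coeff_contract (by norm_num)]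
    have e2 : (X * expand F 2 (contract 2 (divX p))).coeff (2 * k) = 0 := by
      rcases Nat.eq_zero_or_pos k with rfl | hk
      · simp
      · obtain ⟨j, rfl⟩ : ∃ j, k = j + 1 := ⟨k - 1, by omega⟩
        have : 2 * (j + 1) = (2 * j + 1) + 1 := by ring
        rw [this, coeff_X_mul, coeff_expand (by norm_num), if_neg (by omega)]
    rw [e1, e2, add_zero]
  · have e1 : (expand F 2 (contract 2 p)).coeff (2 * k + 1) = 0 := by
      rw [coeff_expand (by norm_num), if_neg (by omega)]
    have e2 : (X * expand F 2 (contract 2 (divX p))).coeff (2 * k + 1) = p.coeff (2 * k + 1) := by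
      rw [coeff_X_mul, mul_comm 2 k, coeff_expand_mul (by norm_num), coeff_contract (by norm_num),
        coeff_divX]
    rw [e1, e2, zero_add]

theorem contract_expand_add (a b : F[X]) :
    contract 2 (expand F 2 a + X * expand F 2 b) = a := by
  ext n
  rw [coeff_contract (by norm_num), coeff_add, coeff_expand_mul (by norm_num)]
  have : (X * expand F 2 b).coeff (n * 2) = 0 := by
    rcases Nat.eq_zero_or_pos n with rfl | hk
    · simp
    · obtain ⟨j, rfl⟩ : ∃ j, n = j + 1 := ⟨n - 1, by omega⟩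
      have : (j + 1) * 2 = (2 * j + 1) + 1 := by ring
      rw [this, coeff_X_mul, coeff_expand (by norm_num), if_neg (by omega)]
  rw [this, add_zero]

theorem contract_divX_expand_add (a b : F[X]) :
    contract 2 (divX (expand F 2 a + X * expand F 2 b)) = b := by
  ext n
  rw [coeff_contract (by norm_num), coeff_divX, coeff_add, coeff_X_mul,
    coeff_expand_mul (by norm_num), coeff_expand (by norm_num), if_neg (by omega), zero_add]

theorem degree_contract_lt (p : F[X]) (m : ℕ) (hp : p.degree < ((2 * m : ℕ) : WithBot ℕ)) :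
    (contract 2 p).degree < (m : WithBot ℕ) := by
  rw [degree_lt_iff_coeff_zero] at hp ⊢
  intro k hk
  rw [coeff_contract (by norm_num)]
  exact hp _ (by omega)

theorem degree_contract_divX_lt (p : F[X]) (m : ℕ) (hp : p.degree < ((2 * m : ℕ) : WithBot ℕ)) :
    (contract 2 (divX p)).degree < (m : WithBot ℕ) := by
  rw [degree_lt_iff_coeff_zero] at hp ⊢
  intro k hk
  rw [coeff_contract (by norm_num), coeff_divX]
  exact hp _ (by omega)

theorem degree_expand_add_lt (a b : F[X]) (m : ℕ) (ha : a.degree < (m : WithBot ℕ))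
    (hb : b.degree < (m : WithBot ℕ)) :
    (expand F 2 a + X * expand F 2 b).degree < ((2 * m : ℕ) : WithBot ℕ) := by
  rw [degree_lt_iff_coeff_zero] at ha hb ⊢
  intro k hk
  rw [coeff_add]
  have e1 : (expand F 2 a).coeff k = 0 := by
    rw [coeff_expand (by norm_num)]
    split_ifs with h
    · exact ha _ (by omega)
    · rfl
  have e2 : (X * expand F 2 b).coeff k = 0 := by
    rcases Nat.eq_zero_or_pos k with rfl | hk0
    · simp
    · obtain ⟨j, rfl⟩ : ∃ j, k = j + 1 := ⟨k - 1, by omega⟩
      rw [coeff_X_mul, coeff_expand (by norm_num)]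
      split_ifs with h
      · exact hb _ (by omega)
      · rfl
  rw [e1, e2, add_zero]

/-- The norm in terms of the even and odd parts. -/
theorem mul_negSub_expand (a b : F[X]) :
    (expand F 2 a + X * expand F 2 b) * negSub (expand F 2 a + X * expand F 2 b) - 1
      = expand F 2 (a ^ 2 - (1 + X * b ^ 2)) := by
  rw [map_add, map_mul, negSub_X, negSub_expand, negSub_expand]
  simp only [map_sub, map_add, map_mul, map_pow, map_one, expand_X]
  ring

theorem X_pow_dvd_expand_iff (c : F[X]) (m : ℕ) :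
    (X : F[X]) ^ (2 * m) ∣ expand F 2 c ↔ (X : F[X]) ^ m ∣ c := by
  rw [X_pow_dvd_iff, X_pow_dvd_iff]
  constructor
  · intro h d hd
    have := h (d * 2) (by omega)
    rwa [coeff_expand_mul (by norm_num)] at this
  · intro h d hd
    rw [coeff_expand (by norm_num)]
    split_ifs with h2
    · exact h _ (by omega)
    · rfl

theorem isCoprime_X_pow_of_coeff_zero_ne (c : F[X]) (hc : c.coeff 0 ≠ 0) (m : ℕ) :
    IsCoprime ((X : F[X]) ^ m) c := by
  apply IsCoprime.pow_left
  rw [Irreducible.coprime_iff_not_dvd Polynomial.irreducible_X, X_dvd_iff]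
  exact hc

/-- Square roots of one-units modulo `X^m` in odd characteristic. -/
theorem exists_sqrt_one_unit (p : ℕ) [Fact p.Prime] [CharP F p] (hp : p ≠ 2) (w : F[X])
    (hw : w.coeff 0 = 1) (m : ℕ) :
    ∃ r : F[X], r.coeff 0 = 1 ∧ (X : F[X]) ^ m ∣ r ^ 2 - w := by
  have hodd : Odd p := (Fact.out : p.Prime).odd_of_ne_two hp
  have hodd' : Odd (p ^ m) := hodd.pow
  obtain ⟨j, hj⟩ : ∃ j, p ^ m + 1 = 2 * j := by
    obtain ⟨k, hk⟩ := hodd'
    exact ⟨k + 1, by omega⟩
  refine ⟨w ^ j, ?_, ?_⟩
  · rw [coeff_zero_eq_eval_zero, eval_pow, ← coeff_zero_eq_eval_zero, hw, one_pow]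
  · have hw' : w = 1 + X * divX w := by
      have := divX_mul_X_add w
      rw [hw, map_one] at this
      rw [mul_comm X, add_comm]
      exact this.symm
    have hpow : w ^ (p ^ m) = 1 + X ^ (p ^ m) * divX w ^ (p ^ m) := by
      conv_lhs => rw [hw']
      rw [add_pow_char_pow, one_pow, mul_pow]
    have e : (w ^ j) ^ 2 - w = w * (X ^ (p ^ m) * divX w ^ (p ^ m)) := by
      rw [← pow_mul, mul_comm j 2, ← hj, pow_succ, hpow]
      ring
    rw [e]
    have hle : m ≤ p ^ m := (Nat.lt_pow_self (Fact.out : p.Prime).one_lt).le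
    exact Dvd.dvd.mul_left (Dvd.dvd.mul_right (pow_dvd_pow X hle) _) _

/-- A one-unit has exactly two square roots modulo `X^m` (of degree less than `m`). -/
theorem card_sqrt_one_unit (p : ℕ) [Fact p.Prime] [CharP F p] (hp : p ≠ 2) (w : F[X])
    (hw : w.coeff 0 = 1) (m : ℕ) (hm : 1 ≤ m) :
    Nat.card {a : F[X] // a.degree < (m : WithBot ℕ) ∧ (X : F[X]) ^ m ∣ a ^ 2 - w} = 2 := by
  have h2 : (2 : F) ≠ 0 := by
    intro h
    have : ((2 : ℕ) : F) = 0 := by exact_mod_cast h
    rw [CharP.cast_eq_zero_iff F p] at this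
    have := (Nat.prime_dvd_prime_iff_eq (Fact.out : p.Prime) Nat.prime_two).mp this
    exact hp this
  obtain ⟨r, hr0, hr⟩ := exists_sqrt_one_unit p hp w hw m
  set r₀ := r %ₘ X ^ m with hr₀
  have hmonic : ((X : F[X]) ^ m).Monic := monic_X_pow m
  have hdeg : r₀.degree < (m : WithBot ℕ) := by
    have := degree_modByMonic_lt r hmonic
    rwa [degree_X_pow] at this
  have hdiv : (X : F[X]) ^ m ∣ r - r₀ := by
    have := modByMonic_add_div r (X ^ m : F[X])
    refine ⟨r /ₘ X ^ m, ?_⟩
    rw [hr₀]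
    exact sub_eq_of_eq_add' this.symm
  have hr₀sq : (X : F[X]) ^ m ∣ r₀ ^ 2 - w := by
    have e : r₀ ^ 2 - w = (r ^ 2 - w) - (r - r₀) * (r + r₀) := by ring
    rw [e]
    exact dvd_sub hr (Dvd.dvd.mul_right hdiv _)
  have hr₀0 : r₀.coeff 0 = 1 := by
    have hX : (X : F[X]) ∣ r - r₀ := dvd_trans (dvd_pow_self X (by omega)) hdiv
    rw [X_dvd_iff, coeff_sub, hr0] at hX
    exact (sub_eq_zero.mp hX).symm
  have key : {a : F[X] | a.degree < (m : WithBot ℕ) ∧ (X : F[X]) ^ m ∣ a ^ 2 - w} = {r₀, -r₀} := by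
    ext a
    simp only [Set.mem_ofPred_eq, Set.mem_insert_iff, Set.mem_singleton_iff]
    constructor
    · rintro ⟨ha, hadiv⟩
      have hprod : (X : F[X]) ^ m ∣ (a - r₀) * (a + r₀) := by
        have e : (a - r₀) * (a + r₀) = (a ^ 2 - w) - (r₀ ^ 2 - w) := by ring
        rw [e]
        exact dvd_sub hadiv hr₀sq
      have ha0 : a.coeff 0 ^ 2 = 1 := by
        have hX : (X : F[X]) ∣ a ^ 2 - w := dvd_trans (dvd_pow_self X (by omega)) hadiv
        rw [X_dvd_iff, coeff_sub, hw, coeff_zero_eq_eval_zero, eval_pow, ← coeff_zero_eq_eval_zero,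
          sub_eq_zero] at hX
        exact hX
      have ha0' : a.coeff 0 = 1 ∨ a.coeff 0 = -1 := sq_eq_one_iff.mp ha0
      rcases ha0' with h1 | h1
      · left
        have hc : IsCoprime ((X : F[X]) ^ m) (a + r₀) := by
          apply isCoprime_X_pow_of_coeff_zero_ne
          rw [coeff_add, h1, hr₀0]
          have : (1 : F) + 1 = 2 := by norm_num
          rw [this]; exact h2
        have hd := hc.dvd_of_dvd_mul_right hprod
        have := eq_zero_of_dvd_of_degree_lt hd (by
          rw [degree_X_pow]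
          exact lt_of_le_of_lt (degree_sub_le _ _) (max_lt ha hdeg))
        exact sub_eq_zero.mp this
      · right
        have hc : IsCoprime ((X : F[X]) ^ m) (a - r₀) := by
          apply isCoprime_X_pow_of_coeff_zero_ne
          rw [coeff_sub, h1, hr₀0]
          have : (-1 : F) - 1 = -2 := by norm_num
          rw [this]; exact neg_ne_zero.mpr h2
        have hd := hc.dvd_of_dvd_mul_right (by rwa [mul_comm] at hprod)
        have := eq_zero_of_dvd_of_degree_lt hd (by
          rw [degree_X_pow]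
          exact lt_of_le_of_lt (degree_add_le _ _) (max_lt ha hdeg))
        exact eq_neg_of_add_eq_zero_left this
    · rintro (rfl | rfl)
      · exact ⟨hdeg, hr₀sq⟩
      · refine ⟨by rwa [degree_neg], ?_⟩
        rw [neg_sq]; exact hr₀sq
  have hne : r₀ ≠ -r₀ := by
    intro h
    have := congrArg (fun f : F[X] => f.coeff 0) h
    simp only [coeff_neg, hr₀0] at this
    apply h2
    have e : (2 : F) = 1 - (-1) := by norm_num
    rw [e, sub_eq_zero]
    exact this
  show Nat.card ↥{a : F[X] | a.degree < (m : WithBot ℕ) ∧ (X : F[X]) ^ m ∣ a ^ 2 - w} = 2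
  rw [key, Nat.card_coe_set_eq, Set.ncard_pair hne]

theorem norm_dvd_iff (a b : F[X]) (m : ℕ) :
    (X : F[X]) ^ (2 * m) ∣ (expand F 2 a + X * expand F 2 b)
        * negSub (expand F 2 a + X * expand F 2 b) - 1
      ↔ (X : F[X]) ^ m ∣ a ^ 2 - (1 + X * b ^ 2) := by
  rw [mul_negSub_expand, X_pow_dvd_expand_iff]

/-- The number of truncated polynomials of norm one. -/
theorem card_norm_one [Fintype F] (p : ℕ) [Fact p.Prime] [CharP F p] (hp : p ≠ 2) (m : ℕ)
    (hm : 1 ≤ m) :
    Nat.card {f : F[X] // f.degree < ((2 * m : ℕ) : WithBot ℕ)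
        ∧ (X : F[X]) ^ (2 * m) ∣ f * negSub f - 1} = 2 * Fintype.card F ^ m := by
  classical
  let e : {f : F[X] // f.degree < ((2 * m : ℕ) : WithBot ℕ)
        ∧ (X : F[X]) ^ (2 * m) ∣ f * negSub f - 1} ≃
      Σ b : ↥(degreeLT F m), {a : F[X] // a.degree < (m : WithBot ℕ)
        ∧ (X : F[X]) ^ m ∣ a ^ 2 - (1 + X * (b : F[X]) ^ 2)} :=
    { toFun := fun f => ⟨⟨contract 2 (divX f.1), mem_degreeLT.mpr (degree_contract_divX_lt f.1 m f.2.1)⟩,
        ⟨contract 2 f.1, degree_contract_lt f.1 m f.2.1, by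
          have h := f.2.2
          rw [← expand_contract_add f.1, norm_dvd_iff] at h
          exact h⟩⟩
      invFun := fun x => ⟨expand F 2 x.2.1 + X * expand F 2 (x.1 : F[X]),
        degree_expand_add_lt x.2.1 x.1 m x.2.2.1 (mem_degreeLT.mp x.1.2),
        (norm_dvd_iff x.2.1 x.1 m).mpr x.2.2.2⟩
      left_inv := fun f => Subtype.ext (expand_contract_add f.1)
      right_inv := by
        rintro ⟨⟨b, hb⟩, ⟨a, ha1, ha2⟩⟩
        apply Sigma.ext
        · exact Subtype.ext (contract_divX_expand_add a b)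
        · rw [Subtype.heq_iff_coe_eq]
          · exact contract_expand_add a b
          · intro x
            simp only [contract_divX_expand_add] }
  have hfib : ∀ b : ↥(degreeLT F m), Nat.card {a : F[X] // a.degree < (m : WithBot ℕ)
        ∧ (X : F[X]) ^ m ∣ a ^ 2 - (1 + X * (b : F[X]) ^ 2)} = 2 := by
    intro b
    apply card_sqrt_one_unit p hp _ _ m hm
    simp
  have hfin : ∀ b : ↥(degreeLT F m), Finite {a : F[X] // a.degree < (m : WithBot ℕ)
        ∧ (X : F[X]) ^ m ∣ a ^ 2 - (1 + X * (b : F[X]) ^ 2)} := by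
    intro b
    apply Nat.finite_of_card_ne_zero
    rw [hfib b]; norm_num
  have hfinB : Finite ↥(degreeLT F m) := Finite.of_equiv _ (degreeLTEquiv F m).symm.toEquiv
  have : Fintype ↥(degreeLT F m) := Fintype.ofFinite _
  rw [Nat.card_congr e, Nat.card_sigma]
  simp only [hfib, Finset.sum_const, Finset.card_univ, smul_eq_mul]
  rw [← Nat.card_eq_fintype_card, Nat.card_congr (degreeLTEquiv F m).toEquiv, Nat.card_fun,
    Nat.card_fin, Nat.card_eq_fintype_card, mul_comm]

end

end Cfsg.Agent.H48
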