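import Cfsg.Agent.H48.PrimeOrdU
import Cfsg.Agent.H48.PGUPrime2
import Cfsg.Agent.H45.IsoSU
import Cfsg.Agent.H45.IsoStd

/-!
# Classes of elements of odd prime order `r ≠ p` in `GU_n(q)`: reduction to a count of tuples
-/

set_option autoImplicit false

namespace Cfsg.Agent.H48

open Polynomial

section GUPart

variable {K : Type*} [Field K] [Fintype K]

/-- Classes of elements of prime order `r ≠ p` in `GU_n(q)` correspond to the non-zero
twisted-dual-invariant multiplicity tuples on the irreducible factors of the `r`-th cyclotomic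
polynomial over the field with `q ^ 2` elements. -/
theorem card_gu_classes_prime_order {q : ℕ} (hK : Fintype.card K = q ^ 2) (σ : K →+* K)
    (hσq : ∀ x, σ x = x ^ q) (p : ℕ) [Fact p.Prime] [CharP K p] (n r b : ℕ)
    (hr : r.Prime) (hrp : r ≠ p) (Φ : Finset K[X]) (hΦ : ∀ P ∈ Φ, Irreducible P ∧ P.Monic)
    (hdeg : ∀ P ∈ Φ, P.natDegree = b) (hLΦ : (X - 1 : K[X]) ∉ Φ)
    (hprod : (X - 1) * ∏ P ∈ Φ, P = (X ^ r - 1 : K[X])) (hb : 0 < b)
    (star : Φ → Φ) (hstar : ∀ P : Φ, DualRel σ (P : K[X]) (star P : K[X]))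
    (hinv : Function.Involutive star) :
    Nat.card {C : ConjClasses ↥(Cfsg.GU n K q) //
        ∃ g : ↥(Cfsg.GU n K q), ConjClasses.mk g = C ∧ orderOf g = r}
      = Nat.card {a : Φ → ℕ // (∀ P, a (star P) = a P) ∧ a ≠ 0 ∧ b * ∑ P, a P ≤ n} := by
  classical
  have hp : p.Prime := Fact.out
  have hσ : ∀ a, σ (σ a) = a := by
    intro a
    rw [hσq, hσq, Cfsg.Agent.H17.frob_frob hK]
  have hσne : σ ≠ RingHom.id K := by
    intro h
    apply Cfsg.Agent.H17.frobHom_ne_id hK
    ext a
    rw [Cfsg.Agent.H17.frobHom_apply, ← hσq, h]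
  have hL : Irreducible (X - 1 : K[X]) := by simpa using irreducible_X_sub_C (1 : K)
  have hLm : (X - 1 : K[X]).Monic := by simpa using monic_X_sub_C (1 : K)
  have hLd : (X - 1 : K[X]).natDegree = 1 := by simpa using natDegree_X_sub_C (1 : K)
  have hΦm : ∀ P ∈ Φ, P.Monic := fun P hP => (hΦ P hP).2
  have hpr : ¬ p ∣ r := fun h => hrp ((Nat.prime_dvd_prime_iff_eq hp hr).mp h).symm
  have hp1 : ¬ p ∣ 1 := fun h => hp.one_lt.ne' (Nat.dvd_one.mp h)
  obtain ⟨f, hf⟩ : ∃ f : (Φ → ℕ) → K[X],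
      f = fun a => facPoly (X - 1) Φ (n - b * ∑ P, a P) a := ⟨_, rfl⟩
  have hle1 : ∀ (a : Φ → ℕ) (P : Φ), a P ≤ b * ∑ Q, a Q := by
    intro a P
    calc a P ≤ ∑ Q, a Q := Finset.single_le_sum (fun _ _ => Nat.zero_le _) (Finset.mem_univ P)
      _ ≤ b * ∑ Q, a Q := Nat.le_mul_of_pos_left _ hb
  have hgpow : ∀ g : ↥(Cfsg.GU n K q), orderOf g = r → guMat g ^ r = 1 := by
    intro g hg
    rw [← guMat_pow, ← hg, pow_orderOf_eq_one, guMat_one]
  have hone : ∀ u v : Fin n → K, Cfsg.hermForm n K q ((1 : Matrix (Fin n) (Fin n) K).mulVec u)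
      ((1 : Matrix (Fin n) (Fin n) K).mulVec v) = Cfsg.hermForm n K q u v := by
    intro u v
    rw [Matrix.one_mulVec, Matrix.one_mulVec]
  -- existence
  have hex : ∀ a : Φ → ℕ, (∀ P, a (star P) = a P) → a ≠ 0 → b * ∑ P, a P ≤ n →
      ∃ g : ↥(Cfsg.GU n K q), orderOf g = r ∧ (guMat g).charpoly = f a := by
    intro a hainv ha hle
    have hfm : (f a).Monic := by
      rw [hf]
      exact facPoly_monic _ _ hΦm hLm _ _
    have hfd : (f a).natDegree = n := by
      rw [hf]
      simp only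
      rw [natDegree_facPoly _ _ hΦm hLm b hdeg, hLd, mul_one]
      omega
    have hdiv : f a ∣ (X ^ r - 1) ^ n := by
      rw [← hprod, hf]
      apply facPoly_dvd
      · exact Nat.sub_le _ _
      · intro P
        exact (hle1 a P).trans hle
    have hf0 : (f a).coeff 0 ≠ 0 := by
      intro h0
      have hX : (X : K[X]) ∣ f a := X_dvd_iff.mpr h0
      have h1 := prime_X.dvd_of_dvd_pow (hX.trans hdiv)
      rw [X_dvd_iff] at h1
      have hr0 : ¬ (0 = r) := fun h => hr.ne_zero h.symm
      simp [coeff_X_pow, hr0, coeff_one] at h1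
    have hstara : (fun P => a (star P)) = a := funext hainv
    have hdual : DualRel σ (f a) (f a) := by
      have h1 := dual_facPoly σ Φ star hstar hinv (n - b * ∑ P, a P) a
      rw [hstara] at h1
      rw [hf]
      exact h1
    have hassoc : Associated (f a) (Cfsg.Agent.H45.dualPoly σ (f a)) := by
      obtain ⟨u, hu, e⟩ := hdual
      exact Cfsg.Agent.H45.associated_dualPoly_of_eq σ (f a) u hu e
    have hreal := Cfsg.Agent.H45.exists_realizable (σ := σ) p hσ 1 (by rw [map_one, mul_one])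
      (fun h => absurd h hσne) n (f a) hfd hfm hf0 hassoc (fun h => absurd h hσne)
    obtain ⟨A, hApres, hA, k, hk, hAk⟩ :=
      Cfsg.Agent.H45.exists_su_of_realizable hK σ hσq p n (f a) hreal hfd
    have hn0 : n ≠ 0 := by
      intro h0
      apply ha
      funext P
      have h1 := (hle1 a P).trans hle
      rw [h0] at h1
      simpa using h1
    have hsq : Squarefree (minpoly K A) := by
      have hsep : (X ^ k - C (1 : K)).Separable :=
        separable_X_pow_sub_C' p k (1 : K) hk one_ne_zero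
      apply hsep.squarefree.squarefree_of_dvd
      apply minpoly.dvd
      simp [hAk]
    have hmin : minpoly K A ∣ X ^ r - 1 := by
      rw [← hsq.dvd_pow_iff_dvd hn0]
      exact (Matrix.minpoly_dvd_charpoly A).trans (hA ▸ hdiv)
    have hAr : A ^ r = 1 := by
      obtain ⟨w, hw⟩ := hmin
      have h1 := congrArg (aeval A) hw
      rw [map_mul, minpoly.aeval, zero_mul] at h1
      simpa [sub_eq_zero] using h1
    have hA1 : A ≠ 1 := by
      rintro rfl
      rw [Matrix.charpoly_one, Fintype.card_fin] at hA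
      have h0 : (X - 1 : K[X]) ^ n = facPoly (X - 1) Φ n 0 := by
        unfold facPoly
        simp
      rw [h0, hf] at hA
      exact ha (facPoly_inj _ _ hΦ hL hLm hLΦ _ _ _ _ hA).symm
    obtain ⟨U, hU⟩ := Cfsg.Agent.H17.gu_of_preserves hK n A hApres
    have hUA : guMat U = A := hU
    refine ⟨U, ?_, by rw [hUA]; exact hA⟩
    haveI : Fact r.Prime := ⟨hr⟩
    apply orderOf_eq_prime
    · apply guMat_inj
      rw [guMat_pow, hUA, hAr, guMat_one]
    · intro h
      apply hA1
      rw [← hUA, h, guMat_one]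
  -- structure
  have hstr : ∀ g : ↥(Cfsg.GU n K q), orderOf g = r →
      ∃ a : Φ → ℕ, (∀ P, a (star P) = a P) ∧ a ≠ 0 ∧ b * ∑ P, a P ≤ n ∧
        (guMat g).charpoly = f a := by
    intro g hg
    have hgr := hgpow g hg
    have hdiv := charpoly_dvd_of_pow_eq_one (guMat g) r hgr
    rw [Fintype.card_fin, ← hprod] at hdiv
    obtain ⟨c, a, hca⟩ := exists_facPoly (X - 1) Φ hΦ hL hLm hLΦ _ (Matrix.charpoly_monic _)
      n hdiv
    have hd := Matrix.charpoly_natDegree_eq_dim (guMat g)
    rw [hca, natDegree_facPoly _ _ hΦm hLm b hdeg, hLd, mul_one, Fintype.card_fin] at hd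
    have hc : c = n - b * ∑ P, a P := by omega
    have hainv : ∀ P, a (star P) = a P := by
      have hdl := Cfsg.Agent.H45.su_charpoly_dual hK σ hσq n (guMat g) (guMat_preserves g)
      rw [hca] at hdl
      obtain ⟨u, hu, e⟩ := dual_facPoly σ Φ star hstar hinv c a
      rw [hdl] at e
      have hu1 : σ ((facPoly (X - 1) Φ c a).coeff 0) = u := by
        have h1 := congrArg leadingCoeff e
        rw [leadingCoeff_mul, leadingCoeff_mul, leadingCoeff_C, leadingCoeff_C,
          (facPoly_monic _ _ hΦm hLm _ _).leadingCoeff,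
          (facPoly_monic _ _ hΦm hLm _ _).leadingCoeff, mul_one, mul_one] at h1
        exact h1
      rw [hu1] at e
      have e' := mul_left_cancel₀ (C_ne_zero.mpr hu) e
      have h2 := facPoly_inj _ _ hΦ hL hLm hLΦ _ _ _ _ e'
      intro P
      exact (congrFun h2 P).symm
    refine ⟨a, hainv, ?_, by omega, ?_⟩
    · intro ha0
      have h1 : (guMat g).charpoly = (1 : Matrix (Fin n) (Fin n) K).charpoly := by
        rw [hca, Matrix.charpoly_one, Fintype.card_fin, ha0]
        rw [ha0] at hd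
        unfold facPoly
        simp only [Pi.zero_apply, Finset.sum_const_zero, mul_zero, add_zero] at hd
        simp [hd]
      obtain ⟨P, hPdet, hP, hPA⟩ := Cfsg.Agent.H45.su_conj hK p (guMat g) 1 (guMat_preserves g)
        hone r 1 hpr hgr hp1 (pow_one 1) h1
      have hg1 : guMat g = 1 := by
        have hu : IsUnit P.det := by
          rw [hPdet]
          exact isUnit_one
        have h2 : P⁻¹ * (P * guMat g) = P⁻¹ * (1 * P) := congrArg (fun M => P⁻¹ * M) hPA
        rw [← mul_assoc, Matrix.nonsing_inv_mul P hu, one_mul, one_mul,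
          Matrix.nonsing_inv_mul P hu] at h2
        exact h2
      have hg1' : g = 1 := guMat_inj g 1 (by rw [hg1, guMat_one])
      rw [hg1', orderOf_one] at hg
      exact hr.one_lt.ne hg
    · rw [hca, hc, hf]
  choose G hG1 hG2 using hex
  let φ : {a : Φ → ℕ // (∀ P, a (star P) = a P) ∧ a ≠ 0 ∧ b * ∑ P, a P ≤ n} →
      {C : ConjClasses ↥(Cfsg.GU n K q) //
        ∃ g : ↥(Cfsg.GU n K q), ConjClasses.mk g = C ∧ orderOf g = r} :=
    fun a => ⟨ConjClasses.mk (G a.1 a.2.1 a.2.2.1 a.2.2.2), _, rfl, hG1 _ _ _ _⟩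
  have hφ : Function.Bijective φ := by
    constructor
    · intro a b' hab
      have h1 : ConjClasses.mk (G a.1 a.2.1 a.2.2.1 a.2.2.2)
          = ConjClasses.mk (G b'.1 b'.2.1 b'.2.2.1 b'.2.2.2) := congrArg Subtype.val hab
      rw [ConjClasses.mk_eq_mk_iff_isConj, isConj_iff] at h1
      obtain ⟨c, hc⟩ := h1
      rw [mul_inv_eq_iff_eq_mul] at hc
      have hc' : guMat c * guMat (G a.1 a.2.1 a.2.2.1 a.2.2.2)
          = guMat (G b'.1 b'.2.1 b'.2.2.1 b'.2.2.2) * guMat c := by
        rw [← guMat_mul, ← guMat_mul, hc]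
      have hdet : IsUnit (guMat c).det := by
        have h3 := congrArg Matrix.det (guMat_mul_inv c)
        rw [Matrix.det_mul, Matrix.det_one] at h3
        exact IsUnit.of_mul_eq_one _ h3
      have h2 := Cfsg.Agent.H45.charpoly_eq_of_conj _ _ _ hdet hc'
      rw [hG2, hG2, hf] at h2
      exact Subtype.ext (facPoly_inj _ _ hΦ hL hLm hLΦ _ _ _ _ h2)
    · rintro ⟨C, g, rfl, hg⟩
      obtain ⟨a, hainv, ha0, hale, hach⟩ := hstr g hg
      refine ⟨⟨a, hainv, ha0, hale⟩, ?_⟩
      apply Subtype.ext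
      show ConjClasses.mk (G a hainv ha0 hale) = ConjClasses.mk g
      rw [ConjClasses.mk_eq_mk_iff_isConj, isConj_iff]
      obtain ⟨P, hPdet, hP, hPA⟩ := Cfsg.Agent.H45.su_conj hK p _ _
        (guMat_preserves (G a hainv ha0 hale)) (guMat_preserves g) r r hpr
        (hgpow _ (hG1 a hainv ha0 hale)) hpr (hgpow g hg)
        ((hG2 a hainv ha0 hale).trans hach.symm)
      obtain ⟨U, hU⟩ := Cfsg.Agent.H17.gu_of_preserves hK n P hP
      have hUP : guMat U = P := hU
      refine ⟨U, ?_⟩
      rw [mul_inv_eq_iff_eq_mul]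
      apply guMat_inj
      rw [guMat_mul, guMat_mul, hUP]
      exact hPA
  exact (Nat.card_congr (Equiv.ofBijective φ hφ)).symm

end GUPart

end Cfsg.Agent.H48
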