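import Cfsg.Agent.H48.PolyNorm
import Cfsg.Agent.H48.RegUnip2

set_option autoImplicit false

/-!
Helper lemmas (helper48): the commutant of a regular unipotent symplectic matrix as truncated
polynomials in `Y = u - u⁻¹`, and the adjoint involution.
-/

namespace Cfsg.Agent.H48

open Matrix Polynomial Module

section Adj

variable {F : Type*} [Field F] {l : Type*} [Fintype l] [DecidableEq l]

/-- The adjoint with respect to the standard symplectic form. -/
def sadj (g : Matrix (l ⊕ l) (l ⊕ l) F) : Matrix (l ⊕ l) (l ⊕ l) F := -(J l F * gᵀ * J l F)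

theorem sadj_one : sadj (1 : Matrix (l ⊕ l) (l ⊕ l) F) = 1 := by
  unfold sadj
  rw [transpose_one, mul_one, J_squared, neg_neg]

theorem sadj_mul (g h : Matrix (l ⊕ l) (l ⊕ l) F) : sadj (g * h) = sadj h * sadj g := by
  unfold sadj
  rw [transpose_mul, neg_mul_neg]
  have : J l F * hᵀ * J l F * (J l F * gᵀ * J l F) = -(J l F * (hᵀ * gᵀ) * J l F) := by
    calc J l F * hᵀ * J l F * (J l F * gᵀ * J l F)
        = J l F * hᵀ * (J l F * J l F) * gᵀ * J l F := by simp only [mul_assoc]
      _ = -(J l F * (hᵀ * gᵀ) * J l F) := by rw [J_squared]; simp [mul_assoc]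
  rw [this]

theorem sadj_add (g h : Matrix (l ⊕ l) (l ⊕ l) F) : sadj (g + h) = sadj g + sadj h := by
  unfold sadj
  rw [transpose_add, mul_add, add_mul, neg_add]

theorem sadj_neg (g : Matrix (l ⊕ l) (l ⊕ l) F) : sadj (-g) = -sadj g := by
  unfold sadj
  rw [transpose_neg, mul_neg, neg_mul]

theorem sadj_sub (g h : Matrix (l ⊕ l) (l ⊕ l) F) : sadj (g - h) = sadj g - sadj h := by
  rw [sub_eq_add_neg, sadj_add, sadj_neg, ← sub_eq_add_neg]

theorem sadj_smul (c : F) (g : Matrix (l ⊕ l) (l ⊕ l) F) : sadj (c • g) = c • sadj g := by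
  unfold sadj
  rw [transpose_smul, mul_smul_comm, smul_mul_assoc, smul_neg]

theorem sadj_sadj (g : Matrix (l ⊕ l) (l ⊕ l) F) : sadj (sadj g) = g := by
  unfold sadj
  rw [transpose_neg, transpose_mul, transpose_mul, transpose_transpose, J_transpose]
  have : J l F * -(-J l F * (g * -J l F)) * J l F = -g := by
    calc J l F * -(-J l F * (g * -J l F)) * J l F
        = -((J l F * J l F) * g * (J l F * J l F)) := by simp [mul_assoc]
      _ = -g := by rw [J_squared]; simp
  rw [this, neg_neg]

theorem sadj_pow (g : Matrix (l ⊕ l) (l ⊕ l) F) (n : ℕ) : sadj (g ^ n) = sadj g ^ n := by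
  induction n with
  | zero => simp [sadj_one]
  | succ n ih => rw [pow_succ, sadj_mul, ih, pow_succ']

theorem mem_symplectic_iff_sadj (g : Matrix (l ⊕ l) (l ⊕ l) F) :
    g ∈ symplecticGroup l F ↔ g * sadj g = 1 := by
  rw [SymplecticGroup.mem_iff]
  unfold sadj
  constructor
  · intro h
    rw [mul_neg, ← mul_assoc, ← mul_assoc, h, J_squared, neg_neg]
  · intro h
    have h1 : g * J l F * gᵀ * J l F = -1 := by
      rw [mul_neg, ← mul_assoc, ← mul_assoc, neg_eq_iff_eq_neg] at h
      exact h
    have h2 := congrArg (fun M => M * J l F) h1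
    simp only [mul_assoc, J_squared] at h2
    rw [mul_neg, mul_neg, mul_neg, mul_one, neg_mul, one_mul, neg_inj, ← mul_assoc] at h2
    exact h2

end Adj

section General

variable {F : Type*} [Field F]

theorem commute_aeval {A : Type*} [Ring A] [Algebra F A] (a b : A) (h : Commute a b) (p : F[X]) :
    Commute (aeval a p) b := by
  induction p using Polynomial.induction_on' with
  | add p q hp hq => rw [map_add]; exact hp.add_left hq
  | monomial n c =>
    rw [aeval_monomial]
    exact (Algebra.commute_algebraMap_left c b).mul_left (h.pow_left n)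

variable {ι : Type*} [Fintype ι] [DecidableEq ι]

theorem aeval_eq_zero_of_X_pow_dvd (M : Matrix ι ι F) (n : ℕ) (hM : M ^ n = 0) (p : F[X])
    (hp : (X : F[X]) ^ n ∣ p) : aeval M p = 0 := by
  obtain ⟨c, rfl⟩ := hp
  rw [map_mul, map_pow, aeval_X, hM, zero_mul]

/-- The kernel of evaluation at a regular nilpotent matrix. -/
theorem X_pow_dvd_of_aeval_eq_zero (M : Matrix ι ι F) (hM : IsRegNil M)
    (hpos : 0 < Fintype.card ι) (p : F[X]) (hp : aeval M p = 0) :
    (X : F[X]) ^ Fintype.card ι ∣ p := by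
  by_cases hp0 : p = 0
  · rw [hp0]; exact dvd_zero _
  obtain ⟨q, hq, hnd⟩ := exists_eq_pow_rootMultiplicity_mul_and_not_dvd p hp0 0
  rw [map_zero, sub_zero] at hq hnd
  set k := rootMultiplicity 0 p with hk
  have hq0 : q.coeff 0 ≠ 0 := fun h => hnd (X_dvd_iff.mpr h)
  have hunit : IsUnit (aeval M q) := by
    have e : aeval M q = algebraMap F (Matrix ι ι F) (q.coeff 0) + aeval M (divX q) * M := by
      conv_lhs => rw [← divX_mul_X_add q]
      rw [map_add, map_mul, aeval_X, aeval_C, add_comm]
    rw [e]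
    apply IsNilpotent.isUnit_add_left_of_commute
    · have hc : Commute (aeval M (divX q)) M := commute_aeval M M (Commute.refl M) _
      exact hc.isNilpotent_mul_left ⟨_, hM.1⟩
    · exact (IsUnit.mk0 _ hq0).map (algebraMap F (Matrix ι ι F))
    · exact Algebra.commute_algebraMap_right _ _
  have hMk : M ^ k = 0 := by
    rw [hq, map_mul, map_pow, aeval_X] at hp
    exact (hunit.mul_left_eq_zero).mp hp
  have hd : finrank F (ι → F) = Fintype.card ι := Module.finrank_fintype_fun_eq_card F
  obtain ⟨v, hv⟩ := exists_cyclic (Matrix.toLin' M) (finrank_ker_toLin'_le_one M hM.2)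
    (toLin'_pow_finrank_eq_zero M hM.1) (by rw [hd]; exact hpos)
  have hle : Fintype.card ι ≤ k := by
    by_contra hlt
    apply hv
    rw [hd, ← toLin'_pow']
    have e : Fintype.card ι - 1 = (Fintype.card ι - 1 - k) + k := by omega
    rw [e, pow_add, hMk, mul_zero, map_zero]
    rfl
  rw [hq]
  exact Dvd.dvd.mul_right (pow_dvd_pow X hle) _

/-- Every matrix commuting with a regular nilpotent matrix is a polynomial in it. -/
theorem exists_aeval_eq_of_commute (M : Matrix ι ι F) (hM : IsRegNil M)
    (hpos : 0 < Fintype.card ι) (g : Matrix ι ι F) (hg : g * M = M * g) :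
    ∃ p : F[X], aeval M p = g := by
  have hd : finrank F (ι → F) = Fintype.card ι := Module.finrank_fintype_fun_eq_card F
  have hN1 := finrank_ker_toLin'_le_one M hM.2
  have hNnil := toLin'_pow_finrank_eq_zero M hM.1
  obtain ⟨v, hv⟩ := exists_cyclic (Matrix.toLin' M) hN1 hNnil (by rw [hd]; exact hpos)
  have hall : ∀ w : ι → F, ∃ p : F[X], Matrix.toLin' (aeval M p) v = w := by
    intro w
    have hspan := span_cyclic (Matrix.toLin' M) hN1 hNnil v hv
    have hw : w ∈ Submodule.span F (Set.range fun i : ℕ => ((Matrix.toLin' M) ^ i) v) :=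
      hspan ▸ Submodule.mem_top
    induction hw using Submodule.span_induction with
    | mem x hx =>
      obtain ⟨i, rfl⟩ := hx
      exact ⟨X ^ i, by rw [map_pow, aeval_X, toLin'_pow']⟩
    | zero => exact ⟨0, by simp⟩
    | add x y _ _ hx hy =>
      obtain ⟨a, rfl⟩ := hx
      obtain ⟨b, rfl⟩ := hy
      exact ⟨a + b, by simp⟩
    | smul c x _ hx =>
      obtain ⟨a, rfl⟩ := hx
      exact ⟨c • a, by simp⟩
  obtain ⟨p, hp⟩ := hall (Matrix.toLin' g v)
  refine ⟨p, ?_⟩
  have hc1 : Commute (Matrix.toLin' (aeval M p)) (Matrix.toLin' M) := by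
    have := (commute_aeval M M (Commute.refl M) p).eq
    show Matrix.toLin' (aeval M p) * Matrix.toLin' M = Matrix.toLin' M * Matrix.toLin' (aeval M p)
    rw [Module.End.mul_eq_comp, Module.End.mul_eq_comp, ← Matrix.toLin'_mul, ← Matrix.toLin'_mul,
      this]
  have hc2 : Commute (Matrix.toLin' g) (Matrix.toLin' M) := by
    show Matrix.toLin' g * Matrix.toLin' M = Matrix.toLin' M * Matrix.toLin' g
    rw [Module.End.mul_eq_comp, Module.End.mul_eq_comp, ← Matrix.toLin'_mul, ← Matrix.toLin'_mul, hg]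
  exact Matrix.toLin'.injective
    (eq_of_commute_of_apply_cyclic (Matrix.toLin' M) hN1 hNnil v hv _ _ hc1 hc2 hp)

end General

section Symp

variable {F : Type*} [Field F] {l : Type*} [Fintype l] [DecidableEq l]

/-- `Y = u - u⁻¹` (for symplectic `u`). -/
def yMat (U : Matrix (l ⊕ l) (l ⊕ l) F) : Matrix (l ⊕ l) (l ⊕ l) F := U - sadj U

theorem sadj_yMat (U : Matrix (l ⊕ l) (l ⊕ l) F) : sadj (yMat U) = -yMat U := by
  unfold yMat
  rw [sadj_sub, sadj_sadj, neg_sub]

theorem sadj_aeval (Y : Matrix (l ⊕ l) (l ⊕ l) F) (hY : sadj Y = -Y) (p : F[X]) :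
    sadj (aeval Y p) = aeval Y (negSub p) := by
  induction p using Polynomial.induction_on' with
  | add p q hp hq => rw [map_add, sadj_add, hp, hq, map_add, map_add]
  | monomial n c =>
    rw [← smul_X_eq_monomial]
    simp only [map_smul, map_pow, aeval_X, negSub_X, map_neg, sadj_smul, sadj_pow, hY]

theorem commute_yMat (U : Matrix (l ⊕ l) (l ⊕ l) F) (hU : U ∈ symplecticGroup l F) :
    Commute (yMat U) U := by
  have h1 : U * sadj U = 1 := (mem_symplectic_iff_sadj U).mp hU
  have h1' : sadj U * U = 1 := mul_eq_one_comm.mp h1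
  have hUS : Commute (sadj U) U := by
    show sadj U * U = U * sadj U
    rw [h1, h1']
  exact (Commute.refl U).sub_left hUS

theorem yMat_isRegNil (h2 : (2 : F) ≠ 0) (U : Matrix (l ⊕ l) (l ⊕ l) F)
    (hU : U ∈ symplecticGroup l F) (hreg : IsRegNil (U - 1)) : IsRegNil (yMat U) := by
  have h1 : U * sadj U = 1 := (mem_symplectic_iff_sadj U).mp hU
  have h1' : sadj U * U = 1 := mul_eq_one_comm.mp h1
  have hUS : Commute (sadj U) U := by
    show sadj U * U = U * sadj U
    rw [h1, h1']
  have hY : yMat U = (sadj U * (U + 1)) * (U - 1) := by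
    unfold yMat
    have e : (U + 1) * (U - 1) = U * U - 1 := by noncomm_ring
    rw [mul_assoc, e, mul_sub, ← mul_assoc, h1', one_mul, mul_one]
  have hSN : Commute (sadj U) (U - 1) := hUS.sub_right (Commute.one_right _)
  have hU1N : Commute (U + 1) (U - 1) :=
    ((Commute.refl U).add_left (Commute.one_left U)).sub_right (Commute.one_right _)
  have hWN : Commute (sadj U * (U + 1)) (U - 1) := hSN.mul_left hU1N
  have hdetS : IsUnit (sadj U).det := by
    have := congrArg Matrix.det h1'
    rw [Matrix.det_mul, Matrix.det_one] at this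
    exact IsUnit.of_mul_eq_one _ this
  have h2u : IsUnit (2 : Matrix (l ⊕ l) (l ⊕ l) F) := by
    have := (IsUnit.mk0 (2 : F) h2).map (algebraMap F (Matrix (l ⊕ l) (l ⊕ l) F))
    rwa [map_ofNat] at this
  have hU1 : IsUnit (U + 1) := by
    have e : U + 1 = 2 + (U - 1) := by
      rw [← one_add_one_eq_two]; abel
    rw [e]
    exact IsNilpotent.isUnit_add_left_of_commute ⟨_, hreg.1⟩ h2u (Commute.ofNat_right _ _)
  have hdetW : IsUnit (sadj U * (U + 1)).det := by
    rw [Matrix.det_mul]
    exact hdetS.mul ((Matrix.isUnit_iff_isUnit_det _).mp hU1)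
  constructor
  · rw [hY, hWN.mul_pow, hreg.1, mul_zero]
  · rw [hY, Matrix.rank_mul_eq_right_of_isUnit_det _ _ hdetW, hreg.2]

/-- The centraliser of a regular unipotent element of `Sp_2m(F)`, `F` of odd order `q`, has
order `2 q^m`. -/
theorem card_centralizer_regular [Fintype F] (p : ℕ) [Fact p.Prime] [CharP F p] (hp : p ≠ 2)
    (m : ℕ) (hm : 1 ≤ m) (u : symplecticGroup (Fin m) F)
    (hreg : IsRegNil ((u : Matrix (Fin m ⊕ Fin m) (Fin m ⊕ Fin m) F) - 1)) :
    Nat.card ↥(Subgroup.centralizer ({u} : Set ↥(symplecticGroup (Fin m) F)))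
      = 2 * Fintype.card F ^ m := by
  have h2 : (2 : F) ≠ 0 := by
    intro h
    have : ((2 : ℕ) : F) = 0 := by exact_mod_cast h
    rw [CharP.cast_eq_zero_iff F p] at this
    exact hp ((Nat.prime_dvd_prime_iff_eq (Fact.out : p.Prime) Nat.prime_two).mp this)
  set U : Matrix (Fin m ⊕ Fin m) (Fin m ⊕ Fin m) F := u.1 with hUdef
  have hU : U ∈ symplecticGroup (Fin m) F := u.2
  set Y := yMat U with hYdef
  have hY : IsRegNil Y := yMat_isRegNil h2 U hU hreg
  have hYadj : sadj Y = -Y := sadj_yMat U
  have hYU : Commute Y U := commute_yMat U hU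
  have hcard : Fintype.card (Fin m ⊕ Fin m) = 2 * m := by simp [two_mul]
  have hpos : 0 < Fintype.card (Fin m ⊕ Fin m) := by rw [hcard]; omega
  have hYpow : Y ^ (2 * m) = 0 := by rw [← hcard]; exact hY.1
  have hker : ∀ f : F[X], aeval Y f = 0 ↔ (X : F[X]) ^ (2 * m) ∣ f := by
    intro f
    constructor
    · intro h
      have := X_pow_dvd_of_aeval_eq_zero Y hY hpos f h
      rwa [hcard] at this
    · exact aeval_eq_zero_of_X_pow_dvd Y (2 * m) hYpow f
  have hmem : ∀ f : F[X], aeval Y f ∈ symplecticGroup (Fin m) F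
      ↔ (X : F[X]) ^ (2 * m) ∣ f * negSub f - 1 := by
    intro f
    rw [mem_symplectic_iff_sadj, sadj_aeval Y hYadj, ← hker, map_sub, map_mul, map_one, sub_eq_zero]
  let Φ : {f : F[X] // f.degree < ((2 * m : ℕ) : WithBot ℕ)
        ∧ (X : F[X]) ^ (2 * m) ∣ f * negSub f - 1} →
      ↥(Subgroup.centralizer ({u} : Set ↥(symplecticGroup (Fin m) F))) :=
    fun f => ⟨⟨aeval Y f.1, (hmem f.1).mpr f.2.2⟩, by
      rw [Subgroup.mem_centralizer_singleton_iff]
      apply Subtype.ext
      exact (commute_aeval Y U hYU f.1).eq⟩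
  have hΦ : Function.Bijective Φ := by
    constructor
    · intro f f' h
      have h' : aeval Y f.1 = aeval Y f'.1 := congrArg (fun x => x.1.1) h
      have h0 : aeval Y (f.1 - f'.1) = 0 := by rw [map_sub, h', sub_self]
      have hdvd := (hker _).mp h0
      have := eq_zero_of_dvd_of_degree_lt hdvd (by
        rw [degree_X_pow]
        exact lt_of_le_of_lt (degree_sub_le _ _) (max_lt f.2.1 f'.2.1))
      exact Subtype.ext (sub_eq_zero.mp this)
    · intro g
      have hgU : g.1.1 * U = U * g.1.1 := by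
        have := Subgroup.mem_centralizer_singleton_iff.mp g.2
        exact congrArg (fun x : symplecticGroup (Fin m) F => x.1) this
      have hgY : g.1.1 * Y = Y * g.1.1 := by
        have h1 : U * sadj U = 1 := (mem_symplectic_iff_sadj U).mp hU
        have h1' : sadj U * U = 1 := mul_eq_one_comm.mp h1
        have hgS : g.1.1 * sadj U = sadj U * g.1.1 := by
          calc g.1.1 * sadj U
              = sadj U * U * (g.1.1 * sadj U) := by rw [h1', one_mul]
            _ = sadj U * (g.1.1 * U) * sadj U := by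
                rw [hgU]; simp only [mul_assoc]
            _ = sadj U * g.1.1 := by
                rw [mul_assoc, mul_assoc, h1, mul_one]
        rw [hYdef]
        unfold yMat
        rw [mul_sub, sub_mul, hgU, hgS]
      obtain ⟨p₀, hp₀⟩ := exists_aeval_eq_of_commute Y hY hpos _ hgY
      have hmonic : ((X : F[X]) ^ (2 * m)).Monic := monic_X_pow _
      set f := p₀ %ₘ X ^ (2 * m) with hf
      have hfdeg : f.degree < ((2 * m : ℕ) : WithBot ℕ) := by
        have := degree_modByMonic_lt p₀ hmonic
        rwa [degree_X_pow] at this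
      have hfeval : aeval Y f = g.1.1 := by
        have := modByMonic_add_div p₀ (X ^ (2 * m) : F[X])
        have h3 : aeval Y p₀ = aeval Y f + aeval Y (X ^ (2 * m) * (p₀ /ₘ X ^ (2 * m))) := by
          rw [← map_add, hf, this]
        rw [(hker _).mpr (Dvd.intro _ rfl), add_zero] at h3
        rw [← h3, hp₀]
      have hfnorm : (X : F[X]) ^ (2 * m) ∣ f * negSub f - 1 := by
        rw [← hmem, hfeval]
        exact g.1.2
      refine ⟨⟨f, hfdeg, hfnorm⟩, ?_⟩
      apply Subtype.ext
      apply Subtype.ext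
      exact hfeval
  rw [← Nat.card_congr (Equiv.ofBijective Φ hΦ)]
  exact card_norm_one p hp m hm

end Symp

end Cfsg.Agent.H48
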