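import Cfsg.Agent.H48.RegUnip2
import Cfsg.Agent.H48.FieldExt
import Cfsg.Agent.H48.JordanSp
import Cfsg.Agent.H7.Unitary

set_option autoImplicit false

/-!
Helper lemmas (helper48): commutants of regular nilpotent matrices inside unitary groups.
-/

namespace Cfsg.Agent.H48

open Module

section LinearEnd

variable {K V : Type*} [Field K] [AddCommGroup V] [Module K V] [FiniteDimensional K V]

/-- An endomorphism commuting with a regular nilpotent one is a scalar plus a nilpotent. -/
theorem det_eq_pow_of_commute' (N : V →ₗ[K] V) (hN : finrank K (LinearMap.ker N) ≤ 1)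
    (hnil : N ^ finrank K V = 0) (hpos : 0 < finrank K V) (A : V →ₗ[K] V) (hA : Commute A N) :
    ∃ c : K, LinearMap.det A = c ^ finrank K V ∧ IsNilpotent (A - c • (1 : V →ₗ[K] V)) := by
  obtain ⟨v, hv⟩ := exists_cyclic N hN hnil hpos
  set z := (N ^ (finrank K V - 1)) v with hz
  have hNz : N z = 0 := by
    rw [hz, ← Module.End.mul_apply, ← pow_succ', Nat.sub_add_cancel hpos, hnil]
    rfl
  have hker : ∀ y, N y = 0 → ∃ c : K, y = c • z := by
    intro y hy
    have hzmem : z ∈ LinearMap.ker N := hNz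
    have : LinearMap.ker N = Submodule.span K {z} := by
      symm
      apply Submodule.eq_of_le_of_finrank_le
      · rw [Submodule.span_singleton_le_iff_mem]; exact hzmem
      · rw [finrank_span_singleton hv]; exact hN
    have hy' : y ∈ Submodule.span K {z} := this ▸ (LinearMap.mem_ker.mpr hy)
    obtain ⟨c, hc⟩ := Submodule.mem_span_singleton.mp hy'
    exact ⟨c, hc.symm⟩
  have hAz : N (A z) = 0 := by
    have h2 := congrArg (fun f => f z) hA.eq
    simp only [Module.End.mul_apply] at h2
    rw [← h2, hNz, map_zero]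
  obtain ⟨c, hc⟩ := hker (A z) hAz
  refine ⟨c, ?_⟩
  set B := A - c • (1 : V →ₗ[K] V) with hB
  have hBcomm : Commute B N := hA.sub_left ((Commute.one_left N).smul_left c)
  have hBv : (N ^ (finrank K V - 1)) (B v) = 0 := by
    have h1 : (N ^ (finrank K V - 1)) (B v) = B ((N ^ (finrank K V - 1)) v) := by
      have := (hBcomm.pow_right (finrank K V - 1)).eq
      exact (congrArg (fun f => f v) this).symm
    rw [h1, ← hz, hB]
    simp [hc]
  have hrange : B v ∈ LinearMap.range (N ^ (finrank K V - (finrank K V - 1))) := by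
    rw [← ker_pow_eq_range_pow N hN hnil (finrank K V - 1) (Nat.sub_le _ _)]
    exact hBv
  have hd1 : finrank K V - (finrank K V - 1) = 1 := by omega
  rw [hd1, pow_one] at hrange
  obtain ⟨y, hy⟩ := hrange
  obtain ⟨Y, hY, hYv⟩ := exists_commute_apply_eq N hN hnil v hv y
  have hBNY : B = N * Y := by
    apply eq_of_commute_of_apply_cyclic N hN hnil v hv B (N * Y) hBcomm
      ((Commute.refl N).mul_left hY)
    rw [Module.End.mul_apply, hYv, hy]
  have hBnil : IsNilpotent B := by
    refine ⟨finrank K V, ?_⟩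
    rw [hBNY, (hY.symm).mul_pow, hnil, zero_mul]
  refine ⟨?_, hBnil⟩
  have hnegnil : IsNilpotent (-B) := hBnil.neg
  have h1 := hnegnil.charpoly_eq_X_pow_finrank
  have h2 := LinearMap.eval_charpoly (-B) c
  rw [h1] at h2
  simp only [Polynomial.eval_pow, Polynomial.eval_X] at h2
  have h3 : (algebraMap K (Module.End K V) c - (-B)) = A := by
    rw [hB, Algebra.algebraMap_eq_smul_one]
    abel
  rw [h3] at h2
  exact h2.symm

end LinearEnd

section Mat

variable {F : Type*} [Field F] {ι : Type*} [Fintype ι] [DecidableEq ι]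

/-- A matrix commuting with a regular nilpotent matrix is a scalar plus a nilpotent matrix, and
its determinant is the `d`-th power of the scalar. -/
theorem det_commutant_eq_pow' (M : Matrix ι ι F) (h : IsRegNil M) (hpos : 0 < Fintype.card ι)
    (g : Matrix ι ι F) (hg : g * M = M * g) :
    ∃ c : F, g.det = c ^ Fintype.card ι ∧ IsNilpotent (g - c • (1 : Matrix ι ι F)) := by
  have hd : finrank F (ι → F) = Fintype.card ι := Module.finrank_fintype_fun_eq_card F
  have hcomm : Commute (Matrix.toLin' g) (Matrix.toLin' M) := by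
    show Matrix.toLin' g * Matrix.toLin' M = Matrix.toLin' M * Matrix.toLin' g
    rw [Module.End.mul_eq_comp, Module.End.mul_eq_comp, ← Matrix.toLin'_mul, ← Matrix.toLin'_mul, hg]
  obtain ⟨c, hc, hnil⟩ := det_eq_pow_of_commute' (Matrix.toLin' M)
    (finrank_ker_toLin'_le_one M h.2) (toLin'_pow_finrank_eq_zero M h.1) (by rw [hd]; exact hpos)
    (Matrix.toLin' g) hcomm
  rw [LinearMap.det_toLin', hd] at hc
  refine ⟨c, hc, ?_⟩
  obtain ⟨e, he⟩ := hnil
  refine ⟨e, ?_⟩
  apply Matrix.toLin'.injective
  rw [toLin'_pow', map_sub, map_smul, Matrix.toLin'_one, map_zero]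
  exact he

/-- A unitary matrix with a single eigenvalue `c` has `c ^ (q + 1) = 1`. -/
theorem pow_eq_one_of_unitary_nilpotent [Nonempty ι] (f : F →+* F) (q : ℕ)
    (hf : ∀ x, f x = x ^ q) (k : Matrix ι ι F)
    (hk : k.transpose * k.map (fun x => x ^ q) = 1) (c : F) (hc0 : c ≠ 0)
    (hc : IsNilpotent (k - c • (1 : Matrix ι ι F))) : c ^ (q + 1) = 1 := by
  classical
  have hmap : k.map (fun x => x ^ q) = f.mapMatrix k := by
    ext i j
    simp [hf]
  rw [hmap] at hk
  have hk' : f.mapMatrix k * k.transpose = 1 := mul_eq_one_comm.mp hk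
  obtain ⟨e, he⟩ := hc
  -- first nilpotent: `B - (f c) • 1`
  have hN2 : IsNilpotent (f.mapMatrix k - f c • (1 : Matrix ι ι F)) := by
    have e1 : f.mapMatrix k - f c • (1 : Matrix ι ι F) = f.mapMatrix (k - c • (1 : Matrix ι ι F)) := by
      rw [map_sub]
      congr 1
      ext i j
      by_cases hij : i = j
      · subst hij
        simp
      · simp [hij]
    rw [e1]
    exact ⟨e, by rw [← map_pow, he, map_zero]⟩
  -- second nilpotent: `B - c⁻¹ • 1`
  have hN1 : IsNilpotent (f.mapMatrix k - c⁻¹ • (1 : Matrix ι ι F)) := by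
    have hA : (k.transpose - c • (1 : Matrix ι ι F)) ^ e = 0 := by
      have e2 : k.transpose - c • (1 : Matrix ι ι F) = (k - c • (1 : Matrix ι ι F)).transpose := by
        rw [Matrix.transpose_sub, Matrix.transpose_smul, Matrix.transpose_one]
      rw [e2, ← Matrix.transpose_pow, he, Matrix.transpose_zero]
    have e3 : f.mapMatrix k - c⁻¹ • (1 : Matrix ι ι F)
        = ((-c⁻¹) • f.mapMatrix k) * (k.transpose - c • (1 : Matrix ι ι F)) := by
      rw [Matrix.smul_mul, mul_sub, hk', Matrix.mul_smul, mul_one, smul_sub, smul_smul,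
        neg_mul, inv_mul_cancel₀ hc0, neg_smul, neg_smul, one_smul]
      abel
    have hcomm : Commute ((-c⁻¹) • f.mapMatrix k) (k.transpose - c • (1 : Matrix ι ι F)) := by
      show ((-c⁻¹) • f.mapMatrix k) * (k.transpose - c • (1 : Matrix ι ι F))
        = (k.transpose - c • (1 : Matrix ι ι F)) * ((-c⁻¹) • f.mapMatrix k)
      rw [Matrix.smul_mul, Matrix.mul_smul, mul_sub, sub_mul, hk, hk', Matrix.mul_smul,
        Matrix.smul_mul, mul_one, one_mul]
    rw [e3]
    exact ⟨e, by rw [hcomm.mul_pow, hA, mul_zero]⟩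
  have hcomm2 : Commute (f.mapMatrix k - c⁻¹ • (1 : Matrix ι ι F))
      (f.mapMatrix k - f c • (1 : Matrix ι ι F)) := by
    apply Commute.sub_left
    · apply Commute.sub_right (Commute.refl _)
      exact Commute.smul_right (Commute.one_right _) _
    · apply Commute.smul_left
      exact Commute.one_left _
  have hdiff := hcomm2.isNilpotent_sub hN1 hN2
  have e4 : (f.mapMatrix k - c⁻¹ • (1 : Matrix ι ι F)) - (f.mapMatrix k - f c • (1 : Matrix ι ι F))
      = (f c - c⁻¹) • (1 : Matrix ι ι F) := by
    rw [sub_smul]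
    abel
  rw [e4] at hdiff
  obtain ⟨m, hm⟩ := hdiff
  have h0 : (f c - c⁻¹) ^ m = 0 := by
    rw [smul_pow, one_pow] at hm
    obtain ⟨i⟩ := (inferInstance : Nonempty ι)
    have := congrFun (congrFun hm i) i
    simpa using this
  have h1 : f c = c⁻¹ := sub_eq_zero.mp (pow_eq_zero_iff (n := m) (by
      rintro rfl
      simp at h0) |>.mp h0)
  rw [hf] at h1
  rw [pow_succ, h1, inv_mul_cancel₀ hc0]

end Mat

end Cfsg.Agent.H48
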