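import Mathlib
import Cfsg.Agent.H6.PSLSimple

set_option autoImplicit false

/-!
Helper lemmas (helper48): subgroups of `GL_n` normalised by `SL_n`.
-/

namespace Cfsg.Agent.H48

open Matrix
open scoped commutatorElement

/-- A field with at least four elements has a nonzero element whose square is not one. -/
theorem exists_sq_ne_one_of_four_le_card {F : Type*} [Field F] [Fintype F]
    (hF : 4 ≤ Fintype.card F) : ∃ a : F, a ≠ 0 ∧ a ^ 2 ≠ 1 := by
  classical
  have hcard : ({0, 1, -1} : Finset F).card < Fintype.card F :=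
    lt_of_le_of_lt (Finset.card_le_three) (by omega)
  obtain ⟨a, ha⟩ : ∃ a : F, a ∉ ({0, 1, -1} : Finset F) := by
    by_contra hcon
    have hall : ∀ a : F, a ∈ ({0, 1, -1} : Finset F) := fun a => by
      by_contra h
      exact hcon ⟨a, h⟩
    have : ({0, 1, -1} : Finset F) = Finset.univ := Finset.eq_univ_iff_forall.mpr hall
    rw [this, Finset.card_univ] at hcard
    exact lt_irrefl _ hcard
  simp only [Finset.mem_insert, Finset.mem_singleton, not_or] at ha
  refine ⟨a, ha.1, fun h => ?_⟩
  have h1 : (a - 1) * (a + 1) = 0 := by ring_nf; rw [h]; ring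
  rcases mul_eq_zero.mp h1 with h2 | h2
  · exact ha.2.1 (sub_eq_zero.mp h2)
  · exact ha.2.2 (eq_neg_of_add_eq_zero_left h2)

/-- A subgroup of `GL_n(F)` normalised by a perfect `SL_n(F)` with simple `PSL_n(F)` is scalar or
contains `SL_n(F)`. -/
theorem scalar_or_sl_le_of_normalized {F : Type*} [Field F] {n : ℕ}
    (hperf : commutator (Matrix.SpecialLinearGroup (Fin n) F) = ⊤)
    (hsimp : IsSimpleGroup (Matrix.ProjectiveSpecialLinearGroup (Fin n) F))
    (G : Subgroup (Matrix.GeneralLinearGroup (Fin n) F))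
    (hG : ∀ s : Matrix.SpecialLinearGroup (Fin n) F, ∀ g ∈ G,
      (Matrix.SpecialLinearGroup.toGL s) * g * (Matrix.SpecialLinearGroup.toGL s)⁻¹ ∈ G) :
    (∀ g ∈ G, ∃ c : F, (g : Matrix (Fin n) (Fin n) F) = c • (1 : Matrix (Fin n) (Fin n) F)) ∨
      (Matrix.SpecialLinearGroup.toGL : Matrix.SpecialLinearGroup (Fin n) F →* _).range ≤ G := by
  classical
  let H : Subgroup (Matrix.SpecialLinearGroup (Fin n) F) := G.comap Matrix.SpecialLinearGroup.toGL
  have hHmem : ∀ s, s ∈ H ↔ Matrix.SpecialLinearGroup.toGL s ∈ G := fun s => Iff.rfl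
  have hHn : H.Normal := ⟨fun h hh s => by
    rw [hHmem, map_mul, map_mul, map_inv]
    exact hG s _ hh⟩
  have hmapn : (H.map (QuotientGroup.mk'
      (Subgroup.center (Matrix.SpecialLinearGroup (Fin n) F)))).Normal :=
    Subgroup.Normal.map hHn _ (QuotientGroup.mk'_surjective _)
  rcases hsimp.eq_bot_or_eq_top_of_normal _ hmapn with hbot | htop
  · left
    have hHc : H ≤ Subgroup.center (Matrix.SpecialLinearGroup (Fin n) F) := by
      intro h hh
      have h1 : (QuotientGroup.mk' (Subgroup.center (Matrix.SpecialLinearGroup (Fin n) F)) h) ∈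
          H.map (QuotientGroup.mk' (Subgroup.center (Matrix.SpecialLinearGroup (Fin n) F))) :=
        Subgroup.mem_map_of_mem _ hh
      rw [hbot, Subgroup.mem_bot] at h1
      exact (QuotientGroup.eq_one_iff h).mp h1
    intro g hg
    have key : ∀ s : Matrix.SpecialLinearGroup (Fin n) F,
        ∃ z ∈ Subgroup.center (Matrix.SpecialLinearGroup (Fin n) F),
          Matrix.SpecialLinearGroup.toGL z =
            Matrix.SpecialLinearGroup.toGL s * g * (Matrix.SpecialLinearGroup.toGL s)⁻¹ * g⁻¹ := by
      intro s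
      have hmem : Matrix.SpecialLinearGroup.toGL s * g * (Matrix.SpecialLinearGroup.toGL s)⁻¹ * g⁻¹
          ∈ G := G.mul_mem (hG s g hg) (G.inv_mem hg)
      have hdet : (Matrix.SpecialLinearGroup.toGL s * g * (Matrix.SpecialLinearGroup.toGL s)⁻¹ * g⁻¹
          : GL (Fin n) F).val.det = 1 := by
        rw [← Matrix.GeneralLinearGroup.val_det_apply, map_mul, map_mul, map_mul, map_inv, map_inv,
          mul_inv_cancel_comm, mul_inv_cancel, Units.val_one]
      let k : Matrix.SpecialLinearGroup (Fin n) F := ⟨_, hdet⟩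
      have hk : Matrix.SpecialLinearGroup.toGL k =
          Matrix.SpecialLinearGroup.toGL s * g * (Matrix.SpecialLinearGroup.toGL s)⁻¹ * g⁻¹ :=
        Units.ext rfl
      refine ⟨k, hHc ?_, hk⟩
      rw [hHmem, hk]
      exact hmem
    choose z hz hzg using key
    let f : Matrix.SpecialLinearGroup (Fin n) F →*
        Subgroup.center (Matrix.SpecialLinearGroup (Fin n) F) :=
      MonoidHom.mk' (fun s => ⟨z s, hz s⟩) (by
        intro s t
        apply Subtype.ext
        apply Matrix.SpecialLinearGroup.toGL_injective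
        show Matrix.SpecialLinearGroup.toGL (z (s * t)) =
          Matrix.SpecialLinearGroup.toGL (z s * z t)
        have hc : s * z t * s⁻¹ = z t := by
          rw [Subgroup.mem_center_iff.mp (hz t) s, mul_inv_cancel_right]
        have h1 : Matrix.SpecialLinearGroup.toGL (s * t) * g *
            (Matrix.SpecialLinearGroup.toGL (s * t))⁻¹ * g⁻¹ =
            Matrix.SpecialLinearGroup.toGL s * (Matrix.SpecialLinearGroup.toGL t * g *
              (Matrix.SpecialLinearGroup.toGL t)⁻¹ * g⁻¹) * (Matrix.SpecialLinearGroup.toGL s)⁻¹ *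
              (Matrix.SpecialLinearGroup.toGL s * g * (Matrix.SpecialLinearGroup.toGL s)⁻¹ * g⁻¹) := by
          rw [map_mul]
          group
        rw [hzg, h1, ← hzg t, ← hzg s, ← map_inv, ← map_mul, ← map_mul, ← map_mul, hc,
          Subgroup.mem_center_iff.mp (hz s) (z t)])
    have hf : ∀ s, f s = 1 := by
      intro s
      have h0 : commutator (Matrix.SpecialLinearGroup (Fin n) F) ≤ f.ker := by
        rw [commutator_eq_closure, Subgroup.closure_le]
        rintro _ ⟨a, b, rfl⟩
        show f ⁅a, b⁆ = 1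
        rw [map_commutatorElement, commutatorElement_eq_one_iff_commute]
        show f a * f b = f b * f a
        apply Subtype.ext
        exact Subgroup.mem_center_iff.mp (hz b) (z a)
      have h1 : s ∈ f.ker := h0 (by rw [hperf]; trivial)
      exact h1
    have hcomm : ∀ s : Matrix.SpecialLinearGroup (Fin n) F,
        Matrix.SpecialLinearGroup.toGL s * g = g * Matrix.SpecialLinearGroup.toGL s := by
      intro s
      have h1 : z s = 1 := congrArg Subtype.val (hf s)
      have h2 := hzg s
      rw [h1, map_one] at h2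
      have h3 : Matrix.SpecialLinearGroup.toGL s * g =
          (Matrix.SpecialLinearGroup.toGL s * g * (Matrix.SpecialLinearGroup.toGL s)⁻¹ * g⁻¹) *
            (g * Matrix.SpecialLinearGroup.toGL s) := by group
      rw [h3, ← h2, one_mul]
    have hscal : (g : Matrix (Fin n) (Fin n) F) ∈ Set.range (Matrix.scalar (Fin n)) := by
      apply Matrix.mem_range_scalar_of_commute_transvectionStruct
      intro t
      have h1 := congrArg Units.val (hcomm ⟨t.toMatrix, t.det⟩)
      exact h1
    obtain ⟨c, hc⟩ := hscal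
    refine ⟨c, ?_⟩
    rw [← hc, Matrix.scalar_apply, Matrix.smul_one_eq_diagonal]
  · right
    have hall : ∀ s : Matrix.SpecialLinearGroup (Fin n) F, ∃ h ∈ H,
        ∃ z ∈ Subgroup.center (Matrix.SpecialLinearGroup (Fin n) F), s = h * z := by
      intro s
      have h1 : (QuotientGroup.mk' (Subgroup.center (Matrix.SpecialLinearGroup (Fin n) F)) s) ∈
          H.map (QuotientGroup.mk' (Subgroup.center (Matrix.SpecialLinearGroup (Fin n) F))) := by
        rw [htop]; trivial
      obtain ⟨h, hh, hhs⟩ := h1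
      refine ⟨h, hh, h⁻¹ * s, QuotientGroup.eq.mp hhs, ?_⟩
      rw [mul_inv_cancel_left]
    have hcomm_le : commutator (Matrix.SpecialLinearGroup (Fin n) F) ≤ H := by
      rw [commutator_def, Subgroup.commutator_le]
      intro s _ t _
      obtain ⟨h1, hh1, z1, hz1, rfl⟩ := hall s
      obtain ⟨h2, hh2, z2, hz2, rfl⟩ := hall t
      have hz1' := Subgroup.mem_center_iff.mp hz1
      have hz2' := Subgroup.mem_center_iff.mp hz2
      have h3 : ⁅h1 * z1, h2 * z2⁆ = ⁅h1, h2⁆ := by
        rw [commutatorElement_def, commutatorElement_def, _root_.mul_inv_rev, _root_.mul_inv_rev]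
        have e1 : h1 * z1 * (h2 * z2) * (z1⁻¹ * h1⁻¹) * (z2⁻¹ * h2⁻¹) =
            h1 * (z1 * h2) * (z2 * z1⁻¹) * h1⁻¹ * z2⁻¹ * h2⁻¹ := by group
        rw [e1, ← hz1' h2, ← hz2' z1⁻¹]
        have e2 : h1 * (h2 * z1) * (z1⁻¹ * z2) * h1⁻¹ * z2⁻¹ * h2⁻¹ =
            h1 * h2 * (z2 * h1⁻¹) * z2⁻¹ * h2⁻¹ := by group
        rw [e2, ← hz2' h1⁻¹]
        group
      rw [h3]
      exact Subgroup.commutator_mem_commutator hh1 hh2 |> fun h => by
        have hle : ⁅H, H⁆ ≤ H := Subgroup.commutator_le_left H H
        exact hle h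
    rintro _ ⟨s, rfl⟩
    have : s ∈ H := hcomm_le (by rw [hperf]; trivial)
    exact this

end Cfsg.Agent.H48
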