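import Mathlib
import Cfsg.Agent.H48.SPCDefs

/-!
SPC-KEY: the number of `Sp`-classes of Jordan type `d`, from the class–orbit correspondence
(`ClsStmt`) and the complete orbit invariant (`CountStmt`).
-/

set_option autoImplicit false

namespace Cfsg.Agent.H48.SPC

open Finset Cfsg.Agent.H61

universe u

theorem key (hCls : ClsStmt.{u}) (hCount : CountStmt.{u}) : KeyStmt.{u} := by
  intro F _ _ p hpp hcp hp m t d hd e hpar
  classical
  have h2 : (2 : F) ≠ 0 := by
    intro h
    have h3 : ((2 : ℕ) : F) = 0 := by exact_mod_cast h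
    have h4 : p ∣ 2 := (CharP.cast_eq_zero_iff F p 2).mp h3
    exact hp ((Nat.prime_dvd_prime_iff_eq hpp.out Nat.prime_two).mp h4)
  obtain ⟨Ψ, hΨ1, hΨ2⟩ := hCls h2 d e
  obtain ⟨Φ, hΦ1, hΦ2⟩ := hCount (F := F) p hp d hd hpar
  have hkey : Nat.card {C // C ∈ Set.range Ψ} =
      Nat.card ({j : ℕ // j ∈ (univ.image d).filter (fun j => Even j)} → Bool) := by
    apply Nat.card_eq_of_bijective
      (fun C : {C // C ∈ Set.range Ψ} => Φ (Classical.choose C.2))
    constructor
    · intro C C' h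
      have h1 := (hΦ1 _ _).mp h
      have h3 := (hΨ1 _ _).mpr h1
      apply Subtype.ext
      rw [← Classical.choose_spec C.2, ← Classical.choose_spec C'.2]
      exact h3
    · intro b
      obtain ⟨A, rfl⟩ := hΦ2 b
      refine ⟨⟨Ψ A, A, rfl⟩, ?_⟩
      apply (hΦ1 _ _).mpr
      apply (hΨ1 _ _).mp
      exact Classical.choose_spec (⟨A, rfl⟩ : Ψ A ∈ Set.range Ψ)
  rw [Nat.card_congr (Equiv.subtypeEquivRight (fun C => (hΨ2 C).symm)), hkey, Nat.card_fun,
    Nat.card_eq_fintype_card (α := Bool), Fintype.card_bool, Nat.card_eq_fintype_card,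
    Fintype.card_coe]

example : ClsStmt.{u} → CountStmt.{u} → KeyStmt.{u} := key

end Cfsg.Agent.H48.SPC
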