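import Mathlib
import Cfsg.Agent.H48.SPCDefs
import Cfsg.Agent.H48.SPCKey
import Cfsg.Agent.H24.SPCOrbit
import Cfsg.Agent.H12.SPCSym
import Cfsg.Agent.H62.SPCRad
import Cfsg.Agent.H62.SPCType
import Cfsg.Agent.H8.SPCLBMul
import Cfsg.Agent.H8.SPCLBInv
import Cfsg.Agent.H4.SPCDBSurj
import Cfsg.Agent.H4.SPCLBSurj
import Cfsg.Agent.H4.SPCCount
import Cfsg.Agent.H69.SPCDBMul
import Cfsg.Agent.H69.SPCLBSym
import Cfsg.Agent.H69.SPCCayEq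
import Cfsg.Agent.H53.SPCAlt
import Cfsg.Agent.H53.SPCCls
import Cfsg.Agent.H75.SPCClassOrb
import Cfsg.Agent.H27.SPCKeyP

set_option autoImplicit false

namespace Cfsg.Agent.H48.SPC

universe u

/-- All pieces of S2676 up to `KeyPStmt`, assembled. -/
theorem keyP_all : KeyPStmt.{u} :=
  Cfsg.Agent.H27.SPC.keyP
    (Cfsg.Agent.H48.SPC.key
      (Cfsg.Agent.H53.SPC.cls Cfsg.Agent.H75.SPC.classOrb Cfsg.Agent.H62.SPC.typ
        Cfsg.Agent.H69.SPC.cayEq)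
      (Cfsg.Agent.H4.SPC.count
        (Cfsg.Agent.H24.SPC.orbit Cfsg.Agent.H8.SPC.lbmul Cfsg.Agent.H69.SPC.dbMul
          Cfsg.Agent.H8.SPC.lbinv Cfsg.Agent.H62.SPC.rad Cfsg.Agent.H4.SPC.dbsurj)
        Cfsg.Agent.H69.SPC.lbSym Cfsg.Agent.H8.SPC.lbinv
        (Cfsg.Agent.H4.SPC.lbsurj Cfsg.Agent.H8.SPC.lbinv)
        Cfsg.Agent.H53.SPC.alt Cfsg.Agent.H12.SPC.sym))

end Cfsg.Agent.H48.SPC
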