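import Mathlib

set_option autoImplicit false

/-!
Helper lemmas (helper48): every finite-dimensional `K[X]`-module is self-dual; a square matrix
over a field is similar to its transpose.
-/

namespace Cfsg.Agent.H48

open Polynomial DirectSum

/-- A `K[X]`-module carries a non-degenerate `K`-bilinear form for which multiplication by every
polynomial is self-adjoint. -/
def HasSelfDualForm (K : Type*) [Field K] (M : Type*) [AddCommGroup M] [Module K[X] M] : Prop :=
  ∃ b : M → M → K,
    (∀ x x' y, b (x + x') y = b x y + b x' y) ∧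
    (∀ x y y', b x (y + y') = b x y + b x y') ∧
    (∀ (r : K[X]) x y, b (r • x) y = b x (r • y)) ∧
    (∀ (c : K) x y, b (C c • x) y = c * b x y) ∧
    (∀ x, (∀ y, b x y = 0) → x = 0)

theorem HasSelfDualForm.of_equiv {K : Type*} [Field K] {M M' : Type*} [AddCommGroup M]
    [Module K[X] M] [AddCommGroup M'] [Module K[X] M'] (e : M ≃ₗ[K[X]] M')
    (h : HasSelfDualForm K M) : HasSelfDualForm K M' := by
  obtain ⟨b, h1, h2, h3, h4, h5⟩ := h
  refine ⟨fun x y => b (e.symm x) (e.symm y), ?_, ?_, ?_, ?_, ?_⟩
  · intro x x' y; simp only [map_add, h1]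
  · intro x y y'; simp only [map_add, h2]
  · intro r x y; simp only [map_smul, h3]
  · intro c x y; simp only [map_smul, h4]
  · intro x hx
    have : e.symm x = 0 := h5 _ (fun y => by simpa using hx (e y))
    simpa using this

theorem HasSelfDualForm.directSum {K : Type*} [Field K] {ι : Type*} [Fintype ι] [DecidableEq ι]
    (M : ι → Type*) [∀ i, AddCommGroup (M i)] [∀ i, Module K[X] (M i)]
    (h : ∀ i, HasSelfDualForm K (M i)) : HasSelfDualForm K (⨁ i, M i) := by
  choose b h1 h2 h3 h4 h5 using h
  have hb0 : ∀ i (x : M i), b i x 0 = 0 := by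
    intro i x
    have := h2 i x 0 0
    rw [add_zero] at this
    exact left_eq_add.mp this
  refine ⟨fun x y => ∑ i, b i (x i) (y i), ?_, ?_, ?_, ?_, ?_⟩
  · intro x x' y
    simp only [DirectSum.add_apply, h1, Finset.sum_add_distrib]
  · intro x y y'
    simp only [DirectSum.add_apply, h2, Finset.sum_add_distrib]
  · intro r x y
    simp only [DirectSum.smul_apply, h3]
  · intro c x y
    simp only [DirectSum.smul_apply, h4, Finset.mul_sum]
  · intro x hx
    ext i
    rw [DirectSum.zero_apply]
    apply h5 i
    intro yi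
    have := hx (DirectSum.of M i yi)
    simp only at this
    rw [Finset.sum_eq_single i] at this
    · rwa [DirectSum.of_eq_same] at this
    · intro j _ hj
      rw [DirectSum.of_eq_of_ne _ _ _ hj, hb0]
    · intro hi; exact absurd (Finset.mem_univ i) hi


section Cyclic

variable {K : Type*} [Field K]

/-- The monic cyclic case. -/
theorem HasSelfDualForm.cyclic_monic (g : K[X]) (hg : g.Monic) :
    HasSelfDualForm K (K[X] ⧸ (K[X] ∙ g)) := by
  classical
  set I : Submodule K[X] K[X] := K[X] ∙ g with hI
  have hmem : ∀ p : K[X], p ∈ I ↔ g ∣ p := by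
    intro p
    show p ∈ Ideal.span {g} ↔ _
    exact Ideal.mem_span_singleton
  by_cases hd : g.natDegree = 0
  · have hg1 : g = 1 := Polynomial.eq_one_of_monic_natDegree_zero hg hd
    have hsub : ∀ x : K[X] ⧸ I, x = 0 := by
      intro x
      obtain ⟨p, rfl⟩ := Submodule.Quotient.mk_surjective I x
      rw [Submodule.Quotient.mk_eq_zero, hmem, hg1]; exact one_dvd p
    exact ⟨fun _ _ => 0, by simp, by simp, by simp, by simp, fun x _ => hsub x⟩
  · set d := g.natDegree with hd'
    let rep : K[X] ⧸ I → K[X] := Function.surjInv (Submodule.Quotient.mk_surjective I)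
    have hrep : ∀ x, Submodule.Quotient.mk (rep x) = x := Function.surjInv_eq _
    have F1 : ∀ p p' : K[X], (Submodule.Quotient.mk p : K[X] ⧸ I) = Submodule.Quotient.mk p' →
        p %ₘ g = p' %ₘ g := by
      intro p p' h
      exact Polynomial.modByMonic_eq_of_dvd_sub hg ((hmem _).mp ((Submodule.Quotient.eq I).mp h))
    let lam : K[X] ⧸ I → K := fun x => ((rep x) %ₘ g).coeff (d - 1)
    have F2 : ∀ p : K[X], lam (Submodule.Quotient.mk p) = (p %ₘ g).coeff (d - 1) := by
      intro p
      show ((rep (Submodule.Quotient.mk p)) %ₘ g).coeff (d - 1) = _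
      rw [F1 _ p (hrep _)]
    have lam_add : ∀ u u', lam (u + u') = lam u + lam u' := by
      intro u u'
      obtain ⟨p, rfl⟩ := Submodule.Quotient.mk_surjective I u
      obtain ⟨p', rfl⟩ := Submodule.Quotient.mk_surjective I u'
      rw [← Submodule.Quotient.mk_add, F2, F2, F2, Polynomial.add_modByMonic, Polynomial.coeff_add]
    have lam_smul : ∀ (c : K) u, lam (C c • u) = c * lam u := by
      intro c u
      obtain ⟨p, rfl⟩ := Submodule.Quotient.mk_surjective I u
      rw [← Submodule.Quotient.mk_smul, F2, F2, smul_eq_mul, ← Polynomial.smul_eq_C_mul,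
        Polynomial.smul_modByMonic, Polynomial.coeff_smul, smul_eq_mul]
    have F4 : ∀ (q q' : K[X]) (x : K[X] ⧸ I),
        (Submodule.Quotient.mk q : K[X] ⧸ I) = Submodule.Quotient.mk q' → q • x = q' • x := by
      intro q q' x h
      obtain ⟨p, rfl⟩ := Submodule.Quotient.mk_surjective I x
      rw [← Submodule.Quotient.mk_smul, ← Submodule.Quotient.mk_smul, Submodule.Quotient.eq,
        smul_eq_mul, smul_eq_mul, ← sub_mul]
      have := (Submodule.Quotient.eq I).mp h
      exact Ideal.mul_mem_right p I this
    refine ⟨fun x y => lam (rep y • x), ?_, ?_, ?_, ?_, ?_⟩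
    · intro x x' y; simp only [smul_add, lam_add]
    · intro x y y'
      have : rep (y + y') • x = rep y • x + rep y' • x := by
        rw [← add_smul]
        apply F4
        rw [hrep, Submodule.Quotient.mk_add, hrep, hrep]
      simp only [this, lam_add]
    · intro r x y
      have : rep (r • y) • x = rep y • (r • x) := by
        rw [smul_smul]
        apply F4
        rw [hrep, mul_comm, ← smul_eq_mul, Submodule.Quotient.mk_smul, hrep]
      simp only [this]
    · intro c x y
      show lam (rep y • C c • x) = c * lam (rep y • x)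
      rw [smul_comm, lam_smul]
    · intro x hx
      obtain ⟨p, rfl⟩ := Submodule.Quotient.mk_surjective I x
      by_contra hne
      set p₀ := p %ₘ g with hp₀
      have hp₀ne : p₀ ≠ 0 := by
        intro h0
        apply hne
        rw [Submodule.Quotient.mk_eq_zero, hmem]
        exact (Polynomial.modByMonic_eq_zero_iff_dvd hg).mp h0
      have hmk : (Submodule.Quotient.mk p : K[X] ⧸ I) = Submodule.Quotient.mk p₀ := by
        rw [Submodule.Quotient.eq, hmem]
        have := Polynomial.modByMonic_add_div p g
        exact ⟨p /ₘ g, by rw [hp₀]; linear_combination this.symm⟩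
      have hg1 : g ≠ 1 := fun h => hd (by rw [hd', h]; simp)
      have hk : p₀.natDegree < d := Polynomial.natDegree_modByMonic_lt p hg hg1
      have h := hx (Submodule.Quotient.mk (X ^ (d - 1 - p₀.natDegree)))
      have e1 : rep (Submodule.Quotient.mk (X ^ (d - 1 - p₀.natDegree))) •
          (Submodule.Quotient.mk p : K[X] ⧸ I)
            = Submodule.Quotient.mk (X ^ (d - 1 - p₀.natDegree) * p₀) := by
        rw [F4 _ (X ^ (d - 1 - p₀.natDegree)) _ (hrep _), hmk, ← Submodule.Quotient.mk_smul,
          smul_eq_mul]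
      simp only at h
      rw [e1, F2] at h
      have e2 : (X ^ (d - 1 - p₀.natDegree) * p₀) %ₘ g = X ^ (d - 1 - p₀.natDegree) * p₀ := by
        rw [Polynomial.modByMonic_eq_self_iff hg]
        rw [Polynomial.degree_eq_natDegree (mul_ne_zero (pow_ne_zero _ X_ne_zero) hp₀ne),
          Polynomial.degree_eq_natDegree hg.ne_zero,
          Polynomial.natDegree_mul (pow_ne_zero _ X_ne_zero) hp₀ne, Polynomial.natDegree_X_pow]
        exact_mod_cast (by omega : d - 1 - p₀.natDegree + p₀.natDegree < d)
      rw [e2, Polynomial.coeff_X_pow_mul', if_pos (by omega)] at h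
      have : d - 1 - (d - 1 - p₀.natDegree) = p₀.natDegree := by omega
      rw [this] at h
      exact hp₀ne (Polynomial.leadingCoeff_eq_zero.mp h)

/-- The cyclic case. -/
theorem HasSelfDualForm.cyclic (g : K[X]) (hg : g ≠ 0) :
    HasSelfDualForm K (K[X] ⧸ (K[X] ∙ g)) := by
  have hmonic : (g * C (g.leadingCoeff)⁻¹).Monic := Polynomial.monic_mul_leadingCoeff_inv hg
  have hunit : IsUnit (C (g.leadingCoeff)⁻¹ : K[X]) :=
    Polynomial.isUnit_C.mpr (IsUnit.mk0 _ (inv_ne_zero (Polynomial.leadingCoeff_ne_zero.mpr hg)))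
  have hspan : (K[X] ∙ (g * C (g.leadingCoeff)⁻¹)) = (K[X] ∙ g) :=
    Ideal.span_singleton_mul_right_unit hunit g
  exact (HasSelfDualForm.cyclic_monic _ hmonic).of_equiv (Submodule.quotEquivOfEq _ _ hspan)

end Cyclic

end Cfsg.Agent.H48
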