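import Mathlib

set_option autoImplicit false

/-!
Helper lemmas (helper48): a semisimple endomorphism over a finite field has centraliser elements
of every determinant.
-/

namespace Cfsg.Agent.H48

open Polynomial Module

/-- Polynomials in intertwined endomorphisms are intertwined. -/
theorem aeval_intertwine {F V V' : Type*} [Field F] [AddCommGroup V] [Module F V]
    [AddCommGroup V'] [Module F V'] (ι : V →ₗ[F] V') (a : Module.End F V) (b : Module.End F V')
    (h : ∀ x, ι (a x) = b (ι x)) (g : F[X]) (x : V) :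
    ι (aeval a g x) = aeval b g (ι x) := by
  have hpow : ∀ (n : ℕ) (x : V), ι ((a ^ n) x) = (b ^ n) (ι x) := by
    intro n
    induction n with
    | zero => intro x; simp
    | succ n ih => intro x; rw [pow_succ, pow_succ, Module.End.mul_apply, Module.End.mul_apply, ih, h]
  induction g using Polynomial.induction_on' with
  | add p q hp hq => simp only [map_add, LinearMap.add_apply, hp, hq]
  | monomial n c =>
    rw [aeval_monomial, aeval_monomial, Module.End.mul_apply, Module.End.mul_apply,
      Module.algebraMap_end_apply, Module.algebraMap_end_apply, map_smul, hpow]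

/-- A polynomial in `φ` commutes with `φ`. -/
theorem aeval_apply_comm {F V : Type*} [Field F] [AddCommGroup V] [Module F V]
    (φ : Module.End F V) (g : F[X]) (x : V) : aeval φ g (φ x) = φ (aeval φ g x) :=
  (aeval_intertwine φ φ φ (fun _ => rfl) g x).symm

/-- The kernel of an irreducible factor of the minimal polynomial is nonzero. -/
theorem ker_aeval_ne_bot_of_dvd_minpoly {F V : Type*} [Field F] [AddCommGroup V] [Module F V]
    [FiniteDimensional F V] (φ : Module.End F V) (f : F[X]) (hf : Irreducible f)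
    (hfd : f ∣ minpoly F φ) : LinearMap.ker (aeval φ f) ≠ ⊥ := by
  have hint : IsIntegral F φ := Algebra.IsIntegral.isIntegral φ
  intro hbot
  obtain ⟨g, hg⟩ := hfd
  have hinj : Function.Injective (aeval φ f) := LinearMap.ker_eq_bot.mp hbot
  have h0 : aeval φ g = 0 := by
    apply LinearMap.ext; intro v
    apply hinj
    have h1 : aeval φ (minpoly F φ) v = 0 := by rw [minpoly.aeval]; rfl
    rw [hg, map_mul, Module.End.mul_apply] at h1
    rw [h1]; simp
  have hdvd : minpoly F φ ∣ g := minpoly.dvd F φ h0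
  rw [hg] at hdvd
  have hg0 : g ≠ 0 := by
    rintro rfl
    exact minpoly.ne_zero hint (by rw [hg, mul_zero])
  obtain ⟨k, hk⟩ := hdvd
  have h2 : g * 1 = g * (f * k) := by
    rw [mul_one]
    calc g = f * g * k := hk
      _ = g * (f * k) := by ring
  exact hf.not_isUnit (IsUnit.of_mul_eq_one k (mul_left_cancel₀ hg0 h2).symm)

/-- For an irreducible factor `f` of the minimal polynomial of `φ` there is an injective linear
map `ψ : F[X]/(f) → V` with `φ (ψ μ) = ψ (root * μ)`. -/
theorem exists_adjoinRoot_embedding {F V : Type*} [Field F] [AddCommGroup V] [Module F V]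
    [FiniteDimensional F V] (φ : Module.End F V) (f : F[X]) (hf : Irreducible f)
    (hfd : f ∣ minpoly F φ) :
    ∃ ψ : AdjoinRoot f →ₗ[F] V, Function.Injective ψ ∧
      ∀ μ, φ (ψ μ) = ψ (AdjoinRoot.root f * μ) := by
  classical
  have : Fact (Irreducible f) := ⟨hf⟩
  obtain ⟨w₀, hw₀, hw₀0⟩ := Submodule.exists_mem_ne_zero_of_ne_bot
    (ker_aeval_ne_bot_of_dvd_minpoly φ f hf hfd)
  have hinv : ∀ x ∈ LinearMap.ker (aeval φ f), φ x ∈ LinearMap.ker (aeval φ f) := by
    intro x hx
    rw [LinearMap.mem_ker] at hx ⊢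
    rw [aeval_apply_comm, hx, map_zero]
  let φf : Module.End F (LinearMap.ker (aeval φ f)) := φ.restrict hinv
  have hφf : ∀ (g : F[X]) (x : LinearMap.ker (aeval φ f)),
      ((aeval φf g x : LinearMap.ker (aeval φ f)) : V) = aeval φ g (x : V) := by
    intro g x
    exact aeval_intertwine (LinearMap.ker (aeval φ f)).subtype φf φ (fun _ => rfl) g x
  have hφf0 : aeval φf f = 0 := by
    apply LinearMap.ext
    intro x
    apply Subtype.ext
    rw [hφf]
    exact LinearMap.mem_ker.mp x.2
  let ρ : AdjoinRoot f →+* Module.End F (LinearMap.ker (aeval φ f)) :=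
    Ideal.Quotient.lift (Ideal.span {f}) (aeval φf).toRingHom (by
      intro g hg
      obtain ⟨k, rfl⟩ := Ideal.mem_span_singleton.mp hg
      show aeval φf (f * k) = 0
      rw [map_mul, hφf0, zero_mul])
  have hρ : ∀ g : F[X], ρ (AdjoinRoot.mk f g) = aeval φf g := fun g => rfl
  let w₀' : LinearMap.ker (aeval φ f) := ⟨w₀, hw₀⟩
  let ψ : AdjoinRoot f →ₗ[F] V :=
    { toFun := fun μ => ((ρ μ w₀' : LinearMap.ker (aeval φ f)) : V)
      map_add' := by
        intro μ ν
        rw [map_add, LinearMap.add_apply, Submodule.coe_add]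
      map_smul' := by
        intro c μ
        induction μ using AdjoinRoot.induction_on with
        | ih g =>
          rw [AdjoinRoot.smul_mk, hρ, hρ, map_smul, LinearMap.smul_apply, Submodule.coe_smul]
          rfl }
  have hψ : ∀ μ, ψ μ = ((ρ μ w₀' : LinearMap.ker (aeval φ f)) : V) := fun μ => rfl
  refine ⟨ψ, ?_, ?_⟩
  · rw [← LinearMap.ker_eq_bot, LinearMap.ker_eq_bot']
    intro μ hμ
    by_contra hne
    apply hw₀0
    have h1 : ρ μ w₀' = 0 := Subtype.ext hμ
    have h2 : ρ (μ⁻¹ * μ) w₀' = 0 := by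
      rw [map_mul, Module.End.mul_apply, h1, map_zero]
    rw [inv_mul_cancel₀ hne, map_one] at h2
    exact congrArg Subtype.val h2
  · intro μ
    rw [hψ, hψ, map_mul, Module.End.mul_apply]
    have h3 : ρ (AdjoinRoot.root f) = φf := by
      rw [AdjoinRoot.root, hρ, aeval_X]
    rw [h3]
    rfl

/-- A semisimple endomorphism of a nonzero finite-dimensional space over a finite field commutes
with endomorphisms of every determinant. -/
theorem exists_commute_det_of_isSemisimple {F V : Type*} [Field F] [Finite F] [AddCommGroup V]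
    [Module F V] [FiniteDimensional F V] [Nontrivial V] (φ : Module.End F V)
    (hφ : φ.IsSemisimple) (a : F) :
    ∃ c : Module.End F V, (∀ x, c (φ x) = φ (c x)) ∧ LinearMap.det c = a := by
  classical
  have hint : IsIntegral F φ := Algebra.IsIntegral.isIntegral φ
  obtain ⟨f, hf, hfd⟩ := WfDvdMonoid.exists_irreducible_factor (minpoly.not_isUnit F φ)
    (minpoly.ne_zero hint)
  have : Fact (Irreducible f) := ⟨hf⟩
  obtain ⟨ψ, hψinj, hψφ⟩ := exists_adjoinRoot_embedding φ f hf hfd
  have hfin : Module.Finite F (AdjoinRoot f) := PowerBasis.finite (AdjoinRoot.powerBasis hf.ne_zero)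
  have hfinK : Finite (AdjoinRoot f) := Module.finite_of_finite F
  have hW : LinearMap.range ψ ∈ Module.End.invtSubmodule φ := by
    rw [Module.End.mem_invtSubmodule]
    rintro _ ⟨μ, rfl⟩
    exact ⟨_, (hψφ μ).symm⟩
  obtain ⟨W', hW', hcompl⟩ := Module.End.isSemisimple_iff.mp hφ _ hW
  rw [Module.End.mem_invtSubmodule] at hW'
  have hbij : Function.Bijective (ψ.coprod W'.subtype) := by
    constructor
    · rw [← LinearMap.ker_eq_bot, LinearMap.ker_eq_bot']
      rintro ⟨μ, w'⟩ h
      rw [LinearMap.coprod_apply] at h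
      have h1 : ψ μ ∈ LinearMap.range ψ ⊓ W' := by
        refine ⟨⟨μ, rfl⟩, ?_⟩
        have : ψ μ = -(w' : V) := eq_neg_of_add_eq_zero_left h
        rw [this]
        exact W'.neg_mem w'.2
      rw [hcompl.inf_eq_bot, Submodule.mem_bot] at h1
      have h2 : μ = 0 := hψinj (by rw [h1, map_zero])
      have h3 : (w' : V) = 0 := by
        rw [h1, zero_add] at h
        exact h
      exact Prod.ext h2 (Subtype.ext h3)
    · intro x
      have hx : x ∈ LinearMap.range ψ ⊔ W' := by rw [hcompl.sup_eq_top]; trivial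
      obtain ⟨y, ⟨μ, rfl⟩, z, hz, rfl⟩ := Submodule.mem_sup.mp hx
      exact ⟨(μ, ⟨z, hz⟩), by rw [LinearMap.coprod_apply]; rfl⟩
  let e : (AdjoinRoot f × W') ≃ₗ[F] V := LinearEquiv.ofBijective _ hbij
  have he : ∀ (μ : AdjoinRoot f) (w' : W'), e (μ, w') = ψ μ + (w' : V) := fun μ w' => rfl
  obtain ⟨lam, hlam⟩ := FiniteField.norm_surjective F (AdjoinRoot f) a
  let c : Module.End F V := e.toLinearMap ∘ₗ
    (LinearMap.prodMap (Algebra.lmul F (AdjoinRoot f) lam) LinearMap.id) ∘ₗ e.symm.toLinearMap
  have hc : ∀ (μ : AdjoinRoot f) (w' : W'), c (e (μ, w')) = e (lam * μ, w') := by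
    intro μ w'
    simp only [c, LinearMap.comp_apply, LinearEquiv.coe_coe, LinearEquiv.symm_apply_apply]
    rfl
  refine ⟨c, ?_, ?_⟩
  · intro x
    obtain ⟨⟨μ, w'⟩, rfl⟩ := e.surjective x
    have hφe : ∀ (μ : AdjoinRoot f) (w' : W'),
        φ (e (μ, w')) = e (AdjoinRoot.root f * μ, ⟨φ w', hW' w'.2⟩) := by
      intro μ w'
      rw [he, he, map_add, hψφ]
    rw [hφe, hc, hc, hφe]
    congr 2
    ring
  · rw [LinearMap.det_conj, LinearMap.det_prodMap, LinearMap.det_id, mul_one, ← Algebra.norm_apply,
      hlam]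

end Cfsg.Agent.H48
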