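import Mathlib
import Cfsg.Prelude.Def_GeometricClasses
import Cfsg.Agent.H69.Singer

/-!
Scalar-plus-rank-one matrices never normalize a field subalgebra of degree `r ≥ 2` in dimension
at least 3 (helper48; adapted from helper99's degree-2 version `Cfsg.Agent.H99.rank_one_derangement`).
-/

set_option autoImplicit false

namespace Cfsg.Agent.H48.Sing3

open Matrix Module
open scoped MatrixGroups

variable {F : Type*} [Field F] {n : ℕ}

/-- A field subalgebra of degree at least 2 contains a non-scalar element. -/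
theorem exists_nonscalar {r : ℕ} (hr : 2 ≤ r) (K : Subalgebra F (Matrix (Fin n) (Fin n) F))
    (hK : Cfsg.Geo.IsFieldSubalgebra r K) :
    ∃ κ ∈ K, ∀ c : F, κ ≠ c • (1 : Matrix (Fin n) (Fin n) F) := by
  have hfr := hK.finrank_eq
  have hfd : FiniteDimensional F K := Module.finite_of_finrank_pos (by rw [hfr]; omega)
  have hnt : Nontrivial K := Module.nontrivial_of_finrank_pos (R := F) (by rw [hfr]; omega)
  have h1 : (1 : K) ≠ 0 := one_ne_zero
  obtain ⟨κ', hκ'⟩ : ∃ κ' : K, κ' ∉ Submodule.span F {(1 : K)} := by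
    by_contra hcon
    have htop : Submodule.span F {(1 : K)} = ⊤ :=
      eq_top_iff.mpr (fun x _ => by
        by_contra hx
        exact hcon ⟨x, hx⟩)
    have h2 := finrank_span_singleton (K := F) h1
    rw [htop, finrank_top, hfr] at h2
    omega
  refine ⟨(κ' : Matrix (Fin n) (Fin n) F), κ'.2, ?_⟩
  intro c hc
  apply hκ'
  rw [Submodule.mem_span_singleton]
  refine ⟨c, ?_⟩
  apply Subtype.ext
  rw [hc]
  simp

theorem smul_one_mem (K : Subalgebra F (Matrix (Fin n) (Fin n) F)) (c : F) :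
    c • (1 : Matrix (Fin n) (Fin n) F) ∈ K := by
  have := K.algebraMap_mem c
  rwa [Algebra.algebraMap_eq_smul_one] at this

/-- Non-scalar elements of a field subalgebra have no eigenvector. -/
theorem noeigen {r : ℕ} (K : Subalgebra F (Matrix (Fin n) (Fin n) F))
    (hK : Cfsg.Geo.IsFieldSubalgebra r K) (κ : Matrix (Fin n) (Fin n) F) (hκ : κ ∈ K)
    (hns : ∀ c : F, κ ≠ c • (1 : Matrix (Fin n) (Fin n) F))
    (v : Fin n → F) (hv : v ≠ 0) (c : F) : κ *ᵥ v ≠ c • v := by
  intro h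
  apply hv
  apply Cfsg.Agent.H69.Singer.mulVec_eq_zero K hK (κ - c • 1)
    (K.sub_mem hκ (smul_one_mem K c)) (fun h0 => hns c (sub_eq_zero.mp h0))
  rw [Matrix.sub_mulVec, h, Matrix.smul_mulVec, Matrix.one_mulVec, sub_self]

/-- A scalar plus a rank-one operator never normalizes a field subalgebra of degree at least 2 in
dimension at least 3. -/
theorem rank_one_not_normalize {r : ℕ} (hr : 2 ≤ r) (hn : 3 ≤ n)
    (K : Subalgebra F (Matrix (Fin n) (Fin n) F))
    (hK : Cfsg.Geo.IsFieldSubalgebra r K) (g : GL (Fin n) F) (c : F) (hc : c ≠ 0)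
    (w : Fin n → F) (hw : w ≠ 0) (φ : (Fin n → F) →ₗ[F] F) (hφ : φ ≠ 0)
    (hg : ∀ v, (g : Matrix (Fin n) (Fin n) F) *ᵥ v = c • v + φ v • w) :
    g ∉ Cfsg.Geo.subalgebraNormalizer K := by
  intro hgN
  obtain ⟨κ, hκ, hns⟩ := exists_nonscalar hr K hK
  have hκ' : (g : Matrix (Fin n) (Fin n) F) * κ *
      ((g⁻¹ : GL (Fin n) F) : Matrix (Fin n) (Fin n) F) ∈ K := (hgN κ).mp hκ
  obtain ⟨κ', hκ'def⟩ : ∃ κ' : Matrix (Fin n) (Fin n) F, κ' = (g : Matrix (Fin n) (Fin n) F) * κ *
      ((g⁻¹ : GL (Fin n) F) : Matrix (Fin n) (Fin n) F) := ⟨_, rfl⟩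
  rw [← hκ'def] at hκ'
  have hrel : (g : Matrix (Fin n) (Fin n) F) * κ = κ' * (g : Matrix (Fin n) (Fin n) F) := by
    rw [hκ'def, Matrix.mul_assoc, ← Units.val_mul, inv_mul_cancel, Units.val_one, Matrix.mul_one]
  have hvec : ∀ v, c • κ *ᵥ v + φ (κ *ᵥ v) • w = c • κ' *ᵥ v + φ v • κ' *ᵥ w := by
    intro v
    have h1 : ((g : Matrix (Fin n) (Fin n) F) * κ) *ᵥ v =
        (κ' * (g : Matrix (Fin n) (Fin n) F)) *ᵥ v := by rw [hrel]
    rw [← Matrix.mulVec_mulVec, ← Matrix.mulVec_mulVec, hg, hg, Matrix.mulVec_add,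
      Matrix.mulVec_smul, Matrix.mulVec_smul] at h1
    exact h1
  by_cases hcase : κ' = κ
  · rw [hcase] at hvec
    obtain ⟨v₀, hv₀⟩ : ∃ v₀, φ v₀ ≠ 0 := by
      by_contra h
      apply hφ
      apply LinearMap.ext
      intro v
      by_contra hv
      exact h ⟨v, hv⟩
    have h2 := hvec v₀
    have h3 : κ *ᵥ w = ((φ v₀)⁻¹ * φ (κ *ᵥ v₀)) • w := by
      have h4 : φ (κ *ᵥ v₀) • w = φ v₀ • κ *ᵥ w := add_left_cancel h2
      rw [← smul_smul, h4, smul_smul, inv_mul_cancel₀ hv₀, one_smul]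
    exact noeigen K hK κ hκ hns w hw _ h3
  · have hδK : κ' - κ ∈ K := K.sub_mem hκ' hκ
    have hδ0 : κ' - κ ≠ 0 := sub_ne_zero.mpr hcase
    obtain ⟨δ', hδ'K, hδ'⟩ := hK.inv _ hδK hδ0
    have hδ'' : δ' * (κ' - κ) = 1 := by rw [hK.comm δ' hδ'K _ hδK]; exact hδ'
    have hker : ∀ v, φ v = 0 → (κ' - κ) *ᵥ v = (c⁻¹ * φ (κ *ᵥ v)) • w := by
      intro v hv
      have h2 := hvec v
      rw [hv, zero_smul, add_zero] at h2
      rw [Matrix.sub_mulVec]
      have h3 : c • (κ' *ᵥ v - κ *ᵥ v) = φ (κ *ᵥ v) • w := by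
        rw [smul_sub, ← h2]
        abel
      rw [← smul_smul, ← h3, smul_smul, inv_mul_cancel₀ hc, one_smul]
    have hker' : LinearMap.ker φ ≤ Submodule.span F {δ' *ᵥ w} := by
      intro v hv
      have h2 := hker v (LinearMap.mem_ker.mp hv)
      have h3 : v = (c⁻¹ * φ (κ *ᵥ v)) • δ' *ᵥ w := by
        rw [← Matrix.mulVec_smul, ← h2, Matrix.mulVec_mulVec, hδ'', Matrix.one_mulVec]
      rw [h3]
      exact Submodule.smul_mem _ _ (Submodule.mem_span_singleton_self _)
    have h5 := Submodule.finrank_mono hker'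
    have h6 : finrank F (Submodule.span F {δ' *ᵥ w}) ≤ 1 := by
      have := finrank_span_le_card (R := F) ({δ' *ᵥ w} : Set (Fin n → F))
      simpa using this
    have h7 := LinearMap.finrank_range_add_finrank_ker φ
    have h8 : finrank F (LinearMap.range φ) ≤ 1 := by
      have := Submodule.finrank_le (LinearMap.range φ)
      rwa [Module.finrank_self] at this
    rw [Module.finrank_fin_fun] at h7
    omega

/-- Matrices of the form `c + d E_{ij}` of determinant one have no conjugate normalizing a field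
subalgebra of degree at least 2, in dimension at least 3. -/
theorem rank_one_derangement {r : ℕ} (hr : 2 ≤ r) (hn : 3 ≤ n)
    (K : Subalgebra F (Matrix (Fin n) (Fin n) F))
    (hK : Cfsg.Geo.IsFieldSubalgebra r K) (x : Matrix.SpecialLinearGroup (Fin n) F) (c d : F)
    (hc : c ≠ 0) (hd : d ≠ 0) (i j : Fin n)
    (hx : (x : Matrix (Fin n) (Fin n) F) = c • 1 + d • Matrix.single i j 1)
    (P : Matrix.SpecialLinearGroup (Fin n) F) :
    P⁻¹ * x * P ∉ (Cfsg.Geo.subalgebraNormalizer K).comap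
      (Matrix.SpecialLinearGroup.toGL : Matrix.SpecialLinearGroup (Fin n) F →* GL (Fin n) F) := by
  rw [Subgroup.mem_comap]
  have hPP : ((P⁻¹ : Matrix.SpecialLinearGroup (Fin n) F) : Matrix (Fin n) (Fin n) F) *
      (P : Matrix (Fin n) (Fin n) F) = 1 := by
    rw [← Matrix.SpecialLinearGroup.coe_mul, inv_mul_cancel, Matrix.SpecialLinearGroup.coe_one]
  have hPP' : (P : Matrix (Fin n) (Fin n) F) *
      ((P⁻¹ : Matrix.SpecialLinearGroup (Fin n) F) : Matrix (Fin n) (Fin n) F) = 1 := by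
    rw [← Matrix.SpecialLinearGroup.coe_mul, mul_inv_cancel, Matrix.SpecialLinearGroup.coe_one]
  apply rank_one_not_normalize hr hn K hK _ c hc
    (((P⁻¹ : Matrix.SpecialLinearGroup (Fin n) F) : Matrix (Fin n) (Fin n) F) *ᵥ Pi.single i 1)
    ?_ (d • (LinearMap.proj j ∘ₗ Matrix.toLin' (P : Matrix (Fin n) (Fin n) F))) ?_ ?_
  · intro h0
    have h1 : (P : Matrix (Fin n) (Fin n) F) *ᵥ
        (((P⁻¹ : Matrix.SpecialLinearGroup (Fin n) F) : Matrix (Fin n) (Fin n) F) *ᵥ
          (Pi.single i 1 : Fin n → F)) = 0 := by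
      rw [h0, Matrix.mulVec_zero]
    rw [Matrix.mulVec_mulVec, hPP', Matrix.one_mulVec] at h1
    have h2 := congrFun h1 i
    simp at h2
  · intro h0
    have h1 := congrArg (fun f : (Fin n → F) →ₗ[F] F =>
      f (((P⁻¹ : Matrix.SpecialLinearGroup (Fin n) F) : Matrix (Fin n) (Fin n) F) *ᵥ
        (Pi.single j 1 : Fin n → F))) h0
    simp only [LinearMap.smul_apply, LinearMap.comp_apply, Matrix.toLin'_apply,
      Matrix.mulVec_mulVec, hPP', Matrix.one_mulVec, LinearMap.proj_apply, Pi.single_eq_same,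
      LinearMap.zero_apply, smul_eq_mul, mul_one] at h1
    exact hd h1
  · intro v
    rw [Matrix.SpecialLinearGroup.coe_GL_coe_matrix, Matrix.SpecialLinearGroup.coe_mul,
      Matrix.SpecialLinearGroup.coe_mul, hx, ← Matrix.mulVec_mulVec, ← Matrix.mulVec_mulVec,
      Matrix.add_mulVec, Matrix.smul_mulVec, Matrix.one_mulVec, Matrix.smul_mulVec,
      Matrix.single_mulVec, Matrix.mulVec_add, Matrix.mulVec_smul, Matrix.mulVec_mulVec, hPP,
      Matrix.one_mulVec, Matrix.mulVec_smul]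
    congr 1
    simp only [LinearMap.smul_apply, LinearMap.comp_apply, Matrix.toLin'_apply,
      LinearMap.proj_apply, smul_eq_mul, one_mul]
    have e : Function.update (0 : Fin n → F) i (((P : Matrix (Fin n) (Fin n) F) *ᵥ v) j) =
        ((P : Matrix (Fin n) (Fin n) F) *ᵥ v) j • (Pi.single i 1 : Fin n → F) := by
      ext k
      by_cases hk : k = i
      · subst hk
        simp
      · simp [hk]
    rw [e, Matrix.mulVec_smul, smul_smul]

end Cfsg.Agent.H48.Sing3
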