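import Mathlib

/-!
Linear algebra in dimension 3 for S5971 (helper48): Cayley–Hamilton by brute force, eigenvectors
of matrices with `x³ = 1`, cyclic vectors and conjugacy of such matrices under `SL₃`.
-/

set_option autoImplicit false

namespace Cfsg.Agent.H48.Sing3

open Matrix

variable {F : Type*} [Field F]

/-- The coefficient of `X` in the characteristic polynomial of a `3 × 3` matrix. -/
def c1 (M : Matrix (Fin 3) (Fin 3) F) : F :=
  M 0 0 * M 1 1 - M 0 1 * M 1 0 + M 0 0 * M 2 2 - M 0 2 * M 2 0 + M 1 1 * M 2 2 - M 1 2 * M 2 1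

/-- Cayley–Hamilton for `3 × 3` matrices. -/
theorem ch3 (M : Matrix (Fin 3) (Fin 3) F) :
    M * M * M - M.trace • (M * M) + c1 M • M - M.det • (1 : Matrix (Fin 3) (Fin 3) F) = 0 := by
  ext i j
  fin_cases i <;> fin_cases j <;>
    simp [Matrix.mul_apply, Fin.sum_univ_three, Matrix.det_fin_three, Matrix.trace_fin_three, c1] <;>
    ring

theorem det_sub3 (M : Matrix (Fin 3) (Fin 3) F) (ν : F) :
    (ν • (1 : Matrix (Fin 3) (Fin 3) F) - M).det =
      ν ^ 3 - M.trace * ν ^ 2 + c1 M * ν - M.det := by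
  simp [Matrix.det_fin_three, Matrix.trace_fin_three, c1]
  ring

/-- A non-scalar `3 × 3` matrix of determinant one with `x³ = 1` has every cube root of unity as an
eigenvalue. -/
theorem exists_eigen (x : Matrix (Fin 3) (Fin 3) F) (hx3 : x * x * x = 1) (hdet : x.det = 1)
    (hns : ∀ c : F, x ≠ c • (1 : Matrix (Fin 3) (Fin 3) F)) (ν : F) (hν : ν ^ 3 = 1) :
    ∃ v : Fin 3 → F, v ≠ 0 ∧ x *ᵥ v = ν • v := by
  have h := ch3 x
  rw [hx3, hdet, one_smul] at h
  have h1 : x.trace • (x * x) = c1 x • x := by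
    have h2 : c1 x • x - x.trace • (x * x) = 0 := by rw [← h]; abel
    exact (sub_eq_zero.mp h2).symm
  have h2 : x.trace • x = c1 x • (1 : Matrix (Fin 3) (Fin 3) F) := by
    have h3 := congrArg (fun M => x * x * M) h1
    simp only [Matrix.mul_smul] at h3
    rw [show x * x * (x * x) = x from by rw [← Matrix.mul_assoc, hx3, Matrix.one_mul], hx3] at h3
    exact h3
  have ht : x.trace = 0 := by
    by_contra ht
    apply hns ((x.trace)⁻¹ * c1 x)
    rw [← smul_smul, ← h2, smul_smul, inv_mul_cancel₀ ht, one_smul]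
  have hc : c1 x = 0 := by
    rw [ht, zero_smul] at h2
    have h3 := congrFun (congrFun h2 0) 0
    simpa using h3.symm
  have hd := det_sub3 x ν
  rw [ht, hc, hdet, hν] at hd
  have hd0 : (ν • (1 : Matrix (Fin 3) (Fin 3) F) - x).det = 0 := by rw [hd]; ring
  obtain ⟨v, hv, hv0⟩ := Matrix.exists_mulVec_eq_zero_iff.mpr hd0
  refine ⟨v, hv, ?_⟩
  rw [Matrix.sub_mulVec, Matrix.smul_mulVec, Matrix.one_mulVec] at hv0
  exact (sub_eq_zero.mp hv0).symm

/-- If a non-scalar `3 × 3` matrix of determinant one has `x³ = z ≠ 1`, then `z` is a cube. -/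
theorem exists_cube_root (x : Matrix (Fin 3) (Fin 3) F) (z : F)
    (hx3 : x * x * x = z • (1 : Matrix (Fin 3) (Fin 3) F)) (hdet : x.det = 1)
    (hns : ∀ c : F, x ≠ c • (1 : Matrix (Fin 3) (Fin 3) F)) (hz : z ≠ 1) : ∃ c : F, c ^ 3 = z := by
  have h := ch3 x
  rw [hx3, hdet, one_smul] at h
  by_cases ht : x.trace = 0
  · exfalso
    rw [ht, zero_smul, sub_zero] at h
    have h1 : c1 x • x = (1 - z) • (1 : Matrix (Fin 3) (Fin 3) F) := by
      rw [sub_smul, one_smul]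
      have h2 : c1 x • x - (1 - z • (1 : Matrix (Fin 3) (Fin 3) F)) = 0 := by rw [← h]; abel
      exact sub_eq_zero.mp h2
    have hc : c1 x ≠ 0 := by
      intro hc
      rw [hc, zero_smul] at h1
      have h3 := congrFun (congrFun h1 0) 0
      simp at h3
      exact hz (sub_eq_zero.mp h3.symm).symm
    apply hns ((c1 x)⁻¹ * (1 - z))
    rw [← smul_smul, ← h1, smul_smul, inv_mul_cancel₀ hc, one_smul]
  · obtain ⟨a, ha⟩ : ∃ a : F, a = (x.trace)⁻¹ * c1 x := ⟨_, rfl⟩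
    obtain ⟨b, hb⟩ : ∃ b : F, b = (x.trace)⁻¹ * (z - 1) := ⟨_, rfl⟩
    have hxx : x * x = a • x + b • (1 : Matrix (Fin 3) (Fin 3) F) := by
      have h1 : x.trace • (x * x) = c1 x • x + (z - 1) • (1 : Matrix (Fin 3) (Fin 3) F) := by
        rw [sub_smul, one_smul]
        have h2 : c1 x • x + (z • (1 : Matrix (Fin 3) (Fin 3) F) - 1) - x.trace • (x * x) = 0 := by
          rw [← h]; abel
        exact (sub_eq_zero.mp h2).symm
      rw [ha, hb, ← smul_smul, ← smul_smul, ← smul_add, ← h1, smul_smul, inv_mul_cancel₀ ht,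
        one_smul]
    have h3 : (a * a + b) • x = (z - a * b) • (1 : Matrix (Fin 3) (Fin 3) F) := by
      have h4 : x * x * x = (a * a + b) • x + (a * b) • (1 : Matrix (Fin 3) (Fin 3) F) := by
        rw [hxx, Matrix.add_mul, Matrix.smul_mul, Matrix.smul_mul, Matrix.one_mul, hxx, smul_add,
          smul_smul, smul_smul, add_smul]
        abel
      rw [hx3] at h4
      rw [sub_smul, h4]
      abel
    have hab : a * a + b = 0 := by
      by_contra hab
      apply hns ((a * a + b)⁻¹ * (z - a * b))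
      rw [← smul_smul, ← h3, smul_smul, inv_mul_cancel₀ hab, one_smul]
    rw [hab, zero_smul] at h3
    have h5 := congrFun (congrFun h3 0) 0
    simp at h5
    refine ⟨-a, ?_⟩
    linear_combination (-a) * hab + h5

/-- A matrix with `x³ = 1`, `x ≠ 1` and a fixed vector has a cyclic vector, when `F` has no
primitive cube root of unity. -/
theorem cyclic_of_no_omega (h3 : (3 : F) ≠ 0) (hω : ∀ c : F, c * c + c + 1 ≠ 0)
    (x : Matrix (Fin 3) (Fin 3) F) (hx3 : x * x * x = 1) (hx1 : x ≠ 1)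
    (v₁ : Fin 3 → F) (hv₁ : v₁ ≠ 0) (hxv : x *ᵥ v₁ = v₁) :
    ∃ u : Fin 3 → F, LinearIndependent F ![u, x *ᵥ u, x *ᵥ (x *ᵥ u)] := by
  obtain ⟨u₀, hu₀⟩ : ∃ u₀, x *ᵥ u₀ ≠ u₀ := by
    by_contra hcon
    apply hx1
    ext i j
    have h1 : x *ᵥ Pi.single j 1 = Pi.single j 1 := by
      by_contra h2
      exact hcon ⟨_, h2⟩
    have h2 := congrFun h1 i
    rw [Matrix.mulVec_single_one] at h2
    rw [Matrix.one_apply, Pi.single_apply] at *
    exact h2
  obtain ⟨w, hw⟩ : ∃ w, w = x *ᵥ u₀ - u₀ := ⟨_, rfl⟩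
  have hw0 : w ≠ 0 := by rw [hw]; exact sub_ne_zero.mpr hu₀
  have hxxx : ∀ v, x *ᵥ (x *ᵥ (x *ᵥ v)) = v := by
    intro v
    rw [Matrix.mulVec_mulVec, Matrix.mulVec_mulVec, hx3, Matrix.one_mulVec]
  have hN : x *ᵥ (x *ᵥ w) = -w - x *ᵥ w := by
    rw [hw, Matrix.mulVec_sub, Matrix.mulVec_sub, hxxx]
    abel
  refine ⟨v₁ + w, ?_⟩
  have e1 : x *ᵥ (v₁ + w) = v₁ + x *ᵥ w := by rw [Matrix.mulVec_add, hxv]
  have e2 : x *ᵥ (x *ᵥ (v₁ + w)) = v₁ - w - x *ᵥ w := by
    rw [e1, Matrix.mulVec_add, hxv, hN]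
    abel
  rw [e2, e1, Fintype.linearIndependent_iff]
  intro g hg
  rw [Fin.sum_univ_three] at hg
  simp only [Matrix.cons_val_zero, Matrix.cons_val_one, Matrix.cons_val_two, Matrix.head_cons,
    Matrix.tail_cons] at hg
  obtain ⟨xw, hxw⟩ : ∃ xw, xw = x *ᵥ w := ⟨_, rfl⟩
  rw [← hxw] at hg hN
  have E1 : (g 0 + g 1 + g 2) • v₁ + (g 0 - g 2) • w + (g 1 - g 2) • xw = 0 := by
    linear_combination (norm := module) hg
  -- apply `1 + x + x²`
  have E1x := congrArg (fun v => x *ᵥ v) E1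
  simp only [Matrix.mulVec_add, Matrix.mulVec_smul, Matrix.mulVec_zero, hxv] at E1x
  have E1xx := congrArg (fun v => x *ᵥ v) E1x
  simp only [Matrix.mulVec_add, Matrix.mulVec_smul, Matrix.mulVec_zero, hxv] at E1xx
  rw [← hxw] at E1x E1xx
  rw [hN] at E1x E1xx
  have hxN : x *ᵥ (-w - xw) = w := by
    rw [← hN, hxw, hxxx]
  rw [hxN] at E1xx
  have hsum : (3 * (g 0 + g 1 + g 2)) • v₁ = 0 := by
    linear_combination (norm := module) E1 + E1x + E1xx
  have hs0 : g 0 + g 1 + g 2 = 0 := by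
    rcases smul_eq_zero.mp hsum with h | h
    · rcases mul_eq_zero.mp h with h | h
      · exact absurd h h3
      · exact h
    · exact absurd h hv₁
  rw [hs0, zero_smul, zero_add] at E1
  have hbc : g 1 - g 2 = 0 := by
    by_contra hbc
    have hxw' : xw = (-(g 1 - g 2)⁻¹ * (g 0 - g 2)) • w := by
      have h4 : (g 1 - g 2) • xw = (-(g 0 - g 2)) • w := by
        linear_combination (norm := module) E1
      calc xw = ((g 1 - g 2)⁻¹ * (g 1 - g 2)) • xw := by rw [inv_mul_cancel₀ hbc, one_smul]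
        _ = (g 1 - g 2)⁻¹ • ((g 1 - g 2) • xw) := by rw [smul_smul]
        _ = (-(g 1 - g 2)⁻¹ * (g 0 - g 2)) • w := by
          rw [h4, smul_smul]
          congr 1
          ring
    obtain ⟨l, hl⟩ : ∃ l : F, l = -(g 1 - g 2)⁻¹ * (g 0 - g 2) := ⟨_, rfl⟩
    rw [← hl] at hxw'
    have h5 : x *ᵥ xw = (l * l) • w := by
      rw [hxw', Matrix.mulVec_smul, ← hxw, hxw', smul_smul]
    rw [hN, hxw'] at h5
    have h6 : (l * l + l + 1) • w = 0 := by
      linear_combination (norm := module) -h5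
    rcases smul_eq_zero.mp h6 with h | h
    · exact hω l h
    · exact hw0 h
  rw [hbc, zero_smul, add_zero] at E1
  have hac : g 0 - g 2 = 0 := by
    rcases smul_eq_zero.mp E1 with h | h
    · exact h
    · exact absurd h hw0
  have hg2 : g 2 = 0 := by
    have h7 : 3 * g 2 = 0 := by linear_combination hs0 - hac - hbc
    rcases mul_eq_zero.mp h7 with h | h
    · exact absurd h h3
    · exact h
  intro i
  fin_cases i
  · show g 0 = 0
    linear_combination hac + hg2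
  · show g 1 = 0
    linear_combination hbc + hg2
  · exact hg2

/-- Eigenvectors for `1, ω, ω²` sum to a cyclic vector. -/
theorem cyclic_of_omega (h3 : (3 : F) ≠ 0) (ω : F) (hω : ω * ω + ω + 1 = 0)
    (x : Matrix (Fin 3) (Fin 3) F) (v₀ v₁ v₂ : Fin 3 → F) (h₀ : v₀ ≠ 0) (h₁ : v₁ ≠ 0)
    (h₂ : v₂ ≠ 0) (e₀ : x *ᵥ v₀ = v₀) (e₁ : x *ᵥ v₁ = ω • v₁)
    (e₂ : x *ᵥ v₂ = (ω * ω) • v₂) :
    ∃ u : Fin 3 → F, LinearIndependent F ![u, x *ᵥ u, x *ᵥ (x *ᵥ u)] := by
  have hω4 : ω * ω * (ω * ω) = ω := by linear_combination ω * (ω - 1) * hω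
  have hz : ∀ c : F, 3 * c = 0 → c = 0 := by
    intro c h
    rcases mul_eq_zero.mp h with h | h
    · exact absurd h h3
    · exact h
  have hb0 : ∀ (c : F) (v : Fin 3 → F), v ≠ 0 → (∀ i, 3 * c * v i = 0) → c = 0 := by
    intro c v hv h
    obtain ⟨i, hi⟩ := Function.ne_iff.mp hv
    rcases mul_eq_zero.mp (h i) with h | h
    · exact hz c h
    · exact absurd h hi
  -- independence of the eigenvectors
  have hind : ∀ α β γ : F, α • v₀ + β • v₁ + γ • v₂ = 0 → α = 0 ∧ β = 0 ∧ γ = 0 := by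
    intro α β γ R0
    have R1 : α • v₀ + (β * ω) • v₁ + (γ * (ω * ω)) • v₂ = 0 := by
      have h := congrArg (fun v => x *ᵥ v) R0
      simp only [Matrix.mulVec_add, Matrix.mulVec_smul, Matrix.mulVec_zero, e₀, e₁, e₂,
        smul_smul] at h
      exact h
    have R2 : α • v₀ + (β * ω * ω) • v₁ + (γ * (ω * ω) * (ω * ω)) • v₂ = 0 := by
      have h := congrArg (fun v => x *ᵥ v) R1
      simp only [Matrix.mulVec_add, Matrix.mulVec_smul, Matrix.mulVec_zero, e₀, e₁, e₂,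
        smul_smul] at h
      exact h
    have R0i : ∀ i, α * v₀ i + β * v₁ i + γ * v₂ i = 0 := fun i => by
      have h := congrFun R0 i
      simpa using h
    have R1i : ∀ i, α * v₀ i + β * ω * v₁ i + γ * (ω * ω) * v₂ i = 0 := fun i => by
      have h := congrFun R1 i
      simpa using h
    have R2i : ∀ i, α * v₀ i + β * ω * ω * v₁ i + γ * (ω * ω) * (ω * ω) * v₂ i = 0 := fun i => by
      have h := congrFun R2 i
      simpa using h
    refine ⟨hb0 α v₀ h₀ fun i => ?_, hb0 β v₁ h₁ fun i => ?_, hb0 γ v₂ h₂ fun i => ?_⟩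
    · linear_combination R0i i + R1i i + R2i i - β * v₁ i * hω -
        γ * v₂ i * (ω * ω - ω + 1) * hω
    · linear_combination R0i i + ω * ω * R1i i + ω * R2i i - α * v₀ i * hω -
        2 * β * v₁ i * (ω - 1) * hω - γ * v₂ i * (1 + (ω + ω * ω) * (ω - 1)) * hω
    · linear_combination R0i i + ω * R1i i + ω * ω * R2i i - α * v₀ i * hω -
        β * v₁ i * (ω * ω - ω + 1) * hω - γ * v₂ i * (ω - 1) * (ω * ω * ω + 2) * hω
  refine ⟨v₀ + v₁ + v₂, ?_⟩
  have e1 : x *ᵥ (v₀ + v₁ + v₂) = v₀ + ω • v₁ + (ω * ω) • v₂ := by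
    rw [Matrix.mulVec_add, Matrix.mulVec_add, e₀, e₁, e₂]
  have e2 : x *ᵥ (x *ᵥ (v₀ + v₁ + v₂)) = v₀ + (ω * ω) • v₁ + ω • v₂ := by
    rw [e1, Matrix.mulVec_add, Matrix.mulVec_add, Matrix.mulVec_smul, Matrix.mulVec_smul, e₀, e₁,
      e₂, smul_smul, smul_smul, hω4]
  rw [e2, e1, Fintype.linearIndependent_iff]
  intro g hg
  rw [Fin.sum_univ_three] at hg
  simp only [Matrix.cons_val_zero, Matrix.cons_val_one, Matrix.cons_val_two, Matrix.head_cons,
    Matrix.tail_cons] at hg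
  have E : (g 0 + g 1 + g 2) • v₀ + (g 0 + g 1 * ω + g 2 * (ω * ω)) • v₁ +
      (g 0 + g 1 * (ω * ω) + g 2 * ω) • v₂ = 0 := by
    linear_combination (norm := module) hg
  obtain ⟨q0, q1, q2⟩ := hind _ _ _ E
  intro i
  fin_cases i
  · show g 0 = 0
    apply hz
    linear_combination q0 + q1 + q2 - (g 1 + g 2) * hω
  · show g 1 = 0
    apply hz
    linear_combination q0 + ω * ω * q1 + ω * q2 - g 0 * hω - g 2 * (ω * ω - ω + 1) * hω -
      2 * g 1 * (ω - 1) * hω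
  · show g 2 = 0
    apply hz
    linear_combination q0 + ω * q1 + ω * ω * q2 - g 0 * hω - g 1 * (ω * ω - ω + 1) * hω -
      2 * g 2 * (ω - 1) * hω

/-- The matrix with columns `u, x u, x² u`. -/
def cycMat (x : Matrix (Fin 3) (Fin 3) F) (u : Fin 3 → F) : Matrix (Fin 3) (Fin 3) F :=
  (Matrix.of ![u, x *ᵥ u, x *ᵥ (x *ᵥ u)])ᵀ

/-- The permutation matrix of the 3-cycle. -/
def cycC (F : Type*) [Field F] : Matrix (Fin 3) (Fin 3) F := !![0, 0, 1; 1, 0, 0; 0, 1, 0]

theorem cycMat_mul (x : Matrix (Fin 3) (Fin 3) F) (hx : x * x * x = 1) (u : Fin 3 → F) :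
    x * cycMat x u = cycMat x u * cycC F := by
  have hxxx : x *ᵥ (x *ᵥ (x *ᵥ u)) = u := by
    rw [Matrix.mulVec_mulVec, Matrix.mulVec_mulVec, hx, Matrix.one_mulVec]
  ext i j
  have hcol : ∀ j, (x * cycMat x u) i j = (x *ᵥ (fun k => cycMat x u k j)) i := fun j => rfl
  have c0 : (fun k => cycMat x u k 0) = u := rfl
  have c1 : (fun k => cycMat x u k 1) = x *ᵥ u := rfl
  have c2 : (fun k => cycMat x u k 2) = x *ᵥ (x *ᵥ u) := rfl
  have d0 : (cycMat x u * cycC F) i 0 = (x *ᵥ u) i := by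
    simp [cycMat, cycC, Matrix.mul_apply, Fin.sum_univ_three]
  have d1 : (cycMat x u * cycC F) i 1 = (x *ᵥ (x *ᵥ u)) i := by
    simp [cycMat, cycC, Matrix.mul_apply, Fin.sum_univ_three]
  have d2 : (cycMat x u * cycC F) i 2 = u i := by
    simp [cycMat, cycC, Matrix.mul_apply, Fin.sum_univ_three]
  fin_cases j
  · show (x * cycMat x u) i 0 = (cycMat x u * cycC F) i 0
    rw [hcol, c0, d0]
  · show (x * cycMat x u) i 1 = (cycMat x u * cycC F) i 1
    rw [hcol, c1, d1]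
  · show (x * cycMat x u) i 2 = (cycMat x u * cycC F) i 2
    rw [hcol, c2, d2, hxxx]

theorem cycMat_det (x : Matrix (Fin 3) (Fin 3) F) (u : Fin 3 → F)
    (hu : LinearIndependent F ![u, x *ᵥ u, x *ᵥ (x *ᵥ u)]) : (cycMat x u).det ≠ 0 := by
  have h1 : IsUnit (Matrix.of ![u, x *ᵥ u, x *ᵥ (x *ᵥ u)]) :=
    Matrix.linearIndependent_rows_iff_isUnit.mp hu
  rw [Matrix.isUnit_iff_isUnit_det] at h1
  rw [cycMat, Matrix.det_transpose]
  exact h1.ne_zero

/-- Two `3 × 3` matrices with `x³ = 1` having cyclic vectors are conjugate by a matrix of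
determinant one. -/
theorem conj_of_cyclic3 (h3 : (3 : F) ≠ 0) (x y : Matrix (Fin 3) (Fin 3) F)
    (hx : x * x * x = 1) (hy : y * y * y = 1) (u u' : Fin 3 → F)
    (hu : LinearIndependent F ![u, x *ᵥ u, x *ᵥ (x *ᵥ u)])
    (hu' : LinearIndependent F ![u', y *ᵥ u', y *ᵥ (y *ᵥ u')]) :
    ∃ P : Matrix (Fin 3) (Fin 3) F, P.det = 1 ∧ x * P = P * y := by
  obtain ⟨A, hA⟩ : ∃ A, A = cycMat x u := ⟨_, rfl⟩
  obtain ⟨B, hB⟩ : ∃ B, B = cycMat y u' := ⟨_, rfl⟩
  have hAd : A.det ≠ 0 := by rw [hA]; exact cycMat_det x u hu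
  have hBd : B.det ≠ 0 := by rw [hB]; exact cycMat_det y u' hu'
  have hxA : x * A = A * cycC F := by rw [hA]; exact cycMat_mul x hx u
  have hyB : y * B = B * cycC F := by rw [hB]; exact cycMat_mul y hy u'
  obtain ⟨s, hs⟩ : ∃ s : F, s = (B.det * (A.det)⁻¹ - 1) / 3 := ⟨_, rfl⟩
  obtain ⟨D, hD⟩ : ∃ D : Matrix (Fin 3) (Fin 3) F,
      D = !![1 + s, s, s; s, 1 + s, s; s, s, 1 + s] := ⟨_, rfl⟩
  have hDdet : D.det = B.det * (A.det)⁻¹ := by
    rw [hD, Matrix.det_fin_three]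
    simp
    rw [hs]
    field_simp
    ring
  have hCD : cycC F * D = D * cycC F := by
    rw [hD]
    ext i j
    fin_cases i <;> fin_cases j <;> simp [cycC, Matrix.mul_apply, Fin.sum_univ_three]
  have hBu : IsUnit B.det := isUnit_iff_ne_zero.mpr hBd
  have hCB : cycC F * B⁻¹ = B⁻¹ * y := by
    have h1 : B⁻¹ * (y * B) * B⁻¹ = B⁻¹ * (B * cycC F) * B⁻¹ := by rw [hyB]
    rw [← Matrix.mul_assoc, Matrix.mul_assoc, Matrix.mul_nonsing_inv B hBu, Matrix.mul_one,
      ← Matrix.mul_assoc, Matrix.nonsing_inv_mul B hBu, Matrix.one_mul] at h1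
    exact h1.symm
  refine ⟨A * D * B⁻¹, ?_, ?_⟩
  · rw [Matrix.det_mul, Matrix.det_mul, hDdet, Matrix.det_nonsing_inv, Ring.inverse_eq_inv']
    field_simp
  · rw [← Matrix.mul_assoc, ← Matrix.mul_assoc, hxA, Matrix.mul_assoc A, hCD, Matrix.mul_assoc,
      Matrix.mul_assoc, Matrix.mul_assoc, hCB]
    simp only [Matrix.mul_assoc]

end Cfsg.Agent.H48.Sing3
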