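import Mathlib
import Cfsg.Prelude.Def_GeometricClasses
import Cfsg.Agent.H69.Singer

/-!
The Frobenius of a field subalgebra `K` of degree 3 of `M₃(F)` as a matrix `Φ` with `Φ³ = 1`,
`Φ K = K Φ` and `1, Φ, Φ²` linearly independent (helper48, for S5971).
-/

set_option autoImplicit false

namespace Cfsg.Agent.H48.Sing3

open Matrix Module Polynomial
open scoped MatrixGroups

/-- In a finite field (given as a ring which is a field), `a ^ card = a`. -/
theorem isField_pow_card {R : Type*} [Ring R] [Finite R] (hR : IsField R) (a : R) :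
    a ^ Nat.card R = a := by
  let instF : Field R := hR.toField
  have instFin : Fintype R := Fintype.ofFinite R
  rw [Nat.card_eq_fintype_card]
  exact FiniteField.pow_card a

/-- Root counting: `x ↦ a x + b x^q + c x^(q²)` does not vanish on a field with more than `q²`
elements unless `a = b = c = 0`. -/
theorem isField_indep {R : Type*} [Ring R] [Finite R] (hR : IsField R) (q : ℕ) (hq : 2 ≤ q)
    (hcard : q ^ 2 < Nat.card R) (a b c : R)
    (h : ∀ x : R, a * x + b * x ^ q + c * x ^ (q ^ 2) = 0) : a = 0 ∧ b = 0 ∧ c = 0 := by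
  let instF : Field R := hR.toField
  have instFin : Fintype R := Fintype.ofFinite R
  have hq1 : 1 ≤ q ^ 2 := Nat.one_le_pow _ _ (by omega)
  have hq2 : q ≤ q ^ 2 := by nlinarith
  have hp : (C a * X + C b * X ^ q + C c * X ^ (q ^ 2) : R[X]) = 0 := by
    apply Polynomial.eq_zero_of_natDegree_lt_card_of_eval_eq_zero _ (f := id)
      Function.injective_id
    · intro x
      simp only [id, eval_add, eval_mul, eval_C, eval_X, eval_pow]
      exact h x
    · rw [← Nat.card_eq_fintype_card]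
      refine lt_of_le_of_lt ?_ hcard
      refine (natDegree_add_le _ _).trans (max_le ((natDegree_add_le _ _).trans (max_le ?_ ?_)) ?_)
      · exact ((natDegree_C_mul_le a X).trans natDegree_X_le).trans hq1
      · exact (natDegree_C_mul_X_pow_le b q).trans hq2
      · exact natDegree_C_mul_X_pow_le c (q ^ 2)
  have hq1' : q ≠ 1 := by omega
  have hq2' : q ^ 2 ≠ 1 := by nlinarith
  have hqq : q ^ 2 ≠ q := by nlinarith
  have h1 := congrArg (fun p : R[X] => p.coeff 1) hp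
  have h2 := congrArg (fun p : R[X] => p.coeff q) hp
  have h3 := congrArg (fun p : R[X] => p.coeff (q ^ 2)) hp
  simp only [coeff_add, coeff_C_mul, coeff_X_pow, coeff_X, coeff_zero] at h1 h2 h3
  refine ⟨?_, ?_, ?_⟩
  · simpa [hq1', hq2', Ne.symm hq1', Ne.symm hq2'] using h1
  · simpa [hq1', hqq, Ne.symm hq1', Ne.symm hqq] using h2
  · simpa [hq2', hqq, Ne.symm hq2', Ne.symm hqq] using h3

/-- Two matrices agreeing on all vectors are equal. -/
theorem matrix_ext_mulVec {F : Type*} [Field F] {n : ℕ} (A B : Matrix (Fin n) (Fin n) F)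
    (h : ∀ w, A *ᵥ w = B *ᵥ w) : A = B := by
  apply Matrix.toLin'.injective
  apply LinearMap.ext
  intro w
  simp only [Matrix.toLin'_apply]
  exact h w

/-- The Frobenius of a field subalgebra of degree 3 of `M₃(F)`. -/
theorem exists_frobenius {F : Type*} [Field F] [Fintype F]
    (K : Subalgebra F (Matrix (Fin 3) (Fin 3) F)) (hK : Cfsg.Geo.IsFieldSubalgebra 3 K) :
    ∃ Φ : Matrix (Fin 3) (Fin 3) F, Φ * Φ * Φ = 1 ∧ (∀ κ ∈ K, ∃ κ' ∈ K, Φ * κ = κ' * Φ) ∧
      ∀ a b c : F, a • (1 : Matrix (Fin 3) (Fin 3) F) + b • Φ + c • (Φ * Φ) = 0 →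
        a = 0 ∧ b = 0 ∧ c = 0 := by
  classical
  obtain ⟨q, hq⟩ : ∃ q, q = Fintype.card F := ⟨_, rfl⟩
  have hq2 : 2 ≤ q := by rw [hq]; exact Fintype.one_lt_card
  obtain ⟨p, hp⟩ := CharP.exists F
  have hpp : Fact p.Prime := ⟨CharP.char_is_prime F p⟩
  obtain ⟨f, -, hf⟩ := FiniteField.card F p
  rw [← hq] at hf
  have hpowF : ∀ c : F, c ^ q = c := fun c => by rw [hq]; exact FiniteField.pow_card c
  -- `K` is a field
  have hF : IsField ↥K :=
    { exists_pair_ne := ⟨0, 1, fun h => by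
        have h1 := congrArg (fun m : ↥K => (m : Matrix (Fin 3) (Fin 3) F) 0 0) h
        simp at h1⟩
      mul_comm := fun a b => Subtype.ext (hK.comm a a.2 b b.2)
      mul_inv_cancel := fun {a} ha => by
        obtain ⟨y, hy, h⟩ := hK.inv a a.2 (fun h0 => ha (Subtype.ext h0))
        exact ⟨⟨y, hy⟩, Subtype.ext h⟩ }
  have hfinK : Finite ↥K := inferInstance
  have hcardK : Nat.card ↥K = q ^ 3 := by
    rw [Module.natCard_eq_pow_finrank (K := F), hK.finrank_eq, Nat.card_eq_fintype_card, hq]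
  have hpowK : ∀ κ ∈ K, κ ^ (q ^ 3) = κ := by
    intro κ hκ
    have h1 := isField_pow_card hF ⟨κ, hκ⟩
    rw [hcardK] at h1
    have h2 := congrArg Subtype.val h1
    simpa using h2
  have hindK : ∀ a b c : F, (∀ κ ∈ K, a • κ + b • κ ^ q + c • κ ^ (q ^ 2) = 0) →
      a = 0 ∧ b = 0 ∧ c = 0 := by
    intro a b c h
    have hz : ∀ t : F, algebraMap F ↥K t = 0 → t = 0 := by
      intro t ht
      have h1 := congrArg (fun m : ↥K => (m : Matrix (Fin 3) (Fin 3) F) 0 0) ht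
      simpa [Algebra.algebraMap_eq_smul_one] using h1
    have h1 := isField_indep hF q hq2
      (by rw [hcardK]; exact Nat.pow_lt_pow_right (by omega) (by norm_num))
      (algebraMap F ↥K a) (algebraMap F ↥K b) (algebraMap F ↥K c) (fun x => by
        rw [← Algebra.smul_def, ← Algebra.smul_def, ← Algebra.smul_def]
        apply Subtype.ext
        have := h x x.2
        simpa using this)
    exact ⟨hz a h1.1, hz b h1.2.1, hz c h1.2.2⟩
  obtain ⟨v₀, hv₀⟩ : ∃ v₀ : Fin 3 → F, v₀ ≠ 0 := ⟨Pi.single 0 1, by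
    intro h
    have := congrFun h 0
    simp at this⟩
  have hsurj : ∀ w : Fin 3 → F, ∃ κ ∈ K, κ *ᵥ v₀ = w :=
    Cfsg.Agent.H69.Singer.exists_mulVec_eq K hK v₀ hv₀
  have hker : ∀ κ ∈ K, κ *ᵥ v₀ = 0 → κ = 0 := by
    intro κ hκ h
    by_contra h0
    exact hv₀ (Cfsg.Agent.H69.Singer.mulVec_eq_zero K hK κ hκ h0 v₀ h)
  -- the `F`-linear equivalence `K ≃ F³`
  obtain ⟨e, he⟩ : ∃ e : ↥K ≃ₗ[F] (Fin 3 → F),
      ∀ κ : ↥K, e κ = (κ : Matrix (Fin 3) (Fin 3) F) *ᵥ v₀ := by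
    let evl : ↥K →ₗ[F] (Fin 3 → F) :=
      { toFun := fun k => (k : Matrix (Fin 3) (Fin 3) F) *ᵥ v₀
        map_add' := fun a b => by simp [Matrix.add_mulVec]
        map_smul' := fun c a => by simp [Matrix.smul_mulVec] }
    have hinj : Function.Injective evl := by
      rw [injective_iff_map_eq_zero]
      intro k hk
      exact Subtype.ext (hker k k.2 hk)
    have hsur : Function.Surjective evl := by
      intro w
      obtain ⟨κ, hκ, h⟩ := hsurj w
      exact ⟨⟨κ, hκ⟩, h⟩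
    exact ⟨LinearEquiv.ofBijective evl ⟨hinj, hsur⟩, fun κ => rfl⟩
  -- the Frobenius of `K` as an `F`-linear map
  obtain ⟨ψ, hψ⟩ : ∃ ψ : ↥K →ₗ[F] ↥K, ∀ κ : ↥K,
      ((ψ κ : ↥K) : Matrix (Fin 3) (Fin 3) F) = (κ : Matrix (Fin 3) (Fin 3) F) ^ q := by
    refine ⟨{ toFun := fun κ => ⟨(κ : Matrix (Fin 3) (Fin 3) F) ^ q, K.pow_mem κ.2 q⟩
              map_add' := fun a b => ?_
              map_smul' := fun c a => ?_ }, fun κ => rfl⟩
    · apply Subtype.ext
      show ((a : Matrix (Fin 3) (Fin 3) F) + b) ^ q =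
        (a : Matrix (Fin 3) (Fin 3) F) ^ q + (b : Matrix (Fin 3) (Fin 3) F) ^ q
      rw [hf]
      exact add_pow_char_pow_of_commute p f
        (show Commute (a : Matrix (Fin 3) (Fin 3) F) b from hK.comm a a.2 b b.2)
    · apply Subtype.ext
      show (c • (a : Matrix (Fin 3) (Fin 3) F)) ^ q = c • (a : Matrix (Fin 3) (Fin 3) F) ^ q
      rw [_root_.smul_pow, hpowF]
  obtain ⟨Φ, hΦdef⟩ : ∃ Φ : Matrix (Fin 3) (Fin 3) F, Φ = LinearMap.toMatrix'
      ((e : ↥K →ₗ[F] (Fin 3 → F)) ∘ₗ ψ ∘ₗ (e.symm : (Fin 3 → F) →ₗ[F] ↥K)) := ⟨_, rfl⟩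
  have hΦ : ∀ κ ∈ K, Φ *ᵥ (κ *ᵥ v₀) = (κ ^ q) *ᵥ v₀ := by
    intro κ hκ
    have h1 : κ *ᵥ v₀ = e ⟨κ, hκ⟩ := (he ⟨κ, hκ⟩).symm
    rw [h1, hΦdef, ← Matrix.toLin'_apply, Matrix.toLin'_toMatrix']
    simp only [LinearMap.comp_apply, LinearEquiv.coe_coe, LinearEquiv.symm_apply_apply]
    rw [he, hψ]
  have hsemi : ∀ κ ∈ K, Φ * κ = κ ^ q * Φ := by
    intro κ hκ
    apply matrix_ext_mulVec
    intro w
    obtain ⟨κ', hκ', rfl⟩ := hsurj w
    have e1 : (Φ * κ) *ᵥ (κ' *ᵥ v₀) = ((κ * κ') ^ q) *ᵥ v₀ := by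
      rw [← Matrix.mulVec_mulVec, Matrix.mulVec_mulVec v₀ κ κ', hΦ _ (K.mul_mem hκ hκ')]
    have e2 : (κ ^ q * Φ) *ᵥ (κ' *ᵥ v₀) = (κ ^ q * κ' ^ q) *ᵥ v₀ := by
      rw [← Matrix.mulVec_mulVec, hΦ _ hκ', Matrix.mulVec_mulVec]
    rw [e1, e2, (show Commute κ κ' from hK.comm κ hκ κ' hκ').mul_pow]
  refine ⟨Φ, ?_, ?_, ?_⟩
  · apply matrix_ext_mulVec
    intro w
    obtain ⟨κ, hκ, rfl⟩ := hsurj w
    rw [← Matrix.mulVec_mulVec, ← Matrix.mulVec_mulVec, hΦ _ hκ, hΦ _ (K.pow_mem hκ q),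
      hΦ _ (K.pow_mem (K.pow_mem hκ q) q), Matrix.one_mulVec, ← pow_mul, ← pow_mul]
    have h1 : q * (q * q) = q ^ 3 := by ring
    rw [h1, hpowK κ hκ]
  · intro κ hκ
    exact ⟨κ ^ q, K.pow_mem hκ q, hsemi κ hκ⟩
  · intro a b c habc
    apply hindK
    intro κ hκ
    apply hker _ (K.add_mem (K.add_mem (K.smul_mem hκ a) (K.smul_mem (K.pow_mem hκ q) b))
      (K.smul_mem (K.pow_mem hκ (q ^ 2)) c))
    have h1 := congrArg (fun M : Matrix (Fin 3) (Fin 3) F => M *ᵥ (κ *ᵥ v₀)) habc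
    simp only [Matrix.add_mulVec, Matrix.smul_mulVec, Matrix.one_mulVec, Matrix.zero_mulVec,
      ← Matrix.mulVec_mulVec] at h1
    rw [hΦ _ hκ, hΦ _ (K.pow_mem hκ q), ← pow_mul] at h1
    have h2 : q * q = q ^ 2 := by ring
    rw [h2] at h1
    rw [Matrix.add_mulVec, Matrix.add_mulVec, Matrix.smul_mulVec, Matrix.smul_mulVec,
      Matrix.smul_mulVec]
    exact h1

end Cfsg.Agent.H48.Sing3
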