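import Mathlib
import Cfsg.Prelude.Def_GeometricClasses
import Cfsg.Agent.H48.Sing3B

/-!
Assembly lemmas for S5971 (helper48): membership in the normalizer, the conjugation step and the
arithmetic of roots of unity in a finite field.
-/

set_option autoImplicit false

namespace Cfsg.Agent.H48.Sing3

open Matrix
open scoped MatrixGroups

/-- An element of order dividing 3 of `GL₃` mapping `K` into `K` by conjugation normalizes `K`. -/
theorem mem_normalizer_of_cube {F : Type*} [Field F]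
    (K : Subalgebra F (Matrix (Fin 3) (Fin 3) F)) (g : GL (Fin 3) F)
    (hg3 : (g : Matrix (Fin 3) (Fin 3) F) * g * g = 1)
    (hgK : ∀ κ ∈ K, ∃ κ' ∈ K, (g : Matrix (Fin 3) (Fin 3) F) * κ = κ' * g) :
    g ∈ Cfsg.Geo.subalgebraNormalizer K := by
  obtain ⟨G, hG⟩ : ∃ G : Matrix (Fin 3) (Fin 3) F, G = (g : Matrix (Fin 3) (Fin 3) F) :=
    ⟨_, rfl⟩
  obtain ⟨Gi, hGi⟩ : ∃ Gi : Matrix (Fin 3) (Fin 3) F,
      Gi = ((g⁻¹ : GL (Fin 3) F) : Matrix (Fin 3) (Fin 3) F) := ⟨_, rfl⟩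
  have h1 : G * Gi = 1 := by rw [hG, hGi, ← Units.val_mul, mul_inv_cancel, Units.val_one]
  have h2 : Gi * G = 1 := by rw [hG, hGi, ← Units.val_mul, inv_mul_cancel, Units.val_one]
  rw [← hG] at hg3 hgK
  have hfwd : ∀ k ∈ K, G * k * Gi ∈ K := by
    intro k hk
    obtain ⟨κ', hκ', h⟩ := hgK k hk
    rw [h, Matrix.mul_assoc, h1, Matrix.mul_one]
    exact hκ'
  have hGi3 : Gi * Gi * Gi = 1 := by
    have h3 : Gi = G * G := by
      calc Gi = (G * G * G) * Gi := by rw [hg3, Matrix.one_mul]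
        _ = G * G := by rw [Matrix.mul_assoc, h1, Matrix.mul_one]
    rw [h3]
    calc G * G * (G * G) * (G * G) = (G * G * G) * (G * G * G) := by
          simp only [Matrix.mul_assoc]
      _ = 1 := by rw [hg3, Matrix.one_mul]
  intro k
  show k ∈ K ↔ (g : Matrix (Fin 3) (Fin 3) F) * k *
    ((g⁻¹ : GL (Fin 3) F) : Matrix (Fin 3) (Fin 3) F) ∈ K
  rw [← hG, ← hGi]
  constructor
  · exact hfwd k
  · intro hk
    have h3 := hfwd _ (hfwd _ hk)
    have h4 : G * (G * (G * k * Gi) * Gi) * Gi = k := by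
      calc G * (G * (G * k * Gi) * Gi) * Gi = (G * G * G) * k * (Gi * Gi * Gi) := by
            simp only [Matrix.mul_assoc]
        _ = k := by rw [hg3, hGi3, Matrix.one_mul, Matrix.mul_one]
    rwa [h4] at h3

/-- The conjugation step: an element of `SL₃` with `x³ = 1` and a cyclic vector is conjugate in
`SL₃` to any `Φ` with `Φ³ = 1` and a cyclic vector; if `Φ` maps `K` into itself, the conjugate
normalizes `K`. -/
theorem exists_conj_mem {F : Type*} [Field F] (h3 : (3 : F) ≠ 0)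
    (K : Subalgebra F (Matrix (Fin 3) (Fin 3) F))
    (x : Matrix.SpecialLinearGroup (Fin 3) F)
    (hx : (x : Matrix (Fin 3) (Fin 3) F) * x * x = 1)
    (Φ : Matrix (Fin 3) (Fin 3) F) (hΦ3 : Φ * Φ * Φ = 1)
    (hΦK : ∀ κ ∈ K, ∃ κ' ∈ K, Φ * κ = κ' * Φ) (u u' : Fin 3 → F)
    (hu : LinearIndependent F ![u, (x : Matrix (Fin 3) (Fin 3) F) *ᵥ u,
      (x : Matrix (Fin 3) (Fin 3) F) *ᵥ ((x : Matrix (Fin 3) (Fin 3) F) *ᵥ u)])
    (hu' : LinearIndependent F ![u', Φ *ᵥ u', Φ *ᵥ (Φ *ᵥ u')]) :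
    ∃ P : Matrix.SpecialLinearGroup (Fin 3) F, P⁻¹ * x * P ∈
      (Cfsg.Geo.subalgebraNormalizer K).comap
        (Matrix.SpecialLinearGroup.toGL : Matrix.SpecialLinearGroup (Fin 3) F →* GL (Fin 3) F) := by
  obtain ⟨P₀, hdet, hconj⟩ := conj_of_cyclic3 h3 _ Φ hx hΦ3 u u' hu hu'
  obtain ⟨P, hP⟩ : ∃ P : Matrix.SpecialLinearGroup (Fin 3) F,
      (P : Matrix (Fin 3) (Fin 3) F) = P₀ := ⟨⟨P₀, hdet⟩, rfl⟩
  refine ⟨P, ?_⟩
  rw [Subgroup.mem_comap]
  have hPP : ((P⁻¹ : Matrix.SpecialLinearGroup (Fin 3) F) : Matrix (Fin 3) (Fin 3) F) *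
      (P : Matrix (Fin 3) (Fin 3) F) = 1 := by
    rw [← Matrix.SpecialLinearGroup.coe_mul, inv_mul_cancel, Matrix.SpecialLinearGroup.coe_one]
  have hval : ((Matrix.SpecialLinearGroup.toGL (P⁻¹ * x * P) : GL (Fin 3) F) :
      Matrix (Fin 3) (Fin 3) F) = Φ := by
    rw [Matrix.SpecialLinearGroup.coe_GL_coe_matrix, Matrix.SpecialLinearGroup.coe_mul,
      Matrix.SpecialLinearGroup.coe_mul, Matrix.mul_assoc, hP, hconj, ← Matrix.mul_assoc, ← hP,
      hPP, Matrix.one_mul]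
  apply mem_normalizer_of_cube
  · rw [hval]; exact hΦ3
  · rw [hval]; exact hΦK

section Arith

variable {F : Type*} [Field F] [Fintype F]

theorem three_ne_zero_of_card (p : ℕ) [Fact p.Prime] [CharP F p]
    (h : Fintype.card F % 3 ≠ 0) : (3 : F) ≠ 0 := by
  intro h3
  have h1 : ((3 : ℕ) : F) = 0 := by exact_mod_cast h3
  have h2 : p ∣ 3 := (CharP.cast_eq_zero_iff F p 3).mp h1
  have h4 : p = 3 := (Nat.prime_dvd_prime_iff_eq (Fact.out : p.Prime) Nat.prime_three).mp h2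
  obtain ⟨n, -, hn⟩ := FiniteField.card F p
  apply h
  rw [hn, h4]
  exact Nat.mod_eq_zero_of_dvd (dvd_pow_self 3 n.ne_zero)

theorem three_eq_zero_of_card (p : ℕ) [Fact p.Prime] [CharP F p]
    (h : Fintype.card F % 3 = 0) : (3 : F) = 0 := by
  obtain ⟨n, hp, hn⟩ := FiniteField.card F p
  have h1 : 3 ∣ p ^ (n : ℕ) := by rw [← hn]; exact Nat.dvd_of_mod_eq_zero h
  have h2 : 3 ∣ p := Nat.Prime.dvd_of_dvd_pow Nat.prime_three h1
  have h4 : 3 = p := (Nat.prime_dvd_prime_iff_eq Nat.prime_three hp).mp h2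
  have h5 : ((p : ℕ) : F) = 0 := CharP.cast_eq_zero F p
  rw [← h4] at h5
  exact_mod_cast h5

/-- If `q ≡ 2 (mod 3)` the cube map is injective at `1`. -/
theorem cube_eq_one (h : Fintype.card F % 3 = 2) (z : F) (hz : z ^ 3 = 1) : z = 1 := by
  have hz0 : z ≠ 0 := by
    intro h0
    rw [h0] at hz
    simp at hz
  have h1 := FiniteField.pow_card_sub_one_eq_one z hz0
  have h2 : Fintype.card F - 1 = 3 * (Fintype.card F / 3) + 1 := by omega
  rw [h2, pow_succ, pow_mul, hz, one_pow, one_mul] at h1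
  exact h1

theorem no_omega (h3 : (3 : F) ≠ 0) (h : Fintype.card F % 3 = 2) (c : F) :
    c * c + c + 1 ≠ 0 := by
  intro hc
  have h1 : c ^ 3 = 1 := by linear_combination (c - 1) * hc
  have h2 := cube_eq_one h c h1
  rw [h2] at hc
  apply h3
  linear_combination hc

theorem exists_omega (h3 : (3 : F) ≠ 0) (h : Fintype.card F % 3 = 1) :
    ∃ ω : F, ω * ω + ω + 1 = 0 := by
  classical
  have h1 : 3 ∣ Fintype.card Fˣ := by
    rw [Fintype.card_units]
    omega
  have : Fact (Nat.Prime 3) := ⟨Nat.prime_three⟩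
  obtain ⟨u, hu⟩ := exists_prime_orderOf_dvd_card 3 h1
  have hu3 : (u : F) ^ 3 = 1 := by
    have h2 : u ^ 3 = 1 := by rw [← hu]; exact pow_orderOf_eq_one u
    have h4 := congrArg (fun t : Fˣ => (t : F)) h2
    simpa using h4
  have hu1 : (u : F) ≠ 1 := by
    intro h2
    have h4 : u = 1 := Units.ext h2
    rw [h4, orderOf_one] at hu
    omega
  refine ⟨(u : F), ?_⟩
  have h5 : ((u : F) - 1) * ((u : F) * (u : F) + (u : F) + 1) = 0 := by
    linear_combination hu3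
  rcases mul_eq_zero.mp h5 with h6 | h6
  · exact absurd (sub_eq_zero.mp h6) hu1
  · exact h6

theorem no_nine (h : Fintype.card F % 9 = 4 ∨ Fintype.card F % 9 = 7) (c : F) (hc : c ^ 9 = 1) :
    c ^ 3 = 1 := by
  have hc0 : c ≠ 0 := by
    intro h0
    rw [h0] at hc
    simp at hc
  have h1 := FiniteField.pow_card_sub_one_eq_one c hc0
  rcases h with h | h
  · have h2 : Fintype.card F - 1 = 9 * (Fintype.card F / 9) + 3 := by omega
    rw [h2, pow_add, pow_mul, hc, one_pow, one_mul] at h1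
    exact h1
  · have h2 : Fintype.card F - 1 = 9 * (Fintype.card F / 9) + 6 := by omega
    rw [h2, pow_add, pow_mul, hc, one_pow, one_mul] at h1
    have h4 : c ^ 9 = c ^ 6 * c ^ 3 := by ring
    rw [hc, h1, one_mul] at h4
    exact h4.symm

theorem exists_nine (h : Fintype.card F % 9 = 1) : ∃ ζ : F, ζ ^ 9 = 1 ∧ ζ ^ 3 ≠ 1 := by
  classical
  obtain ⟨g, hg⟩ := IsCyclic.exists_generator (α := Fˣ)
  have hord : orderOf g = Fintype.card F - 1 := by
    rw [orderOf_eq_card_of_forall_mem_zpowers hg, Nat.card_eq_fintype_card, Fintype.card_units]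
  have hq : 2 ≤ Fintype.card F := Fintype.one_lt_card
  obtain ⟨m, hm⟩ : ∃ m, Fintype.card F - 1 = 9 * m := ⟨Fintype.card F / 9, by omega⟩
  have hm0 : 0 < m := by omega
  refine ⟨((g ^ m : Fˣ) : F), ?_, ?_⟩
  · have h1 : (g ^ m) ^ 9 = 1 := by
      rw [← pow_mul, mul_comm, ← hm, ← hord]
      exact pow_orderOf_eq_one g
    have h2 := congrArg (fun t : Fˣ => (t : F)) h1
    simpa using h2
  · intro h1
    have h2 : (g ^ m) ^ 3 = 1 := by
      apply Units.ext
      simpa using h1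
    rw [← pow_mul] at h2
    have h4 : m * 3 < orderOf g := by rw [hord, hm]; omega
    exact pow_ne_one_of_lt_orderOf (by omega) h4 h2

theorem not_nine_dvd (q : ℕ) (hq : q % 9 = 2 ∨ q % 9 = 5) :
    ¬ 9 ∣ (q ^ 3 - 1) * (q ^ 3 - q) * (q ^ 3 - q ^ 2) := by
  intro h
  have hq1 : 1 ≤ q := by omega
  have e1 : 1 ≤ q ^ 3 := Nat.one_le_pow _ _ hq1
  have e2 : q ≤ q ^ 3 := by nlinarith [Nat.one_le_pow 2 q hq1]
  have e3 : q ^ 2 ≤ q ^ 3 := Nat.pow_le_pow_right hq1 (by norm_num)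
  have h1 : (((q ^ 3 - 1) * (q ^ 3 - q) * (q ^ 3 - q ^ 2) : ℕ) : ZMod 9) = 0 :=
    (ZMod.natCast_eq_zero_iff _ 9).mpr h
  rw [Nat.cast_mul, Nat.cast_mul, Nat.cast_sub e1, Nat.cast_sub e2, Nat.cast_sub e3] at h1
  simp only [Nat.cast_pow, Nat.cast_one] at h1
  rcases hq with hq | hq
  · have h2 : (q : ZMod 9) = 2 := by
      have := (ZMod.natCast_eq_natCast_iff' q 2 9).mpr (by omega)
      simpa using this
    rw [h2] at h1
    revert h1
    decide
  · have h2 : (q : ZMod 9) = 5 := by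
      have := (ZMod.natCast_eq_natCast_iff' q 5 9).mpr (by omega)
      simpa using this
    rw [h2] at h1
    revert h1
    decide

/-- `9 ∤ |SL₃(q)|` when `q ≡ 2, 5 (mod 9)`. -/
theorem not_nine_dvd_card_SL (hq : Fintype.card F % 9 = 2 ∨ Fintype.card F % 9 = 5) :
    ¬ 9 ∣ Nat.card (Matrix.SpecialLinearGroup (Fin 3) F) := by
  intro h
  have h1 : Nat.card (Matrix.SpecialLinearGroup (Fin 3) F) ∣ Nat.card (GL (Fin 3) F) :=
    Subgroup.card_dvd_of_injective
      (Matrix.SpecialLinearGroup.toGL : Matrix.SpecialLinearGroup (Fin 3) F →* GL (Fin 3) F)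
      Matrix.SpecialLinearGroup.toGL_injective
  have h2 := Matrix.card_GL_field (𝔽 := F) 3
  rw [Fin.prod_univ_three] at h2
  simp only [Fin.val_zero, Fin.val_one, Fin.val_two, pow_zero, pow_one] at h2
  rw [h2] at h1
  exact not_nine_dvd _ hq (h.trans h1)

end Arith

end Cfsg.Agent.H48.Sing3
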