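import Mathlib
import Cfsg.Agent.H48.Semisimple

set_option autoImplicit false

/-!
Helper lemmas (helper48): Singer cycles. An element of prime order acting irreducibly is
multiplication by a root on an extension field, and its centraliser is the multiplicative group
of that field.
-/

namespace Cfsg.Agent.H48

open Polynomial Module

/-- Endomorphisms commuting with "multiplication by the root" are multiplications. -/
theorem exists_mul_of_commute_root {F V : Type*} [Field F] [AddCommGroup V] [Module F V]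
    (φ : Module.End F V) (f : F[X]) (ψ : AdjoinRoot f ≃ₗ[F] V)
    (hψ : ∀ μ, φ (ψ μ) = ψ (AdjoinRoot.root f * μ)) (g : Module.End F V)
    (hg : ∀ v, g (φ v) = φ (g v)) :
    ∃ lam : AdjoinRoot f, ∀ μ, g (ψ μ) = ψ (lam * μ) := by
  let g' : Module.End F (AdjoinRoot f) := ψ.symm.toLinearMap ∘ₗ g ∘ₗ ψ.toLinearMap
  have hg' : ∀ μ, g' μ = ψ.symm (g (ψ μ)) := fun μ => rfl
  let a : Module.End F (AdjoinRoot f) := Algebra.lmul F (AdjoinRoot f) (AdjoinRoot.root f)
  have ha : ∀ μ, a μ = AdjoinRoot.root f * μ := fun μ => rfl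
  have hcomm : ∀ μ, g' (a μ) = a (g' μ) := by
    intro μ
    rw [hg', hg', ha, ha, ← hψ, hg]
    apply ψ.injective
    rw [LinearEquiv.apply_symm_apply, ← hψ, LinearEquiv.apply_symm_apply]
  have haev : ∀ (h : F[X]) (μ : AdjoinRoot f), aeval a h μ = AdjoinRoot.mk f h * μ := by
    intro h μ
    have h1 : aeval a h = Algebra.lmul F (AdjoinRoot f) (aeval (AdjoinRoot.root f) h) :=
      aeval_algHom_apply (Algebra.lmul F (AdjoinRoot f)) (AdjoinRoot.root f) h
    rw [h1, AdjoinRoot.aeval_eq]
    rfl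
  refine ⟨g' 1, fun μ => ?_⟩
  induction μ using AdjoinRoot.induction_on with
  | ih h =>
    have h2 := aeval_intertwine g' a a hcomm h 1
    rw [haev, haev, mul_one] at h2
    have h3 : g (ψ (AdjoinRoot.mk f h)) = ψ (g' (AdjoinRoot.mk f h)) := by
      rw [hg', LinearEquiv.apply_symm_apply]
    rw [h3, h2, mul_comm]

/-- An endomorphism of prime order `r` (prime to the characteristic) of an `n`-dimensional space
over the field with `q` elements, where `q` has multiplicative order `n` modulo `r`, is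
"multiplication by the root" on `F[X]/(f)` for an irreducible `f`. -/
theorem exists_adjoinRoot_equiv_of_prime_order {F V : Type*} [Field F] [Fintype F]
    [AddCommGroup V] [Module F V] [FiniteDimensional F V] (φ : Module.End F V) (r : ℕ)
    (hr : r.Prime) (hrF : (r : F) ≠ 0) (hφr : φ ^ r = 1) (hφ1 : φ ≠ 1)
    (hord : orderOf ((Fintype.card F : ℕ) : ZMod r) = finrank F V) :
    ∃ (f : F[X]) (_ : Irreducible f) (ψ : AdjoinRoot f ≃ₗ[F] V),
      ∀ μ, φ (ψ μ) = ψ (AdjoinRoot.root f * μ) := by
  classical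
  have hint : IsIntegral F φ := Algebra.IsIntegral.isIntegral φ
  set Φ : F[X] := ∑ i ∈ Finset.range r, X ^ i with hΦ
  have hgeom : (X - 1) * Φ = X ^ r - 1 := mul_geom_sum X r
  have hΦ1 : Φ.eval 1 = (r : F) := by
    rw [hΦ, Polynomial.eval_finsetSum]
    simp
  have hcop : IsCoprime (X - C (1 : F)) Φ := by
    rw [(Polynomial.irreducible_X_sub_C (1 : F)).coprime_iff_not_dvd, Polynomial.dvd_iff_isRoot,
      Polynomial.IsRoot, hΦ1]
    exact hrF
  have hm : minpoly F φ ∣ (X - C (1 : F)) * Φ := by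
    rw [map_one, hgeom]
    apply minpoly.dvd
    rw [map_sub, map_pow, aeval_X, map_one, hφr, sub_self]
  have hncop : ¬ IsCoprime (minpoly F φ) Φ := by
    intro hc
    have h1 : minpoly F φ ∣ X - C (1 : F) := hc.dvd_of_dvd_mul_right hm
    obtain ⟨c, hc'⟩ := h1
    have h2 : aeval φ (X - C (1 : F)) = 0 := by
      rw [hc', map_mul, minpoly.aeval, zero_mul]
    rw [map_sub, aeval_X, aeval_C, map_one, sub_eq_zero] at h2
    exact hφ1 h2
  rw [← EuclideanDomain.gcd_isUnit_iff] at hncop
  have hd0 : EuclideanDomain.gcd (minpoly F φ) Φ ≠ 0 := by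
    intro h0
    rw [EuclideanDomain.gcd_eq_zero_iff] at h0
    exact minpoly.ne_zero hint h0.1
  obtain ⟨f, hf, hfd⟩ := WfDvdMonoid.exists_irreducible_factor hncop hd0
  have hfm : f ∣ minpoly F φ := hfd.trans (EuclideanDomain.gcd_dvd_left _ _)
  have hfΦ : f ∣ Φ := hfd.trans (EuclideanDomain.gcd_dvd_right _ _)
  have : Fact (Irreducible f) := ⟨hf⟩
  obtain ⟨ψ₀, hinj, hψ₀⟩ := exists_adjoinRoot_embedding φ f hf hfm
  have hfin : Module.Finite F (AdjoinRoot f) := PowerBasis.finite (AdjoinRoot.powerBasis hf.ne_zero)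
  have hfinK : Finite (AdjoinRoot f) := Module.finite_of_finite F
  have : Fintype (AdjoinRoot f) := Fintype.ofFinite _
  -- the root has order `r`
  have hΦroot : ∑ i ∈ Finset.range r, AdjoinRoot.root f ^ i = 0 := by
    have h1 : AdjoinRoot.mk f Φ = 0 := AdjoinRoot.mk_eq_zero.mpr hfΦ
    rw [hΦ, map_sum] at h1
    simpa using h1
  have hroot_pow : AdjoinRoot.root f ^ r = 1 := by
    have := mul_geom_sum (AdjoinRoot.root f) r
    rw [hΦroot, mul_zero] at this
    exact (sub_eq_zero.mp this.symm)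
  have hroot_ne : AdjoinRoot.root f ≠ 1 := by
    intro h1
    rw [h1] at hΦroot
    simp only [one_pow, Finset.sum_const, Finset.card_range, nsmul_eq_mul, mul_one] at hΦroot
    have h2 : algebraMap F (AdjoinRoot f) (r : F) = 0 := by rw [map_natCast]; exact hΦroot
    exact hrF ((map_eq_zero _).mp h2)
  have hroot0 : AdjoinRoot.root f ≠ 0 := by
    intro h0
    rw [h0, zero_pow hr.ne_zero] at hroot_pow
    exact zero_ne_one hroot_pow
  have hordu : orderOf (Units.mk0 (AdjoinRoot.root f) hroot0) = r := by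
    have : Fact r.Prime := ⟨hr⟩
    apply orderOf_eq_prime
    · apply Units.ext
      rw [Units.val_pow_eq_pow_val, Units.val_mk0, hroot_pow, Units.val_one]
    · intro h1
      exact hroot_ne (by simpa using congrArg Units.val h1)
  have hdvd : r ∣ Fintype.card F ^ finrank F (AdjoinRoot f) - 1 := by
    have h1 := orderOf_dvd_natCard (Units.mk0 (AdjoinRoot.root f) hroot0)
    rw [hordu, Nat.card_units, Nat.card_eq_fintype_card, Module.card_eq_pow_finrank (K := F)] at h1
    exact h1
  have hdpos : 0 < finrank F (AdjoinRoot f) := Module.finrank_pos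
  have hpow1 : ((Fintype.card F : ℕ) : ZMod r) ^ finrank F (AdjoinRoot f) = 1 := by
    have h1 : ((Fintype.card F ^ finrank F (AdjoinRoot f) - 1 : ℕ) : ZMod r) = 0 :=
      (ZMod.natCast_eq_zero_iff _ _).mpr hdvd
    rw [Nat.cast_sub (Nat.one_le_pow _ _ Fintype.card_pos), Nat.cast_pow, Nat.cast_one,
      sub_eq_zero] at h1
    exact h1
  have hle1 : finrank F V ≤ finrank F (AdjoinRoot f) := by
    rw [← hord]
    exact Nat.le_of_dvd hdpos (orderOf_dvd_of_pow_eq_one hpow1)
  have hle2 : finrank F (AdjoinRoot f) ≤ finrank F V :=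
    LinearMap.finrank_le_finrank_of_injective hinj
  have heq : finrank F (AdjoinRoot f) = finrank F V := le_antisymm hle2 hle1
  have hsurj : Function.Surjective ψ₀ :=
    (LinearMap.injective_iff_surjective_of_finrank_eq_finrank heq).mp hinj
  exact ⟨f, hf, LinearEquiv.ofBijective ψ₀ ⟨hinj, hsurj⟩, hψ₀⟩

theorem singer_centralizer {F : Type*} [Field F] [Fintype F] {n : ℕ} (x : GL (Fin n) F)
    (f : F[X]) (hf : Irreducible f) (ψ : AdjoinRoot f ≃ₗ[F] (Fin n → F))
    (hψ : ∀ μ, Matrix.mulVec (x : Matrix (Fin n) (Fin n) F) (ψ μ) = ψ (AdjoinRoot.root f * μ))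
    (hcomm : ∀ g : Matrix (Fin n) (Fin n) F, g * (x : Matrix (Fin n) (Fin n) F) = x * g →
      ∃ lam : AdjoinRoot f, ∀ μ, Matrix.mulVec g (ψ μ) = ψ (lam * μ)) :
    IsCyclic ↥(Subgroup.centralizer ({x} : Set (GL (Fin n) F))) ∧
      Nat.card ↥(Subgroup.centralizer ({x} : Set (GL (Fin n) F))) = Fintype.card F ^ n - 1 := by
  classical
  have : Fact (Irreducible f) := ⟨hf⟩
  have hfin : Module.Finite F (AdjoinRoot f) := PowerBasis.finite (AdjoinRoot.powerBasis hf.ne_zero)
  have hfinK : Finite (AdjoinRoot f) := Module.finite_of_finite F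
  have : Fintype (AdjoinRoot f) := Fintype.ofFinite _
  -- matrices are determined by their action on the `ψ μ`
  have hext : ∀ A B : Matrix (Fin n) (Fin n) F,
      (∀ μ, Matrix.mulVec A (ψ μ) = Matrix.mulVec B (ψ μ)) → A = B := by
    intro A B h
    apply Matrix.toLin'.injective
    apply LinearMap.ext
    intro v
    obtain ⟨μ, rfl⟩ := ψ.surjective v
    rw [Matrix.toLin'_apply, Matrix.toLin'_apply, h]
  let M : AdjoinRoot f → Matrix (Fin n) (Fin n) F := fun lam =>
    LinearMap.toMatrix' (ψ.toLinearMap ∘ₗ Algebra.lmul F (AdjoinRoot f) lam ∘ₗ ψ.symm.toLinearMap)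
  have hM : ∀ lam μ, Matrix.mulVec (M lam) (ψ μ) = ψ (lam * μ) := by
    intro lam μ
    rw [LinearMap.toMatrix'_mulVec]
    simp
  let Mh : AdjoinRoot f →* Matrix (Fin n) (Fin n) F :=
    { toFun := M
      map_one' := by
        apply hext
        intro μ
        rw [hM, one_mul, Matrix.one_mulVec]
      map_mul' := by
        intro a b
        apply hext
        intro μ
        rw [hM, ← Matrix.mulVec_mulVec, hM, hM, mul_assoc] }
  have hMh : ∀ lam, Mh lam = M lam := fun _ => rfl
  have hcent : ∀ u : (AdjoinRoot f)ˣ,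
      Units.map Mh u ∈ Subgroup.centralizer ({x} : Set (GL (Fin n) F)) := by
    intro u
    rw [Subgroup.mem_centralizer_iff]
    intro h hh
    rw [Set.mem_singleton_iff] at hh
    subst hh
    apply Units.ext
    rw [Units.val_mul, Units.val_mul, Units.coe_map]
    apply hext
    intro μ
    show Matrix.mulVec (_ * M _) _ = Matrix.mulVec (M _ * _) _
    rw [← Matrix.mulVec_mulVec, ← Matrix.mulVec_mulVec, hM, hψ, hψ, hM]
    congr 1
    ring
  let Θ : (AdjoinRoot f)ˣ →* ↥(Subgroup.centralizer ({x} : Set (GL (Fin n) F))) :=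
    (Units.map Mh).codRestrict _ hcent
  have hΘ : ∀ u : (AdjoinRoot f)ˣ, (((Θ u : GL (Fin n) F)) : Matrix (Fin n) (Fin n) F) = M u :=
    fun _ => rfl
  have hinj : Function.Injective Θ := by
    intro a b hab
    have h1 : M a = M b := by rw [← hΘ, ← hΘ, hab]
    have h2 : ψ ((a : AdjoinRoot f) * 1) = ψ ((b : AdjoinRoot f) * 1) := by
      rw [← hM, ← hM, h1]
    apply Units.ext
    simpa using ψ.injective h2
  have hsurj : Function.Surjective Θ := by
    rintro ⟨g, hg⟩
    rw [Subgroup.mem_centralizer_iff] at hg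
    have hg' : (g : Matrix (Fin n) (Fin n) F) * x = x * g := by
      have := hg x rfl
      rw [← Units.val_mul, ← Units.val_mul, this]
    obtain ⟨lam, hlam⟩ := hcomm g hg'
    have hlam0 : lam ≠ 0 := by
      rintro rfl
      have h1 := hlam 1
      rw [zero_mul, map_zero] at h1
      have h2 : Matrix.mulVec ((g⁻¹ : GL (Fin n) F) : Matrix (Fin n) (Fin n) F)
          (Matrix.mulVec (g : Matrix (Fin n) (Fin n) F) (ψ 1)) = 0 := by
        rw [h1, Matrix.mulVec_zero]
      rw [Matrix.mulVec_mulVec, ← Units.val_mul, inv_mul_cancel, Units.val_one,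
        Matrix.one_mulVec] at h2
      have h3 : (1 : AdjoinRoot f) = 0 := ψ.injective (by rw [h2, map_zero])
      exact one_ne_zero h3
    refine ⟨Units.mk0 lam hlam0, ?_⟩
    apply Subtype.ext
    apply Units.ext
    rw [hΘ]
    apply hext
    intro μ
    rw [hM, Units.val_mk0, hlam]
  refine ⟨isCyclic_of_surjective Θ hsurj, ?_⟩
  rw [← Nat.card_congr (Equiv.ofBijective Θ ⟨hinj, hsurj⟩), Nat.card_units,
    Nat.card_eq_fintype_card, Module.card_eq_pow_finrank (K := F), ψ.finrank_eq,
    Module.finrank_fin_fun]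

end Cfsg.Agent.H48
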