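import Cfsg.Agent.H48.SpLagr
import Cfsg.Agent.H48.OrthCount

/-!
# Elements of odd prime order of `Sp` without invariant pair of complementary Lagrangians
-/

set_option autoImplicit false

namespace Cfsg.Agent.H48

open Matrix Polynomial

section SpElusive

variable {F : Type*} [Field F]

/-- Arithmetic: `|GL_d(q)|` times the number of pairs is `|Sp_2d(q)|`. -/
theorem gl_mul_eq_sp (q d : ℕ) (hq : 1 ≤ q) :
    (∏ i : Fin d, (q ^ d - q ^ (i : ℕ))) *
        ((∏ i ∈ Finset.range d, q ^ (d - i)) * ∏ i ∈ Finset.range d, (q ^ (i + 1) + 1))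
      = q ^ (d ^ 2) * ∏ i ∈ Finset.range d, (q ^ (2 * (i + 1)) - 1) := by
  have h1 : (∏ i : Fin d, (q ^ d - q ^ (i : ℕ)))
      = (∏ i ∈ Finset.range d, q ^ i) * ∏ i ∈ Finset.range d, (q ^ (i + 1) - 1) := by
    rw [← Finset.prod_range (fun i => q ^ d - q ^ i)]
    have h2 : ∏ i ∈ Finset.range d, (q ^ (i + 1) - 1)
        = ∏ i ∈ Finset.range d, (q ^ (d - i) - 1) := by
      rw [← Finset.prod_range_reflect (fun j => q ^ (j + 1) - 1) d]
      apply Finset.prod_congr rfl
      intro i hi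
      rw [Finset.mem_range] at hi
      have e : d - 1 - i + 1 = d - i := by omega
      rw [e]
    rw [h2, ← Finset.prod_mul_distrib]
    apply Finset.prod_congr rfl
    intro i hi
    rw [Finset.mem_range] at hi
    have e : q ^ d = q ^ i * q ^ (d - i) := by
      rw [← pow_add]
      congr 1
      omega
    rw [Nat.mul_sub, mul_one, ← e]
  have h3 : ∀ i : ℕ, (q ^ (i + 1) - 1) * (q ^ (i + 1) + 1) = q ^ (2 * (i + 1)) - 1 := by
    intro i
    have h4 : 1 ≤ q ^ (i + 1) := Nat.one_le_pow _ _ hq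
    have h5 : q ^ (2 * (i + 1)) = q ^ (i + 1) * q ^ (i + 1) := by
      rw [← pow_add]
      congr 1
      omega
    rw [h5]
    obtain ⟨a, ha⟩ : ∃ a, q ^ (i + 1) = a + 1 := ⟨q ^ (i + 1) - 1, by omega⟩
    rw [ha]
    simp only [Nat.add_sub_cancel]
    have h6 : (a + 1) * (a + 1) - 1 = a * (a + 1 + 1) := by
      have : (a + 1) * (a + 1) = a * (a + 1 + 1) + 1 := by ring
      omega
    rw [h6]
  have h7 : (∏ i ∈ Finset.range d, q ^ i) * (∏ i ∈ Finset.range d, q ^ (d - i)) = q ^ (d ^ 2) := by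
    rw [← Finset.prod_mul_distrib]
    have h8 : ∀ i ∈ Finset.range d, q ^ i * q ^ (d - i) = q ^ d := by
      intro i hi
      rw [Finset.mem_range] at hi
      rw [← pow_add]
      congr 1
      omega
    rw [Finset.prod_congr rfl h8, Finset.prod_const, Finset.card_range, ← pow_mul, sq]
  rw [h1]
  calc (∏ i ∈ Finset.range d, q ^ i) * (∏ i ∈ Finset.range d, (q ^ (i + 1) - 1)) *
        ((∏ i ∈ Finset.range d, q ^ (d - i)) * ∏ i ∈ Finset.range d, (q ^ (i + 1) + 1))
      = ((∏ i ∈ Finset.range d, q ^ i) * (∏ i ∈ Finset.range d, q ^ (d - i))) *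
        ((∏ i ∈ Finset.range d, (q ^ (i + 1) - 1)) * ∏ i ∈ Finset.range d, (q ^ (i + 1) + 1)) := by
        ring
    _ = q ^ (d ^ 2) * ∏ i ∈ Finset.range d, (q ^ (2 * (i + 1)) - 1) := by
        rw [h7, ← Finset.prod_mul_distrib]
        congr 1
        apply Finset.prod_congr rfl
        intro i _
        exact h3 i

/-- The number of ordered pairs of complementary Lagrangians. -/
theorem card_lagPairs_eq [Fintype F] (d : ℕ) :
    Nat.card (LagPairs d F)
      = (∏ i ∈ Finset.range d, Fintype.card F ^ (d - i)) *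
          ∏ i ∈ Finset.range d, (Fintype.card F ^ (i + 1) + 1) := by
  have hq : 1 ≤ Fintype.card F := Fintype.card_pos
  have h1 := card_lagPairs (F := F) d
  rw [Cfsg.Agent.H50.SpCard.card_sp (q := Fintype.card F) rfl d, Matrix.card_GL_field,
    ← gl_mul_eq_sp (Fintype.card F) d hq, mul_comm] at h1
  have h0 : 0 < ∏ i : Fin d, (Fintype.card F ^ d - Fintype.card F ^ (i : ℕ)) := by
    apply Finset.prod_pos
    intro i _
    have : Fintype.card F ^ (i : ℕ) < Fintype.card F ^ d :=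
      Nat.pow_lt_pow_right Fintype.one_lt_card i.2
    omega
  exact (Nat.eq_of_mul_eq_mul_right h0 h1).symm

/-- No invariant pair of complementary Lagrangians when a self-reciprocal irreducible factor
occurs exactly once in the characteristic polynomial. -/
theorem no_lagr_pair_of_charpoly (d : ℕ) (x : Matrix.symplecticGroup (Fin d) F) (P : F[X])
    (hP : Irreducible P) (hPrev : P ∣ P.reverse) (k : ℕ)
    (hx : (x : Matrix (Fin d ⊕ Fin d) (Fin d ⊕ Fin d) F).charpoly = (X - 1) ^ k * P)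
    (hP1 : ¬ P ∣ (X - 1))
    (U W : Submodule F (Fin d ⊕ Fin d → F)) (hc : IsCompl U W)
    (hU : ∀ u ∈ U, ∀ v ∈ U, Cfsg.sympForm d F u v = 0)
    (hW : ∀ u ∈ W, ∀ v ∈ W, Cfsg.sympForm d F u v = 0)
    (hxU : U.map (Matrix.toLin' (x : Matrix (Fin d ⊕ Fin d) (Fin d ⊕ Fin d) F)) = U)
    (hxW : W.map (Matrix.toLin' (x : Matrix (Fin d ⊕ Fin d) (Fin d ⊕ Fin d) F)) = W) :
    False := by
  classical
  obtain ⟨g, hgU, hgW⟩ := exists_sp_lagr d U W hc hU hW
  obtain ⟨Pr, hPr⟩ : ∃ Pr : LagPairs d F, Pr = ⟨(U, W), hc, hU, hW⟩ := ⟨_, rfl⟩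
  have h1 : lagAct d g (lagBase d) = Pr := by
    rw [hPr]
    exact Subtype.ext (Prod.ext hgU hgW)
  have h2 : lagAct d x Pr = Pr := by
    rw [hPr]
    exact Subtype.ext (Prod.ext hxU hxW)
  have h3 : lagAct d (g⁻¹ * x * g) (lagBase d) = lagBase d := by
    rw [lagAct_mul, lagAct_mul, h1, h2, ← h1, ← lagAct_mul, inv_mul_cancel, lagAct_one]
  obtain ⟨y, hy⟩ : ∃ y : Matrix.symplecticGroup (Fin d) F, y = g⁻¹ * x * g := ⟨_, rfl⟩
  rw [← hy] at h3
  obtain ⟨hblock, hAD⟩ := sp_block_of_fix d y ((lagAct_base_iff d y).mp h3).1.le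
    ((lagAct_base_iff d y).mp h3).2.le
  obtain ⟨A, hA⟩ : ∃ A : Matrix (Fin d) (Fin d) F,
      A = (y : Matrix (Fin d ⊕ Fin d) (Fin d ⊕ Fin d) F).toBlocks₁₁ := ⟨_, rfl⟩
  obtain ⟨D, hD⟩ : ∃ D : Matrix (Fin d) (Fin d) F,
      D = (y : Matrix (Fin d ⊕ Fin d) (Fin d ⊕ Fin d) F).toBlocks₂₂ := ⟨_, rfl⟩
  rw [← hA, ← hD] at hblock hAD
  have hychar : (y : Matrix (Fin d ⊕ Fin d) (Fin d ⊕ Fin d) F).charpoly
      = (x : Matrix (Fin d ⊕ Fin d) (Fin d ⊕ Fin d) F).charpoly := by
    have e1 : (y : Matrix (Fin d ⊕ Fin d) (Fin d ⊕ Fin d) F)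
        = ((g⁻¹ : Matrix.symplecticGroup (Fin d) F) : Matrix (Fin d ⊕ Fin d) (Fin d ⊕ Fin d) F) *
          ((x : Matrix (Fin d ⊕ Fin d) (Fin d ⊕ Fin d) F) *
            (g : Matrix (Fin d ⊕ Fin d) (Fin d ⊕ Fin d) F)) := by
      rw [hy, mul_assoc]
      rfl
    have e2 : (g : Matrix (Fin d ⊕ Fin d) (Fin d ⊕ Fin d) F) *
        ((g⁻¹ : Matrix.symplecticGroup (Fin d) F) : Matrix (Fin d ⊕ Fin d) (Fin d ⊕ Fin d) F)
        = 1 := by
      rw [← Submonoid.coe_mul, mul_inv_cancel]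
      rfl
    rw [e1, Matrix.charpoly_mul_comm, mul_assoc, e2, mul_one]
  have hdetA : A.det ≠ 0 := Matrix.det_ne_zero_of_right_inverse hAD
  have hDA : D = (A⁻¹)ᵀ := by
    rw [Matrix.inv_eq_right_inv hAD, Matrix.transpose_transpose]
  have hchar : (X - 1) ^ k * P = A.charpoly * (C (A.charpoly.coeff 0)⁻¹ * A.charpoly.reverse) := by
    rw [← hx, ← hychar, hblock, Matrix.charpoly_fromBlocks_zero₁₂, hDA, Matrix.charpoly_transpose,
      Cfsg.Agent.H45.charpoly_inv_eq A hdetA]
  have hf0 : A.charpoly.coeff 0 ≠ 0 := by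
    intro h0
    apply hdetA
    rw [Matrix.det_eq_sign_charpoly_coeff, h0, mul_zero]
  have hc0 : (A.charpoly.coeff 0)⁻¹ ≠ 0 := inv_ne_zero hf0
  have hPdvd : P ∣ A.charpoly * (C (A.charpoly.coeff 0)⁻¹ * A.charpoly.reverse) :=
    ⟨(X - 1) ^ k, by rw [← hchar, mul_comm]⟩
  have hboth : P ∣ A.charpoly ∧ P ∣ A.charpoly.reverse := by
    rcases hP.prime.dvd_or_dvd hPdvd with h | h
    · refine ⟨h, ?_⟩
      obtain ⟨w, hw⟩ := h
      rw [hw, Polynomial.reverse_mul_of_domain]
      exact hPrev.trans (dvd_mul_right _ _)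
    · rw [Polynomial.dvd_C_mul hc0] at h
      refine ⟨?_, h⟩
      obtain ⟨w, hw⟩ := h
      have h4 := congrArg Polynomial.reverse hw
      rw [reverse_reverse_of_coeff_zero _ hf0, Polynomial.reverse_mul_of_domain] at h4
      rw [h4]
      exact hPrev.trans (dvd_mul_right _ _)
  have hPP : P * P ∣ (X - 1) ^ k * P := by
    rw [hchar]
    exact mul_dvd_mul hboth.1 (hboth.2.trans (dvd_mul_left _ _))
  have hP0 : P ≠ 0 := hP.ne_zero
  have h5 : P ∣ (X - 1) ^ k := (mul_dvd_mul_iff_right hP0).mp hPP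
  exact hP1 (hP.prime.dvd_of_dvd_pow h5)

end SpElusive

section SpTuple

variable {F : Type*} [Field F] [Fintype F]

/-- Existence of elements of prime order `r` of `Sp_2m(q)` with prescribed multiplicity tuple. -/
theorem exists_sp_tuple (p : ℕ) [Fact p.Prime] [CharP F p] (m r i : ℕ)
    (hr : r.Prime) (hrp : r ≠ p) (Φ : Finset F[X]) (hΦ : ∀ P ∈ Φ, Irreducible P ∧ P.Monic)
    (hdeg : ∀ P ∈ Φ, P.natDegree = i) (hLΦ : (X - 1 : F[X]) ∉ Φ)
    (hprod : (X - 1) * ∏ P ∈ Φ, P = (X ^ r - 1 : F[X])) (hi : 0 < i)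
    (star : Φ → Φ) (hstar : ∀ P : Φ, RevRel (P : F[X]) (star P : F[X]))
    (hinv : Function.Involutive star)
    (hpar : ∀ a : Φ → ℕ, (∀ P, a (star P) = a P) → Even (i * ∑ P, a P))
    (a : Φ → ℕ) (hainv : ∀ P, a (star P) = a P) (ha : a ≠ 0) (hle : i * ∑ P, a P ≤ 2 * m) :
    ∃ g : Matrix.symplecticGroup (Fin m) F, orderOf g = r ∧
      (g : Matrix (Fin m ⊕ Fin m) (Fin m ⊕ Fin m) F).charpoly
        = facPoly (X - 1) Φ (2 * m - i * ∑ P, a P) a := by
  classical
  have hp : p.Prime := Fact.out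
  have hL : Irreducible (X - 1 : F[X]) := by simpa using irreducible_X_sub_C (1 : F)
  have hLm : (X - 1 : F[X]).Monic := by simpa using monic_X_sub_C (1 : F)
  have hLd : (X - 1 : F[X]).natDegree = 1 := by simpa using natDegree_X_sub_C (1 : F)
  have hΦm : ∀ P ∈ Φ, P.Monic := fun P hP => (hΦ P hP).2
  have hpr : ¬ p ∣ r := fun h => hrp ((Nat.prime_dvd_prime_iff_eq hp hr).mp h).symm
  have hp1 : ¬ p ∣ 1 := fun h => hp.one_lt.ne' (Nat.dvd_one.mp h)
  have hcard : Fintype.card (Fin m ⊕ Fin m) = 2 * m := by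
    rw [Fintype.card_sum, Fintype.card_fin]
    ring
  have h1P : ∀ P ∈ Φ, P.eval 1 ≠ 0 := by
    intro P hP h
    have hd : (X - C (1 : F)) ∣ P := dvd_iff_isRoot.mpr h
    have h2 := eq_of_monic_of_associated (monic_X_sub_C 1) (hΦ P hP).2
      ((irreducible_X_sub_C 1).associated_of_dvd (hΦ P hP).1 hd)
    apply hLΦ
    rw [← h2] at hP
    simpa using hP
  obtain ⟨f, hf⟩ : ∃ f : (Φ → ℕ) → F[X],
      f = fun a => facPoly (X - 1) Φ (2 * m - i * ∑ P, a P) a := ⟨_, rfl⟩
  have hle1 : ∀ (a : Φ → ℕ) (P : Φ), a P ≤ i * ∑ Q, a Q := by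
    intro a P
    calc a P ≤ ∑ Q, a Q := Finset.single_le_sum (fun _ _ => Nat.zero_le _) (Finset.mem_univ P)
      _ ≤ i * ∑ Q, a Q := Nat.le_mul_of_pos_left _ hi
  have hgpow : ∀ g : Matrix.symplecticGroup (Fin m) F, orderOf g = r →
      (g : Matrix (Fin m ⊕ Fin m) (Fin m ⊕ Fin m) F) ^ r = 1 := by
    intro g hg
    have h1 := pow_orderOf_eq_one g
    rw [hg] at h1
    have h2 := congrArg Subtype.val h1
    exact h2
  have hone : (1 : Matrix (Fin m ⊕ Fin m) (Fin m ⊕ Fin m) F) ∈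
      Matrix.symplecticGroup (Fin m) F := one_mem _
  have hex : ∀ a : Φ → ℕ, (∀ P, a (star P) = a P) → a ≠ 0 → i * ∑ P, a P ≤ 2 * m →
      ∃ g : Matrix.symplecticGroup (Fin m) F, orderOf g = r ∧
        (g : Matrix (Fin m ⊕ Fin m) (Fin m ⊕ Fin m) F).charpoly = f a := by
    intro a hainv ha hle
    have hfm : (f a).Monic := by
      rw [hf]
      exact facPoly_monic _ _ hΦm hLm _ _
    have hfd : (f a).natDegree = 2 * m := by
      rw [hf]
      simp only
      rw [natDegree_facPoly _ _ hΦm hLm i hdeg, hLd, mul_one]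
      omega
    have hdiv : f a ∣ (X ^ r - 1) ^ (2 * m) := by
      rw [← hprod, hf]
      apply facPoly_dvd
      · exact Nat.sub_le _ _
      · intro P
        exact (hle1 a P).trans hle
    have hf0 : (f a).coeff 0 ≠ 0 := by
      intro h0
      have hX : (X : F[X]) ∣ f a := X_dvd_iff.mpr h0
      have h1 := prime_X.dvd_of_dvd_pow (hX.trans hdiv)
      rw [X_dvd_iff] at h1
      have hr0 : ¬ (0 = r) := fun h => hr.ne_zero h.symm
      simp [coeff_X_pow, hr0, coeff_one] at h1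
    have hstara : (fun P => a (star P)) = a := funext hainv
    have hrev : RevRel (f a) (f a) := by
      have h1 := reverse_facPoly Φ star hstar hinv (2 * m - i * ∑ P, a P) a
      rw [hstara] at h1
      rw [hf]
      exact h1
    have hassoc : Associated (f a) (Cfsg.Agent.H45.dualPoly (RingHom.id F) (f a)) := by
      obtain ⟨u, hu, e⟩ := hrev
      exact Cfsg.Agent.H45.associated_dualPoly_of_eq (RingHom.id F) (f a) u hu
        (by rw [Cfsg.Agent.H45.dualPoly_id]; exact e)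
    have hc0 : (f a).coeff 0 = 1 := by
      have hg : RevRel (facPoly (X - 1) Φ 0 a) (facPoly (X - 1) Φ 0 a) := by
        have h1 := reverse_facPoly Φ star hstar hinv 0 a
        rw [hstara] at h1
        exact h1
      obtain ⟨u, hu, e⟩ := hg
      have hgm : (facPoly (X - 1) Φ 0 a).Monic := facPoly_monic _ _ hΦm hLm _ _
      have e0 : u * (facPoly (X - 1) Φ 0 a).coeff 0 = 1 := by
        have h1 := congrArg (fun f => f.coeff 0) e
        simp only [coeff_zero_reverse, coeff_C_mul] at h1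
        rw [hgm.leadingCoeff] at h1
        exact h1.symm
      have e1 : (facPoly (X - 1) Φ 0 a).eval 1 ≠ 0 := by
        unfold facPoly
        rw [pow_zero, one_mul, eval_prod]
        apply Finset.prod_ne_zero_iff.mpr
        intro P _
        rw [eval_pow]
        exact pow_ne_zero _ (h1P P P.2)
      have e2 : u = 1 := by
        have h1 := congrArg (eval 1) e
        rw [Cfsg.Agent.H45.eval_one_reverse, eval_mul, eval_C] at h1
        have h3 : (u - 1) * (facPoly (X - 1) Φ 0 a).eval 1 = 0 := by linear_combination -h1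
        rcases mul_eq_zero.mp h3 with h | h
        · linear_combination h
        · exact absurd h e1
      rw [e2, one_mul] at e0
      have hsplit : f a = (X - 1) ^ (2 * m - i * ∑ P, a P) * facPoly (X - 1) Φ 0 a := by
        rw [hf]
        unfold facPoly
        rw [pow_zero, one_mul]
      have hev : Even (2 * m - i * ∑ P, a P) := by
        rw [Nat.even_sub hle]
        exact iff_of_true (even_two_mul m) (hpar a hainv)
      rw [hsplit, mul_coeff_zero, e0, mul_one, coeff_zero_eq_eval_zero, eval_pow, eval_sub,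
        eval_X, eval_one, zero_sub, hev.neg_one_pow]
    have hreal := Cfsg.Agent.H45.exists_realizable (σ := RingHom.id F) p (fun _ => rfl) (-1)
      (by simp) (fun _ => rfl) (2 * m) (f a) hfd hfm hf0 hassoc
      (fun _ => ⟨hc0, by rw [hfd]; exact even_two_mul m⟩)
    obtain ⟨A, hAmem, hA, k, hk, hAk⟩ :=
      Cfsg.Agent.H45.exists_sp_of_realizable p m (f a) hreal hfd
    have hn0 : 2 * m ≠ 0 := by
      intro h0
      apply ha
      funext P
      have h1 := (hle1 a P).trans hle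
      rw [h0] at h1
      simpa using h1
    have hsq : Squarefree (minpoly F A) := by
      have hsep : (X ^ k - C (1 : F)).Separable :=
        separable_X_pow_sub_C' p k (1 : F) hk one_ne_zero
      apply hsep.squarefree.squarefree_of_dvd
      apply minpoly.dvd
      simp [hAk]
    have hmin : minpoly F A ∣ X ^ r - 1 := by
      rw [← hsq.dvd_pow_iff_dvd hn0]
      exact (Matrix.minpoly_dvd_charpoly A).trans (hA ▸ hdiv)
    have hAr : A ^ r = 1 := by
      obtain ⟨w, hw⟩ := hmin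
      have h1 := congrArg (aeval A) hw
      rw [map_mul, minpoly.aeval, zero_mul] at h1
      simpa [sub_eq_zero] using h1
    have hA1 : A ≠ 1 := by
      rintro rfl
      rw [Matrix.charpoly_one, hcard] at hA
      have h0 : (X - 1 : F[X]) ^ (2 * m) = facPoly (X - 1) Φ (2 * m) 0 := by
        unfold facPoly
        simp
      rw [h0, hf] at hA
      exact ha (facPoly_inj _ _ hΦ hL hLm hLΦ _ _ _ _ hA).symm
    refine ⟨⟨A, hAmem⟩, ?_, hA⟩
    have : Fact r.Prime := ⟨hr⟩
    apply orderOf_eq_prime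
    · apply Subtype.ext
      exact hAr
    · intro h
      exact hA1 (congrArg Subtype.val h)
  obtain ⟨g, hg, hgc⟩ := hex a hainv ha hle
  exact ⟨g, hg, by rw [hgc, hf]⟩

end SpTuple

end Cfsg.Agent.H48
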