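import Cfsg.Agent.H17.SpBlock
import Cfsg.Agent.H50.SpCard
import Cfsg.Agent.H48.PrimeOrdSp

/-!
# Pairs of complementary Lagrangians in the symplectic space

The symplectic group is transitive on ordered pairs of complementary totally isotropic subspaces
of the standard symplectic space, with stabiliser `GL_d`.
-/

set_option autoImplicit false

namespace Cfsg.Agent.H48

open Matrix

section SpLagr

variable {F : Type*} [Field F] (d : ℕ)

/-- The standard Lagrangian spanned by the first `d` basis vectors. -/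
def lagL (F : Type*) [Field F] : Submodule F (Fin d ⊕ Fin d → F) where
  carrier := {v | ∀ j, v (Sum.inr j) = 0}
  add_mem' := fun {a b} ha hb j => by
    show a (Sum.inr j) + b (Sum.inr j) = 0
    rw [ha j, hb j, add_zero]
  zero_mem' := fun _ => rfl
  smul_mem' := fun c a ha j => by
    show c * a (Sum.inr j) = 0
    rw [ha j, mul_zero]

/-- The standard Lagrangian spanned by the last `d` basis vectors. -/
def lagR (F : Type*) [Field F] : Submodule F (Fin d ⊕ Fin d → F) where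
  carrier := {v | ∀ i, v (Sum.inl i) = 0}
  add_mem' := fun {a b} ha hb j => by
    show a (Sum.inl j) + b (Sum.inl j) = 0
    rw [ha j, hb j, add_zero]
  zero_mem' := fun _ => rfl
  smul_mem' := fun c a ha j => by
    show c * a (Sum.inl j) = 0
    rw [ha j, mul_zero]

theorem mem_lagL (v : Fin d ⊕ Fin d → F) : v ∈ lagL d F ↔ ∀ j, v (Sum.inr j) = 0 := Iff.rfl

theorem mem_lagR (v : Fin d ⊕ Fin d → F) : v ∈ lagR d F ↔ ∀ i, v (Sum.inl i) = 0 := Iff.rfl

theorem lagL_isotropic (u : Fin d ⊕ Fin d → F) (hu : u ∈ lagL d F) (v : Fin d ⊕ Fin d → F)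
    (hv : v ∈ lagL d F) : Cfsg.sympForm d F u v = 0 := by
  rw [Cfsg.Agent.H17.sympForm_eq_sum]
  apply Finset.sum_eq_zero
  intro i _
  rw [hu i, hv i]
  ring

theorem lagR_isotropic (u : Fin d ⊕ Fin d → F) (hu : u ∈ lagR d F) (v : Fin d ⊕ Fin d → F)
    (hv : v ∈ lagR d F) : Cfsg.sympForm d F u v = 0 := by
  rw [Cfsg.Agent.H17.sympForm_eq_sum]
  apply Finset.sum_eq_zero
  intro i _
  rw [hu i, hv i]
  ring

theorem isCompl_lagL_lagR : IsCompl (lagL d F) (lagR d F) := by
  constructor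
  · rw [Submodule.disjoint_def]
    intro v h1 h2
    funext a
    rcases a with i | j
    · exact h2 i
    · exact h1 j
  · rw [codisjoint_iff, eq_top_iff]
    intro v _
    rw [Submodule.mem_sup]
    refine ⟨Sum.elim (fun i => v (Sum.inl i)) (fun _ => 0), fun j => rfl,
      Sum.elim (fun _ => 0) (fun j => v (Sum.inr j)), fun i => rfl, ?_⟩
    funext a
    rcases a with i | j
    · simp
    · simp

/-- The symplectic group is transitive on pairs of complementary Lagrangians. -/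
theorem exists_sp_lagr (U W : Submodule F (Fin d ⊕ Fin d → F)) (hc : IsCompl U W)
    (hU : ∀ u ∈ U, ∀ v ∈ U, Cfsg.sympForm d F u v = 0)
    (hW : ∀ u ∈ W, ∀ v ∈ W, Cfsg.sympForm d F u v = 0) :
    ∃ g : Matrix.symplecticGroup (Fin d) F,
      (lagL d F).map (Matrix.toLin' (g : Matrix (Fin d ⊕ Fin d) (Fin d ⊕ Fin d) F)) = U ∧
      (lagR d F).map (Matrix.toLin' (g : Matrix (Fin d ⊕ Fin d) (Fin d ⊕ Fin d) F)) = W := by
  classical
  have hdecomp : ∀ c : Fin d ⊕ Fin d → F, ∃ u ∈ U, ∃ w ∈ W, u + w = c := by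
    intro c
    have h : c ∈ U ⊔ W := by
      rw [hc.sup_eq_top]
      trivial
    exact Submodule.mem_sup.mp h
  have hinjW : ∀ w ∈ W, (∀ u ∈ U, Cfsg.sympForm d F w u = 0) → w = 0 := by
    intro w hw h
    apply Cfsg.Agent.H17.sympForm_nd d
    intro c
    obtain ⟨u, hu, w', hw', rfl⟩ := hdecomp c
    rw [Cfsg.Agent.H17.sympForm_add_left, Cfsg.Agent.H17.sympForm_swap, h u hu, hW w' hw' w hw]
    simp
  have hinjU : ∀ u ∈ U, (∀ w ∈ W, Cfsg.sympForm d F u w = 0) → u = 0 := by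
    intro u hu h
    apply Cfsg.Agent.H17.sympForm_nd d
    intro c
    obtain ⟨u', hu', w, hw, rfl⟩ := hdecomp c
    rw [Cfsg.Agent.H17.sympForm_add_left, hU u' hu' u hu, Cfsg.Agent.H17.sympForm_swap, h w hw]
    simp
  have hdim : Module.finrank F U + Module.finrank F W = 2 * d := by
    rw [Submodule.finrank_add_eq_of_isCompl hc, Module.finrank_fintype_fun_eq_card]
    simp
    ring
  have hUW : Module.finrank F U ≤ Module.finrank F W := by
    obtain ⟨ψ, hψ⟩ : ∃ ψ : U →ₗ[F] Module.Dual F W,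
        ψ = (Cfsg.Agent.H17.sympBilin d F).compl₁₂ U.subtype W.subtype := ⟨_, rfl⟩
    have hinj : Function.Injective ψ := by
      rw [← LinearMap.ker_eq_bot, LinearMap.ker_eq_bot']
      intro u hu0
      apply Subtype.ext
      apply hinjU u.1 u.2
      intro w hw
      have h1 := congrArg (fun l : Module.Dual F W => l ⟨w, hw⟩) hu0
      rw [hψ] at h1
      simpa [Cfsg.Agent.H17.sympBilin_apply] using h1
    have h := LinearMap.finrank_le_finrank_of_injective hinj
    rwa [Subspace.dual_finrank_eq] at h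
  have hWU : Module.finrank F W ≤ Module.finrank F U := by
    obtain ⟨ψ, hψ⟩ : ∃ ψ : W →ₗ[F] Module.Dual F U,
        ψ = (Cfsg.Agent.H17.sympBilin d F).compl₁₂ W.subtype U.subtype := ⟨_, rfl⟩
    have hinj : Function.Injective ψ := by
      rw [← LinearMap.ker_eq_bot, LinearMap.ker_eq_bot']
      intro w hw0
      apply Subtype.ext
      apply hinjW w.1 w.2
      intro u hu
      have h1 := congrArg (fun l : Module.Dual F U => l ⟨u, hu⟩) hw0
      rw [hψ] at h1
      simpa [Cfsg.Agent.H17.sympBilin_apply] using h1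
    have h := LinearMap.finrank_le_finrank_of_injective hinj
    rwa [Subspace.dual_finrank_eq] at h
  have hUd : Module.finrank F U = d := by omega
  have hWd : Module.finrank F W = d := by omega
  obtain ⟨b⟩ : Nonempty (Module.Basis (Fin d) F U) := ⟨Module.finBasisOfFinrankEq F U hUd⟩
  obtain ⟨φ, hφ⟩ : ∃ φ : W →ₗ[F] (Fin d → F), φ = LinearMap.pi
      (fun i => ((Cfsg.Agent.H17.sympBilin d F).flip (b i : Fin d ⊕ Fin d → F)).domRestrict W) :=
    ⟨_, rfl⟩
  have hφa : ∀ (w : W) (i : Fin d), φ w i = Cfsg.sympForm d F (w : Fin d ⊕ Fin d → F) (b i) := by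
    intro w i
    rw [hφ]
    simp [Cfsg.Agent.H17.sympBilin_apply]
  have hφinj : Function.Injective φ := by
    rw [← LinearMap.ker_eq_bot, LinearMap.ker_eq_bot']
    intro w hw0
    apply Subtype.ext
    apply hinjW w.1 w.2
    intro u hu
    have h0 : ((Cfsg.Agent.H17.sympBilin d F) (w : Fin d ⊕ Fin d → F)).domRestrict U = 0 := by
      apply b.ext
      intro i
      have h1 := congrFun hw0 i
      rw [hφa] at h1
      simpa [Cfsg.Agent.H17.sympBilin_apply] using h1
    have h2 := congrArg (fun l : U →ₗ[F] F => l ⟨u, hu⟩) h0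
    simpa [Cfsg.Agent.H17.sympBilin_apply] using h2
  have hφsurj : Function.Surjective φ := by
    apply (LinearMap.injective_iff_surjective_of_finrank_eq_finrank _).mp hφinj
    rw [hWd]
    simp
  choose wv hwv using fun j : Fin d => hφsurj (Pi.single j 1)
  obtain ⟨u, hu⟩ : ∃ u : Fin d ⊕ Fin d → Fin d ⊕ Fin d → F,
      u = Sum.elim (fun i => (b i : Fin d ⊕ Fin d → F)) (fun j => (wv j : Fin d ⊕ Fin d → F)) :=
    ⟨_, rfl⟩
  have hG : ∀ a a', Cfsg.sympForm d F (u a) (u a') = Matrix.J (Fin d) F a a' := by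
    intro a a'
    rw [hu]
    rcases a with i | i <;> rcases a' with j | j
    · simp only [Sum.elim_inl]
      rw [hU _ (b i).2 _ (b j).2]
      simp [Matrix.J]
    · simp only [Sum.elim_inl, Sum.elim_inr]
      rw [Cfsg.Agent.H17.sympForm_swap, ← hφa, hwv]
      simp [Matrix.J, Matrix.one_apply, Pi.single_apply, eq_comm]
    · simp only [Sum.elim_inl, Sum.elim_inr]
      rw [← hφa, hwv]
      simp [Matrix.J, Matrix.one_apply, Pi.single_apply, eq_comm]
    · simp only [Sum.elim_inr]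
      rw [hW _ (wv i).2 _ (wv j).2]
      simp [Matrix.J]
  obtain ⟨g, hg⟩ : ∃ g : Matrix (Fin d ⊕ Fin d) (Fin d ⊕ Fin d) F,
      g = Matrix.of (fun x a => u a x) := ⟨_, rfl⟩
  have hgmul : ∀ c : Fin d ⊕ Fin d → F, g *ᵥ c = ∑ a, c a • u a := by
    intro c
    funext x
    rw [hg]
    simp only [Matrix.mulVec, dotProduct, Matrix.of_apply, Finset.sum_apply, Pi.smul_apply,
      smul_eq_mul]
    apply Finset.sum_congr rfl
    intro a _
    ring
  have hgmem : g ∈ Matrix.symplecticGroup (Fin d) F := by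
    rw [Cfsg.Agent.H17.mem_symplecticGroup_iff_form]
    intro c c'
    rw [hgmul, hgmul]
    exact Cfsg.Agent.H17.sympForm_gram d d u hG c c'
  have hgsum : ∀ c : Fin d ⊕ Fin d → F, g *ᵥ c
      = ∑ i, c (Sum.inl i) • (b i : Fin d ⊕ Fin d → F)
        + ∑ j, c (Sum.inr j) • (wv j : Fin d ⊕ Fin d → F) := by
    intro c
    rw [hgmul, Fintype.sum_sum_type, hu]
    simp only [Sum.elim_inl, Sum.elim_inr]
  refine ⟨⟨g, hgmem⟩, ?_, ?_⟩
  · apply le_antisymm
    · rintro _ ⟨c, hc', rfl⟩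
      rw [Matrix.toLin'_apply, hgsum]
      have h0 : ∑ j, c (Sum.inr j) • (wv j : Fin d ⊕ Fin d → F) = 0 := by
        apply Finset.sum_eq_zero
        intro j _
        rw [hc' j, zero_smul]
      rw [h0, add_zero]
      exact Submodule.sum_mem _ (fun i _ => Submodule.smul_mem _ _ (b i).2)
    · intro x hx
      refine ⟨Sum.elim (fun i => b.repr ⟨x, hx⟩ i) (fun _ => 0), fun j => rfl, ?_⟩
      rw [Matrix.toLin'_apply, hgsum]
      simp only [Sum.elim_inl, Sum.elim_inr, zero_smul, Finset.sum_const_zero, add_zero]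
      have h1 := congrArg (Subtype.val) (b.sum_repr ⟨x, hx⟩)
      rw [AddSubmonoidClass.coe_finset_sum] at h1
      exact h1
  · apply le_antisymm
    · rintro _ ⟨c, hc', rfl⟩
      rw [Matrix.toLin'_apply, hgsum]
      have h0 : ∑ i, c (Sum.inl i) • (b i : Fin d ⊕ Fin d → F) = 0 := by
        apply Finset.sum_eq_zero
        intro i _
        rw [hc' i, zero_smul]
      rw [h0, zero_add]
      exact Submodule.sum_mem _ (fun j _ => Submodule.smul_mem _ _ (wv j).2)
    · intro x hx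
      refine ⟨Sum.elim (fun _ => 0) (fun j => φ ⟨x, hx⟩ j), fun i => rfl, ?_⟩
      rw [Matrix.toLin'_apply, hgsum]
      simp only [Sum.elim_inl, Sum.elim_inr, zero_smul, Finset.sum_const_zero, zero_add]
      have h1 : φ (∑ j, φ ⟨x, hx⟩ j • wv j) = φ ⟨x, hx⟩ := by
        rw [map_sum]
        simp only [map_smul, hwv]
        funext k
        simp [Pi.single_apply]
      have h2 := hφinj h1
      have h3 := congrArg Subtype.val h2
      simpa using h3

/-- An element of `Sp` preserving both standard Lagrangians is block diagonal. -/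
theorem sp_block_of_fix (g : Matrix.symplecticGroup (Fin d) F)
    (h1 : (lagL d F).map (Matrix.toLin' (g : Matrix (Fin d ⊕ Fin d) (Fin d ⊕ Fin d) F))
      ≤ lagL d F)
    (h2 : (lagR d F).map (Matrix.toLin' (g : Matrix (Fin d ⊕ Fin d) (Fin d ⊕ Fin d) F))
      ≤ lagR d F) :
    (g : Matrix (Fin d ⊕ Fin d) (Fin d ⊕ Fin d) F)
        = Matrix.fromBlocks (g : Matrix (Fin d ⊕ Fin d) (Fin d ⊕ Fin d) F).toBlocks₁₁ 0 0
          (g : Matrix (Fin d ⊕ Fin d) (Fin d ⊕ Fin d) F).toBlocks₂₂ ∧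
      (g : Matrix (Fin d ⊕ Fin d) (Fin d ⊕ Fin d) F).toBlocks₁₁ *
        ((g : Matrix (Fin d ⊕ Fin d) (Fin d ⊕ Fin d) F).toBlocks₂₂)ᵀ = 1 := by
  classical
  have e21 : (g : Matrix (Fin d ⊕ Fin d) (Fin d ⊕ Fin d) F).toBlocks₂₁ = 0 := by
    ext j i
    have hmem : (Pi.single (Sum.inl i) 1 : Fin d ⊕ Fin d → F) ∈ lagL d F := by
      intro j'
      simp
    have h := h1 (Submodule.mem_map_of_mem hmem) j
    rw [Matrix.toLin'_apply, Matrix.mulVec_single_one] at h
    exact h
  have e12 : (g : Matrix (Fin d ⊕ Fin d) (Fin d ⊕ Fin d) F).toBlocks₁₂ = 0 := by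
    ext i j
    have hmem : (Pi.single (Sum.inr j) 1 : Fin d ⊕ Fin d → F) ∈ lagR d F := by
      intro i'
      simp
    have h := h2 (Submodule.mem_map_of_mem hmem) i
    rw [Matrix.toLin'_apply, Matrix.mulVec_single_one] at h
    exact h
  have hg : (g : Matrix (Fin d ⊕ Fin d) (Fin d ⊕ Fin d) F)
      = Matrix.fromBlocks (g : Matrix (Fin d ⊕ Fin d) (Fin d ⊕ Fin d) F).toBlocks₁₁ 0 0
        (g : Matrix (Fin d ⊕ Fin d) (Fin d ⊕ Fin d) F).toBlocks₂₂ := by
    conv_lhs => rw [← Matrix.fromBlocks_toBlocks (g : Matrix (Fin d ⊕ Fin d) (Fin d ⊕ Fin d) F)]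
    rw [e12, e21]
  refine ⟨hg, ?_⟩
  have hmem := (SymplecticGroup.mem_iff).mp g.2
  rw [hg, Matrix.J, Matrix.fromBlocks_transpose, Matrix.fromBlocks_multiply,
    Matrix.fromBlocks_multiply] at hmem
  have h3 := (Matrix.fromBlocks_inj.mp hmem).2.1
  simp only [Matrix.mul_zero, Matrix.zero_mul, Matrix.mul_neg, Matrix.mul_one, zero_add,
    add_zero, Matrix.neg_mul, Matrix.transpose_zero] at h3
  exact neg_injective h3

/-- The linear automorphism of an element of `Sp`. -/
def spLinEquiv (g : Matrix.symplecticGroup (Fin d) F) :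
    (Fin d ⊕ Fin d → F) ≃ₗ[F] (Fin d ⊕ Fin d → F) :=
  LinearEquiv.ofLinear (Matrix.toLin' (g : Matrix (Fin d ⊕ Fin d) (Fin d ⊕ Fin d) F))
    (Matrix.toLin' ((g⁻¹ : Matrix.symplecticGroup (Fin d) F) :
      Matrix (Fin d ⊕ Fin d) (Fin d ⊕ Fin d) F))
    (by
      rw [← Matrix.toLin'_mul, ← Submonoid.coe_mul, mul_inv_cancel]
      exact Matrix.toLin'_one)
    (by
      rw [← Matrix.toLin'_mul, ← Submonoid.coe_mul, inv_mul_cancel]
      exact Matrix.toLin'_one)

theorem sp_map_eq_of_le (g : Matrix.symplecticGroup (Fin d) F)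
    (U : Submodule F (Fin d ⊕ Fin d → F))
    (h : U.map (Matrix.toLin' (g : Matrix (Fin d ⊕ Fin d) (Fin d ⊕ Fin d) F)) ≤ U) :
    U.map (Matrix.toLin' (g : Matrix (Fin d ⊕ Fin d) (Fin d ⊕ Fin d) F)) = U :=
  Submodule.eq_of_le_of_finrank_eq h (LinearEquiv.finrank_map_eq (spLinEquiv d g) U)

/-- Ordered pairs of complementary totally isotropic subspaces. -/
abbrev LagPairs (d : ℕ) (F : Type*) [Field F] : Type _ :=
  {P : Submodule F (Fin d ⊕ Fin d → F) × Submodule F (Fin d ⊕ Fin d → F) //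
    IsCompl P.1 P.2 ∧ (∀ u ∈ P.1, ∀ v ∈ P.1, Cfsg.sympForm d F u v = 0) ∧
      (∀ u ∈ P.2, ∀ v ∈ P.2, Cfsg.sympForm d F u v = 0)}

/-- The action of `Sp` on pairs of complementary Lagrangians. -/
def lagAct (g : Matrix.symplecticGroup (Fin d) F) (P : LagPairs d F) : LagPairs d F :=
  ⟨(P.1.1.map (Matrix.toLin' (g : Matrix (Fin d ⊕ Fin d) (Fin d ⊕ Fin d) F)),
    P.1.2.map (Matrix.toLin' (g : Matrix (Fin d ⊕ Fin d) (Fin d ⊕ Fin d) F))), by
    refine ⟨?_, ?_, ?_⟩
    · exact (Submodule.orderIsoMapComap (spLinEquiv d g)).isCompl P.2.1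
    · rintro _ ⟨u, hu, rfl⟩ _ ⟨v, hv, rfl⟩
      rw [Matrix.toLin'_apply, Matrix.toLin'_apply, Cfsg.Agent.H17.sp_form]
      exact P.2.2.1 u hu v hv
    · rintro _ ⟨u, hu, rfl⟩ _ ⟨v, hv, rfl⟩
      rw [Matrix.toLin'_apply, Matrix.toLin'_apply, Cfsg.Agent.H17.sp_form]
      exact P.2.2.2 u hu v hv⟩

theorem lagAct_one (P : LagPairs d F) : lagAct d 1 P = P := by
  apply Subtype.ext
  apply Prod.ext
  · show P.1.1.map (Matrix.toLin' (1 : Matrix (Fin d ⊕ Fin d) (Fin d ⊕ Fin d) F)) = P.1.1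
    rw [Matrix.toLin'_one, Submodule.map_id]
  · show P.1.2.map (Matrix.toLin' (1 : Matrix (Fin d ⊕ Fin d) (Fin d ⊕ Fin d) F)) = P.1.2
    rw [Matrix.toLin'_one, Submodule.map_id]

theorem lagAct_mul (g h : Matrix.symplecticGroup (Fin d) F) (P : LagPairs d F) :
    lagAct d (g * h) P = lagAct d g (lagAct d h P) := by
  apply Subtype.ext
  apply Prod.ext
  · show P.1.1.map (Matrix.toLin' ((g : Matrix (Fin d ⊕ Fin d) (Fin d ⊕ Fin d) F) *
        (h : Matrix (Fin d ⊕ Fin d) (Fin d ⊕ Fin d) F)))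
      = (P.1.1.map (Matrix.toLin' (h : Matrix (Fin d ⊕ Fin d) (Fin d ⊕ Fin d) F))).map
        (Matrix.toLin' (g : Matrix (Fin d ⊕ Fin d) (Fin d ⊕ Fin d) F))
    rw [Matrix.toLin'_mul, Submodule.map_comp]
  · show P.1.2.map (Matrix.toLin' ((g : Matrix (Fin d ⊕ Fin d) (Fin d ⊕ Fin d) F) *
        (h : Matrix (Fin d ⊕ Fin d) (Fin d ⊕ Fin d) F)))
      = (P.1.2.map (Matrix.toLin' (h : Matrix (Fin d ⊕ Fin d) (Fin d ⊕ Fin d) F))).map
        (Matrix.toLin' (g : Matrix (Fin d ⊕ Fin d) (Fin d ⊕ Fin d) F))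
    rw [Matrix.toLin'_mul, Submodule.map_comp]

/-- The standard pair. -/
def lagBase : LagPairs d F :=
  ⟨(lagL d F, lagR d F), isCompl_lagL_lagR d, lagL_isotropic d, lagR_isotropic d⟩

theorem lagAct_trans (P : LagPairs d F) : ∃ g, lagAct d g (lagBase d) = P := by
  obtain ⟨g, h1, h2⟩ := exists_sp_lagr d P.1.1 P.1.2 P.2.1 P.2.2.1 P.2.2.2
  exact ⟨g, Subtype.ext (Prod.ext h1 h2)⟩

theorem lagAct_base_iff (g : Matrix.symplecticGroup (Fin d) F) :
    lagAct d g (lagBase d) = lagBase d ↔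
      (lagL d F).map (Matrix.toLin' (g : Matrix (Fin d ⊕ Fin d) (Fin d ⊕ Fin d) F)) = lagL d F ∧
      (lagR d F).map (Matrix.toLin' (g : Matrix (Fin d ⊕ Fin d) (Fin d ⊕ Fin d) F)) = lagR d F := by
  constructor
  · intro h
    have h1 := congrArg Subtype.val h
    exact ⟨congrArg Prod.fst h1, congrArg Prod.snd h1⟩
  · rintro ⟨h1, h2⟩
    exact Subtype.ext (Prod.ext h1 h2)

/-- The block diagonal symplectic matrix of an invertible matrix. -/
theorem blockDiag_mem (A B : Matrix (Fin d) (Fin d) F) (hAB : A * B = 1) :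
    Matrix.fromBlocks A 0 0 Bᵀ ∈ Matrix.symplecticGroup (Fin d) F := by
  rw [SymplecticGroup.mem_iff, Matrix.J, Matrix.fromBlocks_transpose, Matrix.fromBlocks_multiply,
    Matrix.fromBlocks_multiply]
  simp only [Matrix.mul_zero, Matrix.zero_mul, Matrix.mul_neg, Matrix.mul_one, zero_add,
    add_zero, Matrix.neg_mul, Matrix.transpose_zero, Matrix.transpose_transpose, neg_zero]
  rw [hAB, ← Matrix.transpose_mul, hAB, Matrix.transpose_one]

theorem blockDiag_fix (A B : Matrix (Fin d) (Fin d) F) (hAB : A * B = 1) :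
    lagAct d ⟨Matrix.fromBlocks A 0 0 Bᵀ, blockDiag_mem d A B hAB⟩ (lagBase d) = lagBase d := by
  rw [lagAct_base_iff]
  constructor
  · apply sp_map_eq_of_le
    rintro _ ⟨v, hv, rfl⟩
    intro j
    rw [Matrix.toLin'_apply]
    simp only [Matrix.mulVec, dotProduct, Fintype.sum_sum_type, Matrix.fromBlocks_apply₂₁,
      Matrix.fromBlocks_apply₂₂, Matrix.zero_apply, zero_mul, Finset.sum_const_zero, zero_add]
    apply Finset.sum_eq_zero
    intro k _
    rw [hv k, mul_zero]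
  · apply sp_map_eq_of_le
    rintro _ ⟨v, hv, rfl⟩
    intro i
    rw [Matrix.toLin'_apply]
    simp only [Matrix.mulVec, dotProduct, Fintype.sum_sum_type, Matrix.fromBlocks_apply₁₁,
      Matrix.fromBlocks_apply₁₂, Matrix.zero_apply, zero_mul, Finset.sum_const_zero, add_zero]
    apply Finset.sum_eq_zero
    intro k _
    rw [hv k, mul_zero]

/-- The stabiliser of the standard pair is `GL_d`. -/
def lagStabEquiv :
    {g : Matrix.symplecticGroup (Fin d) F // lagAct d g (lagBase d) = lagBase d} ≃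
      GL (Fin d) F where
  toFun g :=
    ⟨(g.1 : Matrix (Fin d ⊕ Fin d) (Fin d ⊕ Fin d) F).toBlocks₁₁,
      ((g.1 : Matrix (Fin d ⊕ Fin d) (Fin d ⊕ Fin d) F).toBlocks₂₂)ᵀ,
      (sp_block_of_fix d g.1 ((lagAct_base_iff d g.1).mp g.2).1.le
        ((lagAct_base_iff d g.1).mp g.2).2.le).2,
      mul_eq_one_comm.mp (sp_block_of_fix d g.1 ((lagAct_base_iff d g.1).mp g.2).1.le
        ((lagAct_base_iff d g.1).mp g.2).2.le).2⟩
  invFun A :=
    ⟨⟨Matrix.fromBlocks (A : Matrix (Fin d) (Fin d) F) 0 0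
        ((A⁻¹ : GL (Fin d) F) : Matrix (Fin d) (Fin d) F)ᵀ,
      blockDiag_mem d _ _ (by rw [← Units.val_mul, mul_inv_cancel]; rfl)⟩,
      blockDiag_fix d _ _ (by rw [← Units.val_mul, mul_inv_cancel]; rfl)⟩
  left_inv g := by
    apply Subtype.ext
    apply Subtype.ext
    have h := (sp_block_of_fix d g.1 ((lagAct_base_iff d g.1).mp g.2).1.le
      ((lagAct_base_iff d g.1).mp g.2).2.le).1
    conv_rhs => rw [h]
    rfl
  right_inv A := by
    apply Units.ext
    simp

/-- Orbit–stabiliser for pairs of complementary Lagrangians. -/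
theorem card_lagPairs :
    Nat.card ↥(Matrix.symplecticGroup (Fin d) F)
      = Nat.card (LagPairs d F) * Nat.card (GL (Fin d) F) := by
  rw [Cfsg.Agent.H50.SpCard.card_eq_card_mul_stab (lagAct d) (lagAct_one d) (lagAct_mul d)
    (lagBase d) (lagAct_trans d), Nat.card_congr (lagStabEquiv d)]

end SpLagr

end Cfsg.Agent.H48
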