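import Cfsg.Agent.H48.SpUOrbit

/-! # S2316-FITA (and shared auxiliary lemmas for the Fitting pieces) -/

set_option autoImplicit false

open Matrix

namespace Cfsg.Agent.H48.SpU

universe u

section aux

variable {F : Type*} [Field F] {ι : Type*} [Fintype ι] [DecidableEq ι]

theorem nil_pow_eq_zero {A : Matrix ι ι F} (hA : IsNilpotent A) {n : ℕ}
    (hn : Fintype.card ι ≤ n) : A ^ n = 0 := by
  have h1 := Matrix.isNilpotent_charpoly_sub_pow_of_isNilpotent hA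
  have h2 : A.charpoly = Polynomial.X ^ Fintype.card ι := sub_eq_zero.mp h1.eq_zero
  have h3 := Matrix.aeval_self_charpoly A
  rw [h2, map_pow, Polynomial.aeval_X] at h3
  exact pow_eq_zero_of_le hn h3

theorem conj_poly {h hi X : Matrix ι ι F} (h1 : hi * h = 1) :
    (h * X * hi) * (h * X * hi + 1) = h * (X * (X + 1)) * hi := by
  have e : h * X * hi * (h * X * hi) = h * (X * X) * hi := by
    calc h * X * hi * (h * X * hi) = h * X * (hi * h) * X * hi := by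
          simp only [Matrix.mul_assoc]
      _ = h * (X * X) * hi := by rw [h1, Matrix.mul_one]; simp only [Matrix.mul_assoc]
  rw [Matrix.mul_add, Matrix.mul_one, e, Matrix.mul_add, Matrix.mul_one, Matrix.mul_add,
    Matrix.add_mul]

theorem conj_pow' {h hi W : Matrix ι ι F} (h1 : hi * h = 1) (h2 : h * hi = 1) (n : ℕ) :
    (h * W * hi) ^ n = h * W ^ n * hi := by
  induction n with
  | zero => rw [pow_zero, pow_zero, Matrix.mul_one, h2]
  | succ k ih =>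
    rw [pow_succ, ih, pow_succ]
    calc h * W ^ k * hi * (h * W * hi) = h * W ^ k * (hi * h) * W * hi := by
          simp only [Matrix.mul_assoc]
      _ = h * (W ^ k * W) * hi := by rw [h1, Matrix.mul_one]; simp only [Matrix.mul_assoc]

theorem rank_conj {h hi A : Matrix ι ι F} (hu : IsUnit h.det) (hui : IsUnit hi.det) :
    (h * A * hi).rank = A.rank := by
  rw [Matrix.rank_mul_eq_left_of_isUnit_det _ _ hui, Matrix.rank_mul_eq_right_of_isUnit_det _ _ hu]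

theorem aset_of_rel {M h X Z : Matrix ι ι F} (hh : h ∈ SpSet M) (hu : IsUnit h.det)
    (hX : X ∈ ASet M) (hZ : Z * h = h * X) : Z ∈ ASet M := by
  have hh' : hᵀ * M * h = M := hh
  have hX' : M * X + Xᵀ * M = -M := hX
  show M * Z + Zᵀ * M = -M
  have key : hᵀ * (M * Z + Zᵀ * M + M) * h = 0 := by
    have e1 : hᵀ * (M * Z) * h = M * X := by
      calc hᵀ * (M * Z) * h = hᵀ * M * (Z * h) := by simp only [Matrix.mul_assoc]
        _ = (hᵀ * M * h) * X := by rw [hZ]; simp only [Matrix.mul_assoc]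
        _ = M * X := by rw [hh']
    have e2 : hᵀ * (Zᵀ * M) * h = Xᵀ * M := by
      calc hᵀ * (Zᵀ * M) * h = (Z * h)ᵀ * M * h := by
            rw [Matrix.transpose_mul]; simp only [Matrix.mul_assoc]
        _ = Xᵀ * (hᵀ * M * h) := by rw [hZ, Matrix.transpose_mul]; simp only [Matrix.mul_assoc]
        _ = Xᵀ * M := by rw [hh']
    rw [Matrix.mul_add, Matrix.mul_add, Matrix.add_mul, Matrix.add_mul, e1, e2, hh', hX',
      neg_add_cancel]
  have hut : IsUnit hᵀ.det := by rwa [Matrix.det_transpose]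
  have k2 : M * Z + Zᵀ * M + M = (hᵀ)⁻¹ * (hᵀ * (M * Z + Zᵀ * M + M) * h) * h⁻¹ := by
    rw [Matrix.mul_assoc hᵀ, ← Matrix.mul_assoc (hᵀ)⁻¹, Matrix.nonsing_inv_mul _ hut,
      Matrix.one_mul, Matrix.mul_assoc, Matrix.mul_nonsing_inv _ hu, Matrix.mul_one]
  rw [key, Matrix.mul_zero, Matrix.zero_mul] at k2
  exact eq_neg_of_add_eq_zero_left k2

theorem aset_unit_add_one {M X : Matrix ι ι F} (hM : M.det ≠ 0) (hX : X ∈ ASet M)
    (hu : IsUnit X) : IsUnit (X + 1) := by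
  have hX' : M * X + Xᵀ * M = -M := hX
  have e : (X + 1)ᵀ * M = -(M * X) := by
    rw [Matrix.transpose_add, Matrix.transpose_one, Matrix.add_mul, Matrix.one_mul]
    have h1 : Xᵀ * M = -M - M * X := eq_sub_of_add_eq' hX'
    rw [h1]; abel
  have hd := congrArg Matrix.det e
  rw [Matrix.det_mul, Matrix.det_transpose, Matrix.det_neg, Matrix.det_mul] at hd
  rw [Matrix.isUnit_iff_isUnit_det] at hu ⊢
  rw [isUnit_iff_ne_zero] at hu ⊢
  intro h0
  rw [h0, zero_mul] at hd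
  have h3 : (-1 : F) ^ Fintype.card ι ≠ 0 := pow_ne_zero _ (neg_ne_zero.mpr one_ne_zero)
  exact mul_ne_zero h3 (mul_ne_zero hM hu) hd.symm

end aux

section blocks

variable {F : Type*} [Field F] {ι₁ ι₂ : Type*} [Fintype ι₁] [DecidableEq ι₁] [Fintype ι₂]
  [DecidableEq ι₂]

theorem aset_block {M₁ X₁ : Matrix ι₁ ι₁ F} {M₂ X₂ : Matrix ι₂ ι₂ F} :
    fromBlocks X₁ 0 0 X₂ ∈ ASet (fromBlocks M₁ 0 0 M₂) ↔ X₁ ∈ ASet M₁ ∧ X₂ ∈ ASet M₂ := by
  show fromBlocks M₁ 0 0 M₂ * fromBlocks X₁ 0 0 X₂ +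
      (fromBlocks X₁ 0 0 X₂)ᵀ * fromBlocks M₁ 0 0 M₂ = -fromBlocks M₁ 0 0 M₂ ↔
    (M₁ * X₁ + X₁ᵀ * M₁ = -M₁ ∧ M₂ * X₂ + X₂ᵀ * M₂ = -M₂)
  rw [Matrix.fromBlocks_transpose, Matrix.fromBlocks_multiply, Matrix.fromBlocks_multiply,
    Matrix.fromBlocks_add, Matrix.fromBlocks_neg]
  simp only [Matrix.transpose_zero, Matrix.mul_zero, Matrix.zero_mul, add_zero, zero_add,
    neg_zero]
  rw [Matrix.fromBlocks_inj]
  constructor
  · rintro ⟨e1, -, -, e4⟩; exact ⟨e1, e4⟩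
  · rintro ⟨e1, e4⟩; exact ⟨e1, rfl, rfl, e4⟩

theorem block_poly (X₁ : Matrix ι₁ ι₁ F) (X₂ : Matrix ι₂ ι₂ F) :
    fromBlocks X₁ 0 0 X₂ * (fromBlocks X₁ 0 0 X₂ + 1) =
      fromBlocks (X₁ * (X₁ + 1)) 0 0 (X₂ * (X₂ + 1)) := by
  rw [← Matrix.fromBlocks_one, Matrix.fromBlocks_add, Matrix.fromBlocks_multiply]
  simp only [Matrix.mul_zero, Matrix.zero_mul, add_zero, zero_add]

theorem rank_block_unit {D : Matrix ι₂ ι₂ F} (hD : IsUnit D) :
    (fromBlocks (0 : Matrix ι₁ ι₁ F) 0 0 D).rank = Fintype.card ι₂ := by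
  classical
  have e : fromBlocks (0 : Matrix ι₁ ι₁ F) 0 0 D =
      fromBlocks (1 : Matrix ι₁ ι₁ F) 0 0 D *
        Matrix.diagonal (Sum.elim (fun _ : ι₁ => (0 : F)) (fun _ : ι₂ => (1 : F))) := by
    rw [← Matrix.fromBlocks_diagonal, Matrix.fromBlocks_multiply]
    have z : (Matrix.diagonal (fun _ : ι₁ => (0 : F))) = 0 := Matrix.diagonal_zero
    have o : (Matrix.diagonal (fun _ : ι₂ => (1 : F))) = 1 := Matrix.diagonal_one
    rw [z, o]
    simp only [Matrix.mul_zero, Matrix.zero_mul, add_zero, zero_add, Matrix.mul_one]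
  have hdet : IsUnit (fromBlocks (1 : Matrix ι₁ ι₁ F) 0 0 D).det := by
    rw [Matrix.det_fromBlocks_zero₂₁, Matrix.det_one, one_mul]
    exact (Matrix.isUnit_iff_isUnit_det _).mp hD
  rw [e, Matrix.rank_mul_eq_right_of_isUnit_det _ _ hdet, Matrix.rank_diagonal,
    Fintype.card_subtype, Finset.card_filter, Fintype.sum_sum_type]
  simp

theorem intertwine_poly {A : Matrix ι₁ ι₂ F} {X : Matrix ι₂ ι₂ F} {X' : Matrix ι₁ ι₁ F}
    (h : A * X = X' * A) (k : ℕ) :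
    A * (X * (X + 1)) ^ k = (X' * (X' + 1)) ^ k * A := by
  have h1 : A * (X * (X + 1)) = (X' * (X' + 1)) * A := by
    calc A * (X * (X + 1)) = A * X * X + A * X := by
          rw [Matrix.mul_add, Matrix.mul_one, Matrix.mul_add, Matrix.mul_assoc]
      _ = X' * (X' * A) + X' * A := by rw [h, Matrix.mul_assoc, h]
      _ = X' * (X' + 1) * A := by
          rw [Matrix.mul_add, Matrix.mul_one, Matrix.add_mul, Matrix.mul_assoc]
  induction k with
  | zero => rw [pow_zero, pow_zero, Matrix.mul_one, Matrix.one_mul]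
  | succ k ih =>
    rw [pow_succ, ← Matrix.mul_assoc, ih, Matrix.mul_assoc, h1, ← Matrix.mul_assoc, ← pow_succ]

end blocks

theorem fitA (hA : AdaptStmt.{u}) (hP : PerpAStmt.{u}) (hF : FittStmt.{u}) : FitAStmt.{u} := by
  intro F _ _ ι₁ ι₂ _ _ _ _ M₁ M₂ n hM₁ hM₂ hn
  classical
  have hMdet : (fromBlocks M₁ 0 0 M₂).det ≠ 0 := by
    rw [Matrix.det_fromBlocks_zero₂₁]; exact mul_ne_zero hM₁.2 hM₂.2
  have hn₁ : Fintype.card ι₁ ≤ n := by omega
  have hn₂ : Fintype.card ι₂ ≤ n := by omega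
  have hnn : Fintype.card (ι₁ ⊕ ι₂) ≤ n := by rw [Fintype.card_sum]; exact hn
  apply orbit_count M₁ M₂ hM₁.2 hM₂.2 (AR (fromBlocks M₁ 0 0 M₂) n (Fintype.card ι₂))
    (ANSet M₁) (AESet M₂)
  · -- closure
    intro h hh X₁ hX₁ X₂ hX₂
    obtain ⟨a1, n1⟩ : M₁ * X₁ + X₁ᵀ * M₁ = -M₁ ∧ IsNilpotent (X₁ * (X₁ + 1)) := hX₁
    obtain ⟨a2, u2⟩ : M₂ * X₂ + X₂ᵀ * M₂ = -M₂ ∧ IsUnit X₂ := hX₂
    have hu := sp_isUnit_det hMdet hh
    have h1 : h⁻¹ * h = 1 := Matrix.nonsing_inv_mul _ hu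
    have h2 : h * h⁻¹ = 1 := Matrix.mul_nonsing_inv _ hu
    have hui : IsUnit (h⁻¹).det := Matrix.isUnit_nonsing_inv_det _ hu
    refine ⟨?_, ?_⟩
    · have : h * fromBlocks X₁ 0 0 X₂ * h⁻¹ ∈ ASet (fromBlocks M₁ 0 0 M₂) := by
        apply aset_of_rel hh hu (X := fromBlocks X₁ 0 0 X₂) (aset_block.mpr ⟨a1, a2⟩)
        rw [Matrix.mul_assoc, h1, Matrix.mul_one]
      exact this
    · rw [conj_poly h1, conj_pow' h1 h2, rank_conj hu hui, block_poly,
        Matrix.fromBlocks_diagonal_pow, nil_pow_eq_zero n1 hn₁]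
      apply rank_block_unit
      exact (u2.mul (aset_unit_add_one hM₂.2 a2 u2)).pow n
  · -- surjectivity
    intro X hX
    obtain ⟨hXA, hXr⟩ : fromBlocks M₁ 0 0 M₂ * X + Xᵀ * fromBlocks M₁ 0 0 M₂ =
        -fromBlocks M₁ 0 0 M₂ ∧ ((X * (X + 1)) ^ n).rank = Fintype.card ι₂ := hX
    have hperp := hP F (ι₁ ⊕ ι₂) (fromBlocks M₁ 0 0 M₂) X n hXA
    have hsq := hF F (ι₁ ⊕ ι₂) (X * (X + 1)) n hnn
    obtain ⟨h, hh, T₂, hT₂, hTh⟩ := hA F ι₁ ι₂ M₁ M₂ ((X * (X + 1)) ^ n) hM₁ hM₂ hperp hXr hsq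
    have hh' : h ∈ SpSet (fromBlocks M₁ 0 0 M₂) := hh
    have hu := sp_isUnit_det hMdet hh'
    have h1 : h⁻¹ * h = 1 := Matrix.nonsing_inv_mul _ hu
    have h2 : h * h⁻¹ = 1 := Matrix.mul_nonsing_inv _ hu
    have hui : IsUnit (h⁻¹).det := Matrix.isUnit_nonsing_inv_det _ hu
    have hXh : X * h = h * (h⁻¹ * X * h) := by
      rw [← Matrix.mul_assoc, ← Matrix.mul_assoc, h2, Matrix.one_mul]
    have hZA : h⁻¹ * X * h ∈ ASet (fromBlocks M₁ 0 0 M₂) := by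
      apply aset_of_rel (sp_inv hMdet hh') hui (X := X) hXA
      rw [Matrix.mul_assoc, h2, Matrix.mul_one]
    have hZpow : ((h⁻¹ * X * h) * (h⁻¹ * X * h + 1)) ^ n = fromBlocks 0 0 0 T₂ := by
      rw [conj_poly (h := h⁻¹) (hi := h) h2, conj_pow' h2 h1, Matrix.mul_assoc, hTh,
        ← Matrix.mul_assoc, h1, Matrix.one_mul]
    generalize h⁻¹ * X * h = Z at hXh hZA hZpow
    have hcomm : Z * fromBlocks 0 0 0 T₂ = fromBlocks 0 0 0 T₂ * Z := by
      rw [← hZpow]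
      exact (((Commute.refl Z).mul_right
        ((Commute.refl Z).add_right (Commute.one_right Z))).pow_right n).eq
    have hZb := Matrix.fromBlocks_toBlocks Z
    rw [← hZb, Matrix.fromBlocks_multiply, Matrix.fromBlocks_multiply] at hcomm
    simp only [Matrix.mul_zero, Matrix.zero_mul, add_zero, zero_add] at hcomm
    obtain ⟨-, c12, c21, -⟩ := Matrix.fromBlocks_inj.mp hcomm
    obtain ⟨v, hv⟩ := hT₂
    have z12 : Z.toBlocks₁₂ = 0 := by
      have h3 := congrArg (fun W => W * (↑v⁻¹ : Matrix ι₂ ι₂ F)) c12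
      simp only [Matrix.zero_mul, Matrix.mul_assoc] at h3
      rw [← hv, Units.mul_inv, Matrix.mul_one] at h3
      exact h3
    have z21 : Z.toBlocks₂₁ = 0 := by
      have h3 := congrArg (fun W => (↑v⁻¹ : Matrix ι₂ ι₂ F) * W) c21
      simp only [Matrix.mul_zero, ← Matrix.mul_assoc] at h3
      rw [← hv, Units.inv_mul, Matrix.one_mul] at h3
      exact h3.symm
    have hZd : Z = fromBlocks Z.toBlocks₁₁ 0 0 Z.toBlocks₂₂ := by
      conv_lhs => rw [← hZb]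
      rw [z12, z21]
    rw [hZd] at hZA hZpow hXh
    obtain ⟨a1, a2⟩ := aset_block.mp hZA
    rw [block_poly, Matrix.fromBlocks_diagonal_pow] at hZpow
    obtain ⟨p1, -, -, p4⟩ := Matrix.fromBlocks_inj.mp hZpow
    refine ⟨h, hh', Z.toBlocks₁₁, ⟨a1, ⟨n, p1⟩⟩, Z.toBlocks₂₂, ⟨a2, ?_⟩, hXh⟩
    have hYu : IsUnit (Z.toBlocks₂₂ * (Z.toBlocks₂₂ + 1)) := by
      rcases Nat.eq_zero_or_pos n with h0 | hpos
      · have : IsEmpty ι₂ := Fintype.card_eq_zero_iff.mp (by omega)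
        exact isUnit_of_subsingleton _
      · exact (isUnit_pow_iff hpos.ne').mp (by rw [p4, ← hv]; exact v.isUnit)
    rw [Matrix.isUnit_iff_isUnit_det, Matrix.det_mul] at hYu
    rw [Matrix.isUnit_iff_isUnit_det]
    exact isUnit_of_mul_isUnit_left hYu
  · -- rigidity
    intro d hd X₁ hX₁ X₂ hX₂ X₁' hX₁' X₂' hX₂' hrel
    obtain ⟨a1, n1⟩ : M₁ * X₁ + X₁ᵀ * M₁ = -M₁ ∧ IsNilpotent (X₁ * (X₁ + 1)) := hX₁
    obtain ⟨a2, u2⟩ : M₂ * X₂ + X₂ᵀ * M₂ = -M₂ ∧ IsUnit X₂ := hX₂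
    obtain ⟨a1', n1'⟩ : M₁ * X₁' + X₁'ᵀ * M₁ = -M₁ ∧ IsNilpotent (X₁' * (X₁' + 1)) := hX₁'
    obtain ⟨a2', u2'⟩ : M₂ * X₂' + X₂'ᵀ * M₂ = -M₂ ∧ IsUnit X₂' := hX₂'
    rw [← Matrix.fromBlocks_toBlocks d, Matrix.fromBlocks_multiply,
      Matrix.fromBlocks_multiply] at hrel
    simp only [Matrix.mul_zero, Matrix.zero_mul, add_zero, zero_add] at hrel
    obtain ⟨-, r12, r21, -⟩ := Matrix.fromBlocks_inj.mp hrel
    have w2 : IsUnit ((X₂ * (X₂ + 1)) ^ n) := (u2.mul (aset_unit_add_one hM₂.2 a2 u2)).pow n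
    have w2' : IsUnit ((X₂' * (X₂' + 1)) ^ n) :=
      (u2'.mul (aset_unit_add_one hM₂.2 a2' u2')).pow n
    constructor
    · have e := intertwine_poly r12 n
      rw [nil_pow_eq_zero n1' hn₁, Matrix.zero_mul] at e
      obtain ⟨v, hv⟩ := w2
      have h3 := congrArg (fun W => W * (↑v⁻¹ : Matrix ι₂ ι₂ F)) e
      simp only [Matrix.zero_mul, Matrix.mul_assoc] at h3
      rw [← hv, Units.mul_inv, Matrix.mul_one] at h3
      exact h3
    · have e := intertwine_poly r21 n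
      rw [nil_pow_eq_zero n1 hn₁, Matrix.mul_zero] at e
      obtain ⟨v, hv⟩ := w2'
      have h3 := congrArg (fun W => (↑v⁻¹ : Matrix ι₂ ι₂ F) * W) e
      simp only [Matrix.mul_zero, ← Matrix.mul_assoc] at h3
      rw [← hv, Units.inv_mul, Matrix.one_mul] at h3
      exact h3.symm
  · -- Levi invariance, nilpotent part
    intro d hd X hX
    obtain ⟨a1, n1⟩ : M₁ * X + Xᵀ * M₁ = -M₁ ∧ IsNilpotent (X * (X + 1)) := hX
    have hu := sp_isUnit_det hM₁.2 hd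
    have h1 : d⁻¹ * d = 1 := Matrix.nonsing_inv_mul _ hu
    have h2 : d * d⁻¹ = 1 := Matrix.mul_nonsing_inv _ hu
    have hui : IsUnit (d⁻¹).det := Matrix.isUnit_nonsing_inv_det _ hu
    refine ⟨?_, ?_⟩
    · have : d⁻¹ * X * d ∈ ASet M₁ := by
        apply aset_of_rel (sp_inv hM₁.2 hd) hui (X := X) a1
        rw [Matrix.mul_assoc, h2, Matrix.mul_one]
      exact this
    · rw [conj_poly (h := d⁻¹) (hi := d) h2]
      obtain ⟨k, hk⟩ := n1
      exact ⟨k, by rw [conj_pow' h2 h1, hk, Matrix.mul_zero, Matrix.zero_mul]⟩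
  · -- Levi invariance, invertible part
    intro d hd X hX
    obtain ⟨a2, u2⟩ : M₂ * X + Xᵀ * M₂ = -M₂ ∧ IsUnit X := hX
    have hu := sp_isUnit_det hM₂.2 hd
    have h2 : d * d⁻¹ = 1 := Matrix.mul_nonsing_inv _ hu
    have hui : IsUnit (d⁻¹).det := Matrix.isUnit_nonsing_inv_det _ hu
    refine ⟨?_, ?_⟩
    · have : d⁻¹ * X * d ∈ ASet M₂ := by
        apply aset_of_rel (sp_inv hM₂.2 hd) hui (X := X) a2
        rw [Matrix.mul_assoc, h2, Matrix.mul_one]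
      exact this
    · rw [Matrix.isUnit_iff_isUnit_det, Matrix.det_mul, Matrix.det_mul]
      exact (hui.mul ((Matrix.isUnit_iff_isUnit_det _).mp u2)).mul hu

example (hA : AdaptStmt.{u}) (hP : PerpAStmt.{u}) (hF : FittStmt.{u}) : FitAStmt.{u} :=
  fitA hA hP hF

end Cfsg.Agent.H48.SpU
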