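import Cfsg.Agent.H48.SpUGramB

/-! # S2316-INV -/

set_option autoImplicit false

open Matrix

namespace Cfsg.Agent.H48.SpU

universe u

theorem inv : InvStmt.{u} := by
  intro F _ _ ι ι' _ _ _ _ M M' hM hM' hcard
  classical
  have hnd : ∀ w ∈ (⊤ : Submodule F (ι → F)),
      (∀ w' ∈ (⊤ : Submodule F (ι → F)), w ⬝ᵥ M *ᵥ w' = 0) → w = 0 := by
    intro w _ hw
    apply Matrix.eq_zero_of_vecMul_eq_zero hM.2
    funext j
    have := hw (Pi.single j 1) Submodule.mem_top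
    rw [Matrix.dotProduct_mulVec, dotProduct_single_one] at this
    exact this
  have hdim : Module.finrank F (⊤ : Submodule F (ι → F)) = Fintype.card ι' := by
    rw [finrank_top, Module.finrank_fintype_fun_eq_card, hcard]
  obtain ⟨C, -, hC⟩ := gramB F ι ι' M M' ⊤ hM.1 hM' hdim hnd
  have hu : IsUnit M'.det := isUnit_iff_ne_zero.mpr hM'.2
  have hQP : M'⁻¹ * Cᵀ * M * C = 1 := by
    rw [Matrix.mul_assoc, Matrix.mul_assoc, ← Matrix.mul_assoc Cᵀ, hC,
      Matrix.nonsing_inv_mul _ hu]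
  refine ⟨C, M'⁻¹ * Cᵀ * M, ?_, hQP, hC⟩
  exact (Matrix.mul_eq_one_comm_of_equiv (Fintype.equivOfCardEq hcard.symm)).mp hQP

example : InvStmt.{u} := inv

end Cfsg.Agent.H48.SpU
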