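import Cfsg.Agent.H48.SpUDefs

/-! # S2316-ORD: bridge from `Matrix.symplecticGroup` to `USet`/`SpSet` -/

set_option autoImplicit false

open Matrix

namespace Cfsg.Agent.H48.SpU

universe u

theorem ord : OrdStmt.{u} := by
  intro F _ _ p _ _ m
  classical
  have hp : p.Prime := Fact.out
  have key : ∀ g : ↥(Matrix.symplecticGroup (Fin m) F),
      (∃ k : ℕ, orderOf g = p ^ k) ↔
        IsNilpotent ((g : Matrix (Fin m ⊕ Fin m) (Fin m ⊕ Fin m) F) - 1) := by
    intro g
    rcases Nat.eq_zero_or_pos m with h0 | hpos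
    · subst h0
      have hsub : Subsingleton (Matrix (Fin 0 ⊕ Fin 0) (Fin 0 ⊕ Fin 0) F) :=
        ⟨fun a b => by ext i j; exact i.elim (fun i => i.elim0) (fun i => i.elim0)⟩
      have hg : g = 1 := Subtype.ext (Subsingleton.elim _ _)
      constructor
      · intro _
        exact ⟨1, by rw [pow_one]; exact Subsingleton.elim _ _⟩
      · intro _
        exact ⟨0, by rw [hg, orderOf_one, pow_zero]⟩
    haveI : Nonempty (Fin m ⊕ Fin m) := ⟨Sum.inl ⟨0, hpos⟩⟩
    constructor
    · rintro ⟨k, hk⟩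
      refine ⟨p ^ k, ?_⟩
      have h1 : g ^ (p ^ k) = 1 := by rw [← hk]; exact pow_orderOf_eq_one g
      have h2 : (g : Matrix (Fin m ⊕ Fin m) (Fin m ⊕ Fin m) F) ^ (p ^ k) = 1 := by
        have := congrArg (fun x : ↥(Matrix.symplecticGroup (Fin m) F) =>
          (x : Matrix (Fin m ⊕ Fin m) (Fin m ⊕ Fin m) F)) h1
        simpa using this
      rw [sub_pow_char_pow_of_commute p _ (Commute.one_right _), one_pow, h2, sub_self]
    · rintro ⟨j, hj⟩
      have hpj : j ≤ p ^ j := (Nat.lt_pow_self hp.one_lt).le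
      have h1 : ((g : Matrix (Fin m ⊕ Fin m) (Fin m ⊕ Fin m) F) - 1) ^ (p ^ j) = 0 :=
        pow_eq_zero_of_le hpj hj
      rw [sub_pow_char_pow_of_commute p _ (Commute.one_right _), one_pow, sub_eq_zero] at h1
      have h2 : g ^ (p ^ j) = 1 := by
        apply Subtype.ext
        simpa using h1
      have h3 := orderOf_dvd_of_pow_eq_one h2
      obtain ⟨i, -, hi⟩ := (Nat.dvd_prime_pow hp).mp h3
      exact ⟨i, hi⟩
  constructor
  · apply Nat.card_congr
    exact
      { toFun := fun g => ⟨(g.1 : Matrix (Fin m ⊕ Fin m) (Fin m ⊕ Fin m) F),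
          SymplecticGroup.mem_iff'.mp g.1.2, (key g.1).mp g.2⟩
        invFun := fun X => ⟨⟨X.1, SymplecticGroup.mem_iff'.mpr X.2.1⟩,
          (key _).mpr X.2.2⟩
        left_inv := fun g => rfl
        right_inv := fun X => rfl }
  · apply Nat.card_congr
    exact
      { toFun := fun g => ⟨(g : Matrix (Fin m ⊕ Fin m) (Fin m ⊕ Fin m) F),
          SymplecticGroup.mem_iff'.mp g.2⟩
        invFun := fun X => ⟨X.1, SymplecticGroup.mem_iff'.mpr X.2⟩
        left_inv := fun g => rfl
        right_inv := fun X => rfl }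

example : OrdStmt.{u} := ord

end Cfsg.Agent.H48.SpU
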