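import Cfsg.Agent.H48.SpUFinal
import Cfsg.Agent.H48.SpUOrd
import Cfsg.Agent.H48.SpUInv
import Cfsg.Agent.H48.SpUFitA
import Cfsg.Agent.H12.SpUPerp
import Cfsg.Agent.H12.SpUFitt
import Cfsg.Agent.H12.SpUEven
import Cfsg.Agent.H12.SpUSumA
import Cfsg.Agent.H82.SpUSumU
import Cfsg.Agent.H82.SpUTrans
import Cfsg.Agent.H82.SpUACard
import Cfsg.Agent.H19.SpUAlg
import Cfsg.Agent.H28.SpUFitU
import Cfsg.Agent.H36.SpUAdapt
import Cfsg.Agent.H84.SpUCay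
import Cfsg.Agent.H84.SpULagAdapt

/-! # S2316: assembly of all pieces except LAG (kept as a hypothesis) -/

set_option autoImplicit false

namespace Cfsg.Agent.H48.SpU

universe u

theorem unipotent_count_of_lag (hLag : LagStmt.{u})
    {F : Type u} [Field F] [Fintype F] (p : ℕ) [Fact p.Prime] [CharP F p] (m : ℕ) :
    Nat.card {g : ↥(Matrix.symplecticGroup (Fin m) F) // ∃ k : ℕ, orderOf g = p ^ k} =
      Fintype.card F ^ (2 * m ^ 2) := by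
  have hAd : AdaptStmt.{u} := Cfsg.Agent.H36.SpU.adapt gramB
  have hPU : PerpUStmt.{u} := Cfsg.Agent.H12.SpU.perpU
  have hPA : PerpAStmt.{u} := Cfsg.Agent.H12.SpU.perpA
  have hFt : FittStmt.{u} := Cfsg.Agent.H12.SpU.fitt
  have hEv : EvenStmt.{u} := Cfsg.Agent.H12.SpU.even'
  exact final (Cfsg.Agent.H19.SpU.alg Cfsg.Agent.H19.SpU.num)
    (Cfsg.Agent.H28.SpU.fitU hAd hPU hFt) (fitA hAd hPA hFt)
    (Cfsg.Agent.H82.SpU.sumU hEv hPU hFt) (Cfsg.Agent.H12.SpU.sumA hEv hPA hFt)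
    hLag Cfsg.Agent.H84.SpU.cay Cfsg.Agent.H82.SpU.aCard inv Cfsg.Agent.H82.SpU.trans ord p m

end Cfsg.Agent.H48.SpU
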