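import Mathlib

/-!
# S2316 team project: definitions and exact piece statements

Unipotent count in `Sp_{2m}(q)` (all characteristics) via two Fitting decompositions:
of the group w.r.t. `g - 1`, and of the affine space `{X | M X + Xᵀ M = -M}` w.r.t. `X (X + 1)`;
the invertible parts correspond by `X ↦ 1 + X⁻¹`.
-/

set_option autoImplicit false

open Matrix

namespace Cfsg.Agent.H48.SpU

universe u

section defs

variable {F : Type*} [Field F] {ι : Type*} [Fintype ι] [DecidableEq ι]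

/-- good Gram matrix: alternating and invertible -/
def Good (M : Matrix ι ι F) : Prop := (∀ v : ι → F, v ⬝ᵥ M *ᵥ v = 0) ∧ M.det ≠ 0

def SpSet (M : Matrix ι ι F) : Set (Matrix ι ι F) := {g | gᵀ * M * g = M}

def USet (M : Matrix ι ι F) : Set (Matrix ι ι F) := {g | gᵀ * M * g = M ∧ IsNilpotent (g - 1)}

def ESet (M : Matrix ι ι F) : Set (Matrix ι ι F) := {g | gᵀ * M * g = M ∧ IsUnit (g - 1)}

def ASet (M : Matrix ι ι F) : Set (Matrix ι ι F) := {X | M * X + Xᵀ * M = -M}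

def ANSet (M : Matrix ι ι F) : Set (Matrix ι ι F) :=
  {X | M * X + Xᵀ * M = -M ∧ IsNilpotent (X * (X + 1))}

def AESet (M : Matrix ι ι F) : Set (Matrix ι ι F) := {X | M * X + Xᵀ * M = -M ∧ IsUnit X}

def SpR (M : Matrix ι ι F) (n r : ℕ) : Set (Matrix ι ι F) :=
  {g | gᵀ * M * g = M ∧ ((g - 1) ^ n).rank = r}

def AR (M : Matrix ι ι F) (n r : ℕ) : Set (Matrix ι ι F) :=
  {X | M * X + Xᵀ * M = -M ∧ ((X * (X + 1)) ^ n).rank = r}

end defs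

/-- order of `Sp_{2k}(q)` -/
def spN (q k : ℕ) : ℕ := q ^ (k ^ 2) * ∏ i ∈ Finset.range k, (q ^ (2 * (i + 1)) - 1)

/-- order of `GL_k(q)` -/
def glN (q k : ℕ) : ℕ := ∏ i : Fin k, (q ^ k - q ^ (i : ℕ))

/-! ## Piece statements -/

/-- GRAMB: a subspace on which the alternating form is nondegenerate has a basis with any
prescribed good Gram matrix of the right size. -/
def GramBStmt : Prop :=
  ∀ (F : Type u) [Field F] [Fintype F] (ι κ : Type) [Fintype ι] [DecidableEq ι] [Fintype κ]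
    [DecidableEq κ] (M : Matrix ι ι F) (M' : Matrix κ κ F) (W : Submodule F (ι → F)),
    (∀ v : ι → F, v ⬝ᵥ M *ᵥ v = 0) → Good M' → Module.finrank F W = Fintype.card κ →
    (∀ w ∈ W, (∀ w' ∈ W, w ⬝ᵥ M *ᵥ w' = 0) → w = 0) →
    ∃ C : Matrix ι κ F, (∀ j, (fun i => C i j) ∈ W) ∧ Cᵀ * M * C = M'

/-- ADAPT: adapted symplectic frame for an orthogonal ker/im decomposition. -/
def AdaptStmt : Prop :=
  ∀ (F : Type u) [Field F] [Fintype F] (ι₁ ι₂ : Type) [Fintype ι₁] [DecidableEq ι₁] [Fintype ι₂]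
    [DecidableEq ι₂] (M₁ : Matrix ι₁ ι₁ F) (M₂ : Matrix ι₂ ι₂ F)
    (T : Matrix (ι₁ ⊕ ι₂) (ι₁ ⊕ ι₂) F),
    Good M₁ → Good M₂ →
    (∀ x y : ι₁ ⊕ ι₂ → F, T *ᵥ y = 0 → (T *ᵥ x) ⬝ᵥ (fromBlocks M₁ 0 0 M₂ *ᵥ y) = 0) →
    T.rank = Fintype.card ι₂ → (T * T).rank = T.rank →
    ∃ h : Matrix (ι₁ ⊕ ι₂) (ι₁ ⊕ ι₂) F,
      hᵀ * fromBlocks M₁ 0 0 M₂ * h = fromBlocks M₁ 0 0 M₂ ∧
      ∃ T₂ : Matrix ι₂ ι₂ F, IsUnit T₂ ∧ T * h = h * fromBlocks 0 0 0 T₂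

/-- PERP-U -/
def PerpUStmt : Prop :=
  ∀ (F : Type u) [Field F] [Fintype F] (ι : Type) [Fintype ι] [DecidableEq ι]
    (M g : Matrix ι ι F) (n : ℕ), M.det ≠ 0 → gᵀ * M * g = M →
    ∀ x y : ι → F, ((g - 1) ^ n) *ᵥ y = 0 → (((g - 1) ^ n) *ᵥ x) ⬝ᵥ (M *ᵥ y) = 0

/-- PERP-A -/
def PerpAStmt : Prop :=
  ∀ (F : Type u) [Field F] [Fintype F] (ι : Type) [Fintype ι] [DecidableEq ι]
    (M X : Matrix ι ι F) (n : ℕ), M * X + Xᵀ * M = -M →
    ∀ x y : ι → F, ((X * (X + 1)) ^ n) *ᵥ y = 0 →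
      (((X * (X + 1)) ^ n) *ᵥ x) ⬝ᵥ (M *ᵥ y) = 0

/-- FITT: rank stabilisation -/
def FittStmt : Prop :=
  ∀ (F : Type u) [Field F] [Fintype F] (ι : Type) [Fintype ι] [DecidableEq ι]
    (Y : Matrix ι ι F) (n : ℕ), Fintype.card ι ≤ n → (Y ^ n * Y ^ n).rank = (Y ^ n).rank

/-- EVEN -/
def EvenStmt : Prop :=
  ∀ (F : Type u) [Field F] [Fintype F] (ι : Type) [Fintype ι] [DecidableEq ι]
    (M T : Matrix ι ι F), Good M →
    (∀ x y : ι → F, T *ᵥ y = 0 → (T *ᵥ x) ⬝ᵥ (M *ᵥ y) = 0) →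
    (T * T).rank = T.rank → Even T.rank

/-- FIT-U -/
def FitUStmt : Prop :=
  ∀ (F : Type u) [Field F] [Fintype F] (ι₁ ι₂ : Type) [Fintype ι₁] [DecidableEq ι₁] [Fintype ι₂]
    [DecidableEq ι₂] (M₁ : Matrix ι₁ ι₁ F) (M₂ : Matrix ι₂ ι₂ F) (n : ℕ),
    Good M₁ → Good M₂ → Fintype.card ι₁ + Fintype.card ι₂ ≤ n →
    Nat.card (SpR (fromBlocks M₁ 0 0 M₂) n (Fintype.card ι₂)) *
        (Nat.card (SpSet M₁) * Nat.card (SpSet M₂)) =
      Nat.card (SpSet (fromBlocks M₁ 0 0 M₂)) * (Nat.card (USet M₁) * Nat.card (ESet M₂))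

/-- FIT-A -/
def FitAStmt : Prop :=
  ∀ (F : Type u) [Field F] [Fintype F] (ι₁ ι₂ : Type) [Fintype ι₁] [DecidableEq ι₁] [Fintype ι₂]
    [DecidableEq ι₂] (M₁ : Matrix ι₁ ι₁ F) (M₂ : Matrix ι₂ ι₂ F) (n : ℕ),
    Good M₁ → Good M₂ → Fintype.card ι₁ + Fintype.card ι₂ ≤ n →
    Nat.card (AR (fromBlocks M₁ 0 0 M₂) n (Fintype.card ι₂)) *
        (Nat.card (SpSet M₁) * Nat.card (SpSet M₂)) =
      Nat.card (SpSet (fromBlocks M₁ 0 0 M₂)) * (Nat.card (ANSet M₁) * Nat.card (AESet M₂))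

/-- SUM-U -/
def SumUStmt : Prop :=
  ∀ (F : Type u) [Field F] [Fintype F] (ι : Type) [Fintype ι] [DecidableEq ι]
    (M : Matrix ι ι F) (m : ℕ), Good M → Fintype.card ι = 2 * m →
    Nat.card (SpSet M) = ∑ j ∈ Finset.range (m + 1), Nat.card (SpR M (2 * m) (2 * j))

/-- SUM-A -/
def SumAStmt : Prop :=
  ∀ (F : Type u) [Field F] [Fintype F] (ι : Type) [Fintype ι] [DecidableEq ι]
    (M : Matrix ι ι F) (m : ℕ), Good M → Fintype.card ι = 2 * m →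
    Nat.card (ASet M) = ∑ j ∈ Finset.range (m + 1), Nat.card (AR M (2 * m) (2 * j))

/-- LAGADAPT -/
def LagAdaptStmt : Prop :=
  ∀ (F : Type u) [Field F] [Fintype F] (ι : Type) [Fintype ι] [DecidableEq ι]
    (X : Matrix (ι ⊕ ι) (ι ⊕ ι) F), X ∈ ANSet (Matrix.J ι F) →
    ∃ h : Matrix (ι ⊕ ι) (ι ⊕ ι) F, hᵀ * Matrix.J ι F * h = Matrix.J ι F ∧
      ∃ N : Matrix ι ι F, IsNilpotent N ∧ X * h = h * fromBlocks N 0 0 (-1 - Nᵀ)

/-- LAG -/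
def LagStmt : Prop :=
  ∀ (F : Type u) [Field F] [Fintype F] (ι : Type) [Fintype ι] [DecidableEq ι],
    Nat.card (ANSet (Matrix.J ι F)) * Nat.card (GL ι F) =
      Nat.card (SpSet (Matrix.J ι F)) * Nat.card {N : Matrix ι ι F // IsNilpotent N}

/-- CAY -/
def CayStmt : Prop :=
  ∀ (F : Type u) [Field F] [Fintype F] (ι : Type) [Fintype ι] [DecidableEq ι]
    (M : Matrix ι ι F), Nat.card (AESet M) = Nat.card (ESet M)

/-- ACARD -/
def ACardStmt : Prop :=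
  ∀ (F : Type u) [Field F] [Fintype F] (m : ℕ),
    Nat.card (ASet (Matrix.J (Fin m) F)) = Fintype.card F ^ (2 * m ^ 2 + m)

/-- INV -/
def InvStmt : Prop :=
  ∀ (F : Type u) [Field F] [Fintype F] (ι ι' : Type) [Fintype ι] [DecidableEq ι] [Fintype ι']
    [DecidableEq ι'] (M : Matrix ι ι F) (M' : Matrix ι' ι' F),
    Good M → Good M' → Fintype.card ι = Fintype.card ι' →
    ∃ (P : Matrix ι ι' F) (Q : Matrix ι' ι F), P * Q = 1 ∧ Q * P = 1 ∧ Pᵀ * M * P = M'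

/-- TRANS -/
def TransStmt : Prop :=
  ∀ (F : Type u) [Field F] [Fintype F] (ι ι' : Type) [Fintype ι] [DecidableEq ι] [Fintype ι']
    [DecidableEq ι'] (M : Matrix ι ι F) (M' : Matrix ι' ι' F) (P : Matrix ι ι' F)
    (Q : Matrix ι' ι F), P * Q = 1 → Q * P = 1 → Pᵀ * M * P = M' →
    Nat.card (SpSet M') = Nat.card (SpSet M) ∧ Nat.card (USet M') = Nat.card (USet M) ∧
    Nat.card (ESet M') = Nat.card (ESet M) ∧ Nat.card (ASet M') = Nat.card (ASet M) ∧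
    Nat.card (ANSet M') = Nat.card (ANSet M) ∧ Nat.card (AESet M') = Nat.card (AESet M) ∧
    (∀ n r, Nat.card (SpR M' n r) = Nat.card (SpR M n r)) ∧
    (∀ n r, Nat.card (AR M' n r) = Nat.card (AR M n r))

/-- ORD -/
def OrdStmt : Prop :=
  ∀ (F : Type u) [Field F] [Fintype F] (p : ℕ) [Fact p.Prime] [CharP F p] (m : ℕ),
    Nat.card {g : ↥(Matrix.symplecticGroup (Fin m) F) // ∃ k : ℕ, orderOf g = p ^ k} =
        Nat.card (USet (Matrix.J (Fin m) F)) ∧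
      Nat.card ↥(Matrix.symplecticGroup (Fin m) F) = Nat.card (SpSet (Matrix.J (Fin m) F))

/-- NUM -/
def NumStmt : Prop :=
  ∀ (q : ℕ), 2 ≤ q → ∀ m : ℕ,
    ∑ i ∈ Finset.range (m + 1),
        ((q : ℚ) ^ (2 * i ^ 2) / (spN q i : ℚ)) *
          ((q : ℚ) ^ (2 * (m - i) ^ 2 + (m - i)) / (spN q (m - i) : ℚ)) =
      ∑ k ∈ Finset.range (m + 1), (q : ℚ) ^ (k * (k - 1)) / (glN q k : ℚ)

/-- ALG -/
def AlgStmt : Prop :=
  ∀ (q : ℕ), 2 ≤ q → ∀ (u e a : ℕ → ℕ) (X Y : ℕ → ℕ → ℕ),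
    (∀ k j, X k j * (spN q k * spN q j) = spN q (k + j) * (u k * e j)) →
    (∀ m, ∑ k ∈ Finset.range (m + 1), X k (m - k) = spN q m) →
    (∀ k j, Y k j * (spN q k * spN q j) = spN q (k + j) * (a k * e j)) →
    (∀ m, ∑ k ∈ Finset.range (m + 1), Y k (m - k) = q ^ (2 * m ^ 2 + m)) →
    (∀ k, a k * glN q k = spN q k * q ^ (k * (k - 1))) →
    ∀ m, u m = q ^ (2 * m ^ 2)

end Cfsg.Agent.H48.SpU
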