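import Cfsg.Agent.H48.SpUDefs
import Cfsg.Agent.H50.SpCard
import Cfsg.Agent.H63.NilCount

/-! # S2316: final assembly from the piece statements -/

set_option autoImplicit false

open Matrix

namespace Cfsg.Agent.H48.SpU

universe u

theorem good_J {F : Type*} [Field F] (ι : Type*) [Fintype ι] [DecidableEq ι] :
    Good (Matrix.J ι F) := by
  refine ⟨fun v => ?_, (Matrix.isUnit_det_J ι F).ne_zero⟩
  have hv : v = Sum.elim (fun i => v (Sum.inl i)) (fun i => v (Sum.inr i)) := by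
    funext i; cases i <;> rfl
  rw [hv, Matrix.J, Matrix.fromBlocks_mulVec, sumElim_dotProduct_sumElim]
  simp only [Matrix.zero_mulVec, Matrix.neg_mulVec, Matrix.one_mulVec, zero_add, add_zero,
    dotProduct_neg, Sum.elim_comp_inl, Sum.elim_comp_inr]
  rw [dotProduct_comm]
  ring

theorem good_blocks {F : Type*} [Field F] {ι₁ ι₂ : Type*} [Fintype ι₁] [DecidableEq ι₁]
    [Fintype ι₂] [DecidableEq ι₂] {M₁ : Matrix ι₁ ι₁ F} {M₂ : Matrix ι₂ ι₂ F}
    (h₁ : Good M₁) (h₂ : Good M₂) : Good (fromBlocks M₁ 0 0 M₂) := by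
  refine ⟨fun v => ?_, ?_⟩
  · have hv : v = Sum.elim (fun i => v (Sum.inl i)) (fun i => v (Sum.inr i)) := by
      funext i; cases i <;> rfl
    rw [hv, Matrix.fromBlocks_mulVec, sumElim_dotProduct_sumElim]
    simp only [Matrix.zero_mulVec, zero_add, add_zero, Sum.elim_comp_inl, Sum.elim_comp_inr]
    rw [h₁.1, h₂.1, add_zero]
  · rw [Matrix.det_fromBlocks_zero₂₁]
    exact mul_ne_zero h₁.2 h₂.2

theorem final (hAlg : AlgStmt) (hFU : FitUStmt.{u}) (hFA : FitAStmt.{u}) (hSU : SumUStmt.{u})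
    (hSA : SumAStmt.{u}) (hLag : LagStmt.{u}) (hCay : CayStmt.{u}) (hAC : ACardStmt.{u})
    (hInv : InvStmt.{u}) (hTr : TransStmt.{u}) (hOrd : OrdStmt.{u})
    {F : Type u} [Field F] [Fintype F] (p : ℕ) [Fact p.Prime] [CharP F p] (m : ℕ) :
    Nat.card {g : ↥(Matrix.symplecticGroup (Fin m) F) // ∃ k : ℕ, orderOf g = p ^ k} =
      Fintype.card F ^ (2 * m ^ 2) := by
  classical
  set q := Fintype.card F with hqdef
  have hq : 2 ≤ q := Fintype.one_lt_card
  let Jk : (k : ℕ) → Matrix (Fin k ⊕ Fin k) (Fin k ⊕ Fin k) F := fun k => Matrix.J (Fin k) F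
  let u : ℕ → ℕ := fun k => Nat.card (USet (Jk k))
  let e : ℕ → ℕ := fun k => Nat.card (ESet (Jk k))
  let a : ℕ → ℕ := fun k => Nat.card (ANSet (Jk k))
  let X : ℕ → ℕ → ℕ := fun k j => Nat.card (SpR (Jk (k + j)) (2 * (k + j)) (2 * j))
  let Y : ℕ → ℕ → ℕ := fun k j => Nat.card (AR (Jk (k + j)) (2 * (k + j)) (2 * j))
  have hs : ∀ k, Nat.card (SpSet (Jk k)) = spN q k := by
    intro k
    rw [← (hOrd F p k).2, Cfsg.Agent.H50.SpCard.card_sp rfl k]
    rfl
  have hcard : ∀ k, Fintype.card (Fin k ⊕ Fin k) = 2 * k := by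
    intro k; simp; omega
  -- transport between block form and standard form
  have htr : ∀ k j, Nat.card (SpSet (fromBlocks (Jk k) 0 0 (Jk j))) = Nat.card (SpSet (Jk (k + j))) ∧
      (∀ n r, Nat.card (SpR (fromBlocks (Jk k) 0 0 (Jk j)) n r) =
        Nat.card (SpR (Jk (k + j)) n r)) ∧
      (∀ n r, Nat.card (AR (fromBlocks (Jk k) 0 0 (Jk j)) n r) =
        Nat.card (AR (Jk (k + j)) n r)) := by
    intro k j
    obtain ⟨P, Q, hPQ, hQP, hM⟩ := hInv F (Fin (k + j) ⊕ Fin (k + j))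
      ((Fin k ⊕ Fin k) ⊕ (Fin j ⊕ Fin j)) (Jk (k + j)) (fromBlocks (Jk k) 0 0 (Jk j))
      (good_J _) (good_blocks (good_J _) (good_J _)) (by simp; omega)
    have t := hTr F _ _ (Jk (k + j)) (fromBlocks (Jk k) 0 0 (Jk j)) P Q hPQ hQP hM
    exact ⟨t.1, t.2.2.2.2.2.2.1, t.2.2.2.2.2.2.2⟩
  have hX : ∀ k j, X k j * (spN q k * spN q j) = spN q (k + j) * (u k * e j) := by
    intro k j
    have h1 := hFU F (Fin k ⊕ Fin k) (Fin j ⊕ Fin j) (Jk k) (Jk j) (2 * (k + j)) (good_J _)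
      (good_J _) (by rw [hcard, hcard]; omega)
    rw [(htr k j).1, (htr k j).2.1, hcard, hs, hs, hs] at h1
    exact h1
  have hY : ∀ k j, Y k j * (spN q k * spN q j) = spN q (k + j) * (a k * e j) := by
    intro k j
    have h1 := hFA F (Fin k ⊕ Fin k) (Fin j ⊕ Fin j) (Jk k) (Jk j) (2 * (k + j)) (good_J _)
      (good_J _) (by rw [hcard, hcard]; omega)
    rw [(htr k j).1, (htr k j).2.2, hcard, hs, hs, hs, hCay F _ (Jk j)] at h1
    exact h1
  have hXeq : ∀ (m' k j : ℕ), k + j = m' →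
      X k j = Nat.card (SpR (Jk m') (2 * m') (2 * j)) := by
    intro m' k j h; subst h; rfl
  have hYeq : ∀ (m' k j : ℕ), k + j = m' →
      Y k j = Nat.card (AR (Jk m') (2 * m') (2 * j)) := by
    intro m' k j h; subst h; rfl
  have hXs : ∀ m', ∑ k ∈ Finset.range (m' + 1), X k (m' - k) = spN q m' := by
    intro m'
    rw [← hs m', hSU F (Fin m' ⊕ Fin m') (Jk m') m' (good_J _) (hcard m'),
      ← Finset.sum_flip (fun j => Nat.card (SpR (Jk m') (2 * m') (2 * j)))]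
    refine Finset.sum_congr rfl (fun k hk => ?_)
    exact hXeq m' k (m' - k) (by have := Finset.mem_range.mp hk; omega)
  have hYs : ∀ m', ∑ k ∈ Finset.range (m' + 1), Y k (m' - k) = q ^ (2 * m' ^ 2 + m') := by
    intro m'
    rw [← hAC F m', hSA F (Fin m' ⊕ Fin m') (Jk m') m' (good_J _) (hcard m'),
      ← Finset.sum_flip (fun j => Nat.card (AR (Jk m') (2 * m') (2 * j)))]
    refine Finset.sum_congr rfl (fun k hk => ?_)
    exact hYeq m' k (m' - k) (by have := Finset.mem_range.mp hk; omega)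
  have ha : ∀ k, a k * glN q k = spN q k * q ^ (k * (k - 1)) := by
    intro k
    have h1 := hLag F (Fin k)
    rw [hs, Cfsg.Agent.H63.NilCount.card_nilpotent_matrix F k, Matrix.card_GL_field k] at h1
    exact h1
  rw [(hOrd F p m).1]
  exact hAlg q hq u e a X Y hX hXs hY hYs ha m

end Cfsg.Agent.H48.SpU
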