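import Cfsg.Agent.H48.SpUDefs
import Cfsg.Agent.H17.AltBasis
import Cfsg.Agent.H99.SympDecomp

/-! # S2316-GRAMB and S2316-INV -/

set_option autoImplicit false

open Matrix

namespace Cfsg.Agent.H48.SpU

universe u v

/-- hyperbolic basis of a nondegenerate alternating space -/
theorem exists_hyp_basis {F : Type u} [Field F] {V : Type v} [AddCommGroup V] [Module F V]
    [FiniteDimensional F V] (B : LinearMap.BilinForm F V) (hB : B.IsAlt)
    (hnd : ∀ v, (∀ w, B v w = 0) → v = 0) :
    ∃ (m : ℕ) (b : Module.Basis (Fin m ⊕ Fin m) F V),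
      (∀ i j, B (b (Sum.inl i)) (b (Sum.inr j)) = if i = j then 1 else 0) ∧
      (∀ i j, B (b (Sum.inl i)) (b (Sum.inl j)) = 0) ∧
      (∀ i j, B (b (Sum.inr i)) (b (Sum.inr j)) = 0) := by
  classical
  obtain ⟨m, e, f, hef, hee, hff, hrad⟩ :=
    Cfsg.Agent.H17.alt_hyp_aux (Module.finrank F V) V B hB rfl
  have hsk : ∀ a b : V, B a b = -B b a := fun a b => (hB.neg_eq b a).symm
  have hexp : ∀ s : V, s = ∑ i, (B s (f i) • e i - B s (e i) • f i) := by
    intro s
    have hd : s - ∑ i, (B s (f i) • e i - B s (e i) • f i) = 0 := by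
      apply hnd
      apply hrad
      · intro j
        rw [map_sub, map_sum]
        have : ∀ i, B (e j) (B s (f i) • e i - B s (e i) • f i) =
            if j = i then -B s (e i) else 0 := by
          intro i
          rw [map_sub, map_smul, map_smul, hee, hef, smul_eq_mul, smul_eq_mul]
          split_ifs <;> ring
        rw [Finset.sum_congr rfl (fun i _ => this i), Finset.sum_ite_eq, if_pos (Finset.mem_univ _),
          hsk (e j) s]
        ring
      · intro j
        rw [map_sub, map_sum]
        have : ∀ i, B (f j) (B s (f i) • e i - B s (e i) • f i) =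
            if i = j then -B s (f i) else 0 := by
          intro i
          rw [map_sub, map_smul, map_smul, hff, hsk (f j) (e i), hef, smul_eq_mul, smul_eq_mul]
          split_ifs <;> ring
        rw [Finset.sum_congr rfl (fun i _ => this i), Finset.sum_ite_eq', if_pos (Finset.mem_univ _),
          hsk (f j) s]
        ring
    exact sub_eq_zero.mp hd
  have hli := Cfsg.Agent.H99.hyp_linearIndependent B hB e f hee hff hef
  have hsp := Cfsg.Agent.H99.hyp_span_top B e f hexp
  refine ⟨m, Module.Basis.mk hli (by rw [hsp]), ?_, ?_, ?_⟩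
  · intro i j; simp only [Module.Basis.mk_apply, Sum.elim_inl, Sum.elim_inr]; exact hef i j
  · intro i j; simp only [Module.Basis.mk_apply, Sum.elim_inl]; exact hee i j
  · intro i j; simp only [Module.Basis.mk_apply, Sum.elim_inr]; exact hff i j

theorem gramB : GramBStmt.{u} := by
  intro F _ _ ι κ _ _ _ _ M M' W hM hM' hdim hnd
  classical
  let B : LinearMap.BilinForm F W := (Matrix.toBilin' M).restrict W
  let B' : LinearMap.BilinForm F (κ → F) := Matrix.toBilin' M'
  have hBapp : ∀ x y : W, B x y = (x : ι → F) ⬝ᵥ M *ᵥ (y : ι → F) :=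
    fun x y => Matrix.toBilin'_apply' M _ _
  have hB'app : ∀ x y : κ → F, B' x y = x ⬝ᵥ M' *ᵥ y := fun x y => Matrix.toBilin'_apply' M' x y
  have hBalt : B.IsAlt := fun x => by rw [hBapp]; exact hM _
  have hB'alt : B'.IsAlt := fun x => by rw [hB'app]; exact hM'.1 _
  have hBnd : ∀ v : W, (∀ w, B v w = 0) → v = 0 := by
    intro v hv
    apply Subtype.ext
    exact hnd v.1 v.2 (fun w' hw' => by have := hv ⟨w', hw'⟩; rwa [hBapp] at this)
  have hB'nd : ∀ v : κ → F, (∀ w, B' v w = 0) → v = 0 := by
    intro v hv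
    apply Matrix.eq_zero_of_vecMul_eq_zero hM'.2
    funext j
    have := hv (Pi.single j 1)
    rw [hB'app, Matrix.dotProduct_mulVec, dotProduct_single_one] at this
    exact this
  obtain ⟨m, b, h1, h2, h3⟩ := exists_hyp_basis B hBalt hBnd
  obtain ⟨m', b', h1', h2', h3'⟩ := exists_hyp_basis B' hB'alt hB'nd
  have hm : m = m' := by
    have e1 := Module.finrank_eq_card_basis b
    have e2 := Module.finrank_eq_card_basis b'
    rw [Fintype.card_sum, Fintype.card_fin] at e1 e2
    rw [Module.finrank_fintype_fun_eq_card] at e2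
    omega
  subst hm
  have hsk : ∀ a b : W, B a b = -B b a := fun a b => (hBalt.neg_eq b a).symm
  have hsk' : ∀ a b : κ → F, B' a b = -B' b a := fun a b => (hB'alt.neg_eq b a).symm
  let φ : (κ → F) →ₗ[F] W := b'.constr F b
  have hφ : ∀ s, φ (b' s) = b s := fun s => b'.constr_basis F b s
  have hcomp : B.comp φ φ = B' := by
    apply LinearMap.BilinForm.ext_basis b'
    intro s t
    rw [LinearMap.BilinForm.comp_apply, hφ, hφ]
    rcases s with i | i <;> rcases t with j | j
    · rw [h2, h2']
    · rw [h1, h1']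
    · rw [hsk, hsk' (b' (Sum.inr i)), h1, h1']
    · rw [h3, h3']
  have hiso : ∀ x y, B (φ x) (φ y) = B' x y := by
    intro x y; rw [← hcomp]; rfl
  refine ⟨Matrix.of (fun i j => (φ (Pi.single j 1) : ι → F) i), ?_, ?_⟩
  · intro j; exact (φ (Pi.single j 1)).2
  · ext j j'
    have hC : ((Matrix.of (fun i j => (φ (Pi.single j 1) : ι → F) i))ᵀ * M *
        (Matrix.of (fun i j => (φ (Pi.single j 1) : ι → F) i))) j j' =
        ((φ (Pi.single j 1) : W) : ι → F) ⬝ᵥ M *ᵥ ((φ (Pi.single j' 1) : W) : ι → F) := by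
      rw [Matrix.mul_apply, dotProduct, ]
      simp only [Matrix.mul_apply, Matrix.transpose_apply, Matrix.of_apply, Matrix.mulVec,
        dotProduct, Finset.sum_mul, Finset.mul_sum]
      rw [Finset.sum_comm]
      refine Finset.sum_congr rfl (fun x _ => Finset.sum_congr rfl (fun y _ => ?_))
      ring
    rw [hC, ← hBapp, hiso, hB'app, Matrix.mulVec_single_one, dotProduct_comm,
      dotProduct_single_one]
    rfl

example : GramBStmt.{u} := gramB

end Cfsg.Agent.H48.SpU
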