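import Cfsg.Agent.H48.SpUFitA

/-! # S2316-LAG (parallel version by helper48) -/

set_option autoImplicit false

open Matrix

namespace Cfsg.Agent.H48.SpU

universe u

section lag

variable {F : Type*} [Field F] {ι : Type*} [Fintype ι] [DecidableEq ι]

/-- the standard element attached to `N` -/
def stdX (N : Matrix ι ι F) : Matrix (ι ⊕ ι) (ι ⊕ ι) F := fromBlocks N 0 0 (-1 - Nᵀ)

/-- the Levi element attached to an invertible `P` with inverse `Q` -/
def leviL (P Q : Matrix ι ι F) : Matrix (ι ⊕ ι) (ι ⊕ ι) F := fromBlocks P 0 0 Qᵀ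

theorem stdX_mem (N : Matrix ι ι F) : stdX N ∈ ASet (Matrix.J ι F) := by
  show Matrix.J ι F * stdX N + (stdX N)ᵀ * Matrix.J ι F = -Matrix.J ι F
  unfold stdX Matrix.J
  rw [Matrix.fromBlocks_transpose, Matrix.fromBlocks_multiply, Matrix.fromBlocks_multiply,
    Matrix.fromBlocks_add, Matrix.fromBlocks_neg]
  simp only [Matrix.transpose_zero, Matrix.mul_zero, Matrix.zero_mul, add_zero, zero_add,
    neg_zero, Matrix.one_mul, Matrix.mul_one, Matrix.neg_mul, Matrix.mul_neg, neg_neg,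
    Matrix.transpose_sub, Matrix.transpose_neg, Matrix.transpose_one, Matrix.transpose_transpose]
  congr 1
  · abel
  · abel

theorem stdX_nil {N : Matrix ι ι F} (hN : IsNilpotent N) :
    (stdX N * (stdX N + 1)) ^ Fintype.card ι = 0 := by
  unfold stdX
  rw [block_poly, Matrix.fromBlocks_diagonal_pow]
  have h1 : IsNilpotent (N * (N + 1)) :=
    Commute.isNilpotent_mul_right ((Commute.refl N).add_right (Commute.one_right N)) hN
  have hT : IsNilpotent Nᵀ := Matrix.isNilpotent_transpose_iff.mpr hN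
  have e : (-1 - Nᵀ) * (-1 - Nᵀ + 1) = (-1 - Nᵀ) * (-Nᵀ) := by
    congr 1; abel
  have h2 : IsNilpotent ((-1 - Nᵀ) * (-1 - Nᵀ + 1)) := by
    rw [e]
    apply Commute.isNilpotent_mul_left
    · exact (((Commute.one_left Nᵀ).neg_left).sub_left (Commute.refl Nᵀ)).neg_right
    · exact hT.neg
  rw [nil_pow_eq_zero h1 le_rfl, nil_pow_eq_zero h2 le_rfl, Matrix.fromBlocks_zero]

theorem leviL_mem {P Q : Matrix ι ι F} (h : Q * P = 1) : leviL P Q ∈ SpSet (Matrix.J ι F) := by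
  have h' : Pᵀ * Qᵀ = 1 := by rw [← Matrix.transpose_mul, h, Matrix.transpose_one]
  show (leviL P Q)ᵀ * Matrix.J ι F * leviL P Q = Matrix.J ι F
  unfold leviL Matrix.J
  rw [Matrix.fromBlocks_transpose, Matrix.fromBlocks_multiply, Matrix.fromBlocks_multiply]
  simp only [Matrix.transpose_zero, Matrix.mul_zero, Matrix.zero_mul, add_zero, zero_add,
    Matrix.one_mul, Matrix.mul_one, Matrix.neg_mul, Matrix.mul_neg,
    Matrix.transpose_transpose, h, h', neg_zero]

theorem leviL_rel {P Q N : Matrix ι ι F} (h : P * Q = 1) :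
    leviL P Q * stdX (Q * N * P) = stdX N * leviL P Q := by
  have h' : Qᵀ * Pᵀ = 1 := by rw [← Matrix.transpose_mul, h, Matrix.transpose_one]
  unfold leviL stdX
  rw [Matrix.fromBlocks_multiply, Matrix.fromBlocks_multiply]
  simp only [Matrix.mul_zero, Matrix.zero_mul, add_zero, zero_add]
  congr 1
  · rw [← Matrix.mul_assoc, ← Matrix.mul_assoc, h, Matrix.one_mul]
  · rw [Matrix.transpose_mul, Matrix.transpose_mul, Matrix.mul_sub, Matrix.sub_mul,
      Matrix.mul_neg, Matrix.mul_one, Matrix.neg_mul, Matrix.one_mul, ← Matrix.mul_assoc,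
      ← Matrix.mul_assoc, h', Matrix.one_mul]

theorem intertwine_pow {ι₁ ι₂ : Type*} [Fintype ι₁] [DecidableEq ι₁] [Fintype ι₂]
    [DecidableEq ι₂] {A : Matrix ι₁ ι₂ F} {X : Matrix ι₂ ι₂ F} {X' : Matrix ι₁ ι₁ F}
    (h : A * X = X' * A) (k : ℕ) : A * X ^ k = X' ^ k * A := by
  induction k with
  | zero => rw [pow_zero, pow_zero, Matrix.mul_one, Matrix.one_mul]
  | succ k ih =>
    rw [pow_succ, ← Matrix.mul_assoc, ih, Matrix.mul_assoc, h, ← Matrix.mul_assoc, ← pow_succ]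

theorem stdX_lower_unit {N : Matrix ι ι F} (hN : IsNilpotent N) : IsUnit (-1 - Nᵀ) := by
  have hT : IsNilpotent Nᵀ := Matrix.isNilpotent_transpose_iff.mpr hN
  have e : (-1 - Nᵀ) = -(1 + Nᵀ) := by abel
  rw [e]
  exact hT.isUnit_one_add.neg

end lag

theorem lag (hL : LagAdaptStmt.{u}) : LagStmt.{u} := by
  intro F _ _ ι _ _
  classical
  have hJ : (Matrix.J ι F).det ≠ 0 := (Matrix.isUnit_det_J ι F).ne_zero
  have hb : ∀ X ∈ ANSet (Matrix.J ι F), ∃ h ∈ SpSet (Matrix.J ι F), ∃ N : Matrix ι ι F,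
      IsNilpotent N ∧ X * h = h * stdX N := by
    intro X hX
    obtain ⟨h, hh, N, hN, hr⟩ := hL F ι X hX
    exact ⟨h, hh, N, hN, hr⟩
  choose bh hbh bN hbN hbeq using hb
  let Ψ : (ANSet (Matrix.J ι F) × GL ι F) →
      (SpSet (Matrix.J ι F) × {N : Matrix ι ι F // IsNilpotent N}) := fun x =>
    (⟨bh x.1.1 x.1.2 * leviL (x.2 : Matrix ι ι F) ((x.2⁻¹ : GL ι F) : Matrix ι ι F),
        sp_mul (hbh x.1.1 x.1.2) (leviL_mem (by rw [← Units.val_mul, inv_mul_cancel]; rfl))⟩,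
      ⟨((x.2⁻¹ : GL ι F) : Matrix ι ι F) * bN x.1.1 x.1.2 * (x.2 : Matrix ι ι F), by
        obtain ⟨k, hk⟩ := hbN x.1.1 x.1.2
        refine ⟨k, ?_⟩
        rw [conj_pow' (h := ((x.2⁻¹ : GL ι F) : Matrix ι ι F)) (hi := (x.2 : Matrix ι ι F))
          (by rw [← Units.val_mul, mul_inv_cancel]; rfl)
          (by rw [← Units.val_mul, inv_mul_cancel]; rfl), hk, Matrix.mul_zero,
          Matrix.zero_mul]⟩)
  have hΦΨ : ∀ x : ANSet (Matrix.J ι F) × GL ι F,
      ((Ψ x).1.1) * stdX (Ψ x).2.1 = x.1.1 * (Ψ x).1.1 := by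
    rintro ⟨⟨t, ht⟩, P⟩
    have hPQ : (P : Matrix ι ι F) * ((P⁻¹ : GL ι F) : Matrix ι ι F) = 1 := by
      rw [← Units.val_mul, mul_inv_cancel]; rfl
    show bh t ht * leviL (P : Matrix ι ι F) ((P⁻¹ : GL ι F) : Matrix ι ι F) *
        stdX (((P⁻¹ : GL ι F) : Matrix ι ι F) * bN t ht * (P : Matrix ι ι F)) =
      t * (bh t ht * leviL (P : Matrix ι ι F) ((P⁻¹ : GL ι F) : Matrix ι ι F))
    rw [Matrix.mul_assoc, leviL_rel hPQ, ← Matrix.mul_assoc t, hbeq t ht, Matrix.mul_assoc]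
  have hinj : Function.Injective Ψ := by
    intro x y hxy
    have hx := hΦΨ x
    have hy := hΦΨ y
    have hu : IsUnit ((Ψ y).1.1).det := sp_isUnit_det hJ (Ψ y).1.2
    have ht : x.1.1 = y.1.1 := by
      rw [hxy] at hx
      have h3 : x.1.1 * (Ψ y).1.1 = y.1.1 * (Ψ y).1.1 := by rw [← hx, ← hy]
      have h4 := congrArg (fun Z => Z * ((Ψ y).1.1)⁻¹) h3
      simp only [Matrix.mul_assoc, Matrix.mul_nonsing_inv _ hu, Matrix.mul_one] at h4
      exact h4
    obtain ⟨⟨t, ht'⟩, P⟩ := x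
    obtain ⟨⟨t', ht''⟩, P'⟩ := y
    simp only at ht
    subst ht
    have h5 : bh t ht' * leviL (P : Matrix ι ι F) ((P⁻¹ : GL ι F) : Matrix ι ι F) =
        bh t ht' * leviL (P' : Matrix ι ι F) ((P'⁻¹ : GL ι F) : Matrix ι ι F) :=
      congrArg (fun z : SpSet (Matrix.J ι F) × {N : Matrix ι ι F // IsNilpotent N} => z.1.1) hxy
    have hub : IsUnit (bh t ht').det := sp_isUnit_det hJ (hbh t ht')
    have h6 := congrArg (fun Z => (bh t ht')⁻¹ * Z) h5
    simp only [← Matrix.mul_assoc, Matrix.nonsing_inv_mul _ hub, Matrix.one_mul] at h6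
    obtain ⟨e1, -, -, -⟩ := Matrix.fromBlocks_inj.mp h6
    have : P = P' := Units.ext e1
    subst this
    rfl
  have hsurj : Function.Surjective Ψ := by
    rintro ⟨⟨h, hh⟩, ⟨N, hN⟩⟩
    have huh : IsUnit h.det := sp_isUnit_det hJ hh
    have h1 : h⁻¹ * h = 1 := Matrix.nonsing_inv_mul _ huh
    have h2 : h * h⁻¹ = 1 := Matrix.mul_nonsing_inv _ huh
    set t := h * stdX N * h⁻¹ with htdef
    have hth : t * h = h * stdX N := by
      rw [htdef, Matrix.mul_assoc, h1, Matrix.mul_one]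
    have ht : t ∈ ANSet (Matrix.J ι F) := by
      refine ⟨?_, ?_⟩
      · have : t ∈ ASet (Matrix.J ι F) := aset_of_rel hh huh (stdX_mem N) hth
        exact this
      · refine ⟨Fintype.card ι, ?_⟩
        rw [htdef, conj_poly h1, conj_pow' h1 h2, stdX_nil hN, Matrix.mul_zero, Matrix.zero_mul]
    have hub : IsUnit (bh t ht).det := sp_isUnit_det hJ (hbh t ht)
    set d := (bh t ht)⁻¹ * h with hddef
    have hd : d ∈ SpSet (Matrix.J ι F) := sp_mul (sp_inv hJ (hbh t ht)) hh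
    have hbd : bh t ht * d = h := by
      rw [hddef, ← Matrix.mul_assoc, Matrix.mul_nonsing_inv _ hub, Matrix.one_mul]
    have hrel : d * stdX N = stdX (bN t ht) * d := by
      have e1 : bh t ht * (d * stdX N) = bh t ht * (stdX (bN t ht) * d) := by
        rw [← Matrix.mul_assoc, hbd, ← Matrix.mul_assoc, ← hbeq t ht, Matrix.mul_assoc, hbd, hth]
      have e2 := congrArg (fun Z => (bh t ht)⁻¹ * Z) e1
      simp only [← Matrix.mul_assoc, Matrix.nonsing_inv_mul _ hub, Matrix.one_mul] at e2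
      exact e2
    -- block analysis
    have hdb := Matrix.fromBlocks_toBlocks d
    have hrel' := hrel
    unfold stdX at hrel'
    rw [← hdb, Matrix.fromBlocks_multiply, Matrix.fromBlocks_multiply] at hrel'
    simp only [Matrix.mul_zero, Matrix.zero_mul, add_zero, zero_add] at hrel'
    obtain ⟨r11, r12, r21, -⟩ := Matrix.fromBlocks_inj.mp hrel'
    have z12 : d.toBlocks₁₂ = 0 := by
      have e := intertwine_pow r12 (Fintype.card ι)
      rw [nil_pow_eq_zero (hbN t ht) le_rfl, Matrix.zero_mul] at e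
      obtain ⟨v, hv⟩ := (stdX_lower_unit hN).pow (Fintype.card ι)
      have h3 := congrArg (fun W => W * (↑v⁻¹ : Matrix ι ι F)) e
      simp only [Matrix.zero_mul, Matrix.mul_assoc] at h3
      rw [← hv, Units.mul_inv, Matrix.mul_one] at h3
      exact h3
    have z21 : d.toBlocks₂₁ = 0 := by
      have e := intertwine_pow r21 (Fintype.card ι)
      rw [nil_pow_eq_zero hN le_rfl, Matrix.mul_zero] at e
      obtain ⟨v, hv⟩ := (stdX_lower_unit (hbN t ht)).pow (Fintype.card ι)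
      have h3 := congrArg (fun W => (↑v⁻¹ : Matrix ι ι F) * W) e
      simp only [Matrix.mul_zero, ← Matrix.mul_assoc] at h3
      rw [← hv, Units.inv_mul, Matrix.one_mul] at h3
      exact h3.symm
    have hdd : d = fromBlocks d.toBlocks₁₁ 0 0 d.toBlocks₂₂ := by
      conv_lhs => rw [← hdb]
      rw [z12, z21]
    -- symplectic condition on the diagonal blocks
    have hd' : dᵀ * Matrix.J ι F * d = Matrix.J ι F := hd
    rw [hdd] at hd'
    unfold Matrix.J at hd'
    rw [Matrix.fromBlocks_transpose, Matrix.fromBlocks_multiply, Matrix.fromBlocks_multiply]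
      at hd'
    simp only [Matrix.transpose_zero, Matrix.mul_zero, Matrix.zero_mul, add_zero, zero_add,
      Matrix.one_mul, Matrix.mul_one, Matrix.neg_mul, Matrix.mul_neg] at hd'
    obtain ⟨-, -, s21, -⟩ := Matrix.fromBlocks_inj.mp hd'
    -- s21 : d₂₂ᵀ * d₁₁ = 1
    have s12 : d.toBlocks₁₁ * (d.toBlocks₂₂)ᵀ = 1 := _root_.mul_eq_one_comm.mp s21
    let P : GL ι F := ⟨d.toBlocks₁₁, (d.toBlocks₂₂)ᵀ, s12, s21⟩
    have hPinv : ((P⁻¹ : GL ι F) : Matrix ι ι F) = (d.toBlocks₂₂)ᵀ := rfl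
    have hlev : leviL (P : Matrix ι ι F) ((P⁻¹ : GL ι F) : Matrix ι ι F) = d := by
      rw [hPinv]
      unfold leviL
      rw [Matrix.transpose_transpose]
      exact hdd.symm
    refine ⟨⟨⟨t, ht⟩, P⟩, ?_⟩
    refine Prod.ext (Subtype.ext ?_) (Subtype.ext ?_)
    · show bh t ht * leviL (P : Matrix ι ι F) ((P⁻¹ : GL ι F) : Matrix ι ι F) = h
      rw [hlev, hbd]
    · show ((P⁻¹ : GL ι F) : Matrix ι ι F) * bN t ht * (P : Matrix ι ι F) = N
      rw [hPinv]
      show (d.toBlocks₂₂)ᵀ * bN t ht * d.toBlocks₁₁ = N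
      rw [Matrix.mul_assoc, ← r11, ← Matrix.mul_assoc, s21, Matrix.one_mul]
  have hcard := Nat.card_congr (Equiv.ofBijective Ψ ⟨hinj, hsurj⟩)
  rw [Nat.card_prod, Nat.card_prod] at hcard
  exact hcard

example (hL : LagAdaptStmt.{u}) : LagStmt.{u} := lag hL

end Cfsg.Agent.H48.SpU
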