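import Cfsg.Agent.H48.SpUDefs

/-! # S2316: generic orbit-count lemma for the Fitting pieces -/

set_option autoImplicit false

open Matrix

namespace Cfsg.Agent.H48.SpU

section gen

variable {F : Type*} [Field F] {ι : Type*} [Fintype ι] [DecidableEq ι]

theorem sp_isUnit_det {M g : Matrix ι ι F} (hM : M.det ≠ 0) (hg : g ∈ SpSet M) :
    IsUnit g.det := by
  have h := congrArg Matrix.det hg
  rw [Matrix.det_mul, Matrix.det_mul, Matrix.det_transpose] at h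
  have h1 : g.det * g.det = 1 := by
    apply mul_right_cancel₀ hM
    linear_combination h
  exact IsUnit.of_mul_eq_one _ h1

theorem sp_mul {M g h : Matrix ι ι F} (hg : g ∈ SpSet M) (hh : h ∈ SpSet M) :
    g * h ∈ SpSet M := by
  have hg' : gᵀ * M * g = M := hg
  have hh' : hᵀ * M * h = M := hh
  show (g * h)ᵀ * M * (g * h) = M
  rw [Matrix.transpose_mul]
  calc hᵀ * gᵀ * M * (g * h) = hᵀ * (gᵀ * M * g) * h := by simp only [Matrix.mul_assoc]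
    _ = M := by rw [hg', hh']

theorem sp_inv {M g : Matrix ι ι F} (hM : M.det ≠ 0) (hg : g ∈ SpSet M) : g⁻¹ ∈ SpSet M := by
  have hu := sp_isUnit_det hM hg
  have hg' : gᵀ * M * g = M := hg
  show (g⁻¹)ᵀ * M * g⁻¹ = M
  have h1 : (gᵀ)⁻¹ * gᵀ = 1 := Matrix.nonsing_inv_mul _ (by rwa [Matrix.det_transpose])
  have h2 : g * g⁻¹ = 1 := Matrix.mul_nonsing_inv _ hu
  rw [Matrix.transpose_nonsing_inv]
  calc (gᵀ)⁻¹ * M * g⁻¹ = (gᵀ)⁻¹ * (gᵀ * M * g) * g⁻¹ := by rw [hg']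
    _ = ((gᵀ)⁻¹ * gᵀ) * M * (g * g⁻¹) := by simp only [Matrix.mul_assoc]
    _ = M := by rw [h1, h2, Matrix.one_mul, Matrix.mul_one]

theorem sp_one {M : Matrix ι ι F} : (1 : Matrix ι ι F) ∈ SpSet M := by
  show (1 : Matrix ι ι F)ᵀ * M * 1 = M
  rw [Matrix.transpose_one, Matrix.one_mul, Matrix.mul_one]

end gen

section blocks

variable {F : Type*} [Field F] {ι₁ ι₂ : Type*} [Fintype ι₁] [DecidableEq ι₁] [Fintype ι₂]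
  [DecidableEq ι₂]

theorem sp_block {M₁ : Matrix ι₁ ι₁ F} {M₂ : Matrix ι₂ ι₂ F} {l₁ : Matrix ι₁ ι₁ F}
    {l₂ : Matrix ι₂ ι₂ F} (h₁ : l₁ ∈ SpSet M₁) (h₂ : l₂ ∈ SpSet M₂) :
    fromBlocks l₁ 0 0 l₂ ∈ SpSet (fromBlocks M₁ 0 0 M₂) := by
  have h₁' : l₁ᵀ * M₁ * l₁ = M₁ := h₁
  have h₂' : l₂ᵀ * M₂ * l₂ = M₂ := h₂
  show (fromBlocks l₁ 0 0 l₂)ᵀ * fromBlocks M₁ 0 0 M₂ * fromBlocks l₁ 0 0 l₂ = _
  rw [Matrix.fromBlocks_transpose, Matrix.fromBlocks_multiply, Matrix.fromBlocks_multiply]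
  simp only [Matrix.transpose_zero, Matrix.mul_zero, Matrix.zero_mul, add_zero, zero_add, h₁', h₂']

theorem sp_of_block {M₁ : Matrix ι₁ ι₁ F} {M₂ : Matrix ι₂ ι₂ F} {l₁ : Matrix ι₁ ι₁ F}
    {l₂ : Matrix ι₂ ι₂ F} (h : fromBlocks l₁ 0 0 l₂ ∈ SpSet (fromBlocks M₁ 0 0 M₂)) :
    l₁ ∈ SpSet M₁ ∧ l₂ ∈ SpSet M₂ := by
  have h' : (fromBlocks l₁ 0 0 l₂)ᵀ * fromBlocks M₁ 0 0 M₂ * fromBlocks l₁ 0 0 l₂ =
      fromBlocks M₁ 0 0 M₂ := h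
  rw [Matrix.fromBlocks_transpose, Matrix.fromBlocks_multiply, Matrix.fromBlocks_multiply] at h'
  simp only [Matrix.transpose_zero, Matrix.mul_zero, Matrix.zero_mul, add_zero, zero_add] at h'
  obtain ⟨e1, -, -, e4⟩ := Matrix.fromBlocks_inj.mp h'
  exact ⟨e1, e4⟩

/-- generic orbit count: the conjugation map `SpSet M × (D₁ × D₂) → T` is onto with fibres
`≃ SpSet M₁ × SpSet M₂`. -/
theorem orbit_count [Finite F] (M₁ : Matrix ι₁ ι₁ F) (M₂ : Matrix ι₂ ι₂ F) (hM₁ : M₁.det ≠ 0)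
    (hM₂ : M₂.det ≠ 0) (T : Set (Matrix (ι₁ ⊕ ι₂) (ι₁ ⊕ ι₂) F)) (D₁ : Set (Matrix ι₁ ι₁ F))
    (D₂ : Set (Matrix ι₂ ι₂ F))
    (ha : ∀ h ∈ SpSet (fromBlocks M₁ 0 0 M₂), ∀ X₁ ∈ D₁, ∀ X₂ ∈ D₂,
      h * fromBlocks X₁ 0 0 X₂ * h⁻¹ ∈ T)
    (hb : ∀ X ∈ T, ∃ h ∈ SpSet (fromBlocks M₁ 0 0 M₂), ∃ X₁ ∈ D₁, ∃ X₂ ∈ D₂,
      X * h = h * fromBlocks X₁ 0 0 X₂)
    (hc : ∀ d ∈ SpSet (fromBlocks M₁ 0 0 M₂), ∀ X₁ ∈ D₁, ∀ X₂ ∈ D₂, ∀ X₁' ∈ D₁, ∀ X₂' ∈ D₂,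
      d * fromBlocks X₁ 0 0 X₂ = fromBlocks X₁' 0 0 X₂' * d →
        d.toBlocks₁₂ = 0 ∧ d.toBlocks₂₁ = 0)
    (hd₁ : ∀ d ∈ SpSet M₁, ∀ X ∈ D₁, d⁻¹ * X * d ∈ D₁)
    (hd₂ : ∀ d ∈ SpSet M₂, ∀ X ∈ D₂, d⁻¹ * X * d ∈ D₂) :
    Nat.card T * (Nat.card (SpSet M₁) * Nat.card (SpSet M₂)) =
      Nat.card (SpSet (fromBlocks M₁ 0 0 M₂)) * (Nat.card D₁ * Nat.card D₂) := by
  classical
  set M := fromBlocks M₁ 0 0 M₂ with hMdef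
  have hM : M.det ≠ 0 := by
    rw [hMdef, Matrix.det_fromBlocks_zero₂₁]; exact mul_ne_zero hM₁ hM₂
  -- chosen base points
  choose bh hbh bx₁ hbx₁ bx₂ hbx₂ hbeq using hb
  let Ψ : (T × (SpSet M₁ × SpSet M₂)) → (SpSet M × (D₁ × D₂)) := fun x =>
    (⟨bh x.1.1 x.1.2 * fromBlocks x.2.1.1 0 0 x.2.2.1,
        sp_mul (hbh x.1.1 x.1.2) (sp_block x.2.1.2 x.2.2.2)⟩,
      (⟨(x.2.1.1)⁻¹ * bx₁ x.1.1 x.1.2 * x.2.1.1, hd₁ _ x.2.1.2 _ (hbx₁ x.1.1 x.1.2)⟩,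
       ⟨(x.2.2.1)⁻¹ * bx₂ x.1.1 x.1.2 * x.2.2.1, hd₂ _ x.2.2.2 _ (hbx₂ x.1.1 x.1.2)⟩))
  -- the conjugation map recovers the first component
  have hΦΨ : ∀ x : T × (SpSet M₁ × SpSet M₂),
      ((Ψ x).1.1) * fromBlocks (Ψ x).2.1.1 0 0 (Ψ x).2.2.1 = x.1.1 * (Ψ x).1.1 := by
    rintro ⟨⟨t, ht⟩, ⟨l₁, hl₁⟩, ⟨l₂, hl₂⟩⟩
    have u₁ := sp_isUnit_det hM₁ hl₁
    have u₂ := sp_isUnit_det hM₂ hl₂
    show bh t ht * fromBlocks l₁ 0 0 l₂ *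
        fromBlocks (l₁⁻¹ * bx₁ t ht * l₁) 0 0 (l₂⁻¹ * bx₂ t ht * l₂) =
      t * (bh t ht * fromBlocks l₁ 0 0 l₂)
    have e1 : fromBlocks l₁ 0 0 l₂ *
        fromBlocks (l₁⁻¹ * bx₁ t ht * l₁) 0 0 (l₂⁻¹ * bx₂ t ht * l₂) =
        fromBlocks (bx₁ t ht) 0 0 (bx₂ t ht) * fromBlocks l₁ 0 0 l₂ := by
      rw [Matrix.fromBlocks_multiply, Matrix.fromBlocks_multiply]
      simp only [Matrix.mul_zero, Matrix.zero_mul, add_zero, zero_add]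
      rw [← Matrix.mul_assoc l₁, ← Matrix.mul_assoc l₁, Matrix.mul_nonsing_inv _ u₁,
        Matrix.one_mul, ← Matrix.mul_assoc l₂, ← Matrix.mul_assoc l₂,
        Matrix.mul_nonsing_inv _ u₂, Matrix.one_mul]
    rw [Matrix.mul_assoc, e1, ← Matrix.mul_assoc t, hbeq t ht, Matrix.mul_assoc]
  have hinj : Function.Injective Ψ := by
    intro x y hxy
    have hx := hΦΨ x
    have hy := hΦΨ y
    have hu : IsUnit ((Ψ y).1.1).det := sp_isUnit_det hM (Ψ y).1.2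
    have ht : x.1.1 = y.1.1 := by
      rw [hxy] at hx
      have h3 : x.1.1 * (Ψ y).1.1 = y.1.1 * (Ψ y).1.1 := by rw [← hx, ← hy]
      have h4 := congrArg (fun Z => Z * ((Ψ y).1.1)⁻¹) h3
      simp only [Matrix.mul_assoc, Matrix.mul_nonsing_inv _ hu, Matrix.mul_one] at h4
      exact h4
    obtain ⟨⟨t, ht'⟩, ⟨l₁, hl₁⟩, ⟨l₂, hl₂⟩⟩ := x
    obtain ⟨⟨t', ht''⟩, ⟨l₁', hl₁'⟩, ⟨l₂', hl₂'⟩⟩ := y
    simp only at ht
    subst ht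
    have h5 : bh t ht' * fromBlocks l₁ 0 0 l₂ = bh t ht' * fromBlocks l₁' 0 0 l₂' :=
      congrArg (fun z : SpSet M × (D₁ × D₂) => z.1.1) hxy
    have hub : IsUnit (bh t ht').det := sp_isUnit_det hM (hbh t ht')
    have h6 := congrArg (fun Z => (bh t ht')⁻¹ * Z) h5
    simp only [← Matrix.mul_assoc, Matrix.nonsing_inv_mul _ hub, Matrix.one_mul] at h6
    obtain ⟨e1, -, -, e4⟩ := Matrix.fromBlocks_inj.mp h6
    subst e1; subst e4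
    rfl
  have hsurj : Function.Surjective Ψ := by
    rintro ⟨⟨h, hh⟩, ⟨x₁, hx₁⟩, ⟨x₂, hx₂⟩⟩
    have huh : IsUnit h.det := sp_isUnit_det hM hh
    set t := h * fromBlocks x₁ 0 0 x₂ * h⁻¹ with htdef
    have ht : t ∈ T := ha h hh x₁ hx₁ x₂ hx₂
    have hub : IsUnit (bh t ht).det := sp_isUnit_det hM (hbh t ht)
    set d := (bh t ht)⁻¹ * h with hddef
    have hd : d ∈ SpSet M := sp_mul (sp_inv hM (hbh t ht)) hh
    have hbd : bh t ht * d = h := by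
      rw [hddef, ← Matrix.mul_assoc, Matrix.mul_nonsing_inv _ hub, Matrix.one_mul]
    have hth : t * h = h * fromBlocks x₁ 0 0 x₂ := by
      rw [htdef, Matrix.mul_assoc, Matrix.nonsing_inv_mul _ huh, Matrix.mul_one]
    have hrel : d * fromBlocks x₁ 0 0 x₂ = fromBlocks (bx₁ t ht) 0 0 (bx₂ t ht) * d := by
      have h1 : bh t ht * (d * fromBlocks x₁ 0 0 x₂) =
          bh t ht * (fromBlocks (bx₁ t ht) 0 0 (bx₂ t ht) * d) := by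
        rw [← Matrix.mul_assoc, hbd, ← Matrix.mul_assoc, ← hbeq t ht, Matrix.mul_assoc, hbd, hth]
      have h2 := congrArg (fun Z => (bh t ht)⁻¹ * Z) h1
      simp only [← Matrix.mul_assoc, Matrix.nonsing_inv_mul _ hub, Matrix.one_mul] at h2
      exact h2
    obtain ⟨h12, h21⟩ := hc d hd x₁ hx₁ x₂ hx₂ _ (hbx₁ t ht) _ (hbx₂ t ht) hrel
    have hdb : d = fromBlocks d.toBlocks₁₁ 0 0 d.toBlocks₂₂ := by
      conv_lhs => rw [← Matrix.fromBlocks_toBlocks d]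
      rw [h12, h21]
    have hdsp : d.toBlocks₁₁ ∈ SpSet M₁ ∧ d.toBlocks₂₂ ∈ SpSet M₂ := by
      apply sp_of_block
      rw [← hdb]; exact hd
    have u₁ := sp_isUnit_det hM₁ hdsp.1
    have u₂ := sp_isUnit_det hM₂ hdsp.2
    rw [hdb, Matrix.fromBlocks_multiply, Matrix.fromBlocks_multiply] at hrel
    simp only [Matrix.mul_zero, Matrix.zero_mul, add_zero, zero_add] at hrel
    obtain ⟨r1, -, -, r4⟩ := Matrix.fromBlocks_inj.mp hrel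
    refine ⟨⟨⟨t, ht⟩, ⟨d.toBlocks₁₁, hdsp.1⟩, ⟨d.toBlocks₂₂, hdsp.2⟩⟩, ?_⟩
    refine Prod.ext (Subtype.ext ?_) (Prod.ext (Subtype.ext ?_) (Subtype.ext ?_))
    · show bh t ht * fromBlocks d.toBlocks₁₁ 0 0 d.toBlocks₂₂ = h
      rw [← hdb, hbd]
    · show (d.toBlocks₁₁)⁻¹ * bx₁ t ht * d.toBlocks₁₁ = x₁
      rw [Matrix.mul_assoc, ← r1, ← Matrix.mul_assoc, Matrix.nonsing_inv_mul _ u₁, Matrix.one_mul]
    · show (d.toBlocks₂₂)⁻¹ * bx₂ t ht * d.toBlocks₂₂ = x₂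
      rw [Matrix.mul_assoc, ← r4, ← Matrix.mul_assoc, Matrix.nonsing_inv_mul _ u₂, Matrix.one_mul]
  have hcard := Nat.card_congr (Equiv.ofBijective Ψ ⟨hinj, hsurj⟩)
  rw [Nat.card_prod, Nat.card_prod, Nat.card_prod, Nat.card_prod] at hcard
  exact hcard

end blocks

end Cfsg.Agent.H48.SpU
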