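import Mathlib
import Cfsg.Agent.H78.StODefs

/-!
helper48: piece S2548-CEN for helper78: a matrix commuting with the Levi root elements and the
two kinds of Siegel elements is diagonal.
-/

set_option autoImplicit false

namespace Cfsg.Agent.H48.StO

open Matrix Cfsg.Agent.H78.StO

variable {F : Type*} [Field F]

theorem single_swap {n : ℕ} (x y a b : Fin n) :
    Matrix.single x y (1 : F) b a = Matrix.single y x (1 : F) a b := by
  simp [Matrix.single_apply, and_comm]

theorem isAlt_single_sub {n : ℕ} (i j : Fin n) :
    IsAlt (Matrix.single i j (1 : F) - Matrix.single j i 1) := by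
  constructor
  · intro a b
    rw [Matrix.sub_apply, Matrix.sub_apply, single_swap i j b a, single_swap j i b a, neg_sub]
  · intro a
    rw [Matrix.sub_apply, single_swap i j a a]
    exact sub_self _

/-- **S2548-CEN** -/
theorem diag_of_commute (n : ℕ) (hn : 2 ≤ n) (z : Matrix (Fin n ⊕ Fin n) (Fin n ⊕ Fin n) F)
    (h1 : ∀ i j : Fin n, i ≠ j → ∀ t : F,
      z * fromBlocks (transvection i j t) 0 0 (transvection j i (-t)) =
        fromBlocks (transvection i j t) 0 0 (transvection j i (-t)) * z)
    (h2 : ∀ S : Matrix (Fin n) (Fin n) F, IsAlt S →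
      z * fromBlocks 1 S 0 1 = fromBlocks 1 S 0 1 * z)
    (h3 : ∀ S : Matrix (Fin n) (Fin n) F, IsAlt S →
      z * fromBlocks 1 0 S 1 = fromBlocks 1 0 S 1 * z) :
    ∀ a b, a ≠ b → z a b = 0 := by
  obtain ⟨P, Q, R, T, hz⟩ : ∃ P Q R T, z = fromBlocks P Q R T :=
    ⟨_, _, _, _, (fromBlocks_toBlocks z).symm⟩
  subst hz
  have hother : ∀ j : Fin n, ∃ i : Fin n, i ≠ j := by
    intro j
    by_cases hj : j = ⟨0, by omega⟩
    · refine ⟨⟨1, by omega⟩, ?_⟩
      rw [hj]
      intro h
      simp [Fin.ext_iff] at h
    · exact ⟨⟨0, by omega⟩, fun h => hj h.symm⟩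
  have hR : ∀ j l, R j l = 0 := by
    intro j l
    obtain ⟨i, hij⟩ := hother j
    have h := h2 _ (isAlt_single_sub i j)
    rw [fromBlocks_multiply, fromBlocks_multiply, fromBlocks_inj] at h
    have h11 := h.1
    simp only [mul_one, mul_zero, add_zero, one_mul] at h11
    have h0 : (Matrix.single i j (1 : F) - Matrix.single j i 1) * R = 0 := by
      have h5 : P + 0 = P + (Matrix.single i j (1 : F) - Matrix.single j i 1) * R := by
        rw [add_zero]; exact h11
      exact (add_left_cancel h5).symm
    have h6 := congrFun (congrFun h0 i) l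
    rw [Matrix.sub_mul, Matrix.sub_apply, Matrix.single_mul_apply_same,
      Matrix.single_mul_apply_of_ne _ _ _ _ _ hij, one_mul, sub_zero] at h6
    exact h6
  have hQ : ∀ j l, Q j l = 0 := by
    intro j l
    obtain ⟨i, hij⟩ := hother j
    have h := h3 _ (isAlt_single_sub i j)
    rw [fromBlocks_multiply, fromBlocks_multiply, fromBlocks_inj] at h
    have h22 := h.2.2.2
    simp only [mul_one, mul_zero, zero_add, one_mul] at h22
    have h0 : (Matrix.single i j (1 : F) - Matrix.single j i 1) * Q = 0 := by
      have h5 : 0 + T = (Matrix.single i j (1 : F) - Matrix.single j i 1) * Q + T := by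
        rw [zero_add]; exact h22
      exact (add_right_cancel h5).symm
    have h6 := congrFun (congrFun h0 i) l
    rw [Matrix.sub_mul, Matrix.sub_apply, Matrix.single_mul_apply_same,
      Matrix.single_mul_apply_of_ne _ _ _ _ _ hij, one_mul, sub_zero] at h6
    exact h6
  have hP : ∀ a i, a ≠ i → P a i = 0 := by
    intro a i hai
    have h := h1 i a (Ne.symm hai) 1
    rw [fromBlocks_multiply, fromBlocks_multiply, fromBlocks_inj] at h
    have h11 := h.1
    simp only [mul_zero, add_zero, zero_mul] at h11
    have h6 := congrFun (congrFun h11 a) a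
    rw [transvection, Matrix.mul_add, Matrix.add_mul, mul_one, one_mul, Matrix.add_apply,
      Matrix.add_apply, Matrix.mul_single_apply_same,
      Matrix.single_mul_apply_of_ne _ _ _ _ _ hai, mul_one, add_zero] at h6
    exact add_left_cancel (a := P a a) (by rw [add_zero]; exact h6)
  have hT : ∀ a b, a ≠ b → T a b = 0 := by
    intro a b hab
    have h := h1 a b hab 1
    rw [fromBlocks_multiply, fromBlocks_multiply, fromBlocks_inj] at h
    have h22 := h.2.2.2
    simp only [mul_zero, zero_add, zero_mul] at h22
    have h6 := congrFun (congrFun h22 a) a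
    rw [transvection, Matrix.mul_add, Matrix.add_mul, mul_one, one_mul, Matrix.add_apply,
      Matrix.add_apply, Matrix.mul_single_apply_same,
      Matrix.single_mul_apply_of_ne _ _ _ _ _ hab, add_zero] at h6
    have h7 : T a b * (-1) = 0 := add_left_cancel (a := T a a) (by rw [add_zero]; exact h6)
    rw [mul_neg, mul_one, neg_eq_zero] at h7
    exact h7
  intro a b hab
  rcases a with a | a <;> rcases b with b | b
  · rw [fromBlocks_apply₁₁]
    exact hP a b (fun h => hab (by rw [h]))
  · rw [fromBlocks_apply₁₂]
    exact hQ a b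
  · rw [fromBlocks_apply₂₁]
    exact hR a b
  · rw [fromBlocks_apply₂₂]
    exact hT a b (fun h => hab (by rw [h]))

end Cfsg.Agent.H48.StO
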