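import Mathlib
import Cfsg.Prelude.Def_Classical
import Cfsg.Prelude.Def_Characters
import Cfsg.Agent.H48.O4Plus
import Cfsg.Agent.H48.FieldTwo
import Cfsg.Agent.S2544
import Cfsg.Agent.H4.Frob

/-!
helper48: piece S2548-TWO for helper78: the Steinberg character of `PΩ⁺_4(2)` (a group of
order 18: the pull-back of the Steinberg character of `SL_2(2)` along a projection).
-/

set_option autoImplicit false

namespace Cfsg.Agent.H48.StO

open Matrix Cfsg.Agent.H48
open scoped commutatorElement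

/-- pull-back of a Steinberg character along a surjection with kernel of order prime to `p` -/
theorem steinberg_of_surjective {A : Type*} {B : Type*} [Group A] [Group B] [Finite A]
    (f : A →* B) (hf : Function.Surjective f) (p : ℕ) [Fact p.Prime]
    (hker : ¬ p ∣ Nat.card f.ker)
    (h : ∃ χ : B → ℂ, Cfsg.IsIrrCharacter B χ ∧
      ∀ P : Sylow p B, χ 1 = Nat.card P ∧ ∀ x : B, x ∈ P → x ≠ 1 → χ x = 0) :
    ∃ χ : A → ℂ, Cfsg.IsIrrCharacter A χ ∧
      ∀ P : Sylow p A, χ 1 = Nat.card P ∧ ∀ x : A, x ∈ P → x ≠ 1 → χ x = 0 := by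
  obtain ⟨χ, hχ, hP⟩ := h
  have hp : p.Prime := Fact.out
  refine ⟨fun a => χ (f a), Cfsg.Agent.H4.isIrrCharacter_comp_surjective f hf hχ, ?_⟩
  intro P
  have hinj : ∀ x ∈ (P : Subgroup A), f x = 1 → x = 1 := by
    intro x hx hfx
    have h1 : orderOf x ∣ Nat.card f.ker := by
      have h2 : orderOf (⟨x, hfx⟩ : f.ker) = orderOf x := Subgroup.orderOf_mk x hfx
      rw [← h2]
      exact orderOf_dvd_natCard _
    obtain ⟨k, hk⟩ := P.isPGroup' ⟨x, hx⟩
    have hk' : x ^ p ^ k = 1 := congrArg Subtype.val hk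
    have h3 : orderOf x ∣ p ^ k := orderOf_dvd_of_pow_eq_one hk'
    have hcop : Nat.Coprime (p ^ k) (Nat.card f.ker) :=
      Nat.Coprime.pow_left k ((Nat.Prime.coprime_iff_not_dvd hp).mpr hker)
    have h4 : orderOf x ∣ 1 := by
      rw [← hcop]
      exact Nat.dvd_gcd h3 h1
    exact orderOf_eq_one_iff.mp (Nat.dvd_one.mp h4)
  have hmem : ∀ x ∈ (P : Subgroup A), f x ∈ (P.mapSurjective hf : Sylow p B) := by
    intro x hx
    show f x ∈ ((P.mapSurjective hf : Sylow p B) : Subgroup B)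
    rw [Sylow.coe_mapSurjective]
    exact Subgroup.mem_map_of_mem f hx
  obtain ⟨h1, h2⟩ := hP (P.mapSurjective hf)
  have hcard : Nat.card (P.mapSurjective hf : Sylow p B) = Nat.card P := by
    symm
    apply Nat.card_eq_of_bijective
      (fun x : P => (⟨f x.1, hmem x.1 x.2⟩ : (P.mapSurjective hf : Sylow p B)))
    constructor
    · intro x y hxy
      have h3 : f x.1 = f y.1 := congrArg Subtype.val hxy
      have h4 : f (x.1 * y.1⁻¹) = 1 := by rw [map_mul, map_inv, h3, mul_inv_cancel]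
      have h5 := hinj _ (Subgroup.mul_mem _ x.2 (Subgroup.inv_mem _ y.2)) h4
      exact Subtype.ext (mul_inv_eq_one.mp h5)
    · rintro ⟨y, hy⟩
      have hy' : y ∈ ((P.mapSurjective hf : Sylow p B) : Subgroup B) := hy
      rw [Sylow.coe_mapSurjective] at hy'
      obtain ⟨x, hx, rfl⟩ := hy'
      exact ⟨⟨x, hx⟩, rfl⟩
  refine ⟨?_, ?_⟩
  · show χ (f 1) = _
    rw [map_one, h1, hcard]
  · intro x hx hx1
    apply h2 (f x) (hmem x hx)
    intro h
    exact hx1 (hinj x hx h)

/-- commutators of a group with a subgroup `Φ(M)` of index two lie in the image of the kernel of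
a homomorphism `ε : M → C` (`C` commutative) invariant under the outer element `t` -/
theorem comm_mem_of_index_two {G M C : Type*} [Group G] [Group M] [CommGroup C]
    (Φ : M →* G) (ε : M →* C) (t : G) (τ : M → M)
    (h1 : ∀ g : G, g ∈ Φ.range ∨ t⁻¹ * g ∈ Φ.range)
    (h2 : ∀ m, t * Φ m * t⁻¹ = Φ (τ m)) (h3 : ∀ m, ε (τ m) = ε m) :
    ∀ x ∈ commutator G, ∃ m, Φ m = x ∧ ε m = 1 := by
  have hconjε : ∀ n m : M, ε (n * m * n⁻¹) = ε m := by
    intro n m
    rw [map_mul, map_mul, map_inv, mul_comm (ε n), mul_assoc, mul_inv_cancel, mul_one]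
  have hinv : ∀ (g : G) (m : M), ∃ m', g * Φ m * g⁻¹ = Φ m' ∧ ε m' = ε m := by
    intro g m
    rcases h1 g with ⟨n, rfl⟩ | ⟨n, hn⟩
    · exact ⟨n * m * n⁻¹, by rw [map_mul, map_mul, map_inv], hconjε n m⟩
    · have hg : g = t * Φ n := by rw [hn]; group
      refine ⟨τ (n * m * n⁻¹), ?_, ?_⟩
      · rw [← h2, hg, map_mul, map_mul, map_inv]
        group
      · rw [h3, hconjε]
  have hK : commutator G ≤ (ε.ker).map Φ := by
    rw [commutator_def, Subgroup.commutator_le]
    intro g _ h _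
    rw [commutatorElement_def]
    by_cases hh : h ∈ Φ.range
    · obtain ⟨m, rfl⟩ := hh
      obtain ⟨m', hm', hε⟩ := hinv g m
      refine Subgroup.mem_map.mpr ⟨m' * m⁻¹, MonoidHom.mem_ker.mpr ?_, ?_⟩
      · rw [map_mul, map_inv, hε, mul_inv_cancel]
      · rw [map_mul, map_inv, ← hm']
    · by_cases hg : g ∈ Φ.range
      · obtain ⟨m, rfl⟩ := hg
        obtain ⟨m', hm', hε⟩ := hinv h m⁻¹
        refine Subgroup.mem_map.mpr ⟨m * m', MonoidHom.mem_ker.mpr ?_, ?_⟩
        · rw [map_mul, hε, map_inv, mul_inv_cancel]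
        · rw [map_mul, ← hm', map_inv]
          group
      · obtain ⟨n, hn⟩ := (h1 g).resolve_left hg
        obtain ⟨n', hn'⟩ := (h1 h).resolve_left hh
        have hhg : h = g * Φ (n⁻¹ * n') := by
          rw [map_mul, map_inv, hn, hn']
          group
        obtain ⟨k', hk', hεk⟩ := hinv g (n⁻¹ * n')
        obtain ⟨c', hc', hεc⟩ := hinv g (k' * (n⁻¹ * n')⁻¹)
        refine Subgroup.mem_map.mpr ⟨c', MonoidHom.mem_ker.mpr ?_, ?_⟩
        · rw [hεc, map_mul, map_inv, hεk, mul_inv_cancel]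
        · have e1 : Φ c' = g * (Φ k' * (Φ (n⁻¹ * n'))⁻¹) * g⁻¹ := by
            rw [← hc', map_mul, map_inv]
          rw [e1, ← hk', hhg]
          group
  intro x hx
  obtain ⟨m, hm, rfl⟩ := Subgroup.mem_map.mp (hK hx)
  exact ⟨m, rfl, MonoidHom.mem_ker.mp hm⟩

/-- commutator subgroup modulo its centre is functorial for isomorphisms -/
theorem commCenterCongr' {G G' : Type*} [Group G] [Group G'] (e : G ≃* G') :
    Nonempty ((↥(commutator G) ⧸ Subgroup.center ↥(commutator G)) ≃*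
      (↥(commutator G') ⧸ Subgroup.center ↥(commutator G'))) := by
  have h1 : Subgroup.map (e : G →* G') (commutator G) = commutator G' := by
    rw [commutator_def, commutator_def, Subgroup.map_commutator,
      Subgroup.map_top_of_surjective _ e.surjective]
  let ec : ↥(commutator G) ≃* ↥(commutator G') :=
    (e.subgroupMap (commutator G)).trans (MulEquiv.subgroupCongr h1)
  refine ⟨QuotientGroup.congr _ _ ec ?_⟩
  ext x
  constructor
  · rintro ⟨y, hy, rfl⟩
    have hy' : y ∈ Subgroup.center ↥(commutator G) := hy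
    rw [Subgroup.mem_center_iff] at hy'
    show ec y ∈ Subgroup.center ↥(commutator G')
    rw [Subgroup.mem_center_iff]
    intro g'
    obtain ⟨g0, rfl⟩ := ec.surjective g'
    rw [← map_mul, ← map_mul, hy' g0]
  · intro hx
    refine ⟨ec.symm x, ?_, ec.apply_symm_apply x⟩
    show ec.symm x ∈ Subgroup.center ↥(commutator G)
    rw [Subgroup.mem_center_iff] at hx ⊢
    intro g0
    apply ec.injective
    rw [map_mul, map_mul, ec.apply_symm_apply]
    exact hx (ec g0)

/-! ### The group `O⁺_4(2)` -/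

/-- `SL_2(2)` -/
abbrev S2 : Type := Matrix.SpecialLinearGroup (Fin 2) (ZMod 2)

/-- `O⁺_4(2)` -/
abbrev O4 : Type := ↥(Cfsg.isometryGroup (ZMod 2) (Cfsg.quadFormPlus 2 (ZMod 2)))

theorem lam_inj : Function.Injective (lamHom : S2 →* O4) := by
  intro P P' h
  have h1 : lmM (P : Matrix (Fin 2) (Fin 2) (ZMod 2)) = lmM (P' : Matrix (Fin 2) (Fin 2) (ZMod 2)) := by
    rw [← lamHom_val, ← lamHom_val, h]
  exact Subtype.ext (lmM_injective h1)

theorem rho_inj : Function.Injective (rhoHom : S2 →* O4) := by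
  intro P P' h
  have h1 : rmM (P : Matrix (Fin 2) (Fin 2) (ZMod 2)) = rmM (P' : Matrix (Fin 2) (Fin 2) (ZMod 2)) := by
    rw [← rhoHom_val, ← rhoHom_val, h]
  exact Subtype.ext (rmM_injective h1)

theorem lam_rho_comm (P P' : S2) : Commute (lamHom P) (rhoHom P') := by
  apply Subtype.ext
  apply Units.ext
  exact lmM_rmM_comm _ _

theorem lam_eq_rho (P P' : S2) (h : lamHom P = rhoHom P') : P = 1 := by
  have h1 : lmM (P : Matrix (Fin 2) (Fin 2) (ZMod 2)) = rmM (P' : Matrix (Fin 2) (Fin 2) (ZMod 2)) := by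
    rw [← lamHom_val, ← rhoHom_val, h]
  obtain ⟨h01, h10⟩ := lmM_eq_rmM _ _ h1
  have hdet := P.2
  rw [Matrix.det_fin_two, h01, h10] at hdet
  have key : ∀ a b : ZMod 2, a * b - 0 * 0 = 1 → a = 1 ∧ b = 1 := by decide
  obtain ⟨h00, h11⟩ := key _ _ hdet
  apply Subtype.ext
  ext i j
  fin_cases i <;> fin_cases j
  · exact h00
  · exact h01
  · exact h10
  · exact h11

/-- the transposition element -/
noncomputable def tO : O4 :=
  ⟨⟨tM (ZMod 2), tM (ZMod 2), tM_mul_self, tM_mul_self⟩, fun u _ => quad_tM u⟩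

theorem tO_mul_self : tO * tO = 1 := by
  apply Subtype.ext
  apply Units.ext
  exact tM_mul_self

theorem tO_inv : tO⁻¹ = tO := inv_eq_of_mul_eq_one_left tO_mul_self

theorem tO_lam (P : S2) : tO * lamHom P * tO⁻¹ = rhoHom P := by
  rw [mul_inv_eq_iff_eq_mul]
  apply Subtype.ext
  apply Units.ext
  exact tM_lmM _

theorem tO_rho (P : S2) : tO * rhoHom P * tO⁻¹ = lamHom P := by
  rw [← tO_lam P, tO_inv]
  calc tO * (tO * lamHom P * tO) * tO = (tO * tO) * lamHom P * (tO * tO) := by group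
    _ = lamHom P := by rw [tO_mul_self, one_mul, mul_one]

/-- the product map `SL_2(2) × SL_2(2) → O⁺_4(2)` -/
noncomputable def PhiO : S2 × S2 →* O4 := MonoidHom.noncommCoprod lamHom rhoHom lam_rho_comm

theorem PhiO_apply (m : S2 × S2) : PhiO m = lamHom m.1 * rhoHom m.2 := rfl

theorem PhiO_inj : Function.Injective PhiO := by
  have hinf : (lamHom : S2 →* O4).range ⊓ (rhoHom : S2 →* O4).range = ⊥ := by
    rw [eq_bot_iff]
    rintro x ⟨⟨P, rfl⟩, ⟨P', hP'⟩⟩
    have h1 := lam_eq_rho P P' hP'.symm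
    rw [h1, map_one]
    exact Subgroup.mem_bot.mpr rfl
  exact (MonoidHom.noncommCoprod_injective lamHom rhoHom lam_rho_comm).mpr
    ⟨lam_inj, rho_inj, disjoint_iff.mpr hinf⟩

theorem card_O4 : Nat.card O4 = 72 := by
  rw [Cfsg.Agent.S0287.result (F := ZMod 2) (q := 2) rfl 2 (by norm_num)]
  decide

theorem tO_conj (m : S2 × S2) : tO * PhiO m * tO⁻¹ = PhiO (m.2, m.1) := by
  rw [PhiO_apply, PhiO_apply]
  calc tO * (lamHom m.1 * rhoHom m.2) * tO⁻¹
      = (tO * lamHom m.1 * tO⁻¹) * (tO * rhoHom m.2 * tO⁻¹) := by group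
    _ = rhoHom m.1 * lamHom m.2 := by rw [tO_lam, tO_rho]
    _ = lamHom m.2 * rhoHom m.1 := ((lam_rho_comm m.2 m.1).eq).symm

theorem perm3_cube : ∀ σ : Equiv.Perm (Fin 3), Equiv.Perm.sign σ = 1 → σ ^ 3 = 1 := by decide

theorem perm3_center : ∀ σ : Equiv.Perm (Fin 3),
    (∀ τ : Equiv.Perm (Fin 3), τ * σ = σ * τ) → σ = 1 := by decide

theorem exists_psi : Nonempty (S2 ≃* Equiv.Perm (Fin 3)) :=
  Cfsg.Agent.S0250.result (F := ZMod 2) rfl

theorem card_S2 : Nat.card S2 = 6 := by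
  obtain ⟨ψ⟩ := exists_psi
  rw [Nat.card_congr ψ.toEquiv, Nat.card_eq_fintype_card, Fintype.card_perm, Fintype.card_fin]
  rfl

theorem card_PhiO_range : Nat.card (PhiO.range) = 36 := by
  rw [← Nat.card_congr (MonoidHom.ofInjective PhiO_inj).toEquiv, Nat.card_prod, card_S2]

theorem index_PhiO_range : (PhiO.range).index = 2 := by
  have h := Subgroup.index_mul_card (PhiO.range)
  rw [card_PhiO_range, card_O4] at h
  omega

/-- a non-identity element of `SL_2(2)` -/
def R0 : S2 := ⟨!![1, 1; 0, 1], by decide⟩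

theorem R0_ne_one : R0 ≠ 1 := by decide

theorem tO_not_mem : tO ∉ PhiO.range := by
  rintro ⟨⟨P, P'⟩, h⟩
  rw [PhiO_apply] at h
  have h1 : rhoHom R0 = lamHom (P * R0 * P⁻¹) := by
    rw [← tO_lam R0, tO_inv, ← h]
    simp only [map_mul, map_inv]
    have c1 := (lam_rho_comm R0 P').eq
    have c2 := (lam_rho_comm P⁻¹ P').eq
    simp only [map_inv] at c2
    have hinv : (rhoHom P' : O4) * rhoHom P' = 1 → True := fun _ => trivial
    have hPP : (lamHom P * rhoHom P') * (lamHom P * rhoHom P') = 1 := by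
      rw [h]; exact tO_mul_self
    calc lamHom P * rhoHom P' * lamHom R0 * (lamHom P * rhoHom P')
        = lamHom P * rhoHom P' * lamHom R0 * (lamHom P * rhoHom P') *
            ((lamHom P * rhoHom P') * (lamHom P * rhoHom P'))⁻¹ := by rw [hPP, inv_one, mul_one]
      _ = lamHom P * (rhoHom P' * lamHom R0) * (rhoHom P')⁻¹ * (lamHom P)⁻¹ := by group
      _ = lamHom P * (lamHom R0 * rhoHom P') * (rhoHom P')⁻¹ * (lamHom P)⁻¹ := by rw [c1]
      _ = lamHom P * lamHom R0 * (lamHom P)⁻¹ := by group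
  have h2 := lam_eq_rho (P * R0 * P⁻¹) R0 h1.symm
  apply R0_ne_one
  have h3 : R0 = P⁻¹ * (P * R0 * P⁻¹) * P := by group
  rw [h3, h2]
  group

theorem PhiO_cover (g : O4) : g ∈ PhiO.range ∨ tO⁻¹ * g ∈ PhiO.range := by
  by_cases hg : g ∈ PhiO.range
  · exact Or.inl hg
  · right
    have h := Subgroup.mul_mem_iff_of_index_two index_PhiO_range (a := tO⁻¹) (b := g)
    by_contra hc
    have h1 : ¬ (tO⁻¹ ∈ PhiO.range ↔ g ∈ PhiO.range) := fun hh => hc (h.mpr hh)
    apply h1
    constructor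
    · intro ht
      exact absurd (by simpa using Subgroup.inv_mem _ ht) tO_not_mem
    · intro hg'
      exact absurd hg' hg

/-- an isomorphism `SL_2(2) ≃ S_3` -/
noncomputable def psiS : S2 ≃* Equiv.Perm (Fin 3) := Classical.choice exists_psi

/-- the sign character of `SL_2(2)` -/
noncomputable def sgn : S2 →* ℤˣ := Equiv.Perm.sign.comp psiS.toMonoidHom

theorem sgn_apply (P : S2) : sgn P = Equiv.Perm.sign (psiS P) := rfl

/-- the product of the two sign characters -/
noncomputable def epsO : S2 × S2 →* ℤˣ :=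
  (sgn.comp (MonoidHom.fst S2 S2)) * (sgn.comp (MonoidHom.snd S2 S2))

theorem epsO_apply (m : S2 × S2) : epsO m = sgn m.1 * sgn m.2 := rfl

theorem comm_O4 : ∀ x ∈ commutator O4, ∃ m, PhiO m = x ∧ epsO m = 1 :=
  comm_mem_of_index_two PhiO epsO tO (fun m => (m.2, m.1)) PhiO_cover tO_conj
    (fun m => by rw [epsO_apply, epsO_apply, mul_comm])

theorem comm_le_range : commutator O4 ≤ PhiO.range := by
  intro x hx
  obtain ⟨m, hm, _⟩ := comm_O4 x hx
  exact ⟨m, hm⟩

/-- the inverse of `PhiO` on the commutator subgroup -/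
noncomputable def thetaO : ↥(commutator O4) →* S2 × S2 :=
  ((MonoidHom.ofInjective PhiO_inj).symm.toMonoidHom).comp (Subgroup.inclusion comm_le_range)

theorem PhiO_thetaO (x : ↥(commutator O4)) : PhiO (thetaO x) = x.1 := by
  show PhiO ((MonoidHom.ofInjective PhiO_inj).symm (Subgroup.inclusion comm_le_range x)) = x.1
  rw [MonoidHom.apply_ofInjective_symm]
  rfl

theorem thetaO_eps (x : ↥(commutator O4)) : epsO (thetaO x) = 1 := by
  obtain ⟨m, hm, hε⟩ := comm_O4 x.1 x.2
  have h : thetaO x = m := PhiO_inj (by rw [PhiO_thetaO, hm])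
  rw [h, hε]

theorem thetaO_inj : Function.Injective thetaO := by
  intro x y h
  apply Subtype.ext
  rw [← PhiO_thetaO, ← PhiO_thetaO, h]

/-- projection to the first factor -/
noncomputable def piO : ↥(commutator O4) →* S2 := (MonoidHom.fst S2 S2).comp thetaO

theorem piO_apply (x : ↥(commutator O4)) : piO x = (thetaO x).1 := rfl

theorem piO_surj : Function.Surjective piO := by
  intro P
  have hmem : ⁅tO, lamHom P⁻¹⁆ ∈ commutator O4 := by
    rw [commutator_def]
    exact Subgroup.commutator_mem_commutator (Subgroup.mem_top _) (Subgroup.mem_top _)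
  have hval : ⁅tO, lamHom P⁻¹⁆ = PhiO (P, P⁻¹) := by
    have e1 : ⁅tO, lamHom P⁻¹⁆ = (tO * lamHom P⁻¹ * tO⁻¹) * (lamHom P⁻¹)⁻¹ :=
      commutatorElement_def _ _
    have e2 : (lamHom P⁻¹ : O4)⁻¹ = lamHom P := by rw [map_inv, inv_inv]
    have e3 : PhiO (P, P⁻¹) = lamHom P * rhoHom P⁻¹ := PhiO_apply _
    rw [e1, tO_lam, e2, e3]
    exact ((lam_rho_comm P P⁻¹).eq).symm
  refine ⟨⟨_, hmem⟩, ?_⟩
  have h1 : thetaO ⟨_, hmem⟩ = (P, P⁻¹) := PhiO_inj ((PhiO_thetaO _).trans hval)
  rw [piO_apply, h1]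

theorem piO_ker_cube (x : ↥(commutator O4)) (hx : piO x = 1) : x ^ 3 = 1 := by
  apply thetaO_inj
  rw [map_pow, map_one]
  have h1 := thetaO_eps x
  rw [epsO_apply] at h1
  rw [piO_apply] at hx
  rw [hx, map_one, one_mul, sgn_apply] at h1
  have h2 := perm3_cube _ h1
  have h3 : (thetaO x).2 ^ 3 = 1 := by
    apply psiS.injective
    rw [map_pow, map_one, h2]
  apply Prod.ext
  · show (thetaO x).1 ^ 3 = 1
    rw [hx, one_pow]
  · exact h3

theorem center_S2 (P : S2) (h : ∀ Q : S2, Q * P = P * Q) : P = 1 := by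
  apply psiS.injective
  rw [map_one]
  apply perm3_center
  intro τ
  obtain ⟨Q, rfl⟩ := psiS.surjective τ
  rw [← map_mul, ← map_mul, h Q]

theorem center_le_ker : Subgroup.center ↥(commutator O4) ≤ piO.ker := by
  intro x hx
  rw [Subgroup.mem_center_iff] at hx
  rw [MonoidHom.mem_ker]
  apply center_S2
  intro Q
  obtain ⟨y, rfl⟩ := piO_surj Q
  rw [← map_mul, ← map_mul, hx y]

theorem o4_omega_hom : ∃ π : (↥(commutator O4) ⧸ Subgroup.center ↥(commutator O4)) →* S2,
    Function.Surjective π ∧ ¬ 2 ∣ Nat.card π.ker := by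
  refine ⟨QuotientGroup.lift _ piO center_le_ker, ?_, ?_⟩
  · intro P
    obtain ⟨x, hx⟩ := piO_surj P
    exact ⟨QuotientGroup.mk x, by rw [QuotientGroup.lift_mk]; exact hx⟩
  · intro h2
    have hfin : Finite O4 := Nat.finite_of_card_ne_zero (by rw [card_O4]; norm_num)
    obtain ⟨y, hy⟩ := exists_prime_orderOf_dvd_card' (G := ↥(QuotientGroup.lift
      (Subgroup.center ↥(commutator O4)) piO center_le_ker).ker) 2 h2
    obtain ⟨x, hx⟩ := QuotientGroup.mk_surjective y.1
    have hy1 : QuotientGroup.lift (Subgroup.center ↥(commutator O4)) piO center_le_ker y.1 = 1 :=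
      MonoidHom.mem_ker.mp y.2
    rw [← hx, QuotientGroup.lift_mk] at hy1
    have hx3 := piO_ker_cube x hy1
    have hy3 : y.1 ^ 3 = 1 := by
      rw [← hx, ← QuotientGroup.mk_pow, hx3]
      rfl
    have hy3' : y ^ 3 = 1 := Subtype.ext hy3
    have hy2 : y ^ 2 = 1 := by
      have h5 := pow_orderOf_eq_one y
      rw [hy] at h5
      exact h5
    have hy0 : y = 1 := by
      calc y = y ^ 3 * (y ^ 2)⁻¹ := by group
        _ = 1 := by rw [hy3', hy2, inv_one, mul_one]
    rw [hy0, orderOf_one] at hy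
    omega

theorem steinberg_S2 : ∃ χ : S2 → ℂ, Cfsg.IsIrrCharacter S2 χ ∧
    ∀ P : Sylow 2 S2, χ 1 = Nat.card P ∧ ∀ x : S2, x ∈ P → x ≠ 1 → χ x = 0 := by
  have h := Cfsg.Agent.S2544.result (F := ZMod 2) 2 2 le_rfl
  refine steinberg_of_surjective (QuotientGroup.mk' (Subgroup.center S2))
    (QuotientGroup.mk'_surjective _) 2 ?_ h
  have hbot : Subgroup.center S2 = ⊥ := by
    rw [eq_bot_iff]
    intro P hP
    rw [Subgroup.mem_center_iff] at hP
    exact Subgroup.mem_bot.mpr (center_S2 P hP)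
  rw [QuotientGroup.ker_mk', hbot, Subgroup.card_bot]
  norm_num

theorem steinberg_pomega_zmod2 :
    ∃ χ : (↥(commutator O4) ⧸ Subgroup.center ↥(commutator O4)) → ℂ,
      Cfsg.IsIrrCharacter (↥(commutator O4) ⧸ Subgroup.center ↥(commutator O4)) χ ∧
      ∀ P : Sylow 2 (↥(commutator O4) ⧸ Subgroup.center ↥(commutator O4)),
        χ 1 = Nat.card P ∧
        ∀ x : (↥(commutator O4) ⧸ Subgroup.center ↥(commutator O4)), x ∈ P → x ≠ 1 → χ x = 0 := by
  obtain ⟨π, hπ, hker⟩ := o4_omega_hom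
  have hfin : Finite O4 := Nat.finite_of_card_ne_zero (by rw [card_O4]; norm_num)
  exact steinberg_of_surjective π hπ 2 hker steinberg_S2

theorem oplus_steinberg_two_two {F : Type*} [Field F] [Fintype F] (hF : Fintype.card F = 2) :
    ∃ χ : Cfsg.POmega F (Cfsg.quadFormPlus 2 F) → ℂ,
      Cfsg.IsIrrCharacter (Cfsg.POmega F (Cfsg.quadFormPlus 2 F)) χ ∧
      ∀ P : Sylow 2 (Cfsg.POmega F (Cfsg.quadFormPlus 2 F)), χ 1 = Nat.card P ∧
        ∀ x : Cfsg.POmega F (Cfsg.quadFormPlus 2 F), x ∈ P → x ≠ 1 → χ x = 0 := by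
  have σ : F ≃+* ZMod 2 := (ZMod.ringEquivOfPrime F Nat.prime_two hF).symm
  obtain ⟨τ, hτ⟩ := Cfsg.Agent.H48.exists_hom_isometryGroup_of_ringEquiv σ
    (Cfsg.quadFormPlus 2 F) (Cfsg.quadFormPlus 2 (ZMod 2)) (Cfsg.Agent.H48.quadFormPlus_map σ 2)
  have hcard : Nat.card ↥(Cfsg.isometryGroup F (Cfsg.quadFormPlus 2 F)) = 72 := by
    rw [Cfsg.Agent.S0287.result (F := F) (q := 2) hF 2 (by norm_num)]
    decide
  have hfin : Finite O4 := Nat.finite_of_card_ne_zero (by rw [card_O4]; norm_num)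
  have hfinF : Finite ↥(Cfsg.isometryGroup F (Cfsg.quadFormPlus 2 F)) :=
    Nat.finite_of_card_ne_zero (by rw [hcard]; norm_num)
  have hbij : Function.Bijective τ :=
    (Nat.bijective_iff_injective_and_card τ).2 ⟨hτ, by rw [hcard]; exact card_O4.symm⟩
  obtain ⟨e⟩ := commCenterCongr' (MulEquiv.ofBijective τ hbij)
  refine steinberg_of_surjective e.toMonoidHom e.surjective 2 ?_ steinberg_pomega_zmod2
  have hker : (e.toMonoidHom).ker = ⊥ := (MonoidHom.ker_eq_bot_iff _).mpr e.injective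
  rw [hker, Subgroup.card_bot]
  norm_num

end Cfsg.Agent.H48.StO
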