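import Cfsg.Agent.H48.FieldExt
import Cfsg.Agent.H48.PGLInv2
import Cfsg.Agent.H99.Subfield

set_option autoImplicit false

/-!
Helper lemmas (helper48): conjugating scalar multiples of unipotent matrices into subfield
subgroups by matrices of determinant one.
-/

namespace Cfsg.Agent.H48

open Module Matrix

section Conj

variable {F : Type*} [Field F]

theorem jordanTypeMatrix_map {t : ℕ} (d : Fin t → ℕ) {R S : Type*} [Ring R] [Ring S]
    (φ : R →+* S) : (Cfsg.jordanTypeMatrix d R).map φ = Cfsg.jordanTypeMatrix d S := by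
  ext ⟨k, a⟩ ⟨l, b⟩
  unfold Cfsg.jordanTypeMatrix
  rw [Matrix.map_apply, Matrix.blockDiagonal'_apply, Matrix.blockDiagonal'_apply]
  by_cases h : k = l
  · subst h
    simp only [dif_pos rfl, cast_eq]
    unfold Cfsg.jordanBlock
    simp only [Matrix.of_apply]
    split_ifs <;> simp
  · simp [dif_neg h]

/-- The block-scalar matrices commute with the Jordan matrix. -/
theorem blockScalar_commute {t : ℕ} (d : Fin t → ℕ) (a : Fin t → F) :
    Matrix.diagonal (fun i : (k : Fin t) × Fin (d k) => a i.1) * Cfsg.jordanTypeMatrix d F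
      = Cfsg.jordanTypeMatrix d F * Matrix.diagonal (fun i : (k : Fin t) × Fin (d k) => a i.1) := by
  ext ⟨k, x⟩ ⟨l, y⟩
  rw [Matrix.diagonal_mul, Matrix.mul_diagonal]
  unfold Cfsg.jordanTypeMatrix
  by_cases h : k = l
  · subst h
    exact mul_comm _ _
  · rw [Matrix.blockDiagonal'_apply_ne _ _ _ h, mul_zero, zero_mul]

theorem det_blockScalar {t : ℕ} (d : Fin t → ℕ) (a : Fin t → F) :
    (Matrix.diagonal (fun i : (k : Fin t) × Fin (d k) => a i.1)).det = ∏ k, a k ^ d k := by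
  rw [Matrix.det_diagonal, Fintype.prod_sigma]
  refine Finset.prod_congr rfl fun k _ => ?_
  show ∏ _y : Fin (d k), a k = a k ^ d k
  rw [Finset.prod_const, Finset.card_univ, Fintype.card_fin]

/-- Conjugating `w • (unipotent of Jordan type d)` into the subfield subgroup by a matrix of
determinant one. -/
theorem conj_into_subfield (F₀ : Subfield F) {n : ℕ} (x : Matrix.SpecialLinearGroup (Fin n) F)
    (w : F) (hw : w ≠ 0) {t : ℕ} (d : Fin t → ℕ) (e : ((k : Fin t) × Fin (d k)) ≃ Fin n)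
    (g : GL (Fin n) F)
    (hg : (g : Matrix (Fin n) (Fin n) F) * (w⁻¹ • (x : Matrix (Fin n) (Fin n) F) - 1)
      = Matrix.reindex e e (Cfsg.jordanTypeMatrix d F - 1) * (g : Matrix (Fin n) (Fin n) F))
    (a : Fin t → F) (δ₀ : ((k : Fin t) × Fin (d k)) → F₀) (hδ₀ : ∀ i, δ₀ i ≠ 0)
    (hdet : (∏ i, (δ₀ i : F)) * (∏ k, a k ^ d k) * (g : Matrix (Fin n) (Fin n) F).det = 1) :
    ∃ P : Matrix.SpecialLinearGroup (Fin n) F,
      P⁻¹ * x * P ∈ (Cfsg.Geo.subfieldSubgroup F₀ 1).comap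
        (Matrix.SpecialLinearGroup.toGL : Matrix.SpecialLinearGroup (Fin n) F →* GL (Fin n) F) := by
  classical
  set φ : F₀ →+* F := F₀.subtype with hφ
  set J₀ := Cfsg.jordanTypeMatrix d (↥F₀) with hJ₀
  set J := Cfsg.jordanTypeMatrix d F with hJ
  have hJmap : J₀.map φ = J := jordanTypeMatrix_map d φ
  set D₀ : Matrix ((k : Fin t) × Fin (d k)) ((k : Fin t) × Fin (d k)) F₀ := Matrix.diagonal δ₀
    with hD₀
  set D₀i : Matrix ((k : Fin t) × Fin (d k)) ((k : Fin t) × Fin (d k)) F₀ :=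
    Matrix.diagonal (fun i => (δ₀ i)⁻¹) with hD₀i
  have hDiD : D₀i * D₀ = 1 := by
    rw [hD₀, hD₀i, Matrix.diagonal_mul_diagonal, ← Matrix.diagonal_one]
    congr 1
    funext i
    exact inv_mul_cancel₀ (hδ₀ i)
  set c := Matrix.diagonal (fun i : (k : Fin t) × Fin (d k) => a i.1) with hc
  have hcJ : c * J = J * c := blockScalar_commute d a
  set R : Matrix ((k : Fin t) × Fin (d k)) ((k : Fin t) × Fin (d k)) F ≃ₐ[F]
      Matrix (Fin n) (Fin n) F := Matrix.reindexAlgEquiv F F e with hR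
  have hRdet : ∀ M, (R M).det = M.det := fun M => Matrix.det_reindexAlgEquiv F F e M
  set M₀ := D₀ * J₀ * D₀i with hM₀
  have hM₀map : M₀.map φ = D₀.map φ * J * D₀i.map φ := by
    rw [hM₀, Matrix.map_mul, Matrix.map_mul, hJmap]
  have hDiDmap : D₀i.map φ * D₀.map φ = 1 := by
    rw [← Matrix.map_mul, hDiD, Matrix.map_one φ (map_zero φ) (map_one φ)]
  have hdetD : (D₀.map φ).det = ∏ i, (δ₀ i : F) := by
    rw [hD₀, Matrix.diagonal_map (map_zero φ), Matrix.det_diagonal]
    rfl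
  set Pi : Matrix (Fin n) (Fin n) F := R (D₀.map φ) * R c * (g : Matrix (Fin n) (Fin n) F)
    with hPi
  have hdetPi : Pi.det = 1 := by
    rw [hPi, Matrix.det_mul, Matrix.det_mul, hRdet, hRdet, hdetD, hc, det_blockScalar]
    exact hdet
  -- g * u = R J * g
  have hgu : (g : Matrix (Fin n) (Fin n) F) * (w⁻¹ • (x : Matrix (Fin n) (Fin n) F))
      = R J * (g : Matrix (Fin n) (Fin n) F) := by
    have h1 : Matrix.reindex e e (Cfsg.jordanTypeMatrix d F - 1) = R J - 1 := by
      have : Matrix.reindex e e (Cfsg.jordanTypeMatrix d F - 1) = R (J - 1) := rfl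
      rw [this, map_sub, map_one]
    rw [h1, mul_sub, sub_mul, mul_one, one_mul] at hg
    exact sub_left_injective hg
  have hxu : (x : Matrix (Fin n) (Fin n) F) = w • (w⁻¹ • (x : Matrix (Fin n) (Fin n) F)) := by
    rw [smul_smul, mul_inv_cancel₀ hw, one_smul]
  have hmain : Pi * (x : Matrix (Fin n) (Fin n) F) = (w • R (M₀.map φ)) * Pi := by
    have h1 : Pi * (x : Matrix (Fin n) (Fin n) F)
        = w • (R (D₀.map φ) * R c * (R J * (g : Matrix (Fin n) (Fin n) F))) := by
      conv_lhs => rw [hxu]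
      rw [Matrix.mul_smul, hPi, mul_assoc, hgu]
    have h2 : R c * R J = R J * R c := by rw [← map_mul, ← map_mul, hcJ]
    have h3 : R (M₀.map φ) * R (D₀.map φ) = R (D₀.map φ) * R J := by
      rw [← map_mul, ← map_mul, hM₀map, mul_assoc, mul_assoc, hDiDmap, mul_one]
    rw [h1, Matrix.smul_mul, hPi]
    congr 1
    calc R (D₀.map φ) * R c * (R J * (g : Matrix (Fin n) (Fin n) F))
        = R (D₀.map φ) * (R c * R J) * (g : Matrix (Fin n) (Fin n) F) := by
          simp only [mul_assoc]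
      _ = (R (D₀.map φ) * R J) * R c * (g : Matrix (Fin n) (Fin n) F) := by
          rw [h2]; simp only [mul_assoc]
      _ = R (M₀.map φ) * (R (D₀.map φ) * R c * (g : Matrix (Fin n) (Fin n) F)) := by
          rw [← h3]; simp only [mul_assoc]
  let Ps : Matrix.SpecialLinearGroup (Fin n) F := ⟨Pi, hdetPi⟩
  refine ⟨Ps⁻¹, ?_⟩
  rw [inv_inv, Subgroup.mem_comap]
  apply Cfsg.Agent.H99.mem_subfield_of_smul F₀ _ w hw (Matrix.reindex e e M₀)
  rw [Matrix.SpecialLinearGroup.coe_GL_coe_matrix]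
  have hinv : Pi * ((Ps⁻¹ : Matrix.SpecialLinearGroup (Fin n) F) : Matrix (Fin n) (Fin n) F)
      = 1 := by
    have h5 : (Ps : Matrix (Fin n) (Fin n) F)
        * ((Ps⁻¹ : Matrix.SpecialLinearGroup (Fin n) F) : Matrix (Fin n) (Fin n) F) = 1 := by
      rw [← Matrix.SpecialLinearGroup.coe_mul, mul_inv_cancel, Matrix.SpecialLinearGroup.coe_one]
    exact h5
  have h4 : (Matrix.reindex e e M₀).map φ = R (M₀.map φ) := rfl
  rw [h4, Matrix.SpecialLinearGroup.coe_mul, Matrix.SpecialLinearGroup.coe_mul]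
  show Pi * (x : Matrix (Fin n) (Fin n) F)
    * ((Ps⁻¹ : Matrix.SpecialLinearGroup (Fin n) F) : Matrix (Fin n) (Fin n) F) = _
  rw [hmain, mul_assoc, hinv, mul_one]

end Conj

end Cfsg.Agent.H48
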