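import Cfsg.Agent.H48.SubfieldConj

set_option autoImplicit false

/-!
Helper lemmas (helper48): elements of order 3 of `PSL_n(F)` in characteristic 3 and subfield
subgroups: the sufficiency direction.
-/

namespace Cfsg.Agent.H48

open Module Matrix

theorem geom_sum_mul_add_one (b k : ℕ) (hb : 1 ≤ b) :
    (∑ j ∈ Finset.range k, b ^ j) * (b - 1) + 1 = b ^ k := by
  induction k with
  | zero => simp
  | succ k ih =>
    rw [Finset.sum_range_succ, add_mul, pow_succ]
    have h1 : b ^ k * (b - 1) + b ^ k = b ^ k * b := by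
      obtain ⟨c, rfl⟩ : ∃ c, b = c + 1 := ⟨b - 1, by omega⟩
      rw [Nat.add_sub_cancel]
      ring
    omega

/-- A non-square of the subfield `F₀` stays a non-square in an extension of odd degree. -/
theorem exists_subfield_nonsquare {F : Type*} [Field F] [Fintype F] (F₀ : Subfield F)
    {q₀ k : ℕ} (hF₀ : Nat.card ↥F₀ = q₀) (hq : Fintype.card F = q₀ ^ k) (hk : Odd k)
    (h2 : ringChar F ≠ 2) : ∃ ν : F₀, ν ≠ 0 ∧ ¬ IsSquare (ν : F) := by
  classical
  haveI : Fintype ↥F₀ := Fintype.ofFinite _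
  have h2F : (2 : F) ≠ 0 := Ring.two_ne_zero h2
  have h2' : ringChar ↥F₀ ≠ 2 := by
    apply Cfsg.Agent.H99.ringChar_ne_two_of_two_ne_zero
    intro h
    apply h2F
    have h' := congrArg F₀.subtype h
    rw [map_ofNat, map_zero] at h'
    exact h'
  obtain ⟨ν, hν⟩ := FiniteField.exists_nonsquare h2'
  have hν0 : ν ≠ 0 := by
    rintro rfl
    exact hν ⟨0, by simp⟩
  refine ⟨ν, hν0, ?_⟩
  have hcard0 : Fintype.card ↥F₀ = q₀ := by rw [← Nat.card_eq_fintype_card, hF₀]
  have hqodd : Odd (Fintype.card F) := Nat.odd_iff.mpr (FiniteField.odd_card_of_char_ne_two h2)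
  have hq₀odd : Odd q₀ := by
    rw [hq] at hqodd
    by_contra h
    rw [Nat.not_odd_iff_even] at h
    have hk0 : k ≠ 0 := by
      rintro rfl
      exact (Nat.not_odd_iff_even.mpr (by simp)) hk
    have : Even (q₀ ^ k) := (Nat.even_pow.mpr ⟨h, hk0⟩)
    exact (Nat.not_odd_iff_even.mpr this) hqodd
  have h1 : ν ^ (q₀ / 2) = -1 := by
    rcases FiniteField.pow_dichotomy h2' hν0 with h | h
    · exfalso
      apply hν
      rw [FiniteField.isSquare_iff h2' hν0]
      exact h
    · rw [hcard0] at h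
      exact h
  have h1F : (ν : F) ^ (q₀ / 2) = -1 := by
    have := congrArg (fun u : ↥F₀ => (u : F)) h1
    simpa using this
  have hν0F : (ν : F) ≠ 0 := fun h => hν0 (Subtype.ext h)
  rw [FiniteField.isSquare_iff h2 hν0F, hq]
  have hS : (∑ j ∈ Finset.range k, q₀ ^ j) % 2 = 1 := by
    rw [Cfsg.Agent.H99.geom_sum_mod_two q₀ (Nat.odd_iff.mp hq₀odd) k]
    exact Nat.odd_iff.mp hk
  have e : q₀ ^ k / 2 = (q₀ / 2) * ∑ j ∈ Finset.range k, q₀ ^ j := by
    have h3 := geom_sum_mul_add_one q₀ k (by rcases hq₀odd with ⟨t, ht⟩; omega)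
    obtain ⟨t, ht⟩ := hq₀odd
    have h4 : q₀ - 1 = 2 * t := by omega
    have h5 : q₀ / 2 = t := by omega
    rw [h4] at h3
    rw [h5, ← h3]
    have h6 : (∑ j ∈ Finset.range k, q₀ ^ j) * (2 * t) + 1
        = 2 * (t * ∑ j ∈ Finset.range k, q₀ ^ j) + 1 := by ring
    rw [h6]
    omega
  rw [e, pow_mul, h1F, Odd.neg_one_pow (Nat.odd_iff.mpr hS)]
  exact Ring.neg_one_ne_one_of_char_ne_two h2

section Suff

variable {F : Type*} [Field F] [Fintype F] [CharP F 3]

theorem exists_cube_root (θ : F) : ∃ b : F, b ^ 3 = θ := by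
  haveI : Fact (Nat.Prime 3) := ⟨Nat.prime_three⟩
  exact ⟨(frobeniusEquiv F 3).symm θ, (frobeniusEquiv F 3).apply_symm_apply θ⟩

/-- Sufficiency: an element of `SL_n(F)` whose cube is scalar is conjugate, by a matrix of
determinant one, into the subfield subgroup, if `n` is odd or `F₀` contains a non-square of
`F`. -/
theorem conj_of_cube_scalar (F₀ : Subfield F) {n : ℕ} (hn : 2 ≤ n)
    (hsq : Even n → ∃ ν : F₀, ν ≠ 0 ∧ ¬ IsSquare (ν : F))
    (x : Matrix.SpecialLinearGroup (Fin n) F) (z : F)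
    (hx3 : ((x ^ 3 : Matrix.SpecialLinearGroup (Fin n) F) : Matrix (Fin n) (Fin n) F)
      = z • (1 : Matrix (Fin n) (Fin n) F)) :
    ∃ P : Matrix.SpecialLinearGroup (Fin n) F,
      P⁻¹ * x * P ∈ (Cfsg.Geo.subfieldSubgroup F₀ 1).comap
        (Matrix.SpecialLinearGroup.toGL : Matrix.SpecialLinearGroup (Fin n) F →* GL (Fin n) F) := by
  classical
  haveI : Fact (Nat.Prime 3) := ⟨Nat.prime_three⟩
  haveI : Nonempty (Fin n) := ⟨⟨0, by omega⟩⟩
  obtain ⟨w, hw3⟩ := exists_cube_root z
  set X : Matrix (Fin n) (Fin n) F := (x : Matrix (Fin n) (Fin n) F) with hX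
  have hX3 : X ^ 3 = z • (1 : Matrix (Fin n) (Fin n) F) := by
    rw [← hx3, Matrix.SpecialLinearGroup.coe_pow]
  have hw0 : w ≠ 0 := by
    rintro rfl
    rw [zero_pow (by norm_num)] at hw3
    rw [← hw3, zero_smul] at hX3
    have h1 := congrArg Matrix.det hX3
    rw [Matrix.det_pow, Matrix.det_zero] at h1
    have h2 : X.det = 1 := x.2
    rw [h2, one_pow] at h1
    exact one_ne_zero h1
  set N : Matrix (Fin n) (Fin n) F := w⁻¹ • X - 1 with hN
  have hN3 : N ^ 3 = 0 := by
    have e1 : N = w⁻¹ • (X - w • (1 : Matrix (Fin n) (Fin n) F)) := by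
      rw [hN, smul_sub, smul_smul, inv_mul_cancel₀ hw0, one_smul]
    have hcomm : Commute X (w • (1 : Matrix (Fin n) (Fin n) F)) :=
      (Commute.one_right X).smul_right w
    rw [e1, smul_pow, sub_pow_char_of_commute 3 hcomm, hX3, smul_pow, one_pow, hw3, sub_self,
      smul_zero]
  have hnilN : IsNilpotent N := ⟨3, hN3⟩
  have hnilL : IsNilpotent (Matrix.toLin' N) := ⟨3, by rw [← toLin'_pow', hN3, map_zero]⟩
  obtain ⟨μ, hμ1, hμk⟩ := exists_type (Matrix.toLin' N) hnilL
  have hμk' : ∀ k, finrank F (LinearMap.ker ((Matrix.toLin' N) ^ k)) = kap μ k := hμk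
  have hK3 : ∀ k, 3 ≤ k → finrank F (LinearMap.ker ((Matrix.toLin' N) ^ k)) = n := by
    intro k hk
    have : N ^ k = 0 := by
      have e : k = (k - 3) + 3 := by omega
      rw [e, pow_add, hN3, mul_zero]
    have h3 := (matrix_pow_eq_zero_iff N k).mp this
    rw [Fintype.card_fin] at h3
    exact h3
  have hsum : μ.sum = n := by
    have h1 := hμk' (max 3 μ.sum)
    rw [hK3 _ (le_max_left _ _), kap_eq_sum_of_le μ _
      (fun a ha => (Multiset.le_sum_of_mem ha).trans (le_max_right _ _))] at h1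
    exact h1.symm
  have hle3 : ∀ a ∈ μ, a ≤ 3 := by
    apply le_of_kap_eq_sum
    rw [← hμk', hK3 3 le_rfl, hsum]
  -- a listing of the parts
  set l := μ.toList with hl
  set d : Fin l.length → ℕ := fun i => l.get i with hd
  have hdμ : Finset.univ.val.map d = μ := by
    rw [Fin.univ_val_map, hd, List.ofFn_get, hl, Multiset.coe_toList]
  have hdmem : ∀ k, d k ∈ μ := by
    intro k
    rw [← Multiset.mem_toList]
    exact List.get_mem l k
  have hsumd : ∑ k, d k = n := by
    have : (Finset.univ.val.map d).sum = μ.sum := by rw [hdμ]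
    rw [← hsum, ← this]
    rfl
  have hcard : Fintype.card ((k : Fin l.length) × Fin (d k)) = Fintype.card (Fin n) := by
    rw [Fintype.card_sigma, Fintype.card_fin]
    simp only [Fintype.card_fin]
    exact hsumd
  let e : ((k : Fin l.length) × Fin (d k)) ≃ Fin n := Fintype.equivOfCardEq hcard
  have hJk : ∀ k, finrank F (LinearMap.ker ((Matrix.toLin'
      (Matrix.reindex e e (Cfsg.jordanTypeMatrix d F - 1))) ^ k)) = kap μ k := by
    intro k
    rw [finrank_ker_reindex_pow, finrank_ker_jordanType_pow, ← kap_map_univ, hdμ]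
  have hnilJ : IsNilpotent (Matrix.reindex e e (Cfsg.jordanTypeMatrix d F - 1)) :=
    isNilpotent_of_kap _ μ hJk (by rw [hsum, Fintype.card_fin])
  obtain ⟨g, hg⟩ := exists_gl_conj_of_finrank_ker N _ hnilN hnilJ
    (fun k => (hμk' k).trans (hJk k).symm)
  have hdetg : (g : Matrix (Fin n) (Fin n) F).det ≠ 0 := (Matrix.isUnits_det_units g).ne_zero
  -- the determinant adjustment
  obtain ⟨a, δ₀, hδ₀, hdet⟩ : ∃ (a : Fin l.length → F)
      (δ₀ : ((k : Fin l.length) × Fin (d k)) → F₀), (∀ i, δ₀ i ≠ 0) ∧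
      (∏ i, (δ₀ i : F)) * (∏ k, a k ^ d k) * (g : Matrix (Fin n) (Fin n) F).det = 1 := by
    by_cases hex : ∃ k₀, d k₀ ≠ 2
    · obtain ⟨k₀, hk₀⟩ := hex
      obtain ⟨b, hb⟩ : ∃ b : F, b ^ d k₀ = ((g : Matrix (Fin n) (Fin n) F).det)⁻¹ := by
        have h1 := hμ1 _ (hdmem k₀)
        have h3 := hle3 _ (hdmem k₀)
        have h13 : d k₀ = 1 ∨ d k₀ = 3 := by omega
        rcases h13 with h | h
        · exact ⟨_, by rw [h, pow_one]⟩
        · obtain ⟨b, hb⟩ := exists_cube_root ((g : Matrix (Fin n) (Fin n) F).det)⁻¹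
          exact ⟨b, by rw [h, hb]⟩
      refine ⟨Function.update (fun _ => 1) k₀ b, fun _ => 1, fun _ => one_ne_zero, ?_⟩
      have hp1 : ∏ k, (Function.update (fun _ => (1 : F)) k₀ b) k ^ d k = b ^ d k₀ := by
        rw [Fintype.prod_eq_single k₀]
        · rw [Function.update_self]
        · intro k hk
          rw [Function.update_of_ne hk, one_pow]
      rw [hp1, hb]
      simp [hdetg]
    · have hall : ∀ k, d k = 2 := by
        intro k
        by_contra h
        exact hex ⟨k, h⟩
      have hn2 : n = 2 * l.length := by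
        rw [← hsumd]
        simp [hall, mul_comm]
      have hlpos : 0 < l.length := by omega
      obtain ⟨ν, hν0, hν⟩ := hsq ⟨l.length, by omega⟩
      let k₀ : Fin l.length := ⟨0, hlpos⟩
      let i₀ : (k : Fin l.length) × Fin (d k) := ⟨k₀, ⟨0, by rw [hall k₀]; norm_num⟩⟩
      have hp1 : ∀ b : F, ∏ k, (Function.update (fun _ => (1 : F)) k₀ b) k ^ d k = b * b := by
        intro b
        rw [Fintype.prod_eq_single k₀]
        · rw [Function.update_self, hall k₀, pow_two]
        · intro k hk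
          rw [Function.update_of_ne hk, one_pow]
      by_cases hθ : IsSquare ((g : Matrix (Fin n) (Fin n) F).det)⁻¹
      · obtain ⟨b, hb⟩ := hθ
        refine ⟨Function.update (fun _ => 1) k₀ b, fun _ => 1, fun _ => one_ne_zero, ?_⟩
        rw [hp1, ← hb]
        simp [hdetg]
      · obtain ⟨c, hc0, hc⟩ := exists_sq_mul_of_not_isSquare _ (ν : F) hθ hν
        refine ⟨Function.update (fun _ => 1) k₀ c, Function.update (fun _ => 1) i₀ ν, ?_, ?_⟩
        · intro i
          by_cases hi : i = i₀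
          · rw [hi, Function.update_self]; exact hν0
          · rw [Function.update_of_ne hi]; exact one_ne_zero
        · have hp2 : ∏ i, ((Function.update (fun _ => (1 : ↥F₀)) i₀ ν) i : F) = (ν : F) := by
            rw [Fintype.prod_eq_single i₀]
            · rw [Function.update_self]
            · intro i hi
              rw [Function.update_of_ne hi]
              rfl
          rw [hp1, hp2]
          have : (ν : F) * (c * c) = ((g : Matrix (Fin n) (Fin n) F).det)⁻¹ := by
            rw [hc]; ring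
          rw [this, inv_mul_cancel₀ hdetg]
  exact conj_into_subfield F₀ x w hw0 d e g hg a δ₀ hδ₀ hdet

end Suff

end Cfsg.Agent.H48
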