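import Cfsg.Agent.H48.SubfieldOrd3
import Cfsg.Agent.H48.NilClass3

set_option autoImplicit false

/-!
Helper lemmas (helper48): elements of order 3 of `PSL_n(F)` in characteristic 3 and subfield
subgroups: the necessity direction.
-/

namespace Cfsg.Agent.H48

open Module Matrix

section Nec

variable {F : Type*} [Field F] [Fintype F] [CharP F 3]

/-- If `(c • M̃ - 1)² = 0` with `M̃` rational over `F₀` and `c • M̃ ≠ 1`, then `c ∈ F₀`. -/
theorem scalar_mem_subfield (F₀ : Subfield F) {n : ℕ} (h2 : (2 : F) ≠ 0) (c : F)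
    (M₀ : Matrix (Fin n) (Fin n) F₀)
    (hsq : (c • M₀.map F₀.subtype - 1) * (c • M₀.map F₀.subtype - 1) = 0)
    (hne : c • M₀.map F₀.subtype ≠ 1) : ∃ c₀ : F₀, (c₀ : F) = c := by
  classical
  set Y : Matrix (Fin n) (Fin n) F := c • M₀.map F₀.subtype with hY
  have hYY : Y * Y = (2 : F) • Y - 1 := by
    have : (Y - 1) * (Y - 1) = Y * Y - (2 : F) • Y + 1 := by
      rw [two_smul]; noncomm_ring
    rw [this] at hsq
    have h3 : Y * Y = (2 : F) • Y - 1 := by
      rw [eq_sub_iff_add_eq, ← sub_eq_zero]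
      rw [← hsq]; abel
    exact h3
  by_cases hoff : ∃ i j, i ≠ j ∧ M₀ i j ≠ 0
  · obtain ⟨i, j, hij, hB⟩ := hoff
    have h1 := congrFun (congrFun hYY i) j
    have hYij : Y i j = c * (M₀ i j : F) := by
      rw [hY, Matrix.smul_apply, Matrix.map_apply]; rfl
    have hYYij : (Y * Y) i j = c * c * ((M₀ * M₀) i j : F) := by
      have : Y * Y = (c * c) • (M₀ * M₀).map F₀.subtype := by
        rw [hY, Matrix.smul_mul, Matrix.mul_smul, smul_smul, Matrix.map_mul]
      rw [this, Matrix.smul_apply, Matrix.map_apply]; rfl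
    rw [hYYij, Matrix.sub_apply, Matrix.smul_apply, hYij, Matrix.one_apply_ne hij, sub_zero,
      smul_eq_mul] at h1
    have hc0 : c ≠ 0 := by
      rintro rfl
      rw [zero_smul] at hY
      rw [hY] at hYY
      simp at hYY
      have := congrFun (congrFun hYY i) i
      simp at this
    have hBF : (M₀ i j : F) ≠ 0 := fun h => hB (Subtype.ext h)
    have h4 : c * ((M₀ * M₀) i j : F) = 2 * (M₀ i j : F) := by
      apply mul_left_cancel₀ hc0
      linear_combination h1
    have hA : ((M₀ * M₀) i j : F) ≠ 0 := by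
      intro h
      rw [h, mul_zero] at h4
      exact (mul_ne_zero h2 hBF) h4.symm
    refine ⟨2 * M₀ i j / (M₀ * M₀) i j, ?_⟩
    have e2 : ((2 : ↥F₀) : F) = 2 := map_ofNat F₀.subtype 2
    rw [Subfield.coe_div, Subfield.coe_mul, e2, div_eq_iff hA, ← h4]
  · exfalso
    apply hne
    have hoff' : ∀ i j, i ≠ j → Y i j = 0 := by
      intro i j hij
      have : M₀ i j = 0 := by
        by_contra h
        exact hoff ⟨i, j, hij, h⟩
      rw [hY, Matrix.smul_apply, Matrix.map_apply, this]
      simp
    ext i j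
    by_cases hij : i = j
    · subst hij
      have h1 := congrFun (congrFun hYY i) i
      rw [Matrix.mul_apply, Finset.sum_eq_single i (fun b _ hb => by rw [hoff' i b (Ne.symm hb),
        zero_mul]) (fun h => absurd (Finset.mem_univ i) h), Matrix.sub_apply, Matrix.smul_apply,
        Matrix.one_apply_eq, smul_eq_mul] at h1
      have h3 : (Y i i - 1) * (Y i i - 1) = 0 := by linear_combination h1
      rw [Matrix.one_apply_eq]
      have := mul_self_eq_zero.mp h3
      exact sub_eq_zero.mp this
    · rw [hoff' i j hij, Matrix.one_apply_ne hij]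

end Nec

end Cfsg.Agent.H48
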