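import Mathlib
import Cfsg.Agent.H17.Symp
import Cfsg.Agent.H48.SymEmbed
import Cfsg.Agent.H48.SympF2

set_option autoImplicit false
set_option linter.unusedSectionVars false

/-!
Helper lemmas (helper48): the symmetric group on six letters inside `Sp₄(2)`.
-/

namespace Cfsg.Agent.H48

section
variable {κ : Type*} [Fintype κ] [DecidableEq κ]

theorem wb_eq_dot (y y' : κ → ZMod 2) : wb y y' = ∑ ω, sL κ y ω * sL κ y' ω := by
  rw [Fintype.sum_sum_type, Fin.sum_univ_two]
  simp only [sL_inl, sL_inr_zero, sL_inr_one]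
  unfold wb
  ring

theorem dot_add_const {Ω : Type*} [Fintype Ω] (hΩ : Even (Fintype.card Ω)) (x x' : Ω → ZMod 2)
    (hx : ∑ ω, x ω = 0) (hx' : ∑ ω, x' ω = 0) (c c' : ZMod 2) :
    ∑ ω, (x + c • (1 : Ω → ZMod 2)) ω * (x' + c' • (1 : Ω → ZMod 2)) ω = ∑ ω, x ω * x' ω := by
  have h1 : ∀ ω, (x + c • (1 : Ω → ZMod 2)) ω * (x' + c' • (1 : Ω → ZMod 2)) ω =
      x ω * x' ω + c' * x ω + c * x' ω + c * c' := by
    intro ω
    simp only [Pi.add_apply, Pi.smul_apply, Pi.one_apply, smul_eq_mul, mul_one]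
    ring
  simp only [h1]
  rw [Finset.sum_add_distrib, Finset.sum_add_distrib, Finset.sum_add_distrib, ← Finset.mul_sum,
    ← Finset.mul_sum, hx, hx', Finset.sum_const, Finset.card_univ]
  obtain ⟨r, hr⟩ := hΩ
  rw [hr, add_nsmul, zmod2_add_self]
  ring

theorem wb_symM (hκ : Even (Fintype.card κ)) (π : Equiv.Perm (κ ⊕ Fin 2)) (y y' : κ → ZMod 2) :
    wb (symM hκ π y) (symM hκ π y') = wb y y' := by
  have hx : ∑ ω, pL π (sL κ y) ω = 0 := by rw [sum_pL, sum_sL]
  have hx' : ∑ ω, pL π (sL κ y') ω = 0 := by rw [sum_pL, sum_sL]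
  have hΩ : Even (Fintype.card (κ ⊕ Fin 2)) := by
    rw [Fintype.card_sum, Fintype.card_fin]
    exact hκ.add ⟨1, rfl⟩
  rw [wb_eq_dot, wb_eq_dot, symM_apply, symM_apply, sL_tL hκ _ hx, sL_tL hκ _ hx',
    dot_add_const hΩ _ _ hx hx']
  exact Equiv.sum_comp π.symm (fun ω => sL κ y ω * sL κ y' ω)

end

/-- Matrices of a linear action in coordinates. -/
theorem exists_matrix_hom {G : Type*} [Group G] {F : Type*} [Field F] {V : Type*}
    [AddCommGroup V] [Module F V] {ι : Type*} [Fintype ι] [DecidableEq ι]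
    (h : V ≃ₗ[F] (ι → F)) (M : G →* Module.End F V) :
    ∃ N : G →* Matrix ι ι F, (∀ g u, Matrix.mulVec (N g) u = h (M g (h.symm u))) ∧
      (Function.Injective M → Function.Injective N) := by
  classical
  let N : G →* Matrix ι ι F :=
    { toFun := fun g => LinearMap.toMatrix' (h.toLinearMap ∘ₗ M g ∘ₗ h.symm.toLinearMap)
      map_one' := by
        rw [map_one]
        have h1 : h.toLinearMap ∘ₗ (1 : Module.End F V) ∘ₗ h.symm.toLinearMap = LinearMap.id := by
          apply LinearMap.ext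
          intro u
          simp
        rw [h1, LinearMap.toMatrix'_id]
      map_mul' := by
        intro a b
        rw [← LinearMap.toMatrix'_comp, map_mul]
        congr 1
        apply LinearMap.ext
        intro u
        simp [Module.End.mul_apply] }
  have hN : ∀ g u, Matrix.mulVec (N g) u = h (M g (h.symm u)) := by
    intro g u
    show Matrix.mulVec (LinearMap.toMatrix' _) u = _
    rw [LinearMap.toMatrix'_mulVec]
    rfl
  refine ⟨N, hN, fun hinj a b hab => ?_⟩
  apply hinj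
  apply LinearMap.ext
  intro y
  have h2 : Matrix.mulVec (N a) (h y) = Matrix.mulVec (N b) (h y) := by rw [hab]
  rw [hN, hN, LinearEquiv.symm_apply_apply] at h2
  exact h.injective h2

theorem pol_eq_sympForm (m : ℕ) (u v : Fin m ⊕ Fin m → ZMod 2) :
    pol m u v = Cfsg.sympForm m (ZMod 2) u v := by
  rw [pol_eq, Cfsg.Agent.H17.sympForm_eq_sum]
  refine Finset.sum_congr rfl fun i _ => ?_
  have hneg : ∀ a : ZMod 2, -a = a := by decide
  rw [sub_eq_add_neg, hneg]
  ring

/-- The symmetric group on six letters acts faithfully by symplectic matrices on `F₂⁴`. -/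
theorem exists_perm_hom_symplectic :
    ∃ N : Equiv.Perm (Fin 6) →* Matrix (Fin 2 ⊕ Fin 2) (Fin 2 ⊕ Fin 2) (ZMod 2),
      Function.Injective N ∧ ∀ π, N π ∈ Matrix.symplecticGroup (Fin 2) (ZMod 2) := by
  classical
  have hcard : Fintype.card (Fin 4) = 4 := Fintype.card_fin _
  have hκ : Even (Fintype.card (Fin 4)) := by
    rw [hcard]
    exact ⟨2, by norm_num⟩
  have h3 : 3 ≤ Fintype.card (Fin 4) := by
    rw [hcard]
    norm_num
  let emb : Fin 6 ↪ Fin 4 ⊕ Fin 2 := (finSumFinEquiv (m := 4) (n := 2)).symm.toEmbedding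
  obtain ⟨m, e, he⟩ := exists_symp_equiv (wbForm (Fin 4)) wbForm_isAlt
    (fun y hy => wb_nondeg hκ y hy)
  have hm : m = 2 := by
    have h1 := e.finrank_eq
    rw [Module.finrank_fintype_fun_eq_card, Module.finrank_fintype_fun_eq_card, Fintype.card_sum,
      Fintype.card_fin, Fintype.card_fin] at h1
    omega
  subst hm
  obtain ⟨N, hN, hNinj⟩ := exists_matrix_hom e
    ((symM hκ).comp (Equiv.Perm.viaEmbeddingHom emb))
  refine ⟨N, hNinj ((symM_injective hκ h3).comp (Equiv.Perm.viaEmbeddingHom_injective emb)), ?_⟩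
  intro π
  rw [Cfsg.Agent.H17.mem_symplecticGroup_iff_form]
  intro u v
  have h5 : pol 2 u v = wb (e.symm u) (e.symm v) := by
    rw [← wbForm_apply, ← he, LinearEquiv.apply_symm_apply, LinearEquiv.apply_symm_apply]
  rw [← pol_eq_sympForm, ← pol_eq_sympForm, hN, hN, he, h5]
  exact wb_symM hκ _ _ _

end Cfsg.Agent.H48
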