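import Mathlib
import Cfsg.Agent.H77.TqDefs
import Cfsg.Agent.H49.Spinor
import Cfsg.Agent.H49.CD
import Cfsg.Agent.H49.Invol
import Cfsg.Agent.H49.GraphInv2
import Cfsg.Agent.H49.Disc

/-!
# S5978-ADJA (helper48, for helper77): an isometry `g` can be corrected into `Ω` by an isometry
commuting with a given involution `y` whose fixed space has dimension at least `2`.
-/

set_option autoImplicit false
open scoped MatrixGroups
open scoped Matrix

namespace Cfsg.Agent.H48.Tq

open Module Matrix Cfsg.Agent.H77.Tq Cfsg.Agent.H49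

universe u

/-- A list of reflections in `reflSet` comes from a list of non-singular vectors. -/
theorem exists_vectors_of_refl_list {ι : Type} [Fintype ι] [DecidableEq ι] {F : Type u} [Field F]
    (Q : QuadraticForm F (ι → F)) (l : List ↥(Cfsg.isometryGroup F (⇑Q)))
    (hl : ∀ r ∈ l, r ∈ reflSet Q) :
    ∃ vs : List (ι → F), (∀ v ∈ vs, Q v ≠ 0) ∧ l = vs.map (reflG Q) := by
  induction l with
  | nil => exact ⟨[], by simp, rfl⟩
  | cons r l ih =>
    obtain ⟨vs, hvs, rfl⟩ := ih (fun y hy => hl y (List.mem_cons_of_mem _ hy))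
    obtain ⟨v, hv, rfl⟩ := hl r List.mem_cons_self
    refine ⟨v :: vs, ?_, rfl⟩
    intro w hw
    rcases List.mem_cons.mp hw with rfl | h
    · exact hv
    · exact hvs w h

/-- **S5978-ADJA**. -/
theorem adjA : StAdjA.{u} := by
  intro F _ _ ι _ _ Q h2 hnd y g hy hg hyy hrank
  classical
  -- the fixed space of `y`
  obtain ⟨E, hEdef⟩ : ∃ E : Submodule F (ι → F),
      E = LinearMap.ker (((y : Matrix ι ι F) - 1).mulVecLin) := ⟨_, rfl⟩
  have hE : ∀ w, w ∈ E ↔ (y : Matrix ι ι F) *ᵥ w = w := by
    intro w
    rw [hEdef, LinearMap.mem_ker, Matrix.mulVecLin_apply, Matrix.sub_mulVec, Matrix.one_mulVec,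
      sub_eq_zero]
  have hdim : 2 ≤ finrank F E := by
    have h1 := LinearMap.finrank_range_add_finrank_ker (((y : Matrix ι ι F) - 1).mulVecLin)
    rw [Module.finrank_fintype_fun_eq_card] at h1
    have h3 : finrank F (LinearMap.range (((y : Matrix ι ι F) - 1).mulVecLin)) =
        ((y : Matrix ι ι F) - 1).rank := rfl
    rw [h3, ← hEdef] at h1
    omega
  obtain ⟨yI, hyI⟩ : ∃ yI : ↥(Cfsg.isometryGroup F (⇑Q)), (yI : GL ι F) = y := ⟨⟨y, hy⟩, rfl⟩
  obtain ⟨gI, hgI⟩ : ∃ gI : ↥(Cfsg.isometryGroup F (⇑Q)), (gI : GL ι F) = g := ⟨⟨g, hg⟩, rfl⟩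
  have hEnd : ∀ a ∈ E, (∀ b ∈ E, QuadraticMap.polar (⇑Q) a b = 0) → a = 0 := by
    intro a ha hperp
    apply hnd.1 a
    intro w
    rw [QuadraticMap.polarBilin_apply_apply]
    have ha' : (y : Matrix ι ι F) *ᵥ a = a := (hE a).mp ha
    have h3 : QuadraticMap.polar (⇑Q) a ((y : Matrix ι ι F) *ᵥ w) = QuadraticMap.polar (⇑Q) a w := by
      have := isometry_polar Q yI a w
      rw [hyI, ha'] at this
      exact this
    have h4 : w + (y : Matrix ι ι F) *ᵥ w ∈ E := by
      rw [hE, Matrix.mulVec_add, Matrix.mulVec_mulVec, hyy, Matrix.one_mulVec, add_comm]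
    have h5 := hperp _ h4
    rw [QuadraticMap.polar_add_right, h3] at h5
    have h6 : (2 : F) * QuadraticMap.polar (⇑Q) a w = 0 := by linear_combination h5
    rcases mul_eq_zero.mp h6 with h7 | h7
    · exact absurd h7 h2
    · exact h7
  -- a nonsquare
  have hchar : ringChar F ≠ 2 := by
    intro h
    haveI : CharP F 2 := ringChar.of_eq h
    exact h2 (CharTwo.two_eq_zero)
  obtain ⟨ν, hν⟩ := FiniteField.exists_nonsquare hchar
  have hν0 : ν ≠ 0 := by
    rintro rfl
    exact hν ⟨0, by simp⟩
  obtain ⟨u, huE, hQu⟩ := exists_Q_eq_of_nondeg_sub Q h2 E hEnd hdim 1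
  obtain ⟨v, hvE, hQv⟩ := exists_Q_eq_of_nondeg_sub Q h2 E hEnd hdim ν
  -- `g` as a product of reflections
  obtain ⟨l, hl, hlg⟩ := exists_list_of_closure_invol (reflSet Q)
    (fun s hs => by obtain ⟨w, _, rfl⟩ := hs; exact reflG_mul_self Q w)
    (closure_reflSet_eq_top Q h2 hnd) gI
  obtain ⟨vs, hvs, rfl⟩ := exists_vectors_of_refl_list Q l hl
  have hP := prod_Q_ne_zero Q vs hvs
  -- the criterion for a correcting list
  have key : ∀ ws : List (ι → F), (∀ w ∈ ws, Q w ≠ 0) → Even (ws ++ vs).length →
      IsSquare (((ws ++ vs).map (fun v => Q v)).prod) →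
      (ws.map (reflG Q)).prod * gI ∈ commutator ↥(Cfsg.isometryGroup F (⇑Q)) := by
    intro ws hws hev hsq
    have hvs' : ∀ w ∈ ws ++ vs, Q w ≠ 0 := by
      intro w hw
      rcases List.mem_append.mp hw with h | h
      · exact hws w h
      · exact hvs w h
    have e : (ws.map (reflG Q)).prod * gI = ((ws ++ vs).map (reflG Q)).prod := by
      rw [List.map_append, List.prod_append, hlg]
    rw [e]
    exact (mem_commutator_iff_of_prod_refl Q h2 _ (ws ++ vs) hvs' (coe_prod_reflG Q _)).mpr
      ⟨hev, hsq⟩
  -- reflections in fixed vectors commute with `y`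
  have hcomm : ∀ w ∈ E, reflG Q w * yI = yI * reflG Q w := by
    intro w hw
    have h1 := conj_reflG Q yI w
    rw [hyI, (hE w).mp hw] at h1
    calc reflG Q w * yI = (yI * reflG Q w * yI⁻¹) * yI := by rw [h1]
      _ = yI * reflG Q w := by group
  have hQu0 : Q u ≠ 0 := by rw [hQu]; exact one_ne_zero
  have hQv0 : Q v ≠ 0 := by rw [hQv]; exact hν0
  -- choose the correcting list
  obtain ⟨cI, hcy, hcg⟩ : ∃ cI : ↥(Cfsg.isometryGroup F (⇑Q)), cI * yI = yI * cI ∧
      cI * gI ∈ commutator ↥(Cfsg.isometryGroup F (⇑Q)) := by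
    rcases Nat.even_or_odd vs.length with hk | hk
    · by_cases hs : IsSquare ((vs.map (fun v => Q v)).prod)
      · refine ⟨([] : List (ι → F)).map (reflG Q) |>.prod, by simp, ?_⟩
        exact key [] (by simp) (by simpa using hk) (by simpa using hs)
      · refine ⟨([u, v].map (reflG Q)).prod, ?_, ?_⟩
        · simp only [List.map_cons, List.map_nil, List.prod_cons, List.prod_nil, mul_one]
          rw [mul_assoc, hcomm v hvE, ← mul_assoc, hcomm u huE, mul_assoc]
        · apply key [u, v]
          · intro w hw
            simp only [List.mem_cons, List.not_mem_nil, or_false] at hw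
            rcases hw with rfl | rfl
            · exact hQu0
            · exact hQv0
          · simp only [List.cons_append, List.nil_append, List.length_cons]
            exact hk.add_one.add_one
          · simp only [List.cons_append, List.nil_append, List.map_cons, List.prod_cons]
            rw [hQu, hQv, one_mul]
            exact (isSquare_mul_nonsquare_iff hν0 hs).mpr hν
    · by_cases hs : IsSquare ((vs.map (fun v => Q v)).prod)
      · refine ⟨([u].map (reflG Q)).prod, ?_, ?_⟩
        · simp only [List.map_cons, List.map_nil, List.prod_cons, List.prod_nil, mul_one]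
          exact hcomm u huE
        · apply key [u]
          · intro w hw
            simp only [List.mem_cons, List.not_mem_nil, or_false] at hw
            rw [hw]; exact hQu0
          · simp only [List.cons_append, List.nil_append, List.length_cons]
            exact hk.add_one
          · simp only [List.cons_append, List.nil_append, List.map_cons, List.prod_cons]
            rw [hQu, one_mul]
            exact hs
      · refine ⟨([v].map (reflG Q)).prod, ?_, ?_⟩
        · simp only [List.map_cons, List.map_nil, List.prod_cons, List.prod_nil, mul_one]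
          exact hcomm v hvE
        · apply key [v]
          · intro w hw
            simp only [List.mem_cons, List.not_mem_nil, or_false] at hw
            rw [hw]; exact hQv0
          · simp only [List.cons_append, List.nil_append, List.length_cons]
            exact hk.add_one
          · simp only [List.cons_append, List.nil_append, List.map_cons, List.prod_cons]
            rw [hQv]
            exact (isSquare_mul_nonsquare_iff hν0 hs).mpr hν
  refine ⟨(cI : GL ι F), cI.2, ?_, ?_⟩
  · have := congrArg (fun z : ↥(Cfsg.isometryGroup F (⇑Q)) => (z : GL ι F)) hcy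
    simp only [Subgroup.coe_mul] at this
    rw [hyI] at this
    exact this
  · refine Subgroup.mem_map.mpr ⟨cI * gI, hcg, ?_⟩
    simp only [Subgroup.coe_subtype, Subgroup.coe_mul]
    rw [hgI]

example : StAdjA.{u} := adjA

end Cfsg.Agent.H48.Tq
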