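import Mathlib
import Cfsg.Agent.Lib.Helper96.TqPlusDefs
import Cfsg.Agent.H48.TqAdjA

/-!
# S5977-COSETS (helper48, for helper96): for non-singular `u₁, u₂` with `Q u₁ * Q u₂` a nonsquare,
one of `g, r₁ g, r₂ g, r₁ r₂ g` lies in `Ω`.
-/

set_option autoImplicit false
open scoped MatrixGroups
open scoped Matrix

namespace Cfsg.Agent.H48.Tqp

open Module Matrix Cfsg.Agent.H77.Tq Cfsg.Agent.Lib.Helper96.TqP Cfsg.Agent.H49

universe u

/-- **S5977-COSETS**. -/
theorem cosets : StCosets.{u} := by
  intro F _ _ ι _ _ Q h2 hnd u₁ u₂ hu₁ hu₂ hns g hg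
  classical
  obtain ⟨gI, hgI⟩ : ∃ gI : ↥(Cfsg.isometryGroup F (⇑Q)), (gI : GL ι F) = g := ⟨⟨g, hg⟩, rfl⟩
  obtain ⟨l, hl, hlg⟩ := exists_list_of_closure_invol (reflSet Q)
    (fun s hs => by obtain ⟨w, _, rfl⟩ := hs; exact reflG_mul_self Q w)
    (closure_reflSet_eq_top Q h2 hnd) gI
  obtain ⟨vs, hvs, rfl⟩ := Cfsg.Agent.H48.Tq.exists_vectors_of_refl_list Q l hl
  have hP := prod_Q_ne_zero Q vs hvs
  have key : ∀ ws : List (ι → F), (∀ w ∈ ws, Q w ≠ 0) → Even (ws ++ vs).length →
      IsSquare (((ws ++ vs).map (fun v => Q v)).prod) →
      (ws.map (reflG Q)).prod * gI ∈ commutator ↥(Cfsg.isometryGroup F (⇑Q)) := by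
    intro ws hws hev hsq
    have hvs' : ∀ w ∈ ws ++ vs, Q w ≠ 0 := by
      intro w hw
      rcases List.mem_append.mp hw with h | h
      · exact hws w h
      · exact hvs w h
    have e : (ws.map (reflG Q)).prod * gI = ((ws ++ vs).map (reflG Q)).prod := by
      rw [List.map_append, List.prod_append, hlg]
    rw [e]
    exact (mem_commutator_iff_of_prod_refl Q h2 _ (ws ++ vs) hvs' (coe_prod_reflG Q _)).mpr
      ⟨hev, hsq⟩
  have toGL : ∀ cI : ↥(Cfsg.isometryGroup F (⇑Q)),
      cI * gI ∈ commutator ↥(Cfsg.isometryGroup F (⇑Q)) →
      (cI : GL ι F) * g ∈ Cfsg.Geo.omegaGL ⇑Q := by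
    intro cI h
    refine Subgroup.mem_map.mpr ⟨cI * gI, h, ?_⟩
    simp only [Subgroup.coe_subtype, Subgroup.coe_mul]
    rw [hgI]
  have h1 : ∀ w, Q w ≠ 0 → ∀ z ∈ [w], Q z ≠ 0 := by
    intro w hw z hz
    simp only [List.mem_cons, List.not_mem_nil, or_false] at hz
    rw [hz]; exact hw
  rcases Nat.even_or_odd vs.length with hk | hk
  · by_cases hs : IsSquare ((vs.map (fun v => Q v)).prod)
    · left
      have := toGL 1 (by
        have h := key [] (by simp) (by simpa using hk) (by simpa using hs)
        simpa using h)
      simpa using this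
    · right; right; right
      have h := key [u₁, u₂] (by
          intro w hw
          simp only [List.mem_cons, List.not_mem_nil, or_false] at hw
          rcases hw with rfl | rfl
          · exact hu₁
          · exact hu₂)
        (by
          simp only [List.cons_append, List.nil_append, List.length_cons]
          exact hk.add_one.add_one)
        (by
          simp only [List.cons_append, List.nil_append, List.map_cons, List.prod_cons]
          rw [← mul_assoc]
          exact (isSquare_mul_nonsquare_iff (mul_ne_zero hu₁ hu₂) hs).mpr hns)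
      have := toGL _ h
      simpa [mul_assoc] using this
  · have hev1 : ∀ w : ι → F, Even ([w] ++ vs).length := by
      intro w
      simp only [List.cons_append, List.nil_append, List.length_cons]
      exact hk.add_one
    by_cases hs : IsSquare ((vs.map (fun v => Q v)).prod)
    · -- need a square norm
      by_cases hq1 : IsSquare (Q u₁)
      · right; left
        have h := key [u₁] (h1 u₁ hu₁) (hev1 u₁) (by
          simp only [List.cons_append, List.nil_append, List.map_cons, List.prod_cons]
          exact hq1.mul hs)
        have := toGL _ h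
        simpa using this
      · right; right; left
        have hq2 : IsSquare (Q u₂) := by
          by_contra hq2
          apply hns
          rw [mul_comm]
          exact (isSquare_mul_nonsquare_iff hu₂ hq1).mpr hq2
        have h := key [u₂] (h1 u₂ hu₂) (hev1 u₂) (by
          simp only [List.cons_append, List.nil_append, List.map_cons, List.prod_cons]
          exact hq2.mul hs)
        have := toGL _ h
        simpa using this
    · -- need a nonsquare norm
      by_cases hq1 : IsSquare (Q u₁)
      · right; right; left
        have hq2 : ¬ IsSquare (Q u₂) := by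
          intro hq2
          exact hns (hq1.mul hq2)
        have h := key [u₂] (h1 u₂ hu₂) (hev1 u₂) (by
          simp only [List.cons_append, List.nil_append, List.map_cons, List.prod_cons]
          exact (isSquare_mul_nonsquare_iff hu₂ hs).mpr hq2)
        have := toGL _ h
        simpa using this
      · right; left
        have h := key [u₁] (h1 u₁ hu₁) (hev1 u₁) (by
          simp only [List.cons_append, List.nil_append, List.map_cons, List.prod_cons]
          exact (isSquare_mul_nonsquare_iff hu₁ hs).mpr hq1)
        have := toGL _ h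
        simpa using this

example : StCosets.{u} := cosets

end Cfsg.Agent.H48.Tqp
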