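import Mathlib
import Cfsg.Agent.Lib.Helper96.TqPlusDefs
import Cfsg.Agent.H49.Basic
import Cfsg.Agent.H49.Disc

/-!
# S5977-EMB (helper48, for helper96): an isometric embedding of the minus-type space of dimension
`2k + 2` into the plus-type space of dimension `2d`, `k + 2 ≤ d`, and the induced embedding of
isometry groups (rank of `g - 1` preserved).
-/

set_option autoImplicit false
open scoped MatrixGroups
open scoped Matrix

namespace Cfsg.Agent.H48.Tqp

open Module Matrix Cfsg.Agent.H77.Tq Cfsg.Agent.Lib.Helper96.TqP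

universe u

section General

variable {m n : Type} [Fintype m] [DecidableEq m] [Fintype n] [DecidableEq n]
  {F : Type u} [Field F]

/-- Abstract embedding lemma: an isometric linear embedding `J` of a space with invertible Gram
matrix induces an embedding of isometry groups, `g ↦ 1 + J (g - 1) π`. -/
theorem emb_general (Qm : (m → F) → F) (Qn : (n → F) → F) (G : Matrix m m F) (H : Matrix n n F)
    (J : Matrix n m F) (hG : IsUnit G.det)
    (hpm : ∀ u v, Qm (u + v) = Qm u + Qm v + u ⬝ᵥ (G *ᵥ v))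
    (hpn : ∀ u v, Qn (u + v) = Qn u + Qn v + u ⬝ᵥ (H *ᵥ v))
    (hJ : ∀ w, Qn (J *ᵥ w) = Qm w) :
    ∃ Θ : ↥(Cfsg.isometryGroup F Qm) →* GL n F, (∀ g, Θ g ∈ Cfsg.isometryGroup F Qn) ∧
      ∀ g : ↥(Cfsg.isometryGroup F Qm),
        (((Θ g : GL n F) : Matrix n n F) - 1).rank = (((g : GL m F) : Matrix m m F) - 1).rank := by
  classical
  -- the Gram relation
  have hrel : ∀ u v : m → F, u ⬝ᵥ (G *ᵥ v) = u ⬝ᵥ ((Jᵀ * H * J) *ᵥ v) := by
    intro u v
    have h1 := hpm u v
    have h2 := hpn (J *ᵥ u) (J *ᵥ v)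
    rw [← Matrix.mulVec_add, hJ, hJ, hJ] at h2
    have h3 : (J *ᵥ u) ⬝ᵥ (H *ᵥ (J *ᵥ v)) = u ⬝ᵥ ((Jᵀ * H * J) *ᵥ v) := by
      rw [← Matrix.mulVec_mulVec, ← Matrix.mulVec_mulVec, Matrix.dotProduct_mulVec u Jᵀ,
        Matrix.vecMul_transpose]
    rw [← h3]
    linear_combination h2 - h1
  have hJHJ : Jᵀ * H * J = G := by
    ext i j
    have := hrel (Pi.single i 1) (Pi.single j 1)
    simp only [Matrix.mulVec_single_one, single_one_dotProduct] at this
    simpa using this.symm
  obtain ⟨π, hπ⟩ : ∃ π : Matrix m n F, π = G⁻¹ * Jᵀ * H := ⟨_, rfl⟩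
  have hπJ : π * J = 1 := by
    rw [hπ, Matrix.mul_assoc, Matrix.mul_assoc, ← Matrix.mul_assoc Jᵀ, hJHJ,
      Matrix.nonsing_inv_mul G hG]
  have hGπ : G * π = Jᵀ * H := by
    rw [hπ, ← Matrix.mul_assoc, ← Matrix.mul_assoc, Matrix.mul_nonsing_inv G hG, Matrix.one_mul]
  have hkey : ∀ X Y : Matrix m m F, (J * X * π) * (J * Y * π) = J * (X * Y) * π := by
    intro X Y
    calc (J * X * π) * (J * Y * π) = J * X * (π * J) * Y * π := by
          simp only [Matrix.mul_assoc]
      _ = J * (X * Y) * π := by rw [hπJ, Matrix.mul_one, Matrix.mul_assoc J X Y]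
  -- the homomorphism into matrices
  obtain ⟨θ, hθ⟩ : ∃ θ : ↥(Cfsg.isometryGroup F Qm) →* Matrix n n F,
      ∀ g, θ g = 1 + J * (((g : GL m F) : Matrix m m F) - 1) * π := by
    refine ⟨{ toFun := fun g => 1 + J * (((g : GL m F) : Matrix m m F) - 1) * π
              map_one' := ?_
              map_mul' := ?_ }, fun g => rfl⟩
    · show 1 + J * ((((1 : ↥(Cfsg.isometryGroup F Qm)) : GL m F) : Matrix m m F) - 1) * π = 1
      rw [Subgroup.coe_one, Units.val_one, sub_self, Matrix.mul_zero, Matrix.zero_mul, add_zero]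
    · intro g h
      show 1 + J * ((((g * h : ↥(Cfsg.isometryGroup F Qm)) : GL m F) : Matrix m m F) - 1) * π
        = (1 + J * (((g : GL m F) : Matrix m m F) - 1) * π) *
          (1 + J * (((h : GL m F) : Matrix m m F) - 1) * π)
      rw [Subgroup.coe_mul, Units.val_mul]
      rw [Matrix.add_mul, Matrix.mul_add, Matrix.mul_add, Matrix.one_mul, Matrix.one_mul,
        Matrix.mul_one, hkey]
      have e : ((g : GL m F) : Matrix m m F) * ((h : GL m F) : Matrix m m F) - 1
          = (((g : GL m F) : Matrix m m F) - 1) + (((h : GL m F) : Matrix m m F) - 1)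
            + (((g : GL m F) : Matrix m m F) - 1) * (((h : GL m F) : Matrix m m F) - 1) := by
        noncomm_ring
      rw [e, Matrix.mul_add, Matrix.mul_add, Matrix.add_mul, Matrix.add_mul]
      abel
  refine ⟨θ.toHomUnits, ?_, ?_⟩
  · intro g
    rw [Cfsg.Agent.H49.mem_isometryGroup_iff]
    intro v
    rw [MonoidHom.coe_toHomUnits, hθ]
    obtain ⟨w₀, hw₀⟩ : ∃ w₀ : m → F, w₀ = π *ᵥ v := ⟨_, rfl⟩
    obtain ⟨v', hv'⟩ : ∃ v' : n → F, v' = v - J *ᵥ w₀ := ⟨_, rfl⟩
    have hv : v = J *ᵥ w₀ + v' := by rw [hv']; abel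
    -- orthogonality
    have horth : ∀ w : m → F, (J *ᵥ w) ⬝ᵥ (H *ᵥ v') = 0 := by
      intro w
      have h1 : (J *ᵥ w) ⬝ᵥ (H *ᵥ v') = w ⬝ᵥ ((Jᵀ * H) *ᵥ v') := by
        rw [← Matrix.mulVec_mulVec, Matrix.dotProduct_mulVec w Jᵀ, Matrix.vecMul_transpose]
      rw [h1, hv', Matrix.mulVec_sub, hw₀, Matrix.mulVec_mulVec, Matrix.mulVec_mulVec,
        Matrix.mul_assoc, Matrix.mul_assoc, ← Matrix.mul_assoc H, ← Matrix.mul_assoc Jᵀ,
        ← Matrix.mul_assoc Jᵀ, hJHJ, hGπ, sub_self, dotProduct_zero]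
    have hexp : ∀ w : m → F, Qn (J *ᵥ w + v') = Qm w + Qn v' := by
      intro w
      rw [hpn, horth, hJ, add_zero]
    have himg : (1 + J * (((g : GL m F) : Matrix m m F) - 1) * π) *ᵥ v
        = J *ᵥ (((g : GL m F) : Matrix m m F) *ᵥ w₀) + v' := by
      rw [Matrix.add_mulVec, Matrix.one_mulVec, ← Matrix.mulVec_mulVec, ← hw₀,
        ← Matrix.mulVec_mulVec, Matrix.sub_mulVec, Matrix.one_mulVec, Matrix.mulVec_sub, hv']
      abel
    rw [himg, hexp, (Cfsg.Agent.H49.mem_isometryGroup_iff.mp g.2) w₀, ← hexp, ← hv]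
  · intro g
    rw [MonoidHom.coe_toHomUnits, hθ, add_sub_cancel_left]
    apply le_antisymm
    · exact (Matrix.rank_mul_le_left _ _).trans (Matrix.rank_mul_le_right _ _)
    · have e : (((g : GL m F) : Matrix m m F) - 1)
          = π * (J * (((g : GL m F) : Matrix m m F) - 1) * π) * J := by
        calc (((g : GL m F) : Matrix m m F) - 1)
            = (π * J) * (((g : GL m F) : Matrix m m F) - 1) * (π * J) := by
              rw [hπJ, Matrix.one_mul, Matrix.mul_one]
          _ = π * (J * (((g : GL m F) : Matrix m m F) - 1) * π) * J := by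
              simp only [Matrix.mul_assoc]
      conv_lhs => rw [e]
      exact (Matrix.rank_mul_le_left _ _).trans (Matrix.rank_mul_le_right _ _)

end General

section Specific

variable {F : Type u} [Field F]

/-- The hyperbolic coordinates of the image vector (first halves). -/
def embA (k r : ℕ) (w : MI k → F) : (Fin k ⊕ Fin 2) ⊕ Fin r → F :=
  Sum.elim (Sum.elim (fun j => w (Sum.inl (Sum.inl j))) (fun t => w (Sum.inr t))) (fun _ => 0)

/-- The hyperbolic coordinates of the image vector (second halves). -/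
def embB (k r : ℕ) (a b : F) (w : MI k → F) : (Fin k ⊕ Fin 2) ⊕ Fin r → F :=
  Sum.elim (Sum.elim (fun j => w (Sum.inl (Sum.inr j)))
    (fun t => ![w (Sum.inr 0) + a * w (Sum.inr 1), b * w (Sum.inr 1)] t)) (fun _ => 0)

/-- The isometric embedding as a linear map. -/
def embLin (k r d : ℕ) (a b : F) (e : Fin d ≃ (Fin k ⊕ Fin 2) ⊕ Fin r) :
    (MI k → F) →ₗ[F] (Fin d ⊕ Fin d → F) where
  toFun w := Sum.elim (fun i => embA k r w (e i)) (fun i => embB k r a b w (e i))
  map_add' := by
    intro w w'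
    funext x
    rcases x with i | i
    · simp only [Sum.elim_inl, Pi.add_apply]
      rcases e i with (j | t) | s <;> simp [embA]
    · simp only [Sum.elim_inr, Pi.add_apply]
      rcases e i with (j | t) | s
      · simp [embB]
      · fin_cases t
        · simp [embB]; ring
        · simp [embB]; ring
      · simp [embB]
  map_smul' := by
    intro c w
    funext x
    rcases x with i | i
    · simp only [Sum.elim_inl, Pi.smul_apply, RingHom.id_apply, smul_eq_mul]
      rcases e i with (j | t) | s <;> simp [embA]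
    · simp only [Sum.elim_inr, Pi.smul_apply, RingHom.id_apply, smul_eq_mul]
      rcases e i with (j | t) | s
      · simp [embB]
      · fin_cases t
        · simp [embB]; ring
        · simp [embB]; ring
      · simp [embB]

theorem embLin_isometry (k r d : ℕ) (a b : F) (e : Fin d ≃ (Fin k ⊕ Fin 2) ⊕ Fin r)
    (w : MI k → F) :
    Cfsg.quadFormPlus d F (embLin k r d a b e w) = Cfsg.quadFormMinus k F a b w := by
  unfold Cfsg.quadFormPlus Cfsg.quadFormMinus
  have h1 : ∑ i : Fin d, embLin k r d a b e w (Sum.inl i) * embLin k r d a b e w (Sum.inr i)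
      = ∑ x : (Fin k ⊕ Fin 2) ⊕ Fin r, embA k r w x * embB k r a b w x := by
    rw [← Equiv.sum_comp e (fun x => embA k r w x * embB k r a b w x)]
    rfl
  rw [h1, Fintype.sum_sum_type, Fintype.sum_sum_type, Fin.sum_univ_two]
  simp only [embA, embB, Sum.elim_inl, Sum.elim_inr, Matrix.cons_val_zero, Matrix.cons_val_one,
    zero_mul, Finset.sum_const_zero, add_zero]
  ring

end Specific

/-- **S5977-EMB**. -/
theorem embMP : StEmbMP.{u} := by
  intro F _ _ k d a b h2 hab hkd
  classical
  obtain ⟨r, hr⟩ : ∃ r, d = k + 2 + r := ⟨d - (k + 2), by omega⟩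
  obtain ⟨e⟩ : Nonempty (Fin d ≃ (Fin k ⊕ Fin 2) ⊕ Fin r) := by
    refine ⟨(finCongr hr).trans ?_⟩
    exact (finSumFinEquiv.symm).trans (Equiv.sumCongr finSumFinEquiv.symm (Equiv.refl _))
  obtain ⟨J, hJdef⟩ : ∃ J : Matrix (Fin d ⊕ Fin d) (MI k) F,
      J = LinearMap.toMatrix' (embLin k r d a b e) := ⟨_, rfl⟩
  have hJv : ∀ w, J *ᵥ w = embLin k r d a b e w := by
    intro w
    rw [hJdef, ← Matrix.toLin'_apply, Matrix.toLin'_toMatrix']
  have hdet : IsUnit (Cfsg.Agent.H49.minusGram k F a b).det := by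
    rw [Cfsg.Agent.H49.det_minusGram, isUnit_iff_ne_zero]
    apply mul_ne_zero (pow_ne_zero _ (neg_ne_zero.mpr one_ne_zero))
    intro h
    have := (hab a (-2) (by linear_combination h)).2
    exact h2 (neg_eq_zero.mp this)
  exact emb_general (Cfsg.quadFormMinus k F a b) (Cfsg.quadFormPlus d F)
    (Cfsg.Agent.H49.minusGram k F a b) (Cfsg.Agent.H49.hypGram d F) J hdet
    (fun u v => by
      have := Cfsg.Agent.H49.polar_quadFormMinus k F a b u v
      simp only [QuadraticMap.polar] at this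
      linear_combination this)
    (fun u v => by
      have := Cfsg.Agent.H49.polar_quadFormPlus d F u v
      simp only [QuadraticMap.polar] at this
      linear_combination this)
    (fun w => by rw [hJv]; exact embLin_isometry k r d a b e w)

example : StEmbMP.{u} := embMP

end Cfsg.Agent.H48.Tqp
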