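import Cfsg.Agent.H48.SelfDual

set_option autoImplicit false

/-!
Helper lemmas (helper48): a square matrix over a field is similar to its transpose.
-/

namespace Cfsg.Agent.H48

open Polynomial DirectSum Matrix

theorem hasSelfDualForm_of_finiteDimensional {K : Type*} [Field K] {V : Type*} [AddCommGroup V]
    [Module K V] [FiniteDimensional K V] (φ : V →ₗ[K] V) :
    HasSelfDualForm K (Module.AEval' φ) := by
  classical
  have hT : Module.IsTorsion K[X] (Module.AEval' φ) :=
    Module.AEval.isTorsion_of_finiteDimensional K V φ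
  obtain ⟨ι, _, p, hp, e, ⟨l⟩⟩ := Module.equiv_directSum_of_isTorsion hT
  have := HasSelfDualForm.directSum (K := K) (fun i : ι => K[X] ⧸ (K[X] ∙ p i ^ e i))
    (fun i => HasSelfDualForm.cyclic _ (pow_ne_zero _ (hp i).ne_zero))
  exact this.of_equiv l.symm

/-- There is an invertible matrix `B` with `B * A = Aᵀ * B` (linear map version). -/
theorem exists_transpose_intertwiner_lin {K : Type*} [Field K] {ι : Type*} [Fintype ι]
    [DecidableEq ι] (φ : (ι → K) →ₗ[K] (ι → K)) :
    ∃ B : Matrix ι ι K, B.det ≠ 0 ∧ B * LinearMap.toMatrix' φ = (LinearMap.toMatrix' φ)ᵀ * B := by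
  obtain ⟨b, h1, h2, h3, h4, h5⟩ := hasSelfDualForm_of_finiteDimensional φ
  let o : (ι → K) ≃ₗ[K] Module.AEval' φ := Module.AEval'.of φ
  let β : (ι → K) → (ι → K) → K := fun x y => b (o x) (o y)
  have β_add_l : ∀ x x' y, β (x + x') y = β x y + β x' y := by
    intro x x' y; simp only [β, map_add, h1]
  have β_add_r : ∀ x y y', β x (y + y') = β x y + β x y' := by
    intro x y y'; simp only [β, map_add, h2]
  have β_smul_l : ∀ (c : K) x y, β (c • x) y = c • β x y := by
    intro c x y
    show b (o (c • x)) (o y) = _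
    rw [map_smul, ← Module.AEval.C_smul, h4, smul_eq_mul]
  have β_smul_r : ∀ (c : K) x y, β x (c • y) = c • β x y := by
    intro c x y
    show b (o x) (o (c • y)) = _
    rw [map_smul, ← Module.AEval.C_smul, ← h3, h4, smul_eq_mul]
  have β_adj : ∀ x y, β (φ x) y = β x (φ y) := by
    intro x y
    show b (o (φ x)) (o y) = b (o x) (o (φ y))
    rw [← Module.AEval'.X_smul_of, ← Module.AEval'.X_smul_of, h3]
  let βL : LinearMap.BilinForm K (ι → K) := LinearMap.mk₂ K β β_add_l β_smul_l β_add_r β_smul_r
  have hβL : ∀ x y, βL x y = β x y := fun x y => rfl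
  refine ⟨LinearMap.BilinForm.toMatrix' βL, ?_, ?_⟩
  · intro hdet
    obtain ⟨v, hv, hv0⟩ := Matrix.exists_vecMul_eq_zero_iff.mpr hdet
    apply hv
    have h0 : ∀ y, β v y = 0 := by
      intro y
      rw [← hβL, ← Matrix.toBilin'_toMatrix' βL, Matrix.toBilin'_apply', Matrix.dotProduct_mulVec,
        hv0, zero_dotProduct]
    have : o v = 0 := h5 _ (fun y' => by
      have := h0 (o.symm y')
      simpa [β] using this)
    simpa using this
  · have e : βL.compLeft φ = βL.compRight φ := by
      refine LinearMap.ext fun x => LinearMap.ext fun y => ?_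
      exact β_adj x y
    have e2 := congrArg LinearMap.BilinForm.toMatrix' e
    rw [LinearMap.BilinForm.toMatrix'_compLeft, LinearMap.BilinForm.toMatrix'_compRight] at e2
    exact e2.symm

/-- There is an invertible matrix `B` with `B * A = Aᵀ * B`. -/
theorem exists_transpose_intertwiner {K : Type*} [Field K] {ι : Type*} [Fintype ι] [DecidableEq ι]
    (A : Matrix ι ι K) : ∃ B : Matrix ι ι K, B.det ≠ 0 ∧ B * A = Aᵀ * B := by
  have h := exists_transpose_intertwiner_lin (Matrix.toLin' A)
  rwa [LinearMap.toMatrix'_toLin'] at h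

/-- A square matrix over a field is similar to its transpose. -/
theorem isConj_transpose {K : Type*} [Field K] {ι : Type*} [Fintype ι] [DecidableEq ι]
    (A : Matrix ι ι K) : IsConj A Aᵀ := by
  obtain ⟨B, hdet, hB⟩ := exists_transpose_intertwiner A
  have hu : IsUnit B := (Matrix.isUnit_iff_isUnit_det B).mpr (isUnit_iff_ne_zero.mpr hdet)
  exact ⟨hu.unit, hB⟩

end Cfsg.Agent.H48
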