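import Mathlib
import Cfsg.Agent.H48.Transvection

set_option autoImplicit false

/-!
Helper lemmas (helper48): the centraliser of a transvection `1 + v wᵀ` in `GL`.
-/

namespace Cfsg.Agent.H48

open Matrix Module

/-- Abstract orbit-stabiliser: if `f (a * b)` depends only on `a` and `f b`, then
`|G| = |range f| * |fibre of f 1|`. -/
theorem card_eq_card_range_mul_card_fiber {G β : Type*} [Group G] [Finite G] (f : G → β)
    (hf : ∀ a b b', f b = f b' → f (a * b) = f (a * b')) :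
    Nat.card G = Nat.card (Set.range f) * Nat.card {g // f g = f 1} := by
  classical
  have : Fintype (Set.range f) := Fintype.ofFinite _
  rw [← Nat.card_congr (Equiv.sigmaFiberEquiv (Set.rangeFactorization f)), Nat.card_sigma]
  have key : ∀ y : Set.range f,
      Nat.card {g // Set.rangeFactorization f g = y} = Nat.card {g // f g = f 1} := by
    rintro ⟨_, g₀, rfl⟩
    refine Nat.card_congr ⟨fun g => ⟨g₀⁻¹ * g.1, ?_⟩, fun g => ⟨g₀ * g.1, ?_⟩, ?_, ?_⟩
    · have h1 : f g.1 = f g₀ := congrArg Subtype.val g.2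
      have h2 := hf g₀⁻¹ _ _ h1
      rw [h2, inv_mul_cancel]
    · apply Subtype.ext
      show f (g₀ * g.1) = f g₀
      have h2 := hf g₀ _ _ g.2
      rw [h2, mul_one]
    · intro g
      apply Subtype.ext
      show g₀ * (g₀⁻¹ * g.1) = g.1
      rw [mul_inv_cancel_left]
    · intro g
      apply Subtype.ext
      show g₀⁻¹ * (g₀ * g.1) = g.1
      rw [inv_mul_cancel_left]
  simp only [key, Finset.sum_const, Finset.card_univ, smul_eq_mul, Nat.card_eq_fintype_card]

/-- Number of nonzero vectors orthogonal to a nonzero vector. -/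
theorem card_orth_ne_zero {ι : Type*} [Fintype ι] [DecidableEq ι] {F : Type*} [Field F]
    [Fintype F] (a : ι → F) (ha : a ≠ 0) :
    Nat.card {b : ι → F // b ≠ 0 ∧ b ⬝ᵥ a = 0} =
      Fintype.card F ^ (Fintype.card ι - 1) - 1 := by
  classical
  have hfr := finrank_ker_dotL a ha
  have hcard : Nat.card (LinearMap.ker (dotL a)) = Fintype.card F ^ (Fintype.card ι - 1) := by
    rw [Nat.card_eq_fintype_card, Module.card_eq_pow_finrank (K := F)]
    congr 1
    omega
  have e : {b : ι → F // b ≠ 0 ∧ b ⬝ᵥ a = 0} ≃ {k : LinearMap.ker (dotL a) // k ≠ 0} :=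
    { toFun := fun b => ⟨⟨b.1, by
          rw [LinearMap.mem_ker, dotL_apply, dotProduct_comm]; exact b.2.2⟩,
        fun h => b.2.1 (congrArg Subtype.val h)⟩
      invFun := fun k => ⟨k.1.1, fun h => k.2 (Subtype.ext h), by
          have := LinearMap.mem_ker.mp k.1.2
          rw [dotL_apply, dotProduct_comm] at this; exact this⟩
      left_inv := fun b => rfl
      right_inv := fun k => rfl }
  rw [Nat.card_congr e, ← hcard, Nat.card_eq_fintype_card, Nat.card_eq_fintype_card,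
    Fintype.card_subtype_compl, Fintype.card_subtype_eq]

/-- Number of pairs `(v, w)` with `v, w ≠ 0`, `w ⬝ v = 0`. -/
theorem card_flag_pairs {ι : Type*} [Fintype ι] [DecidableEq ι] {F : Type*} [Field F]
    [Fintype F] :
    Nat.card {x : (ι → F) × (ι → F) // x.1 ≠ 0 ∧ x.2 ≠ 0 ∧ x.2 ⬝ᵥ x.1 = 0} =
      (Fintype.card F ^ Fintype.card ι - 1) * (Fintype.card F ^ (Fintype.card ι - 1) - 1) := by
  classical
  rw [Nat.card_congr (Equiv.subtypeProdEquivSigmaSubtype
    (fun (a b : ι → F) => a ≠ 0 ∧ b ≠ 0 ∧ b ⬝ᵥ a = 0)), Nat.card_sigma]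
  have key : ∀ a : ι → F, Nat.card {b : ι → F // a ≠ 0 ∧ b ≠ 0 ∧ b ⬝ᵥ a = 0} =
      if a = 0 then 0 else Fintype.card F ^ (Fintype.card ι - 1) - 1 := by
    intro a
    split_ifs with ha
    · have : IsEmpty {b : ι → F // a ≠ 0 ∧ b ≠ 0 ∧ b ⬝ᵥ a = 0} := ⟨fun b => b.2.1 ha⟩
      exact Nat.card_of_isEmpty
    · rw [← card_orth_ne_zero a ha]
      exact Nat.card_congr (Equiv.subtypeEquivRight (fun b => by simp [ha]))
  simp only [key]
  rw [Finset.sum_ite, Finset.sum_const_zero, zero_add, Finset.sum_const, smul_eq_mul,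
    Finset.filter_not, Finset.filter_eq', if_pos (Finset.mem_univ _),
    Finset.card_sdiff_of_subset (by simp), Finset.card_univ, Finset.card_singleton]
  simp

/-- The flag map `g ↦ (g v, w g⁻¹)`. -/
noncomputable def flagMap {ι : Type*} [Fintype ι] [DecidableEq ι] {F : Type*} [Field F]
    (v w : ι → F) (g : GL ι F) : (ι → F) × (ι → F) :=
  ((g : Matrix ι ι F) *ᵥ v, w ᵥ* ((g⁻¹ : GL ι F) : Matrix ι ι F))

theorem flagMap_mul {ι : Type*} [Fintype ι] [DecidableEq ι] {F : Type*} [Field F]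
    (v w : ι → F) (a b b' : GL ι F) (h : flagMap v w b = flagMap v w b') :
    flagMap v w (a * b) = flagMap v w (a * b') := by
  have h1 : (b : Matrix ι ι F) *ᵥ v = (b' : Matrix ι ι F) *ᵥ v := congrArg Prod.fst h
  have h2 : w ᵥ* ((b⁻¹ : GL ι F) : Matrix ι ι F) = w ᵥ* ((b'⁻¹ : GL ι F) : Matrix ι ι F) :=
    congrArg Prod.snd h
  unfold flagMap
  rw [_root_.mul_inv_rev, _root_.mul_inv_rev]
  simp only [Units.val_mul]
  rw [← Matrix.mulVec_mulVec, ← Matrix.mulVec_mulVec, ← Matrix.vecMul_vecMul,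
    ← Matrix.vecMul_vecMul, h1, h2]

theorem gl_mulVec_ne_zero {ι : Type*} [Fintype ι] [DecidableEq ι] {F : Type*} [Field F]
    (g : GL ι F) (v : ι → F) (hv : v ≠ 0) : (g : Matrix ι ι F) *ᵥ v ≠ 0 := by
  intro h
  apply hv
  have := congrArg (fun x => ((g⁻¹ : GL ι F) : Matrix ι ι F) *ᵥ x) h
  simp only [Matrix.mulVec_mulVec, Matrix.mulVec_zero] at this
  rw [← Units.val_mul, inv_mul_cancel, Units.val_one, Matrix.one_mulVec] at this
  exact this

theorem gl_vecMul_ne_zero {ι : Type*} [Fintype ι] [DecidableEq ι] {F : Type*} [Field F]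
    (g : GL ι F) (w : ι → F) (hw : w ≠ 0) : w ᵥ* (g : Matrix ι ι F) ≠ 0 := by
  intro h
  apply hw
  have := congrArg (fun x => x ᵥ* ((g⁻¹ : GL ι F) : Matrix ι ι F)) h
  simp only [Matrix.vecMul_vecMul, Matrix.zero_vecMul] at this
  rw [← Units.val_mul, mul_inv_cancel, Units.val_one, Matrix.vecMul_one] at this
  exact this

theorem range_flagMap {ι : Type*} [Fintype ι] [DecidableEq ι] {F : Type*} [Field F]
    (v w : ι → F) (hv : v ≠ 0) (hw : w ≠ 0) (h : w ⬝ᵥ v = 0) :
    Set.range (flagMap v w) = {x : (ι → F) × (ι → F) | x.1 ≠ 0 ∧ x.2 ≠ 0 ∧ x.2 ⬝ᵥ x.1 = 0} := by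
  ext ⟨v', w'⟩
  constructor
  · rintro ⟨g, hg⟩
    have h1 : (g : Matrix ι ι F) *ᵥ v = v' := congrArg Prod.fst hg
    have h2 : w ᵥ* ((g⁻¹ : GL ι F) : Matrix ι ι F) = w' := congrArg Prod.snd hg
    refine ⟨?_, ?_, ?_⟩
    · show v' ≠ 0
      rw [← h1]; exact gl_mulVec_ne_zero g v hv
    · show w' ≠ 0
      rw [← h2]; exact gl_vecMul_ne_zero g⁻¹ w hw
    · show w' ⬝ᵥ v' = 0
      rw [← h1, ← h2, ← Matrix.dotProduct_mulVec, Matrix.mulVec_mulVec, ← Units.val_mul,
        inv_mul_cancel, Units.val_one, Matrix.one_mulVec, h]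
  · rintro ⟨hv', hw', h'⟩
    obtain ⟨g, hg, hgv, hgw⟩ := exists_gl_vecMulVec v w v' w' hv hw hv' hw' h h'
    obtain ⟨G, rfl⟩ : ∃ G : GL ι F, (G : Matrix ι ι F) = g :=
      ⟨Matrix.GeneralLinearGroup.mkOfDetNeZero g hg, rfl⟩
    refine ⟨G, ?_⟩
    unfold flagMap
    have hgw' : w ᵥ* ((G⁻¹ : GL ι F) : Matrix ι ι F) = w' := by
      rw [← hgw, Matrix.vecMul_vecMul, ← Units.val_mul, mul_inv_cancel, Units.val_one,
        Matrix.vecMul_one]
    rw [hgw']
    exact Prod.ext hgv rfl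

theorem vecMul_inv_of_vecMul {ι : Type*} [Fintype ι] [DecidableEq ι] {F : Type*} [Field F]
    (g : GL ι F) (w : ι → F) (c : F) (hc : c ≠ 0) (h : w ᵥ* (g : Matrix ι ι F) = c • w) :
    w ᵥ* ((g⁻¹ : GL ι F) : Matrix ι ι F) = c⁻¹ • w := by
  have := congrArg (fun x => x ᵥ* ((g⁻¹ : GL ι F) : Matrix ι ι F)) h
  simp only [Matrix.vecMul_vecMul, Matrix.smul_vecMul] at this
  rw [← Units.val_mul, mul_inv_cancel, Units.val_one, Matrix.vecMul_one] at this
  have h2 : c⁻¹ • w = c⁻¹ • (c • w ᵥ* ((g⁻¹ : GL ι F) : Matrix ι ι F)) := congrArg (c⁻¹ • ·) this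
  rw [h2, smul_smul, inv_mul_cancel₀ hc, one_smul]

/-- `g` commutes with `v wᵀ` iff `g v = c v`, `w g⁻¹ = c⁻¹ w` for a unit `c`. -/
theorem commute_vecMulVec_iff {ι : Type*} [Fintype ι] [DecidableEq ι] {F : Type*} [Field F]
    (v w : ι → F) (hv : v ≠ 0) (hw : w ≠ 0) (g : GL ι F) :
    (g : Matrix ι ι F) * Matrix.vecMulVec v w = Matrix.vecMulVec v w * (g : Matrix ι ι F) ↔
      ∃ c : Fˣ, flagMap v w g = ((c : F) • v, ((c⁻¹ : Fˣ) : F) • w) := by
  constructor
  · intro hc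
    rw [Matrix.mul_vecMulVec, Matrix.vecMulVec_mul] at hc
    obtain ⟨i, hi⟩ : ∃ i, v i ≠ 0 := by
      by_contra hh
      exact hv (funext fun j => by_contra fun hj => hh ⟨j, hj⟩)
    obtain ⟨j, hj⟩ : ∃ j, w j ≠ 0 := by
      by_contra hh
      exact hw (funext fun j => by_contra fun hj => hh ⟨j, hj⟩)
    have hij : ∀ i' j', ((g : Matrix ι ι F) *ᵥ v) i' * w j' = v i' * (w ᵥ* (g : Matrix ι ι F)) j' := by
      intro i' j'
      have := congrFun (congrFun hc i') j'
      simpa [Matrix.vecMulVec_apply] using this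
    set c₀ : F := (w ᵥ* (g : Matrix ι ι F)) j / w j with hc₀
    have hgv : (g : Matrix ι ι F) *ᵥ v = c₀ • v := by
      funext i'
      have := hij i' j
      simp only [Pi.smul_apply, smul_eq_mul, hc₀]
      field_simp
      rw [this, mul_comm]
    have hc₀0 : c₀ ≠ 0 := by
      intro h0
      rw [h0, zero_smul] at hgv
      exact gl_mulVec_ne_zero g v hv hgv
    have hwg : w ᵥ* (g : Matrix ι ι F) = c₀ • w := by
      funext j'
      have := hij i j'
      rw [hgv] at this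
      simp only [Pi.smul_apply, smul_eq_mul] at this ⊢
      have h2 : v i * (c₀ * w j') = v i * (w ᵥ* (g : Matrix ι ι F)) j' := by rw [← this]; ring
      exact (mul_left_cancel₀ hi h2).symm
    refine ⟨Units.mk0 c₀ hc₀0, ?_⟩
    unfold flagMap
    rw [hgv, vecMul_inv_of_vecMul g w c₀ hc₀0 hwg]
    simp
  · rintro ⟨c, hc⟩
    have h1 : (g : Matrix ι ι F) *ᵥ v = (c : F) • v := congrArg Prod.fst hc
    have h2 : w ᵥ* ((g⁻¹ : GL ι F) : Matrix ι ι F) = ((c⁻¹ : Fˣ) : F) • w := congrArg Prod.snd hc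
    have h3 := vecMul_inv_of_vecMul g⁻¹ w _ (c⁻¹).ne_zero h2
    rw [inv_inv] at h3
    rw [Matrix.mul_vecMulVec, Matrix.vecMulVec_mul, h1, h3, Matrix.smul_vecMulVec,
      Matrix.vecMulVec_smul]
    simp

theorem flagMap_one {ι : Type*} [Fintype ι] [DecidableEq ι] {F : Type*} [Field F]
    (v w : ι → F) : flagMap v w 1 = (v, w) := by
  unfold flagMap
  simp

theorem mem_centralizer_iff_commute_sub_one' {F : Type*} [Field F] {ι : Type*} [Fintype ι]
    [DecidableEq ι] (u g : GL ι F) :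
    g ∈ Subgroup.centralizer ({u} : Set (GL ι F)) ↔
      (g : Matrix ι ι F) * ((u : Matrix ι ι F) - 1) = ((u : Matrix ι ι F) - 1) * (g : Matrix ι ι F) := by
  rw [Subgroup.mem_centralizer_iff]
  constructor
  · intro h
    have h1 := h u rfl
    have h2 : (u : Matrix ι ι F) * (g : Matrix ι ι F) = (g : Matrix ι ι F) * (u : Matrix ι ι F) := by
      rw [← Units.val_mul, ← Units.val_mul, h1]
    rw [mul_sub, sub_mul, mul_one, one_mul, h2]
  · intro h x hx
    rw [Set.mem_singleton_iff] at hx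
    subst hx
    apply Units.ext
    rw [Units.val_mul, Units.val_mul]
    rw [mul_sub, sub_mul, mul_one, one_mul] at h
    exact (sub_left_injective h).symm

/-- `|C(t)| · (qⁿ-1)(qⁿ⁻¹-1) = (q-1) · |GL|` for `t = 1 + v wᵀ`. -/
theorem card_centralizer_mul {ι : Type*} [Fintype ι] [DecidableEq ι] {F : Type*} [Field F]
    [Fintype F] (v w : ι → F) (hv : v ≠ 0) (hw : w ≠ 0) (h : w ⬝ᵥ v = 0) (t : GL ι F)
    (ht : (t : Matrix ι ι F) - 1 = Matrix.vecMulVec v w) :
    Nat.card (Subgroup.centralizer ({t} : Set (GL ι F))) *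
        ((Fintype.card F ^ Fintype.card ι - 1) * (Fintype.card F ^ (Fintype.card ι - 1) - 1)) =
      (Fintype.card F - 1) * Nat.card (GL ι F) := by
  classical
  have hGL := card_eq_card_range_mul_card_fiber (flagMap v w) (flagMap_mul v w)
  rw [range_flagMap v w hv hw h] at hGL
  have hX := card_flag_pairs (ι := ι) (F := F)
  have hGL' : Nat.card (GL ι F) =
      ((Fintype.card F ^ Fintype.card ι - 1) * (Fintype.card F ^ (Fintype.card ι - 1) - 1)) *
        Nat.card {g // flagMap v w g = flagMap v w 1} := by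
    rw [hGL, ← hX]; rfl
  have hmem : ∀ g : GL ι F, g ∈ Subgroup.centralizer ({t} : Set (GL ι F)) ↔
      ∃ c : Fˣ, flagMap v w g = ((c : F) • v, ((c⁻¹ : Fˣ) : F) • w) := by
    intro g
    rw [mem_centralizer_iff_commute_sub_one', ht, commute_vecMulVec_iff v w hv hw]
  have hC := card_eq_card_range_mul_card_fiber
    (fun g : Subgroup.centralizer ({t} : Set (GL ι F)) => flagMap v w g.1)
    (fun a b b' hb => flagMap_mul v w a.1 b.1 b'.1 hb)
  have hfib : Nat.card {g : Subgroup.centralizer ({t} : Set (GL ι F)) //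
      flagMap v w g.1 = flagMap v w (1 : Subgroup.centralizer ({t} : Set (GL ι F))).1} =
      Nat.card {g // flagMap v w g = flagMap v w 1} := by
    refine Nat.card_congr (Equiv.subtypeSubtypeEquivSubtype
      (p := fun g => g ∈ Subgroup.centralizer ({t} : Set (GL ι F)))
      (q := fun g => flagMap v w g = flagMap v w 1) ?_)
    intro g hg
    rw [hmem]
    exact ⟨1, by rw [hg, flagMap_one]; simp⟩
  have hrange : Set.range (fun g : Subgroup.centralizer ({t} : Set (GL ι F)) => flagMap v w g.1) =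
      Set.range (fun c : Fˣ => ((c : F) • v, ((c⁻¹ : Fˣ) : F) • w)) := by
    ext x
    constructor
    · rintro ⟨g, rfl⟩
      obtain ⟨c, hc⟩ := (hmem g.1).mp g.2
      exact ⟨c, hc.symm⟩
    · rintro ⟨c, rfl⟩
      have hx : ((c : F) • v, ((c⁻¹ : Fˣ) : F) • w) ∈ Set.range (flagMap v w) := by
        rw [range_flagMap v w hv hw h]
        refine ⟨?_, ?_, ?_⟩
        · exact smul_ne_zero c.ne_zero hv
        · exact smul_ne_zero (c⁻¹).ne_zero hw
        · show (((c⁻¹ : Fˣ) : F) • w) ⬝ᵥ ((c : F) • v) = 0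
          rw [smul_dotProduct, dotProduct_smul, h]; simp
      obtain ⟨g, hg⟩ := hx
      exact ⟨⟨g, (hmem g).mpr ⟨c, hg⟩⟩, hg⟩
  have hinj : Function.Injective (fun c : Fˣ => ((c : F) • v, ((c⁻¹ : Fˣ) : F) • w)) := by
    intro c c' hcc
    have h1 : (c : F) • v = (c' : F) • v := congrArg Prod.fst hcc
    obtain ⟨i, hi⟩ : ∃ i, v i ≠ 0 := by
      by_contra hh
      exact hv (funext fun j => by_contra fun hj => hh ⟨j, hj⟩)
    have h2 := congrFun h1 i
    simp only [Pi.smul_apply, smul_eq_mul] at h2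
    exact Units.ext (mul_right_cancel₀ hi h2)
  rw [hrange, Nat.card_congr (Equiv.ofInjective _ hinj).symm, hfib, Nat.card_units,
    Nat.card_eq_fintype_card (α := F)] at hC
  rw [hC, hGL']
  ring

/-- `∏_{i<m+1} (q^(m+1) - q^i) = (q^(m+1) - 1) q^m ∏_{i<m} (q^m - q^i)`. -/
theorem prod_gl_succ (q m : ℕ) :
    ∏ i : Fin (m + 1), (q ^ (m + 1) - q ^ (i : ℕ)) =
      (q ^ (m + 1) - 1) * q ^ m * ∏ i : Fin m, (q ^ m - q ^ (i : ℕ)) := by
  rw [Fin.prod_univ_succ]
  have h : ∀ i : Fin m, q ^ (m + 1) - q ^ ((i.succ : Fin (m + 1)) : ℕ) = q * (q ^ m - q ^ (i : ℕ)) := by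
    intro i
    rw [Nat.mul_sub, Fin.val_succ, pow_succ, pow_succ, mul_comm q, mul_comm q]
  simp only [h, Finset.prod_mul_distrib, Finset.prod_const, Finset.card_univ, Fintype.card_fin,
    Fin.val_zero, pow_zero]
  ring

end Cfsg.Agent.H48
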