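import Cfsg.Agent.H48.CyclicPow

set_option autoImplicit false

/-!
Helper lemmas (helper48): 2-adic valuations of gcd's and quotients.
-/

namespace Cfsg.Agent.H48

theorem padicValNat_gcd (p : ℕ) [hp : Fact p.Prime] (a b : ℕ) (ha : a ≠ 0) (hb : b ≠ 0) :
    padicValNat p (Nat.gcd a b) = min (padicValNat p a) (padicValNat p b) := by
  have h := Nat.factorization_gcd ha hb
  have h2 := congrArg (fun f => f p) h
  simp only [Finsupp.inf_apply] at h2
  rwa [Nat.factorization_def _ hp.out, Nat.factorization_def _ hp.out,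
    Nat.factorization_def _ hp.out] at h2

theorem padicValNat_div_gcd (p : ℕ) [hp : Fact p.Prime] (a b : ℕ) (ha : a ≠ 0) (hb : b ≠ 0) :
    padicValNat p (a / Nat.gcd a b) = padicValNat p a - min (padicValNat p a) (padicValNat p b) := by
  rw [padicValNat.div_of_dvd (Nat.gcd_dvd_left a b), padicValNat_gcd p a b ha hb]

theorem div_gcd_ne_zero (a b : ℕ) (ha : a ≠ 0) : a / Nat.gcd a b ≠ 0 := by
  have hg : Nat.gcd a b ∣ a := Nat.gcd_dvd_left a b
  have hpos : 0 < Nat.gcd a b := Nat.pos_of_dvd_of_pos hg (Nat.pos_of_ne_zero ha)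
  exact (Nat.div_pos (Nat.le_of_dvd (Nat.pos_of_ne_zero ha) hg) hpos).ne'

theorem even_div_gcd_iff (N n : ℕ) (hN : N ≠ 0) (hn : n ≠ 0) :
    Even (N / N.gcd n) ↔ padicValNat 2 n < padicValNat 2 N := by
  haveI : Fact (Nat.Prime 2) := ⟨Nat.prime_two⟩
  rw [even_iff_two_dvd, dvd_iff_padicValNat_ne_zero (div_gcd_ne_zero N n hN),
    padicValNat_div_gcd 2 N n hN hn]
  omega

end Cfsg.Agent.H48
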