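import Mathlib
import Cfsg.Agent.H42.UtDefs
import Cfsg.Agent.H42.UnAll
import Cfsg.Agent.H16.UnBlock
import Cfsg.Agent.H12.UnRel

/-!
# S5953, piece UT-STEPNSD: for `i % 4 ≠ 2` a hyperbolic pair of rank `b` inside an invariant
nondegenerate subspace which is not fixed pointwise
-/

set_option autoImplicit false

namespace Cfsg.Agent.H48.Ut

open Cfsg.Agent.H45 Cfsg.Agent.H42.Spd Cfsg.Agent.H42.Un Cfsg.Agent.H42.Ti Cfsg.Agent.H42.Ut
  Module Polynomial

universe u v

/-- The absolute version: a fixed-point-free isometry of order `r` with no self-dual type has a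
hyperbolic pair of rank `b`. -/
theorem blockTI {F : Type u} [Field F] [Fintype F] (q : ℕ) (σ : F →+* F) (V : Type v)
    [AddCommGroup V] [Module F V] [FiniteDimensional F V] (r : ℕ) (B : V →ₗ[F] V →ₛₗ[σ] F)
    (T : Module.End F V) (hK : Fintype.card F = q ^ 2) (hσq : ∀ x, σ x = x ^ q)
    (hctx : UCtx r B T) (h42' : orderOf (q : ZMod r) % 4 ≠ 2)
    (hker : LinearMap.ker (T - 1) = ⊥) (hV : (⊤ : Submodule F V) ≠ ⊥) :
    ∃ H L : Submodule F V, UNd B T H ∧ finrank F H = 2 * ii F r ∧ L ≤ H ∧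
      L ∈ T.invtSubmodule ∧ UTI B L ∧ finrank F L = ii F r := by
  classical
  have hr := hctx.prime
  haveI : Fact r.Prime := ⟨hr⟩
  have hr2 := hctx.ne_two
  have hr3 : 3 ≤ r := by
    have h1 := hr.two_le
    omega
  have hiso := hctx.iso
  have hσ : ∀ a, σ (σ a) = a := hiso.invol
  have hσne : σ ≠ RingHom.id F := by
    obtain ⟨a, ha⟩ := hiso.nontriv
    intro h
    apply ha
    rw [h]
    rfl
  have hd : Good σ 1 B T := by
    refine ⟨fun x y => ?_, hiso.nondeg, fun h => absurd h hσne, hiso.isom, hctx.ss⟩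
    rw [one_mul]
    exact hiso.herm x y
  -- `q` is a unit modulo `r`
  have hq0 : (q : ZMod r) ≠ 0 := by
    intro h
    rw [ZMod.natCast_eq_zero_iff] at h
    obtain ⟨p', k, hp', hchar, hqk⟩ := Cfsg.Agent.H17.exists_char_pow hK
    rw [hqk] at h
    have h2 := hr.dvd_of_dvd_pow h
    have h3 := (Nat.prime_dvd_prime_iff_eq hr hp').mp h2
    apply hctx.cast_ne
    rw [h3]
    haveI := hchar
    exact CharP.cast_eq_zero F p'
  obtain ⟨i, hi⟩ : ∃ i, i = orderOf (q : ZMod r) := ⟨_, rfl⟩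
  have h42 : i % 4 ≠ 2 := by
    rw [hi]
    exact h42'
  -- Step 1: an irreducible factor of the cyclotomic polynomial with a kernel vector
  obtain ⟨u, hu0⟩ : ∃ u : V, u ≠ 0 := by
    by_contra hcon
    apply hV
    rw [eq_bot_iff]
    intro x _
    have hx : x = 0 := by
      by_contra hx
      exact hcon ⟨x, hx⟩
    rw [hx]
    exact Submodule.zero_mem _
  have hu1 : (T - 1) u ≠ 0 := by
    intro h
    have h1 : u ∈ LinearMap.ker (T - 1) := LinearMap.mem_ker.mpr h
    rw [hker] at h1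
    exact hu0 ((Submodule.mem_bot F).mp h1)
  have hcyc0 : cyclotomic r F ≠ 0 := cyclotomic_ne_zero r F
  have hann : aeval T (cyclotomic r F) ((T - 1) u) = 0 := by
    have h1 : aeval T (cyclotomic r F * (X - 1)) = 0 := by
      rw [cyclotomic_prime_mul_X_sub_one, map_sub, map_pow, aeval_X, map_one, hctx.pow, sub_self]
    have h2 : aeval T (cyclotomic r F * (X - 1)) u = aeval T (cyclotomic r F) ((T - 1) u) := by
      rw [map_mul, Module.End.mul_apply, map_sub, aeval_X, map_one]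
    rw [← h2, h1, LinearMap.zero_apply]
  obtain ⟨f, hfm, hf, hfd, u', -, hu'0, hfu'⟩ :=
    exists_irr_of_ann T ⊤ (fun x _ => Submodule.mem_top) (cyclotomic r F).natDegree
      (cyclotomic r F) le_rfl hcyc0 ((T - 1) u) Submodule.mem_top hu1 hann
  obtain ⟨hdeg, hf0, -, -, -⟩ := cyc_factor r (by omega) hctx.cast_ne f hf hfm hfd
  have hdegq : f.natDegree = orderOf ((q ^ 2 : ℕ) : ZMod r) := by
    rw [hdeg, hK]
  have hdegii : f.natDegree = ii F r := hdeg
  have hfx : f ∣ X ^ r - 1 := hfd.trans ⟨X - 1, (cyclotomic_prime_mul_X_sub_one F r).symm⟩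
  have h1f : f.eval 1 ≠ 0 := by
    intro h
    obtain ⟨g, hg⟩ := hfd
    have h2 := congrArg (Polynomial.eval 1) hg
    rw [eval_mul, h, zero_mul, eval_one_cyclotomic_prime] at h2
    exact hctx.cast_ne h2
  have hfin : finrank F (AdjoinRoot f) = f.natDegree := by
    rw [(AdjoinRoot.powerBasis hfm.ne_zero).finrank, AdjoinRoot.powerBasis_dim]
  have hnsd : ¬ f ∣ dualPoly σ f := by
    intro hsd
    have hassoc : Associated f (dualPoly σ f) :=
      associated_of_dvd_of_natDegree_le hsd (dualPoly_ne_zero σ f hf0)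
        (by rw [dualPoly_natDegree σ f hf0])
    have hdual := dualPoly_eq_of_associated σ f hfm hf0 hassoc
    obtain ⟨j, hj⟩ := Cfsg.Agent.H48.exists_pow_of_dual_self hK σ hσq r hr f hf hfm hfx h1f
      hdegq (σ (f.coeff 0)) ((map_ne_zero σ).mpr hf0) hdual
    have hpw : (q : ZMod r) ^ (2 * j) = -(q : ZMod r) := by
      have h2 := (ZMod.natCast_eq_zero_iff _ _).mpr hj
      push_cast at h2
      rw [pow_mul]
      linear_combination h2
    have h3 := Cfsg.Agent.H48.mod_four_of_pow r hr2 (q : ZMod r) hq0 j hpw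
    rw [← hi] at h3
    exact h42 h3
  have hcop : IsCoprime f (dualPoly σ f) :=
    (Irreducible.coprime_iff_not_dvd hf).mpr hnsd
  obtain ⟨L, hL, Φ, -, -, hΦ⟩ := Cfsg.Agent.H45.exists_cyclic T f hf u' hu'0 hfu'
  have hLE : L ≤ LinearMap.ker (aeval T f) := by
    intro x hx
    rw [LinearMap.mem_ker]
    have h5 := hΦ f (Φ.symm ⟨x, hx⟩)
    rw [LinearEquiv.apply_symm_apply] at h5
    rw [← h5, AdjoinRoot.mk_self, zero_mul, map_zero]
    rfl
  obtain ⟨W2, hW2inv, hLiso, hW2iso, hW2perp, hW2sup⟩ :=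
    nsd_side hσ hd f hcop L hL hLE
  have hLzero : ∀ l ∈ L, (∀ w ∈ W2, B w l = 0) → l = 0 := by
    intro l hl hw
    apply hd.nondeg' l
    intro x
    have hx : x ∈ W2 ⊔ perp B L := by
      rw [hW2sup]
      exact Submodule.mem_top
    obtain ⟨w, hw', p, hp, rfl⟩ := Submodule.mem_sup.mp hx
    rw [map_add, LinearMap.add_apply, hw w hw', zero_add]
    exact hd.refl (hp l hl)
  have hdisj : L ⊓ W2 = ⊥ := by
    rw [eq_bot_iff]
    intro x hx
    rw [← hW2perp]
    exact ⟨hx.2, fun u hu => hLiso u hu x hx.1⟩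
  have hLdim : finrank F L = ii F r := by
    rw [← Φ.finrank_eq, hfin, hdegii]
  refine ⟨L ⊔ W2, L, ⟨?_, ?_⟩, ?_, le_sup_left, ?_, hLiso, hLdim⟩
  · rw [Module.End.mem_invtSubmodule]
    intro x hx
    rw [Submodule.mem_comap]
    obtain ⟨l, hl, w, hw, rfl⟩ := Submodule.mem_sup.mp hx
    rw [map_add]
    exact Submodule.add_mem_sup (hL hl) (hW2inv w hw)
  · rw [eq_bot_iff]
    intro x hx
    obtain ⟨hxU, hxp⟩ := hx
    obtain ⟨l, hl, w, hw, rfl⟩ := Submodule.mem_sup.mp hxU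
    have hw0 : w = 0 := by
      have h1 : w ∈ W2 ⊓ perp B L := by
        refine ⟨hw, fun u hu => ?_⟩
        have h1 := hxp u (Submodule.mem_sup_left hu)
        rw [map_add, hLiso u hu l hl, zero_add] at h1
        exact h1
      rw [hW2perp] at h1
      exact (Submodule.mem_bot F).mp h1
    subst hw0
    rw [add_zero] at hxp ⊢
    have h2 := hLzero l hl (fun w hw => hxp w (Submodule.mem_sup_right hw))
    rw [h2]
    exact Submodule.zero_mem _
  · have h1 : finrank F ↥(L ⊔ W2) = finrank F L + finrank F W2 := by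
      have h2 := Submodule.finrank_sup_add_finrank_inf_eq L W2
      rw [hdisj, finrank_bot, add_zero] at h2
      exact h2
    have hW2dim : finrank F W2 = finrank F L := by
      apply le_antisymm
      · apply Cfsg.Agent.H16.Un.finrank_le_of_pairing B L W2
        intro w hw hwl
        have h3 : w ∈ W2 ⊓ perp B L := ⟨hw, hwl⟩
        rw [hW2perp] at h3
        exact (Submodule.mem_bot F).mp h3
      · exact Cfsg.Agent.H16.Un.finrank_le_of_pairing B W2 L hLzero
    rw [h1, hW2dim, hLdim]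
    ring
  · exact hL

/-- The same inside an invariant nondegenerate subspace `W` without fixed vectors. -/
theorem blockTIRel {F : Type u} [Field F] [Fintype F] (q : ℕ) (σ : F →+* F) (V : Type v)
    [AddCommGroup V] [Module F V] [FiniteDimensional F V] (r : ℕ) (B : V →ₗ[F] V →ₛₗ[σ] F)
    (T : Module.End F V) (hcard : Fintype.card F = q ^ 2) (hσ : ∀ x, σ x = x ^ q)
    (hctx : UCtx r B T) (h42 : orderOf (q : ZMod r) % 4 ≠ 2) (W : Submodule F V)
    (hW : UNd B T W) (hker : W ⊓ LinearMap.ker (T - 1) = ⊥) (hWne : W ≠ ⊥) :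
    ∃ H L : Submodule F V, H ≤ W ∧ UNd B T H ∧ finrank F H = 2 * ii F r ∧ L ≤ H ∧
      L ∈ T.invtSubmodule ∧ UTI B L ∧ finrank F L = ii F r := by
  have hT := hctx.iso
  have hinv : W ∈ T.invtSubmodule := hW.1
  have hiso' : UIso (B.domRestrict₁₂ W W) (T.restrict hinv) := by
    refine ⟨hT.invol, hT.nontriv, fun x y => hT.herm x y, ?_, fun x y => hT.isom x y⟩
    intro x hx
    have h1 : (x : V) ∈ W ⊓ perp B W := by
      refine ⟨x.2, fun u hu => ?_⟩
      have h2 : B (x : V) u = 0 := hx ⟨u, hu⟩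
      rw [hT.herm (x : V) u, h2, map_zero]
    rw [hW.2] at h1
    exact Subtype.ext ((Submodule.mem_bot F).mp h1)
  have hpow : (T.restrict hinv) ^ r = 1 := by
    refine LinearMap.ext fun x => Subtype.ext ?_
    rw [Cfsg.Agent.H12.Un.restrict_pow_coe_aux, hctx.pow]
    rfl
  have hctx' : UCtx r (B.domRestrict₁₂ W W) (T.restrict hinv) :=
    ⟨hctx.prime, hctx.ne_two, hctx.cast_ne, hiso', hctx.ss.restrict _, hpow⟩
  have hker' : LinearMap.ker (T.restrict hinv - 1) = ⊥ := by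
    rw [LinearMap.ker_eq_bot']
    intro x hx
    have h1 : (x : V) ∈ W ⊓ LinearMap.ker (T - 1) := by
      refine ⟨x.2, ?_⟩
      show (x : V) ∈ LinearMap.ker (T - 1)
      rw [LinearMap.mem_ker]
      have h2 := congrArg Subtype.val hx
      exact h2
    rw [hker] at h1
    exact Subtype.ext ((Submodule.mem_bot F).mp h1)
  have htop : (⊤ : Submodule F W) ≠ ⊥ := by
    intro htb
    apply hWne
    rw [eq_bot_iff]
    intro w hw
    have h1 : (⟨w, hw⟩ : W) ∈ (⊤ : Submodule F W) := trivial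
    rw [htb] at h1
    exact congrArg Subtype.val ((Submodule.mem_bot F).mp h1)
  obtain ⟨H', L', hH', hHd, hLH, hL', hLti, hLd⟩ :=
    blockTI q σ W r (B.domRestrict₁₂ W W) (T.restrict hinv) hcard hσ hctx' h42 hker' htop
  refine ⟨H'.map W.subtype, L'.map W.subtype, Submodule.map_subtype_le W H', ⟨?_, ?_⟩, ?_,
    Submodule.map_mono hLH, ?_, ?_, ?_⟩
  · rw [Module.End.mem_invtSubmodule]
    rintro x ⟨u, hu, rfl⟩
    rw [Submodule.mem_comap]
    have h1 := (Module.End.mem_invtSubmodule _).mp hH'.1 hu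
    rw [Submodule.mem_comap] at h1
    exact ⟨(T.restrict hinv) u, h1, rfl⟩
  · rw [eq_bot_iff]
    rintro x ⟨⟨u, hu, rfl⟩, hx2⟩
    have h1 : u ∈ H' ⊓ perp (B.domRestrict₁₂ W W) H' := by
      refine ⟨hu, fun u' hu' => ?_⟩
      exact hx2 (u' : V) ⟨u', hu', rfl⟩
    rw [hH'.2] at h1
    rw [(Submodule.mem_bot F).mp h1]
    simp
  · rw [← hHd]
    exact (Submodule.equivSubtypeMap W H').symm.finrank_eq
  · rw [Module.End.mem_invtSubmodule]
    rintro x ⟨u, hu, rfl⟩
    rw [Submodule.mem_comap]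
    have h1 := (Module.End.mem_invtSubmodule _).mp hL' hu
    rw [Submodule.mem_comap] at h1
    exact ⟨(T.restrict hinv) u, h1, rfl⟩
  · rintro x ⟨u, hu, rfl⟩ y ⟨v, hv, rfl⟩
    exact hLti u hu v hv
  · rw [← hLd]
    exact (Submodule.equivSubtypeMap W L').symm.finrank_eq

/-- UT-STEPNSD. -/
theorem utStepNsd : StUtStepNsd.{u, v} := by
  intro F _ _ q σ V _ _ _ r B T hK hσq hctx h42 W hW hlt
  have hT := hctx.iso
  have hU : UNd B T (W ⊓ LinearMap.ker (T - 1)) := kFix F σ V r B T hctx W hW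
  obtain ⟨hW', -, hdim⟩ :=
    kCompl F σ V B T hT (W ⊓ LinearMap.ker (T - 1)) W hU hW inf_le_left
  have hW'ne : W ⊓ perp B (W ⊓ LinearMap.ker (T - 1)) ≠ ⊥ := by
    intro h
    rw [h, finrank_bot, add_zero] at hdim
    unfold kk at hlt
    omega
  have hker : (W ⊓ perp B (W ⊓ LinearMap.ker (T - 1))) ⊓ LinearMap.ker (T - 1) = ⊥ := by
    rw [eq_bot_iff]
    intro x hx
    have h1 : x ∈ (W ⊓ LinearMap.ker (T - 1)) ⊓ perp B (W ⊓ LinearMap.ker (T - 1)) :=
      ⟨⟨hx.1.1, hx.2⟩, hx.1.2⟩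
    rw [hU.2] at h1
    exact h1
  obtain ⟨H, L, hHW, hH, hHd, hLH, hL, hLti, hLd⟩ :=
    blockTIRel q σ V r B T hK hσq hctx h42 _ hW' hker hW'ne
  exact ⟨H, L, hHW.trans inf_le_left, hH, hHd, hLH, hL, hLti, hLd⟩

example : Cfsg.Agent.H42.Ut.StUtStepNsd.{u, v} := utStepNsd

end Cfsg.Agent.H48.Ut
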